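import Mathlib

/-! An abstract two-transitivity criterion for groups of order 2520 on 15 points. -/

set_option autoImplicit false

namespace CfsgLib.TwoTrans15

open MulAction

variable {H X : Type*} [Group H] [Finite H] [MulAction H X] [Fintype X]

theorem card_orbit_mul {Y : Type*} [Finite Y] [MulAction H Y] (x : Y) :
    Nat.card (orbit H x) * Nat.card (stabilizer H x) = Nat.card H := by
  rw [← Subgroup.index_mul_card (stabilizer H x), index_stabilizer, Nat.card_coe_set_eq]

theorem exists_order {K : Type*} [Group K] [Finite K] (q : ℕ) [hq : Fact q.Prime]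
    (h : q ∣ Nat.card K) : ∃ g : K, orderOf g = q :=
  exists_prime_orderOf_dvd_card' q h

/-- A point in a small orbit is fixed by elements of prime order. -/
theorem fix_of_small (g : H) (q : ℕ) (hq : q.Prime) (hg : orderOf g = q) (y : X)
    (h : Nat.card (orbit H y) < q) : g • y = y := by
  classical
  haveI : Fintype (orbit H y) := Fintype.ofFinite _
  have hlt : Fintype.card (orbit H y) < Fintype.card (Fin q) := by
    rw [Fintype.card_fin, ← Nat.card_eq_fintype_card]
    exact h
  obtain ⟨i, j, hij, hf⟩ := Fintype.exists_ne_map_eq_of_card_lt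
    (fun i : Fin q => (⟨g ^ (i : ℕ) • y, mem_orbit y _⟩ : orbit H y)) hlt
  have key : ∀ i j : Fin q, (i : ℕ) < j → g ^ (i : ℕ) • y = g ^ (j : ℕ) • y → g • y = y := by
    intro i j hlt he
    have hm : g ^ ((j : ℕ) - i) ∈ stabilizer H y := by
      rw [mem_stabilizer_iff]
      have h1 : g ^ (j : ℕ) = g ^ (i : ℕ) * g ^ ((j : ℕ) - i) := by
        rw [← pow_add, Nat.add_sub_cancel' hlt.le]
      rw [h1, mul_smul] at he
      exact (smul_left_cancel _ he).symm
    have hcop : ((j : ℕ) - i).Coprime (orderOf g) := by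
      rw [hg]
      have h2 : (j : ℕ) - i < q := by omega
      have h3 : 0 < (j : ℕ) - i := by omega
      exact ((Nat.coprime_comm).1 ((Nat.Prime.coprime_iff_not_dvd hq).2
        (fun hd => by
          have := Nat.le_of_dvd h3 hd
          omega)))
    obtain ⟨l, hl⟩ := exists_pow_eq_self_of_coprime hcop
    have : g ∈ stabilizer H y := by
      rw [← hl]
      exact Subgroup.pow_mem _ hm l
    exact this
  have hf' : g ^ (i : ℕ) • y = g ^ (j : ℕ) • y := congrArg Subtype.val hf
  rcases lt_or_gt_of_ne (fun h => hij (Fin.ext h) : (i : ℕ) ≠ j) with h1 | h1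
  · exact key i j h1 hf'
  · exact key j i h1 hf'.symm

/-- The main criterion. -/
theorem two_trans
    (hH : Nat.card H = 2520) (hX : Fintype.card X = 15)
    (hf : ∀ g : H, (∀ x : X, g • x = x) → g = 1)
    (h5 : ∀ g : H, orderOf g = 5 → ∀ x : X, g • x ≠ x)
    (h7 : ∀ g : H, orderOf g = 7 → ∀ x y : X, g • x = x → g • y = y → x = y) :
    ∀ v w v' w' : X, v ≠ w → v' ≠ w' → ∃ g : H, g • v = v' ∧ g • w = w' := by
  classical
  haveI : Fact (Nat.Prime 2) := ⟨Nat.prime_two⟩
  haveI : Fact (Nat.Prime 5) := ⟨by norm_num⟩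
  haveI : Fact (Nat.Prime 7) := ⟨by norm_num⟩
  -- five divides orbit sizes
  have hA : ∀ x : X, 5 ∣ Nat.card (orbit H x) := by
    intro x
    by_contra hcon
    have h1 := card_orbit_mul (H := H) x
    rw [hH] at h1
    have h2 : 5 ∣ Nat.card (orbit H x) * Nat.card (stabilizer H x) := by
      rw [h1]; norm_num
    have h3 : 5 ∣ Nat.card (stabilizer H x) :=
      ((Nat.Prime.dvd_mul (by norm_num)).1 h2).resolve_left hcon
    obtain ⟨g, hg⟩ := exists_order 5 h3
    have hg' : orderOf (g : H) = 5 := by rwa [Subgroup.orderOf_coe]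
    exact h5 _ hg' x g.2
  obtain ⟨g7, hg7⟩ := exists_order (K := H) 7 (by rw [hH]; norm_num)
  have hpos : ∀ x : X, 0 < Nat.card (orbit H x) := fun x =>
    haveI : Nonempty (orbit H x) := ⟨⟨x, mem_orbit_self x⟩⟩
    Nat.card_pos
  -- orbits are large
  have hB : ∀ x : X, 7 ≤ Nat.card (orbit H x) := by
    intro x
    by_contra hcon
    push Not at hcon
    have h1 : 1 < Nat.card (orbit H x) := by
      have := Nat.le_of_dvd (hpos x) (hA x)
      omega
    obtain ⟨p, q, hpq⟩ := (Finite.one_lt_card_iff_nontrivial.1 h1).exists_pair_ne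
    have hfix : ∀ z : orbit H x, g7 • (z : X) = z := by
      intro z
      apply fix_of_small g7 7 (by norm_num) hg7
      rw [orbit_eq_iff.2 z.2]
      exact hcon
    exact hpq (Subtype.ext (h7 _ hg7 _ _ (hfix p) (hfix q)))
  have hB10 : ∀ x : X, 10 ≤ Nat.card (orbit H x) := by
    intro x
    obtain ⟨k, hk⟩ := hA x
    have := hB x
    omega
  -- transitivity
  have hC : ∀ x y : X, y ∈ orbit H x := by
    intro x y
    by_contra hcon
    have hdis : Disjoint (orbit H x) (orbit H y) := by
      rcases orbit.eq_or_disjoint (G := H) x y with h | h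
      · exact absurd (h ▸ mem_orbit_self y) hcon
      · exact h
    have h1 := Set.ncard_union_eq hdis (Set.toFinite _) (Set.toFinite _)
    rw [← Nat.card_coe_set_eq (orbit H x), ← Nat.card_coe_set_eq (orbit H y)] at h1
    have h2 : (orbit H x ∪ orbit H y).ncard ≤ 15 := by
      rw [← hX, ← Nat.card_eq_fintype_card, ← Set.ncard_univ]
      exact Set.ncard_le_ncard (Set.subset_univ _) (Set.toFinite _)
    have := hB10 x
    have := hB10 y
    omega
  have hD : ∀ x : X, Nat.card (orbit H x) = 15 := by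
    intro x
    have : orbit H x = Set.univ := Set.eq_univ_of_forall (hC x)
    rw [this, Nat.card_coe_set_eq, Set.ncard_univ, Nat.card_eq_fintype_card, hX]
  have hstab : ∀ x : X, Nat.card (stabilizer H x) = 168 := by
    intro x
    have h1 := card_orbit_mul (H := H) x
    rw [hD, hH] at h1
    omega
  -- the involution
  obtain ⟨t, ht⟩ := exists_order (K := H) 2 (by rw [hH]; norm_num)
  have ht2 : t * t = 1 := by
    rw [← sq, ← ht]
    exact pow_orderOf_eq_one t
  have hne1 : t ≠ 1 := by
    intro h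
    rw [h, orderOf_one] at ht
    omega
  obtain ⟨a, ha⟩ : ∃ a : X, t • a ≠ a := by
    by_contra hcon
    push Not at hcon
    exact hne1 (hf t hcon)
  set b : X := t • a with hb
  have hta : t • b = a := by
    rw [hb, ← mul_smul, ht2, one_smul]
  have hab : a ≠ b := fun h => ha h.symm
  -- the orbit of the pair
  let Ω : Set (X × X) := orbit H (a, b)
  have hOmega : ∀ p ∈ Ω, p.1 ≠ p.2 := by
    rintro _ ⟨h, rfl⟩ he
    apply hab
    exact smul_left_cancel h he
  have hswap : ∀ p ∈ Ω, (p.2, p.1) ∈ Ω := by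
    rintro _ ⟨h, rfl⟩
    refine ⟨h * t, ?_⟩
    show (h * t) • (a, b) = (h • b, h • a)
    rw [mul_smul]
    show h • (t • a, t • b) = _
    rw [hta]
    rfl
  -- evenness
  have hN2 : 2 ∣ Nat.card Ω := by
    have hfin : Ω.Finite := Set.toFinite _
    have hsum : ∑ _p ∈ hfin.toFinset, (1 : ZMod 2) = 0 := by
      refine Finset.sum_involution (fun p _ => (p.2, p.1)) ?_ ?_ ?_ ?_
      · intro _ _
        exact CharTwo.add_self_eq_zero 1
      · intro p hp _ he
        have hp' : p ∈ Ω := hfin.mem_toFinset.1 hp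
        exact hOmega p hp' (congrArg Prod.fst he).symm
      · intro p hp
        exact hfin.mem_toFinset.2 (hswap p (hfin.mem_toFinset.1 hp))
      · intro p _
        rfl
    rw [Finset.sum_const, nsmul_one, ZMod.natCast_eq_zero_iff] at hsum
    rw [Nat.card_coe_set_eq, Set.ncard_eq_toFinset_card Ω hfin]
    exact hsum
  -- the stabilizer
  have hK : Nat.card Ω * Nat.card (stabilizer H ((a, b) : X × X)) = 2520 := by
    rw [← hH]
    exact card_orbit_mul _
  have hKle : stabilizer H ((a, b) : X × X) ≤ stabilizer H a := by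
    intro h hh
    have : h • ((a, b) : X × X) = (a, b) := hh
    exact congrArg Prod.fst this
  have hKdvd : Nat.card (stabilizer H ((a, b) : X × X)) ∣ 168 := by
    rw [← hstab a]
    exact Subgroup.card_dvd_of_le hKle
  have hK7 : ¬ 7 ∣ Nat.card (stabilizer H ((a, b) : X × X)) := by
    intro h7'
    obtain ⟨g, hg⟩ := exists_order 7 h7'
    have hg' : orderOf (g : H) = 7 := by rwa [Subgroup.orderOf_coe]
    have hga : (g : H) • ((a, b) : X × X) = (a, b) := g.2
    exact hab (h7 _ hg' a b (congrArg Prod.fst hga) (congrArg Prod.snd hga))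
  have hK24 : Nat.card (stabilizer H ((a, b) : X × X)) ∣ 24 := by
    have hcop : Nat.Coprime (Nat.card (stabilizer H ((a, b) : X × X))) 7 :=
      (Nat.coprime_comm).1 ((Nat.Prime.coprime_iff_not_dvd (by norm_num)).2 hK7)
    exact hcop.dvd_of_dvd_mul_left (by simpa using hKdvd)
  have hN105 : 105 ∣ Nat.card Ω := by
    obtain ⟨c, hc⟩ := hK24
    have hpos' : 0 < Nat.card (stabilizer H ((a, b) : X × X)) := Nat.card_pos
    refine ⟨c, ?_⟩
    apply Nat.eq_of_mul_eq_mul_right hpos'
    rw [hK]
    calc 2520 = 105 * 24 := by norm_num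
      _ = 105 * c * Nat.card (stabilizer H ((a, b) : X × X)) := by rw [hc]; ring
  have hN210 : 210 ∣ Nat.card Ω :=
    Nat.Coprime.mul_dvd_of_dvd_of_dvd (by norm_num : Nat.Coprime 2 105) hN2 hN105
  -- the set of all distinct pairs
  have hOff : Ω = ↑(Finset.univ : Finset X).offDiag := by
    apply Set.eq_of_subset_of_ncard_le
    · intro p hp
      simp only [Finset.coe_offDiag, Finset.coe_univ, Set.mem_offDiag, Set.mem_univ, true_and]
      exact hOmega p hp
    · rw [Set.ncard_coe_finset, Finset.offDiag_card, Finset.card_univ, hX]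
      have hposN : 0 < Nat.card Ω :=
        haveI : Nonempty Ω := ⟨⟨(a, b), mem_orbit_self _⟩⟩
        Nat.card_pos
      rw [Nat.card_coe_set_eq] at hN210 hposN
      have := Nat.le_of_dvd hposN hN210
      omega
    · exact Set.toFinite _
  intro v w v' w' hvw hvw'
  have h1 : (v, w) ∈ Ω := by
    rw [hOff]
    simpa using hvw
  have h2 : (v', w') ∈ Ω := by
    rw [hOff]
    simpa using hvw'
  obtain ⟨h₁, hh₁⟩ := h1
  obtain ⟨h₂, hh₂⟩ := h2
  refine ⟨h₂ * h₁⁻¹, ?_, ?_⟩
  · have e1 : h₁ • a = v := congrArg Prod.fst hh₁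
    have e2 : h₂ • a = v' := congrArg Prod.fst hh₂
    rw [mul_smul, ← e1, inv_smul_smul, e2]
  · have e1 : h₁ • b = w := congrArg Prod.snd hh₁
    have e2 : h₂ • b = w' := congrArg Prod.snd hh₂
    rw [mul_smul, ← e1, inv_smul_smul, e2]

end CfsgLib.TwoTrans15
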