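import Mathlib
import Cfsg.Agent.Lib.H3.TwoTrans15

/-! The alternating group of degree seven inside `GL₄(2)`, and its action on vectors. -/

set_option autoImplicit false

namespace CfsgLib.A7GL

/-- Four by four matrices over the field with two elements. -/
abbrev M4 := Matrix (Fin 4) (Fin 4) (ZMod 2)
abbrev GL4 := Matrix.GeneralLinearGroup (Fin 4) (ZMod 2)
abbrev P7 := Equiv.Perm (Fin 7)

def A : Fin 7 → M4 := ![
  !![0, 0, 1, 1; 0, 0, 1, 0; 1, 1, 0, 0; 1, 0, 0, 0],
  !![0, 0, 1, 0; 0, 0, 0, 1; 1, 0, 0, 0; 0, 1, 0, 0],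
  !![0, 1, 1, 0; 1, 0, 1, 0; 1, 1, 0, 1; 0, 0, 1, 0],
  !![0, 1, 0, 0; 1, 0, 0, 1; 0, 0, 0, 1; 0, 1, 1, 0],
  !![0, 0, 0, 1; 0, 0, 1, 1; 0, 1, 0, 1; 1, 1, 1, 0],
  !![0, 1, 1, 1; 1, 0, 0, 0; 1, 0, 0, 1; 1, 0, 1, 0],
  !![0, 1, 0, 1; 1, 0, 1, 1; 0, 1, 0, 0; 1, 1, 0, 0]]
def Ji : M4 := !![0, 0, 0, 1; 0, 0, 1, 1; 0, 1, 0, 0; 1, 1, 0, 0]
def Cc : Fin 7 → M4 := ![
  !![1, 0, 0, 0; 0, 1, 0, 0; 0, 0, 1, 0; 0, 0, 0, 1],
  !![0, 1, 0, 0; 1, 1, 0, 0; 0, 0, 0, 1; 0, 0, 1, 1],
  !![0, 1, 1, 1; 0, 1, 0, 1; 1, 1, 1, 0; 0, 1, 0, 0],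
  !![0, 0, 1, 1; 1, 1, 0, 1; 1, 1, 0, 0; 0, 1, 1, 1],
  !![1, 1, 0, 0; 1, 0, 0, 0; 1, 1, 1, 1; 0, 1, 1, 0],
  !![1, 0, 1, 1; 0, 0, 0, 1; 1, 1, 0, 1; 0, 1, 0, 1],
  !![1, 1, 1, 1; 1, 0, 0, 1; 0, 0, 1, 1; 0, 0, 1, 0]]
def G1 : M4 := !![1, 0, 1, 1; 0, 1, 1, 0; 0, 1, 0, 0; 1, 1, 0, 0]
def G1i : M4 := !![0, 0, 1, 1; 0, 0, 1, 0; 0, 1, 1, 0; 1, 1, 0, 1]
def G2 : M4 := !![1, 0, 1, 0; 0, 1, 0, 1; 0, 1, 1, 0; 0, 0, 1, 0]
def G2i : M4 := !![1, 0, 0, 1; 0, 0, 1, 1; 0, 0, 0, 1; 0, 1, 1, 1]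
def p2 : P7 := ⟨![4,0,5,1,2,6,3], ![1,3,4,6,0,2,5], by decide, by decide⟩

def p1 : P7 := Equiv.swap 2 6 * Equiv.swap 2 4

def g1 : GL4 := ⟨G1, G1i, by decide +kernel, by decide +kernel⟩
def g2 : GL4 := ⟨G2, G2i, by decide +kernel, by decide +kernel⟩

theorem chk1 : ∀ i, G1 * A i * G1.transpose = A (p1 i) := by decide +kernel
theorem chk2 : ∀ i, G2 * A i * G2.transpose = A (p2 i) := by decide +kernel
theorem A_inj : Function.Injective A := by decide +kernel
theorem Cc_eq : ∀ i, A i * Ji = Cc i := by decide +kernel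
theorem Aj1 : A 0 * Ji = 1 := by decide +kernel
theorem Aj2 : Ji * A 0 = 1 := by decide +kernel

/-- The matrix with prescribed first column commuting with the `Cc i`. -/
def Nv (v : Fin 4 → ZMod 2) : M4 :=
  Matrix.of fun i j =>
    (![v, (Cc 1).mulVec v, (Cc 2).mulVec v, (Cc 1).mulVec ((Cc 2).mulVec v)] :
      Fin 4 → Fin 4 → ZMod 2) j i

theorem Nv_key : ∀ v : Fin 4 → ZMod 2, (∀ i, Nv v * Cc i = Cc i * Nv v) → Nv v = 0 ∨ Nv v = 1 := by
  decide +kernel

theorem c1 : (Cc 1).mulVec (Pi.single 0 1) = Pi.single 1 1 := by decide +kernel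
theorem c2 : (Cc 2).mulVec (Pi.single 0 1) = Pi.single 2 1 := by decide +kernel
theorem c3 : (Cc 1).mulVec (Pi.single 2 1) = Pi.single 3 1 := by decide +kernel
theorem zne : (0 : M4) ≠ 1 := by decide +kernel

theorem eq_Nv (M : M4) (h : ∀ i, M * Cc i = Cc i * M) : M = Nv (M.mulVec (Pi.single 0 1)) := by
  have m1 : M.mulVec (Pi.single 1 1) = (Cc 1).mulVec (M.mulVec (Pi.single 0 1)) := by
    rw [← c1, Matrix.mulVec_mulVec, Matrix.mulVec_mulVec, h]
  have m2 : M.mulVec (Pi.single 2 1) = (Cc 2).mulVec (M.mulVec (Pi.single 0 1)) := by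
    rw [← c2, Matrix.mulVec_mulVec, Matrix.mulVec_mulVec, h]
  have m3 : M.mulVec (Pi.single 3 1) =
      (Cc 1).mulVec ((Cc 2).mulVec (M.mulVec (Pi.single 0 1))) := by
    rw [← c3, Matrix.mulVec_mulVec, h, ← Matrix.mulVec_mulVec, m2]
  ext i j
  have hcol : ∀ j, M i j = (M.mulVec (Pi.single j 1)) i := by
    intro j
    rw [Matrix.mulVec_single_one]
    rfl
  rw [hcol j]
  fin_cases j
  · rfl
  · show (M.mulVec (Pi.single 1 1)) i = _
    rw [m1]
    rfl
  · show (M.mulVec (Pi.single 2 1)) i = _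
    rw [m2]
    rfl
  · show (M.mulVec (Pi.single 3 1)) i = _
    rw [m3]
    rfl

theorem comm_gen {R : Type*} [Monoid R] (M N J Ji X Tm : R) (hNM : N * M = 1)
    (h0 : M * J * Tm = J) (hj1 : J * Ji = 1) (hj2 : Ji * J = 1) (hX : M * X * Tm = X) :
    M * (X * Ji) = (X * Ji) * M := by
  have a1 : J * Tm * Ji = N := by
    calc J * Tm * Ji = (N * M) * (J * Tm * Ji) := by rw [hNM, one_mul]
      _ = N * ((M * J * Tm) * Ji) := by simp only [mul_assoc]
      _ = N := by rw [h0, hj1, mul_one]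
  have u : Tm * Ji * M = Ji := by
    calc Tm * Ji * M = (Ji * J) * (Tm * Ji * M) := by rw [hj2, one_mul]
      _ = Ji * (J * Tm * Ji) * M := by simp only [mul_assoc]
      _ = Ji := by rw [a1, mul_assoc, hNM, mul_one]
  calc M * (X * Ji) = M * X * (Tm * Ji * M) := by rw [u, mul_assoc]
    _ = (M * X * Tm) * Ji * M := by simp only [mul_assoc]
    _ = X * Ji * M := by rw [hX]

theorem fix_forms (g : GL4) (h : ∀ i, g.1 * A i * g.1.transpose = A i) : g = 1 := by
  have hc : ∀ i, g.1 * Cc i = Cc i * g.1 := by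
    intro i
    rw [← Cc_eq i]
    exact comm_gen g.1 g⁻¹.1 (A 0) Ji (A i) g.1.transpose (Units.inv_mul g) (h 0) Aj1 Aj2 (h i)
  have h1 := eq_Nv g.1 hc
  have h2 := Nv_key (g.1.mulVec (Pi.single 0 1)) (by rw [← h1]; exact hc)
  rw [← h1] at h2
  rcases h2 with h2 | h2
  · exfalso
    have h3 : g.1 * g⁻¹.1 = 1 := Units.mul_inv g
    rw [h2, zero_mul] at h3
    exact zne h3
  · exact Units.ext h2

/-- Pairs (matrix, permutation) compatible on the seven forms. -/
def Γ : Subgroup (GL4 × P7) where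
  carrier := {x | ∀ i, x.1.1 * A i * x.1.1.transpose = A (x.2 i)}
  mul_mem' := by
    intro x y hx hy i
    show (x.1 * y.1).1 * A i * ((x.1 * y.1).1).transpose = A ((x.2 * y.2) i)
    rw [Units.val_mul, Matrix.transpose_mul, Equiv.Perm.mul_apply, ← hx, ← hy]
    simp only [mul_assoc]
  one_mem' := by
    intro i
    show (1 : GL4).1 * A i * ((1 : GL4).1).transpose = A ((1 : P7) i)
    simp
  inv_mem' := by
    intro x hx i
    show (x.1⁻¹).1 * A i * ((x.1⁻¹).1).transpose = A ((x.2)⁻¹ i)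
    have h := hx ((x.2)⁻¹ i)
    have h5 : x.2 (x.2⁻¹ i) = i := by simp
    rw [h5] at h
    rw [← h]
    have h3 : (x.1⁻¹).1 * x.1.1 = 1 := Units.inv_mul x.1
    have h4 : x.1.1.transpose * ((x.1⁻¹).1).transpose = 1 := by
      rw [← Matrix.transpose_mul, h3, Matrix.transpose_one]
    calc (x.1⁻¹).1 * (x.1.1 * A (x.2⁻¹ i) * x.1.1.transpose) * ((x.1⁻¹).1).transpose
        = ((x.1⁻¹).1 * x.1.1) * A (x.2⁻¹ i) * (x.1.1.transpose * ((x.1⁻¹).1).transpose) := by
          simp only [mul_assoc]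
      _ = A (x.2⁻¹ i) := by rw [h3, h4, one_mul, mul_one]

/-- The graph of the isomorphism. -/
def K : Subgroup (GL4 × P7) := Subgroup.closure {(g1, p1), (g2, p2)}

theorem K_le : K ≤ Γ := by
  rw [K, Subgroup.closure_le]
  intro x hx
  simp only [Set.mem_insert_iff, Set.mem_singleton_iff] at hx
  rcases hx with rfl | rfl
  · exact chk1
  · exact chk2

def π₁ : K →* GL4 := (MonoidHom.fst GL4 P7).comp K.subtype
def π₂ : K →* P7 := (MonoidHom.snd GL4 P7).comp K.subtype

theorem inj1 : Function.Injective π₁ := by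
  intro x y hxy
  have h1 : x.1.1 = y.1.1 := hxy
  apply Subtype.ext
  apply Prod.ext h1
  apply Equiv.ext
  intro i
  apply A_inj
  rw [← K_le x.2 i, ← K_le y.2 i, h1]

theorem inj2 : Function.Injective π₂ := by
  intro x y hxy
  have h1 : x.1.2 = y.1.2 := hxy
  apply Subtype.ext
  refine Prod.ext ?_ h1
  have hz : x.1 * y.1⁻¹ ∈ Γ := K_le (K.mul_mem x.2 (K.inv_mem y.2))
  have h2 : (x.1 * y.1⁻¹).1 = 1 := by
    apply fix_forms
    intro i
    have h3 := hz i
    have h4 : (x.1 * y.1⁻¹).2 = 1 := by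
      show x.1.2 * y.1.2⁻¹ = 1
      rw [h1, mul_inv_cancel]
    rw [h4] at h3
    exact h3
  have h5 : x.1.1 * y.1.1⁻¹ = 1 := h2
  exact mul_inv_eq_one.1 h5

theorem trans_p2 : ∀ i j : Fin 7, ∃ k : Fin 7, (p2 ^ k.val) i = j := by decide +kernel

theorem closure_eq : Subgroup.closure ({p1, p2} : Set P7) = alternatingGroup (Fin 7) := by
  apply le_antisymm
  · rw [Subgroup.closure_le]
    intro x hx
    simp only [Set.mem_insert_iff, Set.mem_singleton_iff] at hx
    rcases hx with rfl | rfl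
    · show Equiv.Perm.sign p1 = 1
      decide +kernel
    · show Equiv.Perm.sign p2 = 1
      decide +kernel
  · have hp1 : p1 ∈ Subgroup.closure ({p1, p2} : Set P7) :=
      Subgroup.subset_closure (Set.mem_insert _ _)
    have hp2 : p2 ∈ Subgroup.closure ({p1, p2} : Set P7) :=
      Subgroup.subset_closure (Set.mem_insert_of_mem _ (Set.mem_singleton _))
    haveI : MulAction.IsPretransitive (Subgroup.closure ({p1, p2} : Set P7)) (Fin 7) :=
      ⟨fun i j => by
        obtain ⟨k, hk⟩ := trans_p2 i j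
        exact ⟨⟨p2 ^ k.val, Subgroup.pow_mem _ hp2 _⟩, hk⟩⟩
    exact Equiv.Perm.alternatingGroup_le_of_isPreprimitive_of_isThreeCycle_mem
      (MulAction.IsPreprimitive.of_prime_card (by simp; norm_num))
      (Equiv.Perm.isThreeCycle_swap_mul_swap_same (by decide) (by decide) (by decide)) hp1

theorem range_π₂ : π₂.range = alternatingGroup (Fin 7) := by
  rw [← closure_eq, π₂, MonoidHom.range_comp, Subgroup.range_subtype, K, MonoidHom.map_closure,
    Set.image_pair]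
  rfl

theorem exists_A7 : ∃ H : Subgroup GL4, Nonempty (H ≃* alternatingGroup (Fin 7)) :=
  ⟨π₁.range, ⟨(MonoidHom.ofInjective inj1).symm.trans
    ((MonoidHom.ofInjective inj2).trans (MulEquiv.subgroupCongr range_π₂))⟩⟩

/-! ### Transfer to an abstract field, vectors -/

section field

variable {F : Type*} [Field F] [Fintype F]

theorem exists_A7_field (hF : Fintype.card F = 2) :
    ∃ H : Subgroup (Matrix.GeneralLinearGroup (Fin 4) F),
      Nonempty (H ≃* alternatingGroup (Fin 7)) := by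
  obtain ⟨H, ⟨e⟩⟩ := exists_A7
  let r : ZMod 2 ≃+* F := ZMod.ringEquivOfPrime F Nat.prime_two hF
  let Φ : GL4 ≃* Matrix.GeneralLinearGroup (Fin 4) F :=
    Units.mapEquiv (RingEquiv.mapMatrix r).toMulEquiv
  exact ⟨H.map Φ.toMonoidHom, ⟨(Φ.subgroupMap H).symm.trans e⟩⟩

/-- The additive group of fixed vectors. -/
def fixT (g : Matrix.GeneralLinearGroup (Fin 4) F) : AddSubgroup (Fin 4 → F) where
  carrier := {v | g.1.mulVec v = v}
  add_mem' := by
    intro a b ha hb
    show _ = _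
    rw [Matrix.mulVec_add, ha, hb]
  zero_mem' := Matrix.mulVec_zero _
  neg_mem' := by
    intro a ha
    show _ = _
    rw [Matrix.mulVec_neg, ha]

theorem card_V (hF : Fintype.card F = 2) : Nat.card (Fin 4 → F) = 16 := by
  rw [Nat.card_eq_fintype_card, Fintype.card_fun, hF]
  simp

theorem card_fixT_dvd (hF : Fintype.card F = 2) (g : Matrix.GeneralLinearGroup (Fin 4) F) :
    Nat.card (fixT g) ∣ 16 := by
  rw [← card_V hF]
  exact AddSubgroup.card_addSubgroup_dvd_card _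

theorem card_fixT_mod (hF : Fintype.card F = 2) (g : Matrix.GeneralLinearGroup (Fin 4) F) (q : ℕ)
    [Fact q.Prime] (hg : g ^ q = 1) : 16 ≡ Nat.card (fixT g) [MOD q] := by
  classical
  let f : Function.End (Fin 4 → F) := g.1.mulVec
  have hpow : ∀ k : ℕ, ∀ v, (f ^ k) v = (g ^ k).1.mulVec v := by
    intro k
    induction k with
    | zero =>
      intro v
      simp [Function.End.one_def]
    | succ k ih =>
      intro v
      rw [pow_succ, pow_succ, Function.End.mul_def]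
      show (f ^ k) (f v) = _
      rw [ih, Units.val_mul, ← Matrix.mulVec_mulVec]
  have hf : f ^ q ^ 1 = 1 := by
    funext v
    rw [pow_one, hpow, hg]
    simp [Function.End.one_def]
  have h := Equiv.Perm.card_fixedPoints_modEq hf
  have h1 : Fintype.card (Fin 4 → F) = 16 := by
    rw [← Nat.card_eq_fintype_card, card_V hF]
  rw [h1, ← Nat.card_eq_fintype_card] at h
  have h2 : Nat.card (Function.fixedPoints f) = Nat.card (fixT g) :=
    Nat.card_congr (Equiv.subtypeEquivRight (fun _ => Iff.rfl))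
  rwa [h2] at h

theorem eq_one_of_fix (g : Matrix.GeneralLinearGroup (Fin 4) F)
    (h : ∀ v : Fin 4 → F, g.1.mulVec v = v) : g = 1 := by
  apply Units.ext
  ext i j
  have h1 := congrFun (h (Pi.single j 1)) i
  rw [Matrix.mulVec_single_one] at h1
  have h2 : g.1 i j = (Pi.single j 1 : Fin 4 → F) i := h1
  rw [h2, Units.val_one, Matrix.one_apply, Pi.single_apply]

theorem all_fix_of_card (hF : Fintype.card F = 2) (g : Matrix.GeneralLinearGroup (Fin 4) F)
    (h : Nat.card (fixT g) = 16) : g = 1 := by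
  apply eq_one_of_fix
  intro v
  have h1 : fixT g = ⊤ := by
    apply AddSubgroup.eq_top_of_card_eq
    rw [h, card_V hF]
  have h2 : v ∈ fixT g := by
    rw [h1]
    exact AddSubgroup.mem_top v
  exact h2

theorem no_fix_5 (hF : Fintype.card F = 2) (g : Matrix.GeneralLinearGroup (Fin 4) F)
    (hg : orderOf g = 5) (v : Fin 4 → F) (hv : v ≠ 0) : g.1.mulVec v ≠ v := by
  intro hfix
  haveI : Fact (Nat.Prime 5) := ⟨by norm_num⟩
  have h1 := card_fixT_dvd hF g
  have h2 := card_fixT_mod hF g 5 (by rw [← hg]; exact pow_orderOf_eq_one g)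
  obtain ⟨k, hk, hk'⟩ := (Nat.dvd_prime_pow Nat.prime_two).1 (show Nat.card (fixT g) ∣ 2 ^ 4 from h1)
  have hnot1 : Nat.card (fixT g) ≠ 16 := by
    intro h3
    have := all_fix_of_card hF g h3
    rw [this, orderOf_one] at hg
    omega
  have hnot2 : Nat.card (fixT g) ≠ 1 := by
    intro h3
    obtain ⟨u, hu⟩ := Nat.card_eq_one_iff_unique.1 h3
    have := u.elim (⟨v, hfix⟩ : fixT g) ⟨0, (fixT g).zero_mem⟩
    exact hv (congrArg Subtype.val this)
  rw [hk'] at h2 hnot1 hnot2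
  interval_cases k
  · exact hnot2 rfl
  · exact absurd h2 (by decide)
  · exact absurd h2 (by decide)
  · exact absurd h2 (by decide)
  · exact hnot1 rfl

theorem uniq_fix_7 (hF : Fintype.card F = 2) (g : Matrix.GeneralLinearGroup (Fin 4) F)
    (hg : orderOf g = 7) (v w : Fin 4 → F) (hv : v ≠ 0) (hw : w ≠ 0)
    (hfv : g.1.mulVec v = v) (hfw : g.1.mulVec w = w) : v = w := by
  haveI : Fact (Nat.Prime 7) := ⟨by norm_num⟩
  have h1 := card_fixT_dvd hF g
  have h2 := card_fixT_mod hF g 7 (by rw [← hg]; exact pow_orderOf_eq_one g)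
  obtain ⟨k, hk, hk'⟩ := (Nat.dvd_prime_pow Nat.prime_two).1 (show Nat.card (fixT g) ∣ 2 ^ 4 from h1)
  have hnot1 : Nat.card (fixT g) ≠ 16 := by
    intro h3
    have := all_fix_of_card hF g h3
    rw [this, orderOf_one] at hg
    omega
  have htwo : Nat.card (fixT g) = 2 := by
    rw [hk'] at h2 hnot1 ⊢
    interval_cases k
    · exact absurd h2 (by decide)
    · rfl
    · exact absurd h2 (by decide)
    · exact absurd h2 (by decide)
    · exact absurd rfl hnot1
  obtain ⟨y, -, hy⟩ := (Nat.card_eq_two_iff' (⟨0, (fixT g).zero_mem⟩ : fixT g)).1 htwo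
  have e1 : (⟨v, hfv⟩ : fixT g) = y := hy _ (fun h => hv (congrArg Subtype.val h))
  have e2 : (⟨w, hfw⟩ : fixT g) = y := hy _ (fun h => hw (congrArg Subtype.val h))
  exact congrArg Subtype.val (e1.trans e2.symm)

/-- The action on non-zero vectors. -/
abbrev XX (F : Type*) [Field F] := {v : Fin 4 → F // v ≠ 0}

theorem mulVec_ne_zero (g : Matrix.GeneralLinearGroup (Fin 4) F) {v : Fin 4 → F} (hv : v ≠ 0) :
    g.1.mulVec v ≠ 0 := by
  intro h
  apply hv
  have h1 : g⁻¹.1.mulVec (g.1.mulVec v) = v := by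
    rw [Matrix.mulVec_mulVec, Units.inv_mul, Matrix.one_mulVec]
  rw [← h1, h, Matrix.mulVec_zero]

/-- The action on non-zero vectors. -/
def vecAction : MulAction (Matrix.GeneralLinearGroup (Fin 4) F) (XX F) where
  smul g v := ⟨g.1.mulVec v.1, mulVec_ne_zero g v.2⟩
  one_smul v := Subtype.ext (Matrix.one_mulVec _)
  mul_smul g h v := Subtype.ext (by
    show (g * h).1.mulVec v.1 = g.1.mulVec (h.1.mulVec v.1)
    rw [Units.val_mul, Matrix.mulVec_mulVec])

attribute [local instance] vecAction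

theorem smul_coe' (H : Subgroup (Matrix.GeneralLinearGroup (Fin 4) F)) (g : H) (x : XX F) :
    ((g • x : XX F) : Fin 4 → F) = (g.1.1).mulVec x.1 := rfl

theorem card_A7 : Nat.card (alternatingGroup (Fin 7)) = 2520 := by
  have h := two_mul_card_alternatingGroup (α := Fin 7)
  rw [Fintype.card_perm, Fintype.card_fin] at h
  rw [Nat.card_eq_fintype_card]
  have h2 : Nat.factorial 7 = 5040 := by decide
  omega

theorem two_trans_field (hF : Fintype.card F = 2)
    (H : Subgroup (Matrix.GeneralLinearGroup (Fin 4) F))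
    (hH : Nonempty (H ≃* alternatingGroup (Fin 7)))
    (v w v' w' : Fin 4 → F) (hv : v ≠ 0) (hw : w ≠ 0) (hvw : v ≠ w) (hv' : v' ≠ 0) (hw' : w' ≠ 0)
    (hvw' : v' ≠ w') :
    ∃ g ∈ H, (g : Matrix (Fin 4) (Fin 4) F).mulVec v = v' ∧
      (g : Matrix (Fin 4) (Fin 4) F).mulVec w = w' := by
  classical
  obtain ⟨e⟩ := hH
  have hcard : Nat.card H = 2520 := by
    rw [Nat.card_congr e.toEquiv, card_A7]
  have hX : Fintype.card (XX F) = 15 := by
    rw [Fintype.card_subtype_compl, Fintype.card_subtype_eq, ← Nat.card_eq_fintype_card, card_V hF]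
  obtain ⟨g, hg1, hg2⟩ := CfsgLib.TwoTrans15.two_trans (H := H) (X := XX F) hcard hX
    (by
      intro g hg
      apply Subtype.ext
      apply eq_one_of_fix
      intro u
      by_cases hu : u = 0
      · rw [hu, Matrix.mulVec_zero]
      · have := congrArg Subtype.val (hg ⟨u, hu⟩)
        rwa [smul_coe'] at this)
    (by
      intro g hg x hx
      have hg' : orderOf (g : Matrix.GeneralLinearGroup (Fin 4) F) = 5 := by
        rwa [Subgroup.orderOf_coe]
      have hx' := congrArg Subtype.val hx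
      rw [smul_coe'] at hx'
      exact no_fix_5 hF g.1 hg' x.1 x.2 hx')
    (by
      intro g hg x y hx hy
      have hg' : orderOf (g : Matrix.GeneralLinearGroup (Fin 4) F) = 7 := by
        rwa [Subgroup.orderOf_coe]
      have hx' := congrArg Subtype.val hx
      have hy' := congrArg Subtype.val hy
      rw [smul_coe'] at hx' hy'
      exact Subtype.ext (uniq_fix_7 hF g.1 hg' x.1 y.1 x.2 y.2 hx' hy'))
    ⟨v, hv⟩ ⟨w, hw⟩ ⟨v', hv'⟩ ⟨w', hw'⟩
    (fun h => hvw (congrArg Subtype.val h)) (fun h => hvw' (congrArg Subtype.val h))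
  have h1 := congrArg Subtype.val hg1
  have h2 := congrArg Subtype.val hg2
  rw [smul_coe'] at h1 h2
  exact ⟨g.1, g.2, h1, h2⟩

end field

end CfsgLib.A7GL
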