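import Cfsg.Agent.Lib.H3.DihFus2
import Cfsg.Agent.Lib.Trans.Basic
import Cfsg.Prelude.Def_CaseTheorems

/-! Abelian Sylow `2`-subgroups in groups without subgroups of index two. -/

set_option autoImplicit false
set_option linter.unusedSectionVars false

namespace CfsgLib.AbOmega

open Subgroup

variable {G : Type*} [Group G]

lemma card_le_of_prank {p k : ℕ} {S A : Subgroup G} (h : Cfsg.PRankLE p k S) (hAS : A ≤ S)
    (hc : ∀ a ∈ A, ∀ b ∈ A, a * b = b * a) (hp : ∀ a ∈ A, a ^ p = 1) : Nat.card A ≤ p ^ k := by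
  have h1 : Nat.card (A.subgroupOf S) = Nat.card A :=
    Nat.card_congr (Subgroup.subgroupOfEquivOfLe hAS).toEquiv
  rw [← h1]
  apply h
  · refine ⟨⟨?_⟩⟩
    rintro ⟨⟨a, ha⟩, ha'⟩ ⟨⟨b, hb⟩, hb'⟩
    apply Subtype.ext
    apply Subtype.ext
    exact hc a (Subgroup.mem_subgroupOf.1 ha') b (Subgroup.mem_subgroupOf.1 hb')
  · rintro ⟨a, ha⟩ ha'
    apply Subtype.ext
    exact hp a (Subgroup.mem_subgroupOf.1 ha')

lemma exists_of_not_prank {p k : ℕ} {S : Subgroup G} (h : ¬ Cfsg.PRankLE p k S) :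
    ∃ A : Subgroup G, A ≤ S ∧ (∀ a ∈ A, ∀ b ∈ A, a * b = b * a) ∧ (∀ a ∈ A, a ^ p = 1) ∧
      p ^ k < Nat.card A := by
  unfold Cfsg.PRankLE at h
  push Not at h
  obtain ⟨A, hA, hAe, hAc⟩ := h
  refine ⟨A.map S.subtype, Subgroup.map_subtype_le _, ?_, ?_, ?_⟩
  · rintro _ ⟨a, ha, rfl⟩ _ ⟨b, hb, rfl⟩
    have := hA.is_comm.comm ⟨a, ha⟩ ⟨b, hb⟩
    exact congrArg (fun w : A => ((w : S) : G)) this
  · rintro _ ⟨a, ha, rfl⟩
    exact congrArg (fun w : S => (w : G)) (hAe a ha)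
  · rwa [Subgroup.card_map_of_injective (Subgroup.subtype_injective S)]

variable [Finite G]

/-- The elements of order at most two in an abelian subgroup. -/
def omegaTwo (S : Subgroup G) (hS : ∀ a ∈ S, ∀ b ∈ S, a * b = b * a) : Subgroup G where
  carrier := {x | x ∈ S ∧ x ^ 2 = 1}
  mul_mem' := by
    rintro a b ⟨ha, ha2⟩ ⟨hb, hb2⟩
    refine ⟨mul_mem ha hb, ?_⟩
    have : Commute a b := hS a ha b hb
    rw [this.mul_pow, ha2, hb2, one_mul]
  one_mem' := ⟨one_mem _, one_pow _⟩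
  inv_mem' := by
    rintro a ⟨ha, ha2⟩
    exact ⟨inv_mem ha, by rw [inv_pow, ha2, inv_one]⟩

lemma mem_omegaTwo {S : Subgroup G} {hS : ∀ a ∈ S, ∀ b ∈ S, a * b = b * a} {x : G} :
    x ∈ omegaTwo S hS ↔ x ∈ S ∧ x ^ 2 = 1 := Iff.rfl

/-- The main theorem. -/
theorem main (hG : ∀ H : Subgroup G, H.index ≠ 2) (S : Sylow 2 G) (hS : IsMulCommutative (S : Subgroup G))
    (r : ℕ) (hr1 : 1 ≤ r)
    (hSr : Cfsg.PRankLE 2 r (S : Subgroup G) ∧ ¬ Cfsg.PRankLE 2 (r - 1) (S : Subgroup G))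
    (R : Subgroup G) (hRS : R ≤ S) (hRr : Cfsg.PRankLE 2 (r - 1) R ∧ (r = 1 ∨ ¬ Cfsg.PRankLE 2 (r - 2) R))
    (t : G) (ht : orderOf t = 2) (htS : t ∈ S) :
    ∃ n ∈ normalizer ((S : Subgroup G) : Set G), n * t * n⁻¹ ∈ R := by
  classical
  haveI : Fact (Nat.Prime 2) := ⟨Nat.prime_two⟩
  have hSc : ∀ a ∈ (S : Subgroup G), ∀ b ∈ (S : Subgroup G), a * b = b * a := fun a ha b hb =>
    congrArg Subtype.val (hS.is_comm.comm ⟨a, ha⟩ ⟨b, hb⟩)
  set V := omegaTwo (S : Subgroup G) hSc with hV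
  have hVS : V ≤ S := fun x hx => hx.1
  have hVc : ∀ a ∈ V, ∀ b ∈ V, a * b = b * a := fun a ha b hb => hSc a ha.1 b hb.1
  have hVp : IsPGroup 2 V := S.2.to_le hVS
  -- the order of `V`
  obtain ⟨j, hj⟩ := IsPGroup.iff_card.1 hVp
  have hj1 : j = r := by
    have h1 : Nat.card V ≤ 2 ^ r := card_le_of_prank hSr.1 hVS hVc (fun a ha => ha.2)
    obtain ⟨A, hAS, hAc, hAp, hAcard⟩ := exists_of_not_prank hSr.2
    have h2 : A ≤ V := fun a ha => ⟨hAS ha, hAp a ha⟩
    have h3 := Subgroup.card_le_of_le h2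
    rw [hj] at h1 h3
    have h4 : j ≤ r := (Nat.pow_le_pow_iff_right (by norm_num)).1 h1
    have h5 : r - 1 < j := (Nat.pow_lt_pow_iff_right (by norm_num)).1 (lt_of_lt_of_le hAcard h3)
    omega
  set W := R ⊓ V with hW
  have hWV : W ≤ V := inf_le_right
  have hWp : IsPGroup 2 W := hVp.to_le hWV
  obtain ⟨i, hi⟩ := IsPGroup.iff_card.1 hWp
  have hi1 : i + 1 = r := by
    have h1 : Nat.card W ≤ 2 ^ (r - 1) := card_le_of_prank hRr.1 inf_le_left
      (fun a ha b hb => hVc a ha.2 b hb.2) (fun a ha => ha.2.2)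
    rw [hi] at h1
    have h4 : i ≤ r - 1 := (Nat.pow_le_pow_iff_right (by norm_num)).1 h1
    rcases hRr.2 with h | h
    · omega
    · obtain ⟨A, hAS, hAc, hAp, hAcard⟩ := exists_of_not_prank h
      have h2 : A ≤ W := fun a ha => ⟨hAS ha, hRS (hAS ha), hAp a ha⟩
      have h3 := Subgroup.card_le_of_le h2
      rw [hi] at h3
      have h5 : r - 2 < i := (Nat.pow_lt_pow_iff_right (by norm_num)).1 (lt_of_lt_of_le hAcard h3)
      omega
  set W' : Subgroup V := W.subgroupOf V with hW'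
  have hW'idx : W'.index = 2 := by
    have h1 := Subgroup.card_mul_index W'
    have h2 : Nat.card W' = Nat.card W := Nat.card_congr (Subgroup.subgroupOfEquivOfLe hWV).toEquiv
    rw [h2, hi, hj, hj1, ← hi1, pow_succ] at h1
    exact Nat.eq_of_mul_eq_mul_left (by positivity) h1
  by_contra hcon
  push Not at hcon
  set N := normalizer ((S : Subgroup G) : Set G) with hN
  set S' : Subgroup N := (S : Subgroup G).subgroupOf N with hS'
  have ht2 : t ^ 2 = 1 := by rw [← ht, pow_orderOf_eq_one]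
  have hconjV : ∀ (n : N) (v : G), v ∈ V → (n : G) * v * (n : G)⁻¹ ∈ V := by
    intro n v hv
    refine ⟨(Subgroup.mem_normalizer_iff.1 n.2 v).1 hv.1, ?_⟩
    rw [conj_pow, hv.2]
    group
  have htV : t ∈ V := ⟨htS, ht2⟩
  -- the commutative structure
  letI : CommGroup V := { (inferInstance : Group V) with
    mul_comm := fun a b => Subtype.ext (hVc a a.2 b b.2) }
  haveI := Fintype.ofFinite (N ⧸ S')
  let f : (N ⧸ S') → V := fun q => ⟨(q.out : G) * t * (q.out : G)⁻¹, hconjV q.out t htV⟩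
  have hf : ∀ c : N, f (QuotientGroup.mk c) = ⟨(c : G) * t * (c : G)⁻¹, hconjV c t htV⟩ := by
    intro c
    apply Subtype.ext
    show (((QuotientGroup.mk c : N ⧸ S').out : N) : G) * t * (((QuotientGroup.mk c : N ⧸ S').out : N) : G)⁻¹ = _
    obtain ⟨h, hh⟩ := QuotientGroup.mk_out_eq_mul S' c
    rw [hh]
    have hhS : ((h : N) : G) ∈ (S : Subgroup G) := Subgroup.mem_subgroupOf.1 h.2
    have hcomm : ((h : N) : G) * t = t * ((h : N) : G) := hSc _ hhS _ htS
    simp only [Subgroup.coe_mul, mul_inv_rev]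
    calc (c : G) * ((h : N) : G) * t * (((h : N) : G)⁻¹ * (c : G)⁻¹)
        = (c : G) * (((h : N) : G) * t) * ((h : N) : G)⁻¹ * (c : G)⁻¹ := by group
      _ = (c : G) * (t * ((h : N) : G)) * ((h : N) : G)⁻¹ * (c : G)⁻¹ := by rw [hcomm]
      _ = _ := by group
  -- parity
  have hfnot : ∀ q, f q ∉ W' := by
    intro q hq
    have h1 : ((f q : V) : G) ∈ R := (Subgroup.mem_subgroupOf.1 hq).1
    exact hcon _ q.out.2 h1
  have hpar : ∀ F : Finset (N ⧸ S'), (∏ q ∈ F, f q) ∈ W' ↔ Even F.card := by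
    intro F
    induction F using Finset.induction_on with
    | empty => simp
    | insert a F ha ih =>
      rw [Finset.prod_insert ha, Finset.card_insert_of_notMem ha,
        Subgroup.mul_mem_iff_of_index_two hW'idx, ih, Nat.even_add_one]
      have := hfnot a
      tauto
  set x : V := ∏ q, f q with hx
  have hodd : ¬ Even (Finset.univ : Finset (N ⧸ S')).card := by
    rw [Finset.card_univ, ← Nat.card_eq_fintype_card, even_iff_two_dvd]
    intro h
    have h1 : Nat.card (N ⧸ S') = S'.index := rfl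
    have h2 : S'.index = (S : Subgroup G).relIndex N := rfl
    rw [h1, h2] at h
    have h3 := Subgroup.relIndex_mul_index (Subgroup.le_normalizer (H := (S : Subgroup G)))
    exact S.not_dvd_index (h3 ▸ Dvd.dvd.mul_right h _)
  have hxnot : x ∉ W' := fun h => hodd ((hpar _).1 h)
  -- centrality
  have hcent : ∀ n : N, (n : G) * (x : G) * (n : G)⁻¹ = x := by
    intro n
    let cn : V →* V := MonoidHom.mk' (fun v => ⟨(n : G) * v * (n : G)⁻¹, hconjV n v v.2⟩) (by
      intro a b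
      apply Subtype.ext
      show (n : G) * ((a : G) * (b : G)) * (n : G)⁻¹ = ((n : G) * a * (n : G)⁻¹) * ((n : G) * b * (n : G)⁻¹)
      group)
    have h1 : cn x = x := by
      rw [hx, map_prod]
      have h2 : ∀ q, cn (f q) = f (n • q) := by
        intro q
        induction q using QuotientGroup.induction_on with
        | H c =>
        rw [hf, MulAction.Quotient.smul_mk, smul_eq_mul, hf]
        apply Subtype.ext
        show (n : G) * ((c : G) * t * (c : G)⁻¹) * (n : G)⁻¹ = ((n * c : N) : G) * t * ((n * c : N) : G)⁻¹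
        simp only [Subgroup.coe_mul, mul_inv_rev]
        group
      rw [Finset.prod_congr rfl (fun q _ => h2 q)]
      exact Equiv.prod_comp (MulAction.toPerm n) f
    exact congrArg Subtype.val h1
  -- transfer
  have hO := CfsgLib.DihFus.pResidual_eq_top hG
  have hsi := CfsgLib.Trans.sylow_inf_pResidual S hS
  rw [hO, inf_top_eq] at hsi
  have hdec := (CfsgLib.Trans.abelian_sylow_decomp S hS).1
  rw [← hsi] at hdec
  have hx1 : ((x : V) : G) ∈ (S : Subgroup G) ⊓ ((S : Subgroup G) ⊓ centralizer (N : Set G)) := by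
    refine ⟨hVS x.2, hVS x.2, ?_⟩
    show ((x : V) : G) ∈ centralizer (N : Set G)
    rw [Subgroup.mem_centralizer_iff]
    intro n hn
    have h1 := hcent ⟨n, hn⟩
    calc n * (x : G) = (n * (x : G) * n⁻¹) * n := by group
      _ = (x : G) * n := by rw [h1]
  have hx2 : ((x : V) : G) ∈ (⊥ : Subgroup G) := hdec.le hx1
  rw [Subgroup.mem_bot] at hx2
  apply hxnot
  have h2 : x = 1 := Subtype.ext hx2
  rw [h2]
  exact one_mem _

end CfsgLib.AbOmega
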