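import Mathlib
import Cfsg.Agent.Lib.PLocal.BestOffender
import Cfsg.Agent.Lib.PLocal.Misc
import Cfsg.Agent.Lib.PLocal.CoreLift
import Cfsg.Prelude.Def_PLocal

/-! # Uniserial actions of `p`-groups. -/

set_option autoImplicit false
set_option linter.unusedSectionVars false
set_option linter.unusedVariables false

namespace CfsgLib.Uniserial

open Subgroup Cfsg
open scoped commutatorElement

variable {L : Type*} [Group L] [Finite L] {p : ℕ} [hp : Fact p.Prime]

/-- `X` normalizes the commutator `⁅H, X⁆`. -/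
theorem norm_comm {H X : Subgroup L} (hX : X ≤ normalizer (H : Set L)) :
    X ≤ normalizer ((⁅H, X⁆ : Subgroup L) : Set L) := by
  intro x hx
  apply CfsgLib.PLocal.mem_normalizer_of_conj_le
  have hle : ⁅H, X⁆ ≤ (⁅H, X⁆).comap (MulAut.conj x).toMonoidHom := by
    rw [commutator_le]
    intro h hh y hy
    show x * ⁅h, y⁆ * x⁻¹ ∈ ⁅H, X⁆
    have e : x * ⁅h, y⁆ * x⁻¹ = ⁅x * h * x⁻¹, x * y * x⁻¹⁆ := by
      simp only [commutatorElement_def]
      group
    rw [e]
    exact commutator_mem_commutator ((mem_normalizer_iff.1 (hX hx) h).1 hh)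
      (X.mul_mem (X.mul_mem hx hy) (X.inv_mem hx))
  exact fun z hz => hle hz

theorem comm_le {H X : Subgroup L} (hX : X ≤ normalizer (H : Set L)) : ⁅H, X⁆ ≤ H := by
  rw [commutator_le]
  intro h hh y hy
  have e : ⁅h, y⁆ = h * (y * h⁻¹ * y⁻¹) := by
    simp only [commutatorElement_def]
    group
  rw [e]
  exact H.mul_mem hh ((mem_normalizer_iff.1 (hX hy) _).1 (H.inv_mem hh))

/-- Existence of a `T`-invariant subgroup of index `p`. -/
theorem exists_step {T K : Subgroup L} (hT : IsPGroup p T) (hKT : T ≤ normalizer (K : Set L))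
    (hKp : IsPGroup p K) (k : ℕ) (hc : Nat.card K = p ^ (k + 1)) :
    ∃ K' : Subgroup L, K' ≤ K ∧ T ≤ normalizer (K' : Set L) ∧ Nat.card K' = p ^ k ∧ ⁅K, T⁆ ≤ K' := by
  classical
  have hpp := hp.out
  have hKne : K ≠ ⊥ := by
    rintro rfl
    have h1 : p ^ (k + 1) = 1 := by rw [← hc]; simp
    have h2 : 1 < p ^ (k + 1) := Nat.one_lt_pow (by omega) hpp.one_lt
    omega
  have hle := comm_le hKT
  have hne : ⁅K, T⁆ ≠ K := by
    intro h0
    exact hKne (CfsgLib.PLocal.eq_bot_of_le_commutator (p := p) hKp hT hKT h0.ge)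
  obtain ⟨m, hm⟩ := IsPGroup.iff_card.1 (hKp.to_le hle)
  have hmlt : m ≤ k := by
    have h1 : Nat.card (⁅K, T⁆ : Subgroup L) ∣ Nat.card K := Subgroup.card_dvd_of_le hle
    rw [hm, hc] at h1
    have h2 := (Nat.pow_dvd_pow_iff_le_right hpp.one_lt).1 h1
    rcases Nat.lt_or_ge m (k + 1) with h3 | h3
    · omega
    · have h4 : m = k + 1 := by omega
      exfalso
      apply hne
      apply Subgroup.eq_of_le_of_card_ge hle
      rw [hm, hc, h4]
  have hsub : Nat.card ((⁅K, T⁆ : Subgroup L).subgroupOf K) = p ^ m := by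
    rw [← hm]
    exact Nat.card_congr (subgroupOfEquivOfLe hle).toEquiv
  obtain ⟨K₀, hK₀, hHK₀⟩ := Sylow.exists_subgroup_card_pow_prime_le p (G := K) (n := m) (m := k)
    (by rw [hc]; exact pow_dvd_pow p (by omega)) _ hsub hmlt
  have hmemc : ∀ x ∈ K, ∀ t ∈ T, ⁅x, t⁆ ∈ K₀.map K.subtype := by
    intro x hx t ht
    have h1 : ⁅x, t⁆ ∈ (⁅K, T⁆ : Subgroup L) := commutator_mem_commutator hx ht
    have h2 : (⟨⁅x, t⁆, hle h1⟩ : K) ∈ K₀ := hHK₀ h1
    exact ⟨_, h2, rfl⟩
  refine ⟨K₀.map K.subtype, ?_, ?_, ?_, ?_⟩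
  · rintro _ ⟨x, -, rfl⟩
    exact x.2
  · intro t ht
    apply CfsgLib.PLocal.mem_normalizer_of_conj_le
    rintro _ ⟨x, hx, rfl⟩
    have h1 := hmemc x x.2 t ht
    have e : t * (K.subtype x) * t⁻¹ = (⁅(x : L), t⁆)⁻¹ * (x : L) := by
      simp only [commutatorElement_def, Subgroup.subtype_apply]
      group
    rw [e]
    exact (K₀.map K.subtype).mul_mem ((K₀.map K.subtype).inv_mem h1) ⟨x, hx, rfl⟩
  · rw [Subgroup.card_map_of_injective (subtype_injective K)]
    exact hK₀
  · rw [commutator_le]
    exact hmemc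

theorem card_mul_relIndex {H K : Subgroup L} (h : H ≤ K) : Nat.card H * H.relIndex K = Nat.card K := by
  have h1 := Subgroup.card_mul_index (H.subgroupOf K)
  have h2 : Nat.card (H.subgroupOf K) = Nat.card H := Nat.card_congr (subgroupOfEquivOfLe h).toEquiv
  rw [h2] at h1
  exact h1

section chain

variable {N G : Subgroup L}

local notation "γ" => iterCommutator N G

theorem gam_norm (hGN : G ≤ normalizer (N : Set L)) : ∀ i, G ≤ normalizer ((γ i : Subgroup L) : Set L) := by
  intro i
  induction i with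
  | zero => exact hGN
  | succ i ih => exact norm_comm ih

theorem gam_succ_le (hGN : G ≤ normalizer (N : Set L)) (i : ℕ) : γ (i + 1) ≤ γ i := comm_le (gam_norm hGN i)

theorem gam_anti (hGN : G ≤ normalizer (N : Set L)) {i j : ℕ} (hij : i ≤ j) : γ j ≤ γ i := by
  induction hij with
  | refl => exact le_rfl
  | step _ ih => exact (gam_succ_le hGN _).trans ih

theorem gam_le (hGN : G ≤ normalizer (N : Set L)) (i : ℕ) : γ i ≤ N := gam_anti hGN (Nat.zero_le i)

theorem gam_ne (hN : IsPGroup p N) (hG : IsPGroup p G) (hGN : G ≤ normalizer (N : Set L)) (i : ℕ)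
    (h : γ i ≠ ⊥) : γ (i + 1) ≠ γ i := by
  intro h0
  exact h (CfsgLib.PLocal.eq_bot_of_le_commutator (p := p) (hN.to_le (gam_le hGN i)) hG (gam_norm hGN i) h0.ge)

/-- Chain from nontriviality of the last term. -/
theorem chain_of_ne (hN : IsPGroup p N) (hG : IsPGroup p G) (hGN : G ≤ normalizer (N : Set L))
    (n : ℕ) (hn : Nat.card N = p ^ n) (h : γ (n - 1) ≠ ⊥) (hn0 : n ≠ 0) :
    ∀ i, i ≤ n → Nat.card (γ i) = p ^ (n - i) := by
  classical
  have hpp := hp.out
  have hex : ∀ i, ∃ a, Nat.card (γ i) = p ^ a := fun i =>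
    IsPGroup.iff_card.1 (hN.to_le (gam_le hGN i))
  choose a ha using hex
  have ha0 : a 0 = n := by
    have h1 : p ^ a 0 = p ^ n := by
      rw [← ha 0, ← hn]
      rfl
    exact Nat.pow_right_injective hpp.two_le h1
  have hne : ∀ i, i ≤ n - 1 → γ i ≠ ⊥ := by
    intro i hi h0
    apply h
    have := gam_anti hGN hi
    rw [h0] at this
    exact le_bot_iff.1 this
  have hstep : ∀ i, i ≤ n - 1 → a (i + 1) + 1 ≤ a i := by
    intro i hi
    have h1 : Nat.card (γ (i + 1)) ∣ Nat.card (γ i) := Subgroup.card_dvd_of_le (gam_succ_le hGN i)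
    rw [ha, ha] at h1
    have h2 := (Nat.pow_dvd_pow_iff_le_right hpp.one_lt).1 h1
    rcases Nat.lt_or_ge (a (i + 1)) (a i) with h3 | h3
    · omega
    · exfalso
      apply gam_ne hN hG hGN i (hne i hi)
      apply Subgroup.eq_of_le_of_card_ge (gam_succ_le hGN i)
      rw [ha, ha]
      exact Nat.pow_le_pow_right hpp.pos h3
  have hlast : 1 ≤ a (n - 1) := by
    by_contra hc
    have h0 : a (n - 1) = 0 := by omega
    have h1 : Nat.card (γ (n - 1)) = 1 := by rw [ha, h0, pow_zero]
    exact hne _ le_rfl ((Subgroup.card_eq_one).1 h1)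
  have hup : ∀ i, i ≤ n → a i + i ≤ n := by
    intro i
    induction i with
    | zero => intro _; omega
    | succ i ih =>
      intro hi
      have h1 := ih (by omega)
      have h2 := hstep i (by omega)
      omega
  have hdown : ∀ d i, i + d ≤ n - 1 → a (i + d) + d ≤ a i := by
    intro d
    induction d with
    | zero => intro i _; simp
    | succ d ih =>
      intro i hi
      have h1 := ih i (by omega)
      have h2 := hstep (i + d) (by omega)
      have h3 : i + (d + 1) = i + d + 1 := by omega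
      rw [h3]
      omega
  have hval : ∀ i, i ≤ n - 1 → a i = n - i := by
    intro i hi
    have h1 := hup i (by omega)
    have h2 := hdown (n - 1 - i) i (by omega)
    have h3 : i + (n - 1 - i) = n - 1 := by omega
    rw [h3] at h2
    omega
  intro i hi
  rw [ha]
  rcases Nat.lt_or_ge i n with h1 | h1
  · rw [hval i (by omega)]
  · have h2 : i = n := by omega
    subst h2
    have h3 := hstep (i - 1) le_rfl
    have h4 := hval (i - 1) le_rfl
    have h5 : i - 1 + 1 = i := by omega
    rw [h5] at h3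
    have h6 : a i = 0 := by omega
    rw [h6]
    simp

/-- Chain from the uniserial condition. -/
theorem chain_of_uni (hN : IsPGroup p N) (hG : IsPGroup p G) (hGN : G ≤ normalizer (N : Set L))
    (n : ℕ) (hn : Nat.card N = p ^ n)
    (h : ∀ H : Subgroup L, H ≤ N → G ≤ normalizer (H : Set L) → H ≠ ⊥ → (⁅H, G⁆).relIndex H = p) :
    ∀ i, i ≤ n → Nat.card (γ i) = p ^ (n - i) := by
  have hpp := hp.out
  intro i
  induction i with
  | zero =>
    intro _
    exact hn
  | succ i ih =>
    intro hi
    have h1 := ih (by omega)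
    have hne : γ i ≠ ⊥ := by
      intro h0
      rw [h0] at h1
      have h2 : 1 = p ^ (n - i) := by
        rw [← h1]
        simp
      have h3 : 1 < p ^ (n - i) := Nat.one_lt_pow (by omega) hpp.one_lt
      omega
    have h2 := h _ (gam_le hGN i) (gam_norm hGN i) hne
    have h3 := card_mul_relIndex (gam_succ_le hGN i)
    have h4 : (⁅γ i, G⁆).relIndex (γ i) = p := h2
    have h5 : (γ (i + 1)).relIndex (γ i) = p := h4
    rw [h5, h1] at h3
    have h6 : n - i = (n - (i + 1)) + 1 := by omega
    rw [h6, pow_succ] at h3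
    exact Nat.eq_of_mul_eq_mul_right hpp.pos h3

theorem gam_T_norm (hN : IsPGroup p N) (hG : IsPGroup p G) (hGN : G ≤ normalizer (N : Set L))
    (n : ℕ) (hch : ∀ i, i ≤ n → Nat.card (γ i) = p ^ (n - i)) :
    ∀ i, i ≤ n → (G ⊔ N) ≤ normalizer ((γ i : Subgroup L) : Set L) := by
  have hT : IsPGroup p (G ⊔ N : Subgroup L) := IsPGroup.to_sup_of_normal_right' hG hN hGN
  intro i
  induction i with
  | zero =>
    intro _
    exact sup_le hGN le_normalizer
  | succ i ih =>
    intro hi
    have h1 := ih (by omega)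
    have h2 := hch i (by omega)
    have h3 := hch (i + 1) hi
    have h6 : n - i = (n - (i + 1)) + 1 := by omega
    rw [h6] at h2
    obtain ⟨K', hK'le, hK'n, hK'c, hK'com⟩ := exists_step hT h1 (hN.to_le (gam_le hGN i)) _ h2
    have h4 : γ (i + 1) ≤ K' :=
      (commutator_mono le_rfl (le_sup_left : G ≤ G ⊔ N)).trans hK'com
    have h5 : γ (i + 1) = K' := Subgroup.eq_of_le_of_card_ge h4 (by rw [h3, hK'c])
    rw [h5]
    exact hK'n

theorem between (hG : IsPGroup p G) (hN : IsPGroup p N) (hGN : G ≤ normalizer (N : Set L))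
    (n : ℕ) (hch : ∀ i, i ≤ n → Nat.card (γ i) = p ^ (n - i)) (i : ℕ) (hi : i < n)
    {X : Subgroup L} (h1 : X ≤ γ i) (h2 : γ (i + 1) ≤ X) (h3 : X ≠ γ (i + 1)) : X = γ i := by
  have hpp := hp.out
  obtain ⟨a, ha⟩ := IsPGroup.iff_card.1 (hN.to_le (h1.trans (gam_le hGN i)))
  have h4 : Nat.card X ∣ Nat.card (γ i) := Subgroup.card_dvd_of_le h1
  rw [ha, hch i hi.le] at h4
  have h5 := (Nat.pow_dvd_pow_iff_le_right hpp.one_lt).1 h4
  have h6 : n - (i + 1) < a := by
    by_contra hc
    apply h3
    symm
    apply Subgroup.eq_of_le_of_card_ge h2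
    rw [hch (i + 1) hi, ha]
    exact Nat.pow_le_pow_right hpp.pos (by omega)
  apply Subgroup.eq_of_le_of_card_ge h1
  rw [hch i hi.le, ha]
  exact Nat.pow_le_pow_right hpp.pos (by omega)

/-- Classification of the invariant subgroups. -/
theorem classify (hN : IsPGroup p N) (hG : IsPGroup p G) (hGN : G ≤ normalizer (N : Set L))
    (n : ℕ) (hch : ∀ i, i ≤ n → Nat.card (γ i) = p ^ (n - i)) :
    ∀ (d i : ℕ), i + d = n → ∀ H : Subgroup L, H ≤ γ i → G ≤ normalizer (H : Set L) →
      ∃ j, i ≤ j ∧ j ≤ n ∧ H = γ j := by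
  classical
  have hpp := hp.out
  have hTn := gam_T_norm hN hG hGN n hch
  intro d
  induction d with
  | zero =>
    intro i hi H hH _
    have h0 : i = n := by omega
    subst h0
    refine ⟨i, le_rfl, le_rfl, ?_⟩
    have h1 : Nat.card (γ i) = 1 := by
      rw [hch i le_rfl]
      simp
    have h2 : γ i = ⊥ := (Subgroup.card_eq_one).1 h1
    rw [h2] at hH ⊢
    exact le_bot_iff.1 hH
  | succ d ih =>
    intro i hi H hH hGH
    have hin : i < n := by omega
    by_cases hcase : H ≤ γ (i + 1)
    · obtain ⟨j, hj1, hj2, hj3⟩ := ih (i + 1) (by omega) H hcase hGH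
      exact ⟨j, by omega, hj2, hj3⟩
    · have hinv : G ≤ normalizer ((H ⊓ γ (i + 1) : Subgroup L) : Set L) := by
        intro g hg
        apply CfsgLib.PLocal.mem_normalizer_of_conj_le
        rintro x ⟨hx1, hx2⟩
        exact ⟨(mem_normalizer_iff.1 (hGH hg) x).1 hx1,
          (mem_normalizer_iff.1 (gam_norm hGN (i + 1) hg) x).1 hx2⟩
      obtain ⟨j, hj1, hj2, hj3⟩ := ih (i + 1) (by omega) _ inf_le_right hinv
      refine ⟨i, le_rfl, hin.le, ?_⟩
      by_cases hj : j = i + 1
      · subst hj
        have h1 : γ (i + 1) ≤ H := by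
          rw [← hj3]
          exact inf_le_left
        exact between hG hN hGN n hch i hin hH h1 (fun h0 => hcase h0.le)
      · exfalso
        have hj' : i + 2 ≤ j := by omega
        have h2 : γ j ≤ γ (i + 2) := gam_anti hGN hj'
        have hcom : ⁅H, G⁆ ≤ γ (i + 2) := by
          refine le_trans ?_ h2
          rw [← hj3]
          refine le_inf (comm_le hGH) ?_
          exact commutator_mono hH le_rfl
        -- the subgroup of elements with commutators in the next term
        set K := γ (i + 2) with hK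
        have hKn : (G ⊔ N) ≤ normalizer (K : Set L) := hTn (i + 2) (by omega)
        let W : Subgroup L :=
          { carrier := {y | y ∈ (G ⊔ N : Subgroup L) ∧ ∀ g ∈ G, ⁅y, g⁆ ∈ K}
            mul_mem' := by
              rintro x y ⟨hx, hx'⟩ ⟨hy, hy'⟩
              refine ⟨mul_mem hx hy, ?_⟩
              intro g hg
              have e : ⁅x * y, g⁆ = (x * ⁅y, g⁆ * x⁻¹) * ⁅x, g⁆ := by
                simp only [commutatorElement_def]
                group
              rw [e]
              exact K.mul_mem ((mem_normalizer_iff.1 (hKn hx) _).1 (hy' g hg)) (hx' g hg)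
            one_mem' := by
              refine ⟨one_mem _, ?_⟩
              intro g _
              simp
            inv_mem' := by
              rintro x ⟨hx, hx'⟩
              refine ⟨inv_mem hx, ?_⟩
              intro g hg
              have e : ⁅x⁻¹, g⁆ = x⁻¹ * (⁅x, g⁆)⁻¹ * x⁻¹⁻¹ := by
                simp only [commutatorElement_def]
                group
              rw [e]
              exact (mem_normalizer_iff.1 (hKn (inv_mem hx)) _).1 (K.inv_mem (hx' g hg)) }
        have hTN : N ≤ G ⊔ N := le_sup_right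
        have hHW : H ≤ W := fun y hy => ⟨hTN (gam_le hGN i (hH hy)), fun g hg =>
          hcom (commutator_mem_commutator hy hg)⟩
        have hGW : γ (i + 1) ≤ W := fun y hy => ⟨hTN (gam_le hGN _ hy), fun g hg =>
          commutator_mem_commutator hy hg⟩
        have hsup : H ⊔ γ (i + 1) = γ i := by
          apply between hG hN hGN n hch i hin (sup_le hH (gam_succ_le hGN i)) le_sup_right
          intro h0
          exact hcase (by rw [← h0]; exact le_sup_left)
        have hfin : γ (i + 1) ≤ K := by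
          show ⁅γ i, G⁆ ≤ K
          rw [commutator_le]
          intro y hy g hg
          have : y ∈ W := by
            apply sup_le hHW hGW
            rw [hsup]
            exact hy
          exact this.2 g hg
        have h5 := Subgroup.card_le_of_le hfin
        rw [hch (i + 1) (by omega), hch (i + 2) (by omega)] at h5
        have h6 := (Nat.pow_le_pow_iff_right hpp.one_lt).1 h5
        omega

end chain

/-- S0663. -/
theorem main (N G : Subgroup L) (hN : IsPGroup p N) (hG : IsPGroup p G)
    (hGN : G ≤ normalizer (N : Set L)) (n : ℕ) (hn : Nat.card N = p ^ n) :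
    ((∀ H : Subgroup L, H ≤ N → G ≤ normalizer (H : Set L) → H ≠ ⊥ → (⁅H, G⁆).relIndex H = p) ↔
      iterCommutator N G (n - 1) ≠ ⊥ ∨ n = 0) ∧
    ((∀ H : Subgroup L, H ≤ N → G ≤ normalizer (H : Set L) → H ≠ ⊥ → (⁅H, G⁆).relIndex H = p) →
      ∀ H : Subgroup L, H ≤ N → G ≤ normalizer (H : Set L) →
        (∃ i ≤ n, H = iterCommutator N G i) ∧ N ≤ normalizer (H : Set L)) := by
  have hpp := hp.out
  have hcl : ∀ hch : (∀ i, i ≤ n → Nat.card (iterCommutator N G i) = p ^ (n - i)),
      ∀ H : Subgroup L, H ≤ N → G ≤ normalizer (H : Set L) →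
        (∃ i ≤ n, H = iterCommutator N G i) ∧ N ≤ normalizer (H : Set L) := by
    intro hch H hH hGH
    obtain ⟨j, -, hj2, hj3⟩ := classify hN hG hGN n hch n 0 (by omega) H hH hGH
    refine ⟨⟨j, hj2, hj3⟩, ?_⟩
    rw [hj3]
    exact le_sup_right.trans (gam_T_norm hN hG hGN n hch j hj2)
  have huni : ∀ hch : (∀ i, i ≤ n → Nat.card (iterCommutator N G i) = p ^ (n - i)),
      ∀ H : Subgroup L, H ≤ N → G ≤ normalizer (H : Set L) → H ≠ ⊥ → (⁅H, G⁆).relIndex H = p := by
    intro hch H hH hGH hne
    obtain ⟨⟨j, hj2, hj3⟩, -⟩ := hcl hch H hH hGH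
    have hjlt : j < n := by
      rcases Nat.lt_or_ge j n with h | h
      · exact h
      · exfalso
        have h0 : j = n := by omega
        subst h0
        apply hne
        rw [hj3]
        apply (Subgroup.card_eq_one).1
        rw [hch j le_rfl]
        simp
    rw [hj3]
    have h1 := card_mul_relIndex (gam_succ_le (N := N) (G := G) hGN j)
    rw [hch (j + 1) (by omega), hch j hj2] at h1
    have h6 : n - j = (n - (j + 1)) + 1 := by omega
    rw [h6, pow_succ] at h1
    have h2 := Nat.eq_of_mul_eq_mul_left (pow_pos hpp.pos _) h1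
    exact h2
  refine ⟨⟨?_, ?_⟩, ?_⟩
  · intro h
    by_cases hn0 : n = 0
    · exact Or.inr hn0
    · left
      have hch := chain_of_uni hN hG hGN n hn h
      intro h0
      have h1 := hch (n - 1) (by omega)
      rw [h0] at h1
      have h2 : 1 = p ^ (n - (n - 1)) := by
        rw [← h1]
        simp
      have h3 : 1 < p ^ (n - (n - 1)) := Nat.one_lt_pow (by omega) hpp.one_lt
      omega
  · intro h
    have hch : ∀ i, i ≤ n → Nat.card (iterCommutator N G i) = p ^ (n - i) := by
      rcases h with h | h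
      · by_cases hn0 : n = 0
        · subst hn0
          intro i hi
          have : i = 0 := by omega
          subst this
          exact hn
        · exact chain_of_ne hN hG hGN n hn h hn0
      · subst h
        intro i hi
        have : i = 0 := by omega
        subst this
        exact hn
    exact huni hch
  · intro h
    exact hcl (chain_of_uni hN hG hGN n hn h)

end CfsgLib.Uniserial
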