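import Mathlib
import Cfsg.Agent.Lib.H3.Signal
import Cfsg.Agent.Lib.H3.Uniserial
import Cfsg.Agent.Lib.PLocal.BestOffender
import Cfsg.Agent.Lib.PLocal.Core
import Cfsg.Agent.Lib.PLocal.ThompsonSub
import Cfsg.Agent.Lib.PLocal.CoreLift
import Cfsg.Agent.Lib.Solv.Act

/-! # The structure theorem for best offenders: first steps. -/

set_option autoImplicit false
set_option linter.unusedSectionVars false
set_option linter.unusedVariables false

namespace CfsgLib.BestOff

open Subgroup Cfsg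
open scoped commutatorElement

variable {G : Type*} [Group G] [Finite G] {p : ℕ} [hp : Fact p.Prime]

/-- The standing hypotheses. -/
structure Setup (p : ℕ) (V H D : Subgroup G) : Prop where
  hV : IsElementaryAbelian p V
  hHV : H ≤ normalizer (V : Set G)
  hf : H ⊓ centralizer (V : Set G) = ⊥
  hDH : D ≤ H
  hDn : H ≤ normalizer (D : Set G)
  hDp : (Nat.card D).Coprime p
  hc : ∀ a ∈ H, (∀ d ∈ D, a * d = d * a) → a ∈ D

theorem setup_of {V H : Subgroup G} (hV : IsElementaryAbelian p V) (hHV : H ≤ normalizer (V : Set G))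
    (hf : H ⊓ centralizer (V : Set G) = ⊥)
    (hS1 : centralizer (pPrimeCore p ↥H : Set ↥H) ≤ pPrimeCore p ↥H) :
    Setup p V H ((pPrimeCore p ↥H).map H.subtype) := by
  refine ⟨hV, hHV, hf, ?_, ?_, ?_, ?_⟩
  · rintro _ ⟨x, -, rfl⟩
    exact x.2
  · intro h hh
    apply CfsgLib.PLocal.mem_normalizer_of_conj_le
    rintro _ ⟨x, hx, rfl⟩
    have hn : (pPrimeCore p ↥H).Normal := CfsgLib.PLocal.pPrimeCore_normal'
    exact ⟨_, hn.conj_mem x hx ⟨h, hh⟩, rfl⟩
  · rw [Subgroup.card_map_of_injective (subtype_injective H)]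
    exact CfsgLib.PLocal.pPrimeCore_coprime
  · intro a ha h1
    have : (⟨a, ha⟩ : H) ∈ pPrimeCore p ↥H := by
      apply hS1
      rw [mem_centralizer_iff]
      intro d hd
      apply Subtype.ext
      exact (h1 (d : G) ⟨d, hd, rfl⟩).symm
    exact ⟨_, this, rfl⟩

/-- `m(X) = |X| |C_V(X)|`. -/
noncomputable def m (V X : Subgroup G) : ℕ := Nat.card X * Nat.card ↥(V ⊓ centralizer (X : Set G))

theorem m_bot (V : Subgroup G) : m V ⊥ = Nat.card V := by
  unfold m
  have : V ⊓ centralizer ((⊥ : Subgroup G) : Set G) = V := by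
    rw [inf_eq_left]
    intro x _
    rw [mem_centralizer_iff]
    intro y hy
    have : y = 1 := by simpa using hy
    rw [this]
    group
  rw [this, Subgroup.card_bot, one_mul]

/-- Nontrivial fixed points of `p`-groups on `p`-groups. -/
theorem exists_fixed {C : Subgroup G} (hC : IsPGroup p C) :
    ∀ (n : ℕ) (X : Subgroup G), Nat.card X = n → IsPGroup p X → C ≤ normalizer (X : Set G) → X ≠ ⊥ →
      ∃ x ∈ X, x ≠ 1 ∧ ∀ c ∈ C, c * x = x * c := by
  intro n
  induction n using Nat.strong_induction_on with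
  | _ n ih =>
  intro X hXn hX hn hne
  by_cases h0 : ⁅X, C⁆ = ⊥
  · obtain ⟨x, hx⟩ := (Subgroup.ne_bot_iff_exists_ne_one (H := X)).1 hne
    refine ⟨x, x.2, fun h => hx (Subtype.ext h), ?_⟩
    intro c hc
    have h1 : ⁅(x : G), c⁆ ∈ ⁅X, C⁆ := commutator_mem_commutator x.2 hc
    rw [h0, mem_bot, commutatorElement_eq_one_iff_mul_comm] at h1
    exact h1.symm
  · have hle := CfsgLib.Uniserial.comm_le hn
    have hne' : ⁅X, C⁆ ≠ X := by
      intro h1
      exact hne (CfsgLib.PLocal.eq_bot_of_le_commutator (p := p) hX hC hn h1.ge)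
    have hlt : Nat.card (⁅X, C⁆ : Subgroup G) < n := by
      rw [← hXn]
      exact (Subgroup.card_le_of_le hle).lt_of_ne
        (fun h => hne' (Subgroup.eq_of_le_of_card_ge hle h.ge))
    obtain ⟨x, hx1, hx2, hx3⟩ := ih _ hlt _ rfl (hX.to_le hle) (CfsgLib.Uniserial.norm_comm hn) h0
    exact ⟨x, hle hx1, hx2, hx3⟩

theorem norm_comm2 {X Y : Subgroup G} {c : G} (h1 : c ∈ normalizer (X : Set G))
    (h2 : c ∈ normalizer (Y : Set G)) : c ∈ normalizer ((⁅X, Y⁆ : Subgroup G) : Set G) := by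
  apply CfsgLib.PLocal.mem_normalizer_of_conj_le
  have hle : ⁅X, Y⁆ ≤ (⁅X, Y⁆).comap (MulAut.conj c).toMonoidHom := by
    rw [commutator_le]
    intro h hh y hy
    show c * ⁅h, y⁆ * c⁻¹ ∈ ⁅X, Y⁆
    have e : c * ⁅h, y⁆ * c⁻¹ = ⁅c * h * c⁻¹, c * y * c⁻¹⁆ := by
      simp only [commutatorElement_def]
      group
    rw [e]
    exact commutator_mem_commutator ((mem_normalizer_iff.1 h1 h).1 hh) ((mem_normalizer_iff.1 h2 y).1 hy)
  exact fun z hz => hle hz

section key

variable {V H D : Subgroup G}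

/-- The key lemma. -/
theorem key (S : Setup p V H D) {C B : Subgroup G} (hCH : C ≤ H) (hCp : IsPGroup p C)
    (hCc : ∀ a ∈ C, ∀ b ∈ C, a * b = b * a) (hBC : B ≤ C)
    (hU : V ⊓ centralizer (B : Set G) = V ⊓ centralizer (C : Set G)) :
    ∀ x ∈ D ⊓ centralizer (B : Set G), ∀ c ∈ C, x * c = c * x := by
  classical
  set R := D ⊓ centralizer (B : Set G) with hR
  have hRD : R ≤ D := inf_le_left
  have hCR : C ≤ normalizer (R : Set G) := by
    intro c hc
    apply CfsgLib.PLocal.mem_normalizer_of_conj_le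
    intro x hx
    obtain ⟨hx1, hx2⟩ := mem_inf.1 hx
    refine mem_inf.2 ⟨(mem_normalizer_iff.1 (S.hDn (hCH hc)) x).1 hx1, ?_⟩
    rw [mem_centralizer_iff]
    intro b hb
    have h1 := hCc b (hBC hb) c hc
    have h2 := mem_centralizer_iff.1 hx2 b hb
    have h3 : b * c⁻¹ = c⁻¹ * b := by
      rw [eq_inv_mul_iff_mul_eq, ← mul_assoc, ← h1, mul_assoc, mul_inv_cancel, mul_one]
    calc b * (c * x * c⁻¹) = (b * c) * x * c⁻¹ := by group
      _ = (c * b) * x * c⁻¹ := by rw [h1]
      _ = c * (b * x) * c⁻¹ := by group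
      _ = c * (x * b) * c⁻¹ := by rw [h2]
      _ = c * x * (b * c⁻¹) := by group
      _ = c * x * (c⁻¹ * b) := by rw [h3]
      _ = c * x * c⁻¹ * b := by group
  set T : Subgroup G := ⁅R, C⁆ with hT
  have hTR : T ≤ R := CfsgLib.Uniserial.comm_le hCR
  have hTH : T ≤ H := hTR.trans (hRD.trans S.hDH)
  have hCT : C ≤ normalizer (T : Set G) := CfsgLib.Uniserial.norm_comm hCR
  have hTU : T ≤ centralizer ((V ⊓ centralizer (C : Set G) : Subgroup G) : Set G) := by
    rw [hT, commutator_le]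
    intro x hx c hc
    rw [mem_centralizer_iff]
    intro u hu
    obtain ⟨hu1, hu2⟩ := mem_inf.1 hu
    have hcu : ∀ e ∈ C, e * u = u * e := fun e he => mem_centralizer_iff.1 hu2 e he
    have hxc : ∀ b ∈ B, b * x = x * b := fun b hb => mem_centralizer_iff.1 (mem_inf.1 hx).2 b hb
    set u₁ := x⁻¹ * u * x with hu₁
    have hxH : x ∈ H := S.hDH (hRD hx)
    have hu₁V : u₁ ∈ V := by
      have := (mem_normalizer_iff.1 (S.hHV (H.inv_mem hxH)) u).1 hu1
      simpa [hu₁] using this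
    have hu₁B : u₁ ∈ V ⊓ centralizer (C : Set G) := by
      rw [← hU]
      refine mem_inf.2 ⟨hu₁V, ?_⟩
      rw [mem_centralizer_iff]
      intro b hb
      have h1 : b * u = u * b := hcu b (hBC hb)
      have h2 : b * x = x * b := hxc b hb
      have h3 : b * x⁻¹ = x⁻¹ * b := by
        rw [eq_inv_mul_iff_mul_eq, ← mul_assoc, ← h2, mul_assoc, mul_inv_cancel, mul_one]
      rw [hu₁]
      calc b * (x⁻¹ * u * x) = (b * x⁻¹) * u * x := by group
        _ = x⁻¹ * (b * u) * x := by rw [h3]; group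
        _ = x⁻¹ * u * (b * x) := by rw [h1]; group
        _ = x⁻¹ * u * x * b := by rw [h2]; group
    have hcu₁ : c * u₁ = u₁ * c := mem_centralizer_iff.1 (mem_inf.1 hu₁B).2 c hc
    have hcu0 : c * u = u * c := hcu c hc
    have hxu : x * u₁ = u * x := by
      rw [hu₁]
      group
    -- the computation
    have e1 : ⁅x, c⁆ * u = x * c * x⁻¹ * (c⁻¹ * u) := by
      rw [commutatorElement_def]
      group
    have e2 : c⁻¹ * u = u * c⁻¹ := by
      rw [inv_mul_eq_iff_eq_mul, ← mul_assoc, hcu0, mul_assoc, mul_inv_cancel, mul_one]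
    have e3 : x⁻¹ * u = u₁ * x⁻¹ := by
      rw [hu₁]
      group
    have e4 : c * u₁ = u₁ * c := hcu₁
    calc u * ⁅x, c⁆ = u * (x * c * x⁻¹ * c⁻¹) := by rw [commutatorElement_def]
      _ = (u * x) * c * x⁻¹ * c⁻¹ := by group
      _ = (x * u₁) * c * x⁻¹ * c⁻¹ := by rw [hxu]
      _ = x * (u₁ * c) * x⁻¹ * c⁻¹ := by group
      _ = x * (c * u₁) * x⁻¹ * c⁻¹ := by rw [e4]
      _ = x * c * (u₁ * x⁻¹) * c⁻¹ := by group
      _ = x * c * (x⁻¹ * u) * c⁻¹ := by rw [e3]
      _ = x * c * x⁻¹ * (u * c⁻¹) := by group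
      _ = x * c * x⁻¹ * (c⁻¹ * u) := by rw [e2]
      _ = ⁅x, c⁆ * u := e1.symm
  -- the action on `V`
  have hTV : T ≤ normalizer (V : Set G) := hTH.trans S.hHV
  set X : Subgroup G := ⁅V, T⁆ with hX
  have hXV : X ≤ V := CfsgLib.Uniserial.comm_le hTV
  have hVp : IsPGroup p V := CfsgLib.PLocal.isPGroup_of_elemAb S.hV
  have hCX : C ≤ normalizer (X : Set G) := fun c hc =>
    norm_comm2 (S.hHV (hCH hc)) (hCT hc)
  have hTD : T ≤ D := hTR.trans hRD
  haveI hVab : IsMulCommutative V := S.hV.1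
  have hcop : (Nat.card T).Coprime (Nat.card V) := by
    obtain ⟨k, hk⟩ := IsPGroup.iff_card.1 hVp
    rw [hk]
    apply Nat.Coprime.pow_right
    exact Nat.Coprime.coprime_dvd_left (Subgroup.card_dvd_of_le hTD) S.hDp
  have hinf := CfsgLib.Solv.inf_centralizer_commutator_eq_bot T V hTV hcop
  have hX0 : X = ⊥ := by
    by_contra hne
    obtain ⟨x₀, hx₀, hne₀, hfix⟩ := exists_fixed hCp _ X rfl (hVp.to_le hXV) hCX hne
    have h1 : x₀ ∈ V ⊓ centralizer (C : Set G) :=
      mem_inf.2 ⟨hXV hx₀, mem_centralizer_iff.2 hfix⟩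
    have h2 : x₀ ∈ centralizer (T : Set G) := by
      rw [mem_centralizer_iff]
      intro t ht
      exact (mem_centralizer_iff.1 (hTU ht) x₀ h1).symm
    have h3 : x₀ ∈ (V ⊓ centralizer (T : Set G)) ⊓ ⁅V, T⁆ := mem_inf.2 ⟨mem_inf.2 ⟨hXV hx₀, h2⟩, hx₀⟩
    rw [hinf] at h3
    exact hne₀ (mem_bot.1 h3)
  have hTb : T = ⊥ := by
    rw [eq_bot_iff]
    intro t ht
    rw [← S.hf]
    refine mem_inf.2 ⟨hTH ht, ?_⟩
    rw [mem_centralizer_iff]
    intro v hv
    have h1 : ⁅v, t⁆ ∈ X := commutator_mem_commutator hv ht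
    rw [hX0, mem_bot, commutatorElement_eq_one_iff_mul_comm] at h1
    exact h1
  intro x hx c hc
  have h1 : ⁅x, c⁆ ∈ T := commutator_mem_commutator hx hc
  rw [hTb, mem_bot, commutatorElement_eq_one_iff_mul_comm] at h1
  exact h1

/-- There is a tight hyperplane different from any given one. -/
theorem exists_tight (S : Setup p V H D) {C : Subgroup G} (hCH : C ≤ H) (hCe : IsElementaryAbelian p C)
    (hnc : ¬ IsCyclic C) (B₀ : Subgroup G) (hB₀ : B₀ ≤ C) (hB₀i : B₀.relIndex C = p) :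
    ∃ B : Subgroup G, B ≤ C ∧ B.relIndex C = p ∧ B ≠ B₀ ∧
      V ⊓ centralizer (B : Set G) ≠ V ⊓ centralizer (C : Set G) := by
  classical
  have hpp := hp.out
  have hCp : IsPGroup p C := CfsgLib.PLocal.isPGroup_of_elemAb hCe
  have hCc : ∀ a ∈ C, ∀ b ∈ C, a * b = b * a := by
    intro a ha b hb
    haveI := hCe.1
    exact congrArg Subtype.val (mul_comm' (⟨a, ha⟩ : C) ⟨b, hb⟩)
  by_contra hcon
  push Not at hcon
  have hDp' : ¬ p ∣ Nat.card D := fun h => by
    have := Nat.dvd_gcd h (dvd_refl p)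
    rw [S.hDp.gcd_eq_one] at this
    exact hpp.one_lt.ne' (Nat.dvd_one.1 this)
  have hCD : C ≤ normalizer (D : Set G) := hCH.trans S.hDn
  have hgen := CfsgLib.Signal.gen_coprime (p := p) C D hCc hCe.2 hDp' hCD
  have hDc : D ≤ centralizer (B₀ : Set G) := by
    rw [hgen]
    refine iSup_le ?_
    rintro ⟨B, hBC, hBi⟩
    by_cases hBeq : B = B₀
    · subst hBeq
      exact inf_le_right
    · by_cases hBC' : B = C
      · subst hBC'
        exact inf_le_right.trans (centralizer_le hB₀)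
      · have hi : B.relIndex C = p := by
          have h1 : B.relIndex C ∣ Nat.card C := Subgroup.relIndex_dvd_card _ _
          obtain ⟨k, hk⟩ := IsPGroup.iff_card.1 hCp
          rw [hk] at h1
          obtain ⟨j, -, hj⟩ := (Nat.dvd_prime_pow hpp).1 h1
          rw [hj] at hBi ⊢
          have hj1 : j ≠ 0 := by
            rintro rfl
            rw [pow_zero] at hj
            apply hBC'
            exact Subgroup.eq_of_le_of_card_ge hBC (by
              have := CfsgLib.Uniserial.card_mul_relIndex hBC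
              rw [hj, mul_one] at this
              exact this.ge)
          have hj2 : j ≤ 1 := by
            by_contra hc
            have h2 : p ^ 2 ≤ p ^ j := Nat.pow_le_pow_right hpp.pos (by omega)
            have h3 : p < p ^ 2 := by nlinarith [hpp.two_le]
            omega
          have : j = 1 := by omega
          rw [this, pow_one]
        have hU := hcon B hBC hi hBeq
        intro x hx
        rw [mem_centralizer_iff]
        intro b hb
        have h1 := key S hCH hCp hCc hBC hU x hx b (hB₀ hb)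
        exact h1.symm
  -- so `B₀` centralizes `D`
  have hB₀D : B₀ ≤ D := by
    intro b hb
    apply S.hc b (hCH (hB₀ hb))
    intro d hd
    exact mem_centralizer_iff.1 (hDc hd) b hb
  have hB₀bot : B₀ = ⊥ := by
    have h1 : IsPGroup p B₀ := hCp.to_le hB₀
    have h2 : (Nat.card B₀).Coprime p := Nat.Coprime.coprime_dvd_left (Subgroup.card_dvd_of_le hB₀D) S.hDp
    obtain ⟨k, hk⟩ := IsPGroup.iff_card.1 h1
    rw [hk] at h2
    have h3 : k = 0 := by
      by_contra hk0
      have := Nat.Coprime.eq_one_of_dvd (h2.symm) (dvd_pow_self p hk0)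
      exact hpp.one_lt.ne' this
    rw [h3, pow_zero] at hk
    exact (Subgroup.card_eq_one).1 hk
  apply hnc
  have hc := CfsgLib.Uniserial.card_mul_relIndex hB₀
  rw [hB₀i, hB₀bot, Subgroup.card_bot, one_mul] at hc
  exact isCyclic_of_prime_card hc.symm

/-- Existence of a hyperplane. -/
theorem exists_hyperplane {C : Subgroup G} (hCp : IsPGroup p C) (hne : C ≠ ⊥) :
    ∃ B : Subgroup G, B ≤ C ∧ B.relIndex C = p := by
  classical
  have hpp := hp.out
  obtain ⟨k, hk⟩ := IsPGroup.iff_card.1 hCp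
  have hk0 : k ≠ 0 := by
    rintro rfl
    rw [pow_zero] at hk
    exact hne ((Subgroup.card_eq_one).1 hk)
  obtain ⟨j, rfl⟩ := Nat.exists_eq_succ_of_ne_zero hk0
  obtain ⟨K, hK⟩ := Sylow.exists_subgroup_card_pow_prime (G := C) p (n := j)
    (by rw [hk]; exact pow_dvd_pow p (Nat.le_succ j))
  refine ⟨K.map C.subtype, ?_, ?_⟩
  · rintro _ ⟨x, -, rfl⟩
    exact x.2
  · have h1 := CfsgLib.Uniserial.card_mul_relIndex (H := K.map C.subtype) (K := C) (by
      rintro _ ⟨x, -, rfl⟩
      exact x.2)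
    rw [Subgroup.card_map_of_injective (subtype_injective C), hK, hk, Nat.succ_eq_add_one, pow_succ] at h1
    exact Nat.eq_of_mul_eq_mul_left (pow_pos hpp.pos _) h1

/-- Comparing `m` on a tight hyperplane. -/
theorem m_le_of_tight (hV : IsElementaryAbelian p V) {B C : Subgroup G} (hBC : B ≤ C) (hi : B.relIndex C = p)
    (hne : V ⊓ centralizer (B : Set G) ≠ V ⊓ centralizer (C : Set G)) : m V C ≤ m V B := by
  have hpp := hp.out
  have hVp : IsPGroup p V := CfsgLib.PLocal.isPGroup_of_elemAb hV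
  have hle : V ⊓ centralizer (C : Set G) ≤ V ⊓ centralizer (B : Set G) :=
    inf_le_inf_left _ (centralizer_le hBC)
  have h1 := CfsgLib.Uniserial.card_mul_relIndex hle
  have h2 := CfsgLib.Uniserial.card_mul_relIndex hBC
  have h3 : p ≤ (V ⊓ centralizer (C : Set G)).relIndex (V ⊓ centralizer (B : Set G)) := by
    set r := (V ⊓ centralizer (C : Set G)).relIndex (V ⊓ centralizer (B : Set G)) with hr
    have h4 : r ∣ Nat.card ↥(V ⊓ centralizer (B : Set G)) := Subgroup.relIndex_dvd_card _ _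
    obtain ⟨k, hk⟩ := IsPGroup.iff_card.1 (hVp.to_le (inf_le_left : V ⊓ centralizer (B : Set G) ≤ V))
    rw [hk] at h4
    obtain ⟨j, -, hj⟩ := (Nat.dvd_prime_pow hpp).1 h4
    have hj0 : j ≠ 0 := by
      rintro rfl
      rw [pow_zero] at hj
      rw [hj, mul_one] at h1
      exact hne (Subgroup.eq_of_le_of_card_ge hle h1.ge).symm
    rw [hj]
    calc p = p ^ 1 := (pow_one p).symm
      _ ≤ p ^ j := Nat.pow_le_pow_right hpp.pos (by omega)
  unfold m
  rw [← h2, ← h1, hi]
  calc Nat.card B * p * Nat.card ↥(V ⊓ centralizer (C : Set G))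
      = Nat.card B * (Nat.card ↥(V ⊓ centralizer (C : Set G)) * p) := by ring
    _ ≤ _ := Nat.mul_le_mul_left _ (Nat.mul_le_mul_left _ h3)

theorem elem_of_bo (S : Setup p V H D) {A : Subgroup G} (hAH : A ≤ H) (hA : IsBestOffenderOn p V A) :
    IsElementaryAbelian p A := by
  refine ⟨⟨⟨?_⟩⟩, ?_⟩
  · rintro ⟨a, ha⟩ ⟨b, hb⟩
    apply Subtype.ext
    have h1 : ⁅a, b⁆ ∈ H ⊓ centralizer (V : Set G) := by
      refine mem_inf.2 ⟨?_, hA.2.1 (commutator_mem_commutator ha hb)⟩
      exact H.mul_mem (H.mul_mem (H.mul_mem (hAH ha) (hAH hb)) (H.inv_mem (hAH ha))) (H.inv_mem (hAH hb))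
    rw [S.hf, mem_bot, commutatorElement_eq_one_iff_mul_comm] at h1
    exact h1
  · intro a ha
    have h1 : a ^ p ∈ H ⊓ centralizer (V : Set G) :=
      mem_inf.2 ⟨H.pow_mem (hAH ha) p, hA.2.2 a ha⟩
    rw [S.hf, mem_bot] at h1
    exact h1

theorem elem_mono {A B : Subgroup G} (hBA : B ≤ A) (hA : IsElementaryAbelian p A) : IsElementaryAbelian p B := by
  refine ⟨⟨⟨?_⟩⟩, fun a ha => hA.2 a (hBA ha)⟩
  rintro ⟨a, ha⟩ ⟨b, hb⟩
  haveI := hA.1
  have h : a * b = b * a := congrArg Subtype.val (mul_comm' (⟨a, hBA ha⟩ : A) ⟨b, hBA hb⟩)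
  exact Subtype.ext h

theorem card_of_cyclic {C : Subgroup G} (hC : IsElementaryAbelian p C) (hcyc : IsCyclic C) (hne : C ≠ ⊥) :
    Nat.card C = p := by
  have hpp := hp.out
  obtain ⟨g, hg⟩ := hcyc.exists_generator
  have h1 : orderOf g = Nat.card C := orderOf_eq_card_of_forall_mem_zpowers hg
  have h2 : g ^ p = 1 := by
    apply Subtype.ext
    exact hC.2 g g.2
  have h3 : orderOf g ∣ p := orderOf_dvd_of_pow_eq_one h2
  rcases (Nat.dvd_prime hpp).1 h3 with h4 | h4
  · exfalso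
    rw [h4] at h1
    exact hne ((Subgroup.card_eq_one).1 h1.symm)
  · rw [← h1, h4]

theorem p_mul_le (S : Setup p V H D) {C : Subgroup G} (hCH : C ≤ H) (hne : C ≠ ⊥) :
    p * Nat.card ↥(V ⊓ centralizer (C : Set G)) ≤ Nat.card V := by
  have hpp := hp.out
  have hVp : IsPGroup p V := CfsgLib.PLocal.isPGroup_of_elemAb S.hV
  have hle : V ⊓ centralizer (C : Set G) ≤ V := inf_le_left
  have h1 := CfsgLib.Uniserial.card_mul_relIndex hle
  set r := (V ⊓ centralizer (C : Set G)).relIndex V with hr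
  have h4 : r ∣ Nat.card V := Subgroup.relIndex_dvd_card _ _
  obtain ⟨k, hk⟩ := IsPGroup.iff_card.1 hVp
  rw [hk] at h4
  obtain ⟨j, -, hj⟩ := (Nat.dvd_prime_pow hpp).1 h4
  have hj0 : j ≠ 0 := by
    rintro rfl
    rw [pow_zero] at hj
    rw [hj, mul_one] at h1
    have h2 : V ⊓ centralizer (C : Set G) = V := Subgroup.eq_of_le_of_card_ge hle h1.ge
    apply hne
    rw [eq_bot_iff]
    intro c hc
    rw [← S.hf]
    refine mem_inf.2 ⟨hCH hc, ?_⟩
    rw [mem_centralizer_iff]
    intro v hv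
    rw [← h2] at hv
    have := mem_centralizer_iff.1 (mem_inf.1 hv).2 c hc
    exact this.symm
  have h3 : p ≤ r := by
    rw [hj]
    calc p = p ^ 1 := (pow_one p).symm
      _ ≤ p ^ j := Nat.pow_le_pow_right hpp.pos (by omega)
  rw [← h1, mul_comm]
  exact Nat.mul_le_mul_left _ h3

/-- S0610: `|A| |C_V(A)| = |V|`. -/
theorem main_card (S : Setup p V H D) {A : Subgroup G} (hAH : A ≤ H) (hA : IsBestOffenderOn p V A) :
    m V A = Nat.card V := by
  classical
  have hpp := hp.out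
  have hle1 : m V ⊥ ≤ m V A := hA.1 ⊥ bot_le
  rw [m_bot] at hle1
  refine le_antisymm ?_ hle1
  let F : Set (Subgroup G) := {C | C ≤ A ∧ m V C = m V A}
  obtain ⟨C, hC, hmin⟩ := Set.exists_min_image F (fun C => Nat.card C) (Set.toFinite F) ⟨A, le_rfl, rfl⟩
  rw [← hC.2]
  by_cases hbot : C = ⊥
  · rw [hbot, m_bot]
  have hCH : C ≤ H := hC.1.trans hAH
  have hCe : IsElementaryAbelian p C := elem_mono hC.1 (elem_of_bo S hAH hA)
  have hCp : IsPGroup p C := CfsgLib.PLocal.isPGroup_of_elemAb hCe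
  by_cases hcyc : IsCyclic C
  · unfold m
    rw [card_of_cyclic hCe hcyc hbot]
    exact p_mul_le S hCH hbot
  · exfalso
    obtain ⟨B₀, hB₀, hB₀i⟩ := exists_hyperplane hCp hbot
    obtain ⟨B, hBC, hBi, -, hBne⟩ := exists_tight S hCH hCe hcyc B₀ hB₀ hB₀i
    have h1 : m V C ≤ m V B := m_le_of_tight S.hV hBC hBi hBne
    have h2 : m V B ≤ m V A := hA.1 B (hBC.trans hC.1)
    have h3 : m V B = m V A := le_antisymm h2 (by rw [← hC.2]; exact h1)
    have h4 : Nat.card C ≤ Nat.card B := hmin B ⟨hBC.trans hC.1, h3⟩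
    have h5 := CfsgLib.Uniserial.card_mul_relIndex hBC
    rw [hBi] at h5
    have h6 : Nat.card B * 2 ≤ Nat.card B * p := Nat.mul_le_mul_left _ hpp.two_le
    have h7 : 0 < Nat.card B := Nat.card_pos
    omega

end key

/-- The order of a commutator with a cyclic group. -/
theorem card_comm_cyclic {V A : Subgroup G} (hV : IsElementaryAbelian p V) {a : G} (hA : A = zpowers a)
    (haV : a ∈ normalizer (V : Set G)) (hi : (V ⊓ centralizer (A : Set G)).relIndex V = p)
    (hne : ⁅V, A⁆ ≠ ⊥) : Nat.card (⁅V, A⁆ : Subgroup G) = p := by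
  classical
  have hpp := hp.out
  subst hA
  haveI hVab := hV.1
  have hcm : ∀ v ∈ V, ⁅v, a⁆ ∈ V := by
    intro v hv
    have : ⁅v, a⁆ = v * (a * v⁻¹ * a⁻¹) := by
      rw [commutatorElement_def]
      group
    rw [this]
    exact V.mul_mem hv ((mem_normalizer_iff.1 haV _).1 (V.inv_mem hv))
  have hVc : ∀ x ∈ V, ∀ y ∈ V, x * y = y * x := fun x hx y hy =>
    congrArg Subtype.val (mul_comm' (⟨x, hx⟩ : V) ⟨y, hy⟩)
  let φ : V →* V := MonoidHom.mk' (fun v => ⟨⁅(v : G), a⁆, hcm v v.2⟩) (by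
    intro u v
    apply Subtype.ext
    show ⁅(u : G) * v, a⁆ = ⁅(u : G), a⁆ * ⁅(v : G), a⁆
    have h1 : ⁅(u : G) * v, a⁆ = (u : G) * ⁅(v : G), a⁆ * (u : G)⁻¹ * ⁅(u : G), a⁆ := by
      simp only [commutatorElement_def]
      group
    have h2 := hVc u u.2 _ (hcm v v.2)
    rw [h1, h2]
    have h3 := hVc _ (hcm u u.2) _ (hcm v v.2)
    rw [mul_inv_cancel_right, h3] )
  have hker : φ.ker = (V ⊓ centralizer (zpowers a : Set G)).subgroupOf V := by
    ext v
    constructor
    · intro hv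
      have h1 : ⁅(v : G), a⁆ = 1 := congrArg Subtype.val (MonoidHom.mem_ker.1 hv)
      rw [commutatorElement_eq_one_iff_mul_comm] at h1
      have h2 : zpowers a ≤ centralizer ({(v : G)} : Set G) := by
        rw [zpowers_le, mem_centralizer_iff]
        intro z hz
        rw [Set.mem_singleton_iff] at hz
        rw [hz]
        exact h1
      refine mem_subgroupOf.2 (mem_inf.2 ⟨v.2, ?_⟩)
      rw [mem_centralizer_iff]
      intro y hy
      exact (mem_centralizer_iff.1 (h2 hy) v rfl).symm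
    · intro hv
      have h1 := mem_centralizer_iff.1 (mem_inf.1 (mem_subgroupOf.1 hv)).2 a (mem_zpowers a)
      apply MonoidHom.mem_ker.2
      apply Subtype.ext
      show ⁅(v : G), a⁆ = 1
      rw [commutatorElement_eq_one_iff_mul_comm]
      exact h1.symm
  have hcardI : Nat.card φ.range = p := by
    rw [← Subgroup.index_ker φ, hker]
    exact hi
  set I : Subgroup G := φ.range.map V.subtype with hI
  have hIcard : Nat.card I = p := by
    rw [hI, Subgroup.card_map_of_injective (subtype_injective V)]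
    exact hcardI
  have hgen : ∀ v ∈ V, ⁅v, a⁆ ∈ I := fun v hv => ⟨⟨⁅v, a⁆, hcm v hv⟩, ⟨⟨v, hv⟩, rfl⟩, rfl⟩
  have hpow : ∀ (k : ℕ) (v : G), v ∈ V → ⁅v, a ^ k⁆ ∈ I := by
    intro k
    induction k with
    | zero =>
      intro v _
      simp
    | succ k ih =>
      intro v hv
      have hv' : a * v * a⁻¹ ∈ V := (mem_normalizer_iff.1 haV v).1 hv
      have e : ⁅v, a ^ (k + 1)⁆ = ⁅v, a⁆ * ⁅a * v * a⁻¹, a ^ k⁆ := by
        rw [pow_succ']
        simp only [commutatorElement_def]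
        have hc : a⁻¹ * a ^ k * a = a ^ k := by
          rw [mul_assoc, ← pow_succ, pow_succ', inv_mul_cancel_left]
        have hc' : a * a ^ k * a⁻¹ = a ^ k := by
          rw [← pow_succ', pow_succ, mul_inv_cancel_right]
        have hc2 : a * (a ^ k)⁻¹ * a⁻¹ = (a ^ k)⁻¹ := by
          have := congrArg (·⁻¹) hc'
          simpa [mul_assoc] using this
        calc v * (a * a ^ k) * v⁻¹ * (a * a ^ k)⁻¹
            = v * a * v⁻¹ * a⁻¹ * (a * v * (a * a ^ k * a⁻¹) * v⁻¹ * a⁻¹ * (a ^ k)⁻¹) := by group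
          _ = v * a * v⁻¹ * a⁻¹ * (a * v * a ^ k * v⁻¹ * a⁻¹ * (a ^ k)⁻¹) := by rw [hc']
          _ = v * a * v⁻¹ * a⁻¹ * (a * v * a⁻¹ * (a * a ^ k * a⁻¹) * (a * v * a⁻¹)⁻¹ * (a ^ k)⁻¹) := by
              rw [hc']
              group
          _ = _ := by rw [hc']
      rw [e]
      exact I.mul_mem (hgen v hv) (ih _ hv')
  have hle : ⁅V, zpowers a⁆ ≤ I := by
    rw [commutator_le]
    intro v hv y hy
    obtain ⟨k, rfl⟩ := (mem_powers_iff_mem_zpowers).2 hy
    exact hpow k v hv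
  have h1 := Subgroup.card_dvd_of_le hle
  rw [hIcard] at h1
  rcases (Nat.dvd_prime hpp).1 h1 with h2 | h2
  · exact absurd ((Subgroup.card_eq_one).1 h2) hne
  · exact h2

section minimal

variable {V H D : Subgroup G}

/-- S0611. -/
theorem minimal_props (S : Setup p V H D) {A : Subgroup G} (hAH : A ≤ H) (hA : IsBestOffenderOn p V A)
    (hAV : ⁅V, A⁆ ≠ ⊥) (hmin : ∀ B : Subgroup G, B ≤ A → IsBestOffenderOn p V B → ⁅V, B⁆ ≠ ⊥ → B = A) :
    Nat.card A = p ∧ Nat.card ↥(⁅V, A⁆) = p ∧ (V ⊓ centralizer (A : Set G)).relIndex V = p := by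
  classical
  have hpp := hp.out
  have hAe := elem_of_bo S hAH hA
  have hAp : IsPGroup p A := CfsgLib.PLocal.isPGroup_of_elemAb hAe
  have hAbot : A ≠ ⊥ := by
    rintro rfl
    apply hAV
    rw [commutator_bot_right]
  have hcyc : IsCyclic A := by
    by_contra hnc
    obtain ⟨B₀, hB₀, hB₀i⟩ := exists_hyperplane hAp hAbot
    obtain ⟨B, hBC, hBi, -, hBne⟩ := exists_tight S hAH hAe hnc B₀ hB₀ hB₀i
    have h1 : m V A ≤ m V B := m_le_of_tight S.hV hBC hBi hBne
    have h2 : m V B ≤ m V A := hA.1 B hBC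
    have h3 : m V B = m V A := le_antisymm h2 h1
    have hBbo : IsBestOffenderOn p V B := by
      refine ⟨?_, (commutator_mono hBC hBC).trans hA.2.1, fun a ha => hA.2.2 a (hBC ha)⟩
      intro E hE
      have := hA.1 E (hE.trans hBC)
      change _ ≤ m V B
      rw [h3]
      exact this
    have hBbot : B ≠ ⊥ := by
      rintro rfl
      apply hnc
      have h5 := CfsgLib.Uniserial.card_mul_relIndex hBC
      rw [hBi, Subgroup.card_bot, one_mul] at h5
      exact isCyclic_of_prime_card h5.symm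
    have hBV : ⁅V, B⁆ ≠ ⊥ := by
      intro h0
      apply hBbot
      rw [eq_bot_iff]
      intro b hb
      rw [← S.hf]
      refine mem_inf.2 ⟨hAH (hBC hb), ?_⟩
      rw [mem_centralizer_iff]
      intro v hv
      have h1 : ⁅v, b⁆ ∈ ⁅V, B⁆ := commutator_mem_commutator hv hb
      rw [h0, mem_bot, commutatorElement_eq_one_iff_mul_comm] at h1
      exact h1
    have h4 := hmin B hBC hBbo hBV
    rw [h4, Subgroup.relIndex_self] at hBi
    exact hpp.one_lt.ne hBi
  have hcard := card_of_cyclic hAe hcyc hAbot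
  have hm := main_card S hAH hA
  have hi : (V ⊓ centralizer (A : Set G)).relIndex V = p := by
    have h1 := CfsgLib.Uniserial.card_mul_relIndex (inf_le_left : V ⊓ centralizer (A : Set G) ≤ V)
    unfold m at hm
    rw [hcard] at hm
    rw [← hm, mul_comm p] at h1
    exact Nat.eq_of_mul_eq_mul_left Nat.card_pos h1
  refine ⟨hcard, ?_, hi⟩
  obtain ⟨g, hg⟩ := hcyc.exists_generator
  have hAz : A = zpowers (g : G) := by
    apply le_antisymm
    · intro a ha
      obtain ⟨k, hk⟩ := hg ⟨a, ha⟩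
      refine ⟨k, ?_⟩
      exact congrArg Subtype.val hk
    · rw [zpowers_le]
      exact g.2
  exact card_comm_cyclic S.hV hAz (S.hHV (hAH g.2)) hi hAV

/-- Minimal nontrivially acting best offenders. -/
def IsMinBO (p : ℕ) (V E : Subgroup G) : Prop :=
  IsBestOffenderOn p V E ∧ ⁅V, E⁆ ≠ ⊥ ∧ ∀ C : Subgroup G, C ≤ E → IsBestOffenderOn p V C → ⁅V, C⁆ ≠ ⊥ → C = E

theorem gen_min (S : Setup p V H D) : ∀ (n : ℕ) (A : Subgroup G), Nat.card A = n → A ≤ H →
    IsBestOffenderOn p V A → A ≠ ⊥ → A ≤ sSup {E | E ≤ A ∧ IsMinBO p V E} := by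
  intro n
  induction n using Nat.strong_induction_on with
  | _ n ih =>
  intro A hAn hAH hA hAbot
  have hpp := hp.out
  have hAe := elem_of_bo S hAH hA
  have hAp : IsPGroup p A := CfsgLib.PLocal.isPGroup_of_elemAb hAe
  have hact : ∀ B : Subgroup G, B ≤ H → B ≠ ⊥ → ⁅V, B⁆ ≠ ⊥ := by
    intro B hBH hBbot h0
    apply hBbot
    rw [eq_bot_iff]
    intro b hb
    rw [← S.hf]
    refine mem_inf.2 ⟨hBH hb, ?_⟩
    rw [mem_centralizer_iff]
    intro v hv
    have h1 : ⁅v, b⁆ ∈ ⁅V, B⁆ := commutator_mem_commutator hv hb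
    rw [h0, mem_bot, commutatorElement_eq_one_iff_mul_comm] at h1
    exact h1
  by_cases hcyc : IsCyclic A
  · have hcard := card_of_cyclic hAe hcyc hAbot
    haveI : Fact (Nat.card A).Prime := ⟨by rw [hcard]; exact hpp⟩
    refine le_sSup ⟨le_rfl, hA, hact A hAH hAbot, ?_⟩
    intro C hCA _ hCV
    have hCbot : C ≠ ⊥ := by
      rintro rfl
      exact hCV (commutator_bot_right V)
    have h1 := Subgroup.card_dvd_of_le hCA
    rw [hcard] at h1
    rcases (Nat.dvd_prime hpp).1 h1 with h2 | h2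
    · exact absurd ((Subgroup.card_eq_one).1 h2) hCbot
    · exact Subgroup.eq_of_le_of_card_ge hCA (by rw [h2, hcard])
  · obtain ⟨B₀, hB₀, hB₀i⟩ := exists_hyperplane hAp hAbot
    obtain ⟨B₁, hB₁A, hB₁i, -, hB₁ne⟩ := exists_tight S hAH hAe hcyc B₀ hB₀ hB₀i
    obtain ⟨B₂, hB₂A, hB₂i, hB₂B₁, hB₂ne⟩ := exists_tight S hAH hAe hcyc B₁ hB₁A hB₁i
    have hbo : ∀ B : Subgroup G, B ≤ A → B.relIndex A = p →
        V ⊓ centralizer (B : Set G) ≠ V ⊓ centralizer (A : Set G) → IsBestOffenderOn p V B ∧ B ≠ ⊥ ∧ Nat.card B < n := by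
      intro B hBA hBi hBne
      have h1 : m V A ≤ m V B := m_le_of_tight S.hV hBA hBi hBne
      have h2 : m V B ≤ m V A := hA.1 B hBA
      have h3 : m V B = m V A := le_antisymm h2 h1
      have h5 := CfsgLib.Uniserial.card_mul_relIndex hBA
      refine ⟨⟨?_, (commutator_mono hBA hBA).trans hA.2.1, fun a ha => hA.2.2 a (hBA ha)⟩, ?_, ?_⟩
      · intro E hE
        have := hA.1 E (hE.trans hBA)
        change _ ≤ m V B
        rw [h3]
        exact this
      · rintro rfl
        apply hcyc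
        rw [hBi, Subgroup.card_bot, one_mul] at h5
        exact isCyclic_of_prime_card h5.symm
      · rw [hBi] at h5
        rw [← hAn, ← h5]
        have h6 : 0 < Nat.card B := Nat.card_pos
        nlinarith [hpp.two_le]
    obtain ⟨hb1, hb1bot, hb1lt⟩ := hbo B₁ hB₁A hB₁i hB₁ne
    obtain ⟨hb2, hb2bot, hb2lt⟩ := hbo B₂ hB₂A hB₂i hB₂ne
    have hsup : B₁ ⊔ B₂ = A := by
      have h1 : B₁ ⊔ B₂ ≤ A := sup_le hB₁A hB₂A
      have h2 : B₁ ≠ B₁ ⊔ B₂ := by
        intro h0
        have h3 : B₂ ≤ B₁ := by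
          rw [h0]
          exact le_sup_right
        apply hB₂B₁
        apply Subgroup.eq_of_le_of_card_ge h3
        have h4 := CfsgLib.Uniserial.card_mul_relIndex hB₁A
        have h5 := CfsgLib.Uniserial.card_mul_relIndex hB₂A
        rw [hB₁i] at h4
        rw [hB₂i] at h5
        rw [← h5] at h4
        exact (Nat.eq_of_mul_eq_mul_right hpp.pos h4).le
      have h6 := CfsgLib.Uniserial.card_mul_relIndex (le_sup_left : B₁ ≤ B₁ ⊔ B₂)
      have h7 := CfsgLib.Uniserial.card_mul_relIndex hB₁A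
      rw [hB₁i] at h7
      have h8 : Nat.card ↥(B₁ ⊔ B₂) ∣ Nat.card A := Subgroup.card_dvd_of_le h1
      rw [← h6, ← h7] at h8
      have h9 := Nat.dvd_of_mul_dvd_mul_left Nat.card_pos h8
      rcases (Nat.dvd_prime hpp).1 h9 with h10 | h10
      · exfalso
        rw [h10, mul_one] at h6
        exact h2 (Subgroup.eq_of_le_of_card_ge le_sup_left h6.ge)
      · apply Subgroup.eq_of_le_of_card_ge h1
        rw [← h6, ← h7, h10]
    have hmono : ∀ B : Subgroup G, B ≤ A → sSup {E | E ≤ B ∧ IsMinBO p V E} ≤ sSup {E | E ≤ A ∧ IsMinBO p V E} := by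
      intro B hBA
      apply sSup_le
      rintro E ⟨hE1, hE2⟩
      exact le_sSup ⟨hE1.trans hBA, hE2⟩
    rw [← hsup]
    rw [hsup]
    conv_lhs => rw [← hsup]
    exact sup_le ((ih _ hb1lt B₁ rfl (hB₁A.trans hAH) hb1 hb1bot).trans (hmono B₁ hB₁A))
      ((ih _ hb2lt B₂ rfl (hB₂A.trans hAH) hb2 hb2bot).trans (hmono B₂ hB₂A))

lemma mem_sup_of_comm {X Y : Subgroup G} (hc : ∀ x ∈ X, ∀ y ∈ Y, x * y = y * x) {z : G} (hz : z ∈ X ⊔ Y) :
    ∃ x ∈ X, ∃ y ∈ Y, x * y = z := by
  let P : Subgroup G :=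
    { carrier := {z | ∃ x ∈ X, ∃ y ∈ Y, x * y = z}
      mul_mem' := by
        rintro _ _ ⟨x, hx, y, hy, rfl⟩ ⟨x', hx', y', hy', rfl⟩
        refine ⟨x * x', X.mul_mem hx hx', y * y', Y.mul_mem hy hy', ?_⟩
        calc x * x' * (y * y') = x * (x' * y) * y' := by group
          _ = x * (y * x') * y' := by rw [hc x' hx' y hy]
          _ = _ := by group
      one_mem' := ⟨1, X.one_mem, 1, Y.one_mem, by simp⟩
      inv_mem' := by
        rintro _ ⟨x, hx, y, hy, rfl⟩
        refine ⟨x⁻¹, X.inv_mem hx, y⁻¹, Y.inv_mem hy, ?_⟩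
        have h1 := hc x⁻¹ (X.inv_mem hx) y⁻¹ (Y.inv_mem hy)
        rw [h1]
        group }
  have hle : X ⊔ Y ≤ P := sup_le (fun x hx => ⟨x, hx, 1, Y.one_mem, by simp⟩)
    (fun y hy => ⟨1, X.one_mem, y, hy, by simp⟩)
  exact hle hz

theorem exists_indep {A : Subgroup G} (hAc : ∀ a ∈ A, ∀ b ∈ A, a * b = b * a) {q : ℕ} (hq : q.Prime)
    (F : Finset (Subgroup G)) (hF : ∀ E ∈ F, E ≤ A ∧ Nat.card E = q) :
    ∃ (k : ℕ) (B : Fin k → Subgroup G), (∀ i, B i ∈ F) ∧ iSupIndep B ∧ (⨆ i, B i) = F.sup id := by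
  classical
  induction F using Finset.induction_on with
  | empty =>
    refine ⟨0, Fin.elim0, fun i => i.elim0, ?_, ?_⟩
    · intro i
      exact i.elim0
    · simp
  | insert E F hE ih =>
    obtain ⟨k, B, hB1, hB2, hB3⟩ := ih (fun E' hE' => hF E' (Finset.mem_insert_of_mem hE'))
    have hEA := hF E (Finset.mem_insert_self E F)
    by_cases hEX : E ≤ ⨆ i, B i
    · refine ⟨k, B, fun i => Finset.mem_insert_of_mem (hB1 i), hB2, ?_⟩
      rw [Finset.sup_insert, hB3]
      rw [hB3] at hEX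
      simp only [id]
      exact (sup_eq_right.2 hEX).symm
    · set X := ⨆ i, B i with hX
      have hXA : X ≤ A := iSup_le fun i => (hF _ (Finset.mem_insert_of_mem (hB1 i))).1
      have hdis : E ⊓ X = ⊥ := by
        have h1 : Nat.card ↥(E ⊓ X) ∣ Nat.card E := Subgroup.card_dvd_of_le inf_le_left
        rw [hEA.2] at h1
        rcases (Nat.dvd_prime hq).1 h1 with h2 | h2
        · exact (Subgroup.card_eq_one).1 h2
        · exfalso
          apply hEX
          have h3 : E ⊓ X = E := Subgroup.eq_of_le_of_card_ge inf_le_left (by rw [h2, hEA.2])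
          rw [← h3]
          exact inf_le_right
      refine ⟨k + 1, Fin.cons E B, ?_, ?_, ?_⟩
      · intro i
        refine Fin.cases ?_ (fun j => ?_) i
        · simpa using Finset.mem_insert_self E F
        · simpa using Finset.mem_insert_of_mem (hB1 j)
      · rw [iSupIndep_def]
        intro i
        refine Fin.cases ?_ (fun j => ?_) i
        · simp only [Fin.cons_zero]
          rw [disjoint_iff, eq_bot_iff, ← hdis]
          apply inf_le_inf_left
          refine iSup₂_le fun j hj => ?_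
          refine Fin.cases (fun h => absurd rfl h) (fun j' _ => ?_) j hj
          simp only [Fin.cons_succ]
          exact le_iSup _ j'
        · simp only [Fin.cons_succ]
          set Y := ⨆ (j' : Fin k) (_ : j' ≠ j), B j' with hY
          have hle : (⨆ (j' : Fin (k + 1)) (_ : j' ≠ j.succ), (Fin.cons E B : Fin (k + 1) → Subgroup G) j') ≤ E ⊔ Y := by
            refine iSup₂_le fun j' hj' => ?_
            refine Fin.cases (fun _ => ?_) (fun j'' h => ?_) j' hj'
            · simp only [Fin.cons_zero]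
              exact le_sup_left
            · simp only [Fin.cons_succ]
              refine le_trans ?_ le_sup_right
              refine le_iSup₂_of_le j'' ?_ le_rfl
              intro h0
              exact h (by rw [h0])
          refine Disjoint.mono_right hle ?_
          rw [Subgroup.disjoint_def]
          intro x hx hxs
          have hYX : Y ≤ X := iSup₂_le fun j' _ => le_iSup B j'
          have hEc : ∀ e ∈ E, ∀ y ∈ Y, e * y = y * e := fun e he y hy =>
            hAc e (hEA.1 he) y (hXA (hYX hy))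
          obtain ⟨e, he, y, hy, rfl⟩ := mem_sup_of_comm hEc hxs
          have hxX : e * y ∈ X := le_iSup B j hx
          have heX : e ∈ X := by
            have := X.mul_mem hxX (X.inv_mem (hYX hy))
            simpa using this
          have he1 : e ∈ E ⊓ X := mem_inf.2 ⟨he, heX⟩
          rw [hdis, mem_bot] at he1
          subst he1
          rw [one_mul] at hx ⊢
          have h5 := hB2 j
          rw [Subgroup.disjoint_def] at h5
          exact h5 hx hy
      · rw [Finset.sup_insert, ← hB3]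
        apply le_antisymm
        · refine iSup_le fun i => ?_
          refine Fin.cases ?_ (fun j => ?_) i
          · simp
          · simp only [Fin.cons_succ]
            exact le_trans (le_iSup B j) le_sup_right
        · refine sup_le ?_ (iSup_le fun j => ?_)
          · exact le_iSup_of_le (0 : Fin (k + 1)) (by simp)
          · exact le_iSup_of_le j.succ (by simp)

/-- S0612. -/
theorem decomp (S : Setup p V H D) {A : Subgroup G} (hAH : A ≤ H) (hA : IsBestOffenderOn p V A) (hA1 : A ≠ ⊥) :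
    ∃ (k : ℕ) (B : Fin k → Subgroup G), (∀ i, B i ≤ A ∧ IsBestOffenderOn p V (B i) ∧ ⁅V, B i⁆ ≠ ⊥ ∧
      ∀ C : Subgroup G, C ≤ B i → IsBestOffenderOn p V C → ⁅V, C⁆ ≠ ⊥ → C = B i) ∧ iSupIndep B ∧ ⨆ i, B i = A := by
  classical
  have hpp := hp.out
  have hAe := elem_of_bo S hAH hA
  have hAc : ∀ a ∈ A, ∀ b ∈ A, a * b = b * a := by
    intro a ha b hb
    haveI := hAe.1
    exact congrArg Subtype.val (mul_comm' (⟨a, ha⟩ : A) ⟨b, hb⟩)
  let F : Finset (Subgroup G) := (Set.toFinite {E | E ≤ A ∧ IsMinBO p V E}).toFinset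
  have hFm : ∀ E, E ∈ F ↔ E ≤ A ∧ IsMinBO p V E := fun E => by
    simp [F]
  obtain ⟨k, B, hB1, hB2, hB3⟩ := exists_indep hAc hpp F (by
    intro E hE
    obtain ⟨h1, h2⟩ := (hFm E).1 hE
    exact ⟨h1, (minimal_props S (h1.trans hAH) h2.1 h2.2.1 h2.2.2).1⟩)
  refine ⟨k, B, ?_, hB2, ?_⟩
  · intro i
    obtain ⟨h1, h2⟩ := (hFm _).1 (hB1 i)
    exact ⟨h1, h2.1, h2.2.1, h2.2.2⟩
  · rw [hB3]
    apply le_antisymm
    · apply Finset.sup_le
      intro E hE
      exact ((hFm E).1 hE).1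
    · refine (gen_min S _ A rfl hAH hA hA1).trans ?_
      apply sSup_le
      intro E hE
      exact Finset.le_sup (f := id) ((hFm E).2 hE)

end minimal

end CfsgLib.BestOff

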