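import Cfsg.Agent.Lib.Solv.CoprimeSylow
import Cfsg.Agent.Lib.Solv.Nilp
import Cfsg.Agent.Lib.H3.Comp4
import Cfsg.Agent.Lib.H3.BaerSuzuki

/-! Generalized Fitting subgroups of centralizers of `p`-subgroups. -/

set_option autoImplicit false
set_option linter.unusedSectionVars false

open Pointwise
open scoped commutatorElement

namespace CfsgLib.CentFit

open Subgroup

universe u

variable {G : Type u} [Group G] [Finite G] {p : ℕ} [hp : Fact p.Prime]

/-- Thompson's `A × B` lemma for a `p`-group `W` and a `p'`-element `h`. -/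
theorem ab_group {O W : Subgroup G} (hO : IsPGroup p O) (hW : IsPGroup p W) {h : G}
    (hhO : h ∈ normalizer (O : Set G)) (hWO : W ≤ normalizer (O : Set G))
    (hc : ∀ x ∈ W, h * x = x * h) (hh : (orderOf h).Coprime p)
    (hfix : ∀ y ∈ O, (∀ x ∈ W, x * y = y * x) → h * y = y * h) :
    ∀ y ∈ O, h * y = y * h := by
  classical
  set D : Subgroup G := O ⊓ centralizer ({h} : Set G) with hD
  have hDmem : ∀ y, y ∈ D ↔ y ∈ O ∧ h * y = y * h := by
    intro y
    rw [hD, mem_inf, mem_centralizer_singleton_iff]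
    exact and_congr_right fun _ => eq_comm
  by_contra hcon
  have hDO : D < O := by
    refine lt_of_le_of_ne inf_le_left ?_
    intro he
    apply hcon
    intro y hy
    rw [← he] at hy
    exact ((hDmem y).mp hy).2
  obtain ⟨y0, hy0O, hy0D, hy0N⟩ := CfsgLib.BS.exists_mem_normalizer_not_mem hO hDO.le hDO.ne
  set E : Subgroup G := O ⊓ normalizer (D : Set G) with hE
  have hDE : D < E := by
    refine lt_of_le_of_ne (le_inf inf_le_left le_normalizer) ?_
    intro he
    exact hy0D (by rw [he]; exact ⟨hy0O, hy0N⟩)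
  have hxD : ∀ x ∈ W, x ∈ normalizer (D : Set G) := by
    intro x hxW
    have hxO := hWO hxW
    have hc' := hc x hxW
    apply CfsgLib.CT.mem_normalizer_of_conj_le
    intro y hy
    obtain ⟨hyO, hyC⟩ := (hDmem y).mp hy
    refine (hDmem _).mpr ⟨(mem_normalizer_iff.mp hxO y).mp hyO, ?_⟩
    have h1 : h * x⁻¹ = x⁻¹ * h := by
      rw [eq_inv_mul_iff_mul_eq, ← mul_assoc, ← hc', mul_assoc, mul_inv_cancel, mul_one]
    calc h * (x * y * x⁻¹) = (h * x) * y * x⁻¹ := by group
      _ = x * (h * y) * x⁻¹ := by rw [hc']; group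
      _ = x * (y * h) * x⁻¹ := by rw [hyC]
      _ = x * y * (h * x⁻¹) := by group
      _ = x * y * x⁻¹ * h := by rw [h1]; group
  have hhD : h ∈ normalizer (D : Set G) := by
    apply CfsgLib.CT.mem_normalizer_of_conj_le
    intro y hy
    obtain ⟨hyO, hyC⟩ := (hDmem y).mp hy
    have h1 : h * y * h⁻¹ = y := by rw [hyC]; group
    rw [h1]
    exact hy
  have hxE : ∀ x ∈ W, x ∈ normalizer (E : Set G) := by
    intro x hxW
    have hxO := hWO hxW
    apply CfsgLib.CT.mem_normalizer_of_conj_le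
    rintro y ⟨hyO, hyN⟩
    refine ⟨(mem_normalizer_iff.mp hxO y).mp hyO, ?_⟩
    exact (normalizer (D : Set G)).mul_mem ((normalizer (D : Set G)).mul_mem (hxD x hxW) hyN)
      ((normalizer (D : Set G)).inv_mem (hxD x hxW))
  have hhE : h ∈ normalizer (E : Set G) := by
    apply CfsgLib.CT.mem_normalizer_of_conj_le
    rintro y ⟨hyO, hyN⟩
    refine ⟨(mem_normalizer_iff.mp hhO y).mp hyO, ?_⟩
    exact (normalizer (D : Set G)).mul_mem ((normalizer (D : Set G)).mul_mem hhD hyN)
      ((normalizer (D : Set G)).inv_mem hhD)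
  have hEp : IsPGroup p E := hO.to_le inf_le_left
  let T : Subgroup G := W ⊔ E
  have hzE : W ≤ normalizer (E : Set G) := hxE
  have hT : IsPGroup p T := CfsgLib.Solv.isPGroup_sup_of_le_normalizer hW hEp hzE
  have hTD : T ≤ normalizer (D : Set G) := by
    refine sup_le hxD inf_le_right
  have hTE : T ≤ normalizer (E : Set G) := by
    refine sup_le hzE le_normalizer
  obtain ⟨y, hyE, hyD, hcen⟩ := CfsgLib.Solv.exists_central_mod_in (T := T) (V := D) (R := E)
    hT.isNilpotent (hDE.le.trans le_sup_right) le_sup_right hTD hTE hDE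
  have haO : ∀ a ∈ zpowers h, a ∈ normalizer (O : Set G) := by
    intro a ha
    exact (zpowers_le.mpr hhO) ha
  have hw : ∀ a ∈ zpowers h, y⁻¹ * (a * y * a⁻¹) ∈ D := by
    intro a ha
    have hwO : y⁻¹ * (a * y * a⁻¹) ∈ O :=
      O.mul_mem (O.inv_mem hyE.1) ((mem_normalizer_iff.mp (haO a ha) y).mp hyE.1)
    refine (hDmem _).mpr ⟨hwO, ?_⟩
    apply hfix _ hwO
    intro x hxW
    have hd : ⁅y, x⁆ ∈ D := hcen x (mem_sup_left hxW)
    set e : G := ⁅y, x⁆⁻¹ with he
    have heD : e ∈ D := D.inv_mem hd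
    have hxy : x * y * x⁻¹ = e * y := by
      rw [he, commutatorElement_def]; group
    have heh : a * e = e * a := by
      obtain ⟨n, rfl⟩ := mem_zpowers_iff.mp ha
      have h1 : Commute h e := ((hDmem e).mp heD).2
      exact (h1.zpow_left n).eq
    have hxa : a * x = x * a := by
      obtain ⟨n, rfl⟩ := mem_zpowers_iff.mp ha
      have h1 : Commute h x := hc x hxW
      exact (h1.zpow_left n).eq
    have hcomm : x * (y⁻¹ * (a * y * a⁻¹)) * x⁻¹ = y⁻¹ * (a * y * a⁻¹) := by
      have h1 : x * y⁻¹ * x⁻¹ = y⁻¹ * e⁻¹ := by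
        have : (x * y * x⁻¹)⁻¹ = x * y⁻¹ * x⁻¹ := by group
        rw [← this, hxy]; group
      have h2 : x * (a * y * a⁻¹) * x⁻¹ = e * (a * y * a⁻¹) := by
        have h3 : x * a = a * x := hxa.symm
        have h4 : a⁻¹ * x⁻¹ = x⁻¹ * a⁻¹ := by
          rw [← mul_inv_rev, h3, mul_inv_rev]
        calc x * (a * y * a⁻¹) * x⁻¹ = (x * a) * y * (a⁻¹ * x⁻¹) := by group
          _ = a * (x * y * x⁻¹) * a⁻¹ := by rw [h3, h4]; group
          _ = a * (e * y) * a⁻¹ := by rw [hxy]
          _ = (a * e) * y * a⁻¹ := by group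
          _ = e * (a * y * a⁻¹) := by rw [heh]; group
      calc x * (y⁻¹ * (a * y * a⁻¹)) * x⁻¹
          = (x * y⁻¹ * x⁻¹) * (x * (a * y * a⁻¹) * x⁻¹) := by group
        _ = y⁻¹ * (a * y * a⁻¹) := by rw [h1, h2]; group
    calc x * (y⁻¹ * (a * y * a⁻¹)) = (x * (y⁻¹ * (a * y * a⁻¹)) * x⁻¹) * x := by group
      _ = (y⁻¹ * (a * y * a⁻¹)) * x := by rw [hcomm]
  have hcard : (Nat.card (zpowers h)).Coprime (Nat.card E) := by
    rw [Nat.card_zpowers]
    obtain ⟨k, hk⟩ := IsPGroup.iff_card.mp hEp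
    rw [hk]
    exact Nat.Coprime.pow_right _ hh
  obtain ⟨c, hc1, hc2⟩ := CfsgLib.Solv.coprime_fixed_coset (zpowers h) E (zpowers_le.mpr hhE) hcard
    (Or.inr (by haveI := hEp.isNilpotent; infer_instance)) D hDE.le
    inf_le_right (zpowers_le.mpr hhD) y⁻¹ (E.inv_mem hyE) (by
      intro a ha
      have h1 := D.inv_mem (hw a ha)
      have h2 : (y⁻¹ * (a * y * a⁻¹))⁻¹ = a * y⁻¹ * a⁻¹ * y⁻¹⁻¹ := by group
      rwa [h2] at h1)
  have hcD : c ∈ D := by
    refine (hDmem c).mpr ⟨hc1.1.1, ?_⟩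
    have h5 : c ∈ centralizer ((zpowers h : Subgroup G) : Set G) := hc1.2
    rw [mem_centralizer_iff] at h5
    exact h5 h (mem_zpowers h)
  apply hyD
  have h3 : y⁻¹⁻¹ * c ∈ D := hc2
  rw [inv_inv] at h3
  have h4 : y = (y * c) * c⁻¹ := by group
  rw [h4]
  exact D.mul_mem h3 (D.inv_mem hcD)

open CfsgLib.Comp in
/-- One step: `V` normal in `W`. -/
theorem step (V W : Subgroup G) (hVW : V ≤ W) (hVn : W ≤ normalizer (V : Set G)) (hW : IsPGroup p W)
    (hX : IsPGroup p ↥(Cfsg.generalizedFittingSubgroup ↥(centralizer (V : Set G)))) :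
    IsPGroup p ↥(Cfsg.generalizedFittingSubgroup ↥(centralizer (W : Set G))) := by
  classical
  set X := centralizer (V : Set G) with hXd
  set D := centralizer (W : Set G) with hDd
  have hDX : D ≤ X := Subgroup.centralizer_le hVW
  have hgp : Cfsg.generalizedFittingSubgroup X = Cfsg.pCore p X := by
    apply le_antisymm
    · exact CfsgLib.Solv.le_pCore' _ hX
    · refine le_trans ?_ le_sup_right
      haveI : (Cfsg.pCore p X).Normal := CfsgLib.Solv.pCore_normal' p
      exact CfsgLib.Solv.le_fittingSubgroup' _ (CfsgLib.PLocal.pCore_isPGroup (p := p) (G := X)).isNilpotent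
  haveI hchar : (Cfsg.pCore p X).Characteristic := pCore_char p
  set Q := (Cfsg.pCore p X).map X.subtype with hQd
  have hQp : IsPGroup p Q := (CfsgLib.PLocal.pCore_isPGroup (p := p) (G := X)).map _
  have hXQ : X ≤ normalizer (Q : Set G) :=
    Subgroup.le_normalizer.trans (char_map_le_normalizer (Cfsg.pCore p X))
  have hWX : W ≤ normalizer (X : Set G) := by
    intro w hw
    apply CfsgLib.CT.mem_normalizer_of_conj_le
    intro c hc
    rw [hXd, Subgroup.mem_centralizer_iff] at hc ⊢
    intro v hv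
    have h1 : w⁻¹ * v * w ∈ V := by
      have := (Subgroup.mem_normalizer_iff.1 (inv_mem (hVn hw)) v).1 hv
      simpa using this
    have h2 := hc _ h1
    calc v * (w * c * w⁻¹) = w * ((w⁻¹ * v * w) * c) * w⁻¹ := by group
      _ = w * (c * (w⁻¹ * v * w)) * w⁻¹ := by rw [h2]
      _ = _ := by group
  have hWQ : W ≤ normalizer (Q : Set G) := hWX.trans (char_map_le_normalizer (Cfsg.pCore p X))
  have hF1 : ∀ g ∈ X, (∀ y ∈ Q, g * y = y * g) → g ∈ Q := by
    intro g hg hcom
    have h1 : (⟨g, hg⟩ : X) ∈ centralizer ((Cfsg.generalizedFittingSubgroup X : Subgroup X) : Set X) := by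
      rw [hgp, Subgroup.mem_centralizer_iff]
      intro y hy
      apply Subtype.ext
      exact (hcom (y : G) ⟨y, hy, rfl⟩).symm
    have h2 := gfit_self_centralizing h1
    rw [hgp] at h2
    exact ⟨⟨g, hg⟩, h2, rfl⟩
  have hAB : ∀ h ∈ D, (orderOf h).Coprime p → (∀ y ∈ Q, y ∈ D → h * y = y * h) → h = 1 := by
    intro h hhD hcop hfix
    have hcW : ∀ x ∈ W, h * x = x * h := fun x hx => (Subgroup.mem_centralizer_iff.1 hhD x hx).symm
    have h1 := ab_group hQp hW (hXQ (hDX hhD)) hWQ hcW hcop (by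
      intro y hy hyW
      apply hfix y hy
      rw [hDd, Subgroup.mem_centralizer_iff]
      exact hyW)
    have h2 := hF1 h (hDX hhD) h1
    obtain ⟨k, hk⟩ := hQp ⟨h, h2⟩
    have h3 : h ^ p ^ k = 1 := congrArg Subtype.val hk
    have h4 : orderOf h ∣ p ^ k := orderOf_dvd_of_pow_eq_one h3
    have h5 : (orderOf h).Coprime (p ^ k) := Nat.Coprime.pow_right _ hcop
    have h6 : orderOf h = 1 := Nat.Coprime.eq_one_of_dvd h5 h4
    exact orderOf_eq_one_iff.1 h6
  -- the normal `p`-subgroup of `D`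
  set Q₁ : Subgroup D := Q.subgroupOf D with hQ₁
  have hQ₁n : Q₁.Normal := by
    constructor
    intro y hy g
    rw [hQ₁, Subgroup.mem_subgroupOf] at hy ⊢
    exact (Subgroup.mem_normalizer_iff.1 (hXQ (hDX g.2)) y).1 hy
  have hQ₁p : IsPGroup p Q₁ := hQp.comap_of_injective D.subtype (Subgroup.subtype_injective D)
  suffices hfin : Cfsg.generalizedFittingSubgroup D = Cfsg.pCore p D by
    rw [hfin]
    exact CfsgLib.PLocal.pCore_isPGroup
  apply gfit_eq_pCore_of
  · -- the layer
    rw [eq_bot_iff]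
    refine sSup_le ?_
    intro K hK
    exfalso
    have hQ₁s : Group.IsSolvable Q₁ := by
      haveI := hQ₁p.isNilpotent
      infer_instance
    have hcomm := layer_commute_solvable_normal hQ₁n hQ₁s
    have hKp : IsPGroup p K := by
      rintro ⟨y, hy⟩
      obtain ⟨u, v, huv, -, ⟨k, hk⟩, hv, -, hv'⟩ := CfsgLib.Tr.exists_pow_decomp p y
      have hvK : v ∈ K := (zpowers_le.2 hy) hv'
      have hv1 : v = 1 := by
        have h1 := hAB (v : G) v.2 (by rw [Subgroup.orderOf_coe]; exact hv) (by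
          intro z hz hzD
          have h2 := hcomm v (comp_le_layer hK hvK) ⟨z, hzD⟩ (Subgroup.mem_subgroupOf.2 hz)
          exact congrArg Subtype.val h2)
        exact Subtype.ext h1
      rw [hv1, mul_one] at huv
      refine ⟨k, ?_⟩
      apply Subtype.ext
      show y ^ p ^ k = 1
      rw [← huv]
      exact hk
    apply comp_not_solvable hK
    haveI := hKp.isNilpotent
    infer_instance
  · -- the core
    rw [eq_bot_iff]
    intro r hr
    have hcop := CfsgLib.Solv.pPrimeCore_coprime (G := D) p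
    haveI hRn : (Cfsg.pPrimeCore p D).Normal := CfsgLib.Solv.pPrimeCore_normal' p
    have hord : (orderOf (r : G)).Coprime p := by
      rw [Subgroup.orderOf_coe]
      have h1 : orderOf r ∣ Nat.card (Cfsg.pPrimeCore p D) := by
        have h2 := Subgroup.orderOf_coe (⟨r, hr⟩ : Cfsg.pPrimeCore p D)
        rw [show ((⟨r, hr⟩ : Cfsg.pPrimeCore p D) : D) = r from rfl] at h2
        rw [h2]
        exact orderOf_dvd_natCard _
      exact Nat.Coprime.coprime_dvd_left h1 hcop
    have h1 := hAB (r : G) r.2 hord (by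
      intro z hz hzD
      have hc := comm_of_normalized_inf (N := ⊤) (A := Cfsg.pPrimeCore p D) (B := Q₁) le_top le_top
        (by rw [Subgroup.normalizer_eq_top_iff.2 hRn]) (by rw [Subgroup.normalizer_eq_top_iff.2 hQ₁n])
        (inf_bot_of_coprime hcop hQ₁p)
      have h2 := comm_bot_iff.1 hc r hr ⟨z, hzD⟩ (Subgroup.mem_subgroupOf.2 hz)
      exact congrArg Subtype.val h2)
    rw [Subgroup.mem_bot]
    exact Subtype.ext h1

/-- S1246. -/
theorem main (U V : Subgroup G) (hVU : V ≤ U) (hU : IsPGroup p U)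
    (hV : IsPGroup p ↥(Cfsg.generalizedFittingSubgroup ↥(centralizer (V : Set G)))) :
    IsPGroup p ↥(Cfsg.generalizedFittingSubgroup ↥(centralizer (U : Set G))) := by
  have key : ∀ n : ℕ, ∀ V : Subgroup G, V ≤ U → Nat.card U - Nat.card V = n →
      IsPGroup p ↥(Cfsg.generalizedFittingSubgroup ↥(centralizer (V : Set G))) →
      IsPGroup p ↥(Cfsg.generalizedFittingSubgroup ↥(centralizer (U : Set G))) := by
    intro n
    induction n using Nat.strong_induction_on with
    | _ n ih =>
    intro V hVU hn hV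
    by_cases he : V = U
    · rw [← he]
      exact hV
    obtain ⟨g, hgU, hgV, hgN⟩ := CfsgLib.BS.exists_mem_normalizer_not_mem hU hVU he
    set W := U ⊓ normalizer (V : Set G) with hW
    have hVW : V ≤ W := le_inf hVU Subgroup.le_normalizer
    have hWp : IsPGroup p W := hU.to_le inf_le_left
    have h1 := step V W hVW inf_le_right hWp hV
    have hlt : Nat.card V < Nat.card W := by
      apply lt_of_le_of_ne (Subgroup.card_le_of_le hVW)
      intro hc
      have : V = W := Subgroup.eq_of_le_of_card_ge hVW (le_of_eq hc.symm)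
      exact hgV (this ▸ (⟨hgU, hgN⟩ : g ∈ W))
    have hle : Nat.card W ≤ Nat.card U := Subgroup.card_le_of_le inf_le_left
    exact ih _ (by omega) W inf_le_left rfl h1
  exact key _ V hVU rfl hV

end CfsgLib.CentFit
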