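import Cfsg.Agent.Lib.H3.CycMax

/-! Explicit relations for `p`-groups with a cyclic maximal subgroup. -/

set_option autoImplicit false
set_option linter.unusedSectionVars false

namespace CfsgLib.CycMax

open Subgroup

variable {G : Type*} [Group G] [Finite G] {p : ℕ} [hp : Fact p.Prime]

lemma eq_top_of_lt {C K : Subgroup G} (hCi : C.index = p) (hle : C ≤ K) (hne : K ≠ C) : K = ⊤ := by
  have hpp : p.Prime := hp.out
  have h1 : K.index ∣ p := hCi ▸ Subgroup.index_dvd_of_le hle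
  rcases (Nat.dvd_prime hpp).1 h1 with h | h
  · exact Subgroup.index_eq_one.1 h
  · exfalso
    apply hne
    apply (Subgroup.eq_of_le_of_card_ge hle _).symm
    have hK := Subgroup.card_mul_index K
    have hC := Subgroup.card_mul_index C
    rw [h] at hK
    rw [hCi] at hC
    have hpos : 0 < p := hpp.pos
    exact le_of_eq (Nat.eq_of_mul_eq_mul_right hpos (hK.trans hC.symm))

lemma setup {n : ℕ} (hn : 2 ≤ n) (hG : Nat.card G = p ^ n) (C : Subgroup G) (hC : IsCyclic C)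
    (hCi : C.index = p) (hna : ∃ x y : G, x * y ≠ y * x) :
    ∃ a : G, Data p (n - 2) a ∧ zpowers a = C := by
  have hpp : p.Prime := hp.out
  obtain ⟨⟨a, ha⟩, haC⟩ : ∃ a : C, zpowers (a : G) = C := by
    obtain ⟨a, ha⟩ := hC.exists_generator
    refine ⟨a, ?_⟩
    apply le_antisymm
    · rw [zpowers_le]
      exact a.2
    · intro x hx
      obtain ⟨k, hk⟩ := ha ⟨x, hx⟩
      refine ⟨k, ?_⟩
      have := congrArg Subtype.val hk
      simpa using this
  refine ⟨a, ?_, haC⟩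
  have hcard : Nat.card C = p ^ (n - 1) := by
    have h1 := Subgroup.card_mul_index C
    rw [hCi, hG] at h1
    have h2 : p ^ n = p ^ (n - 1) * p := by
      rw [← pow_succ]
      congr 1
      omega
    rw [h2] at h1
    exact Nat.eq_of_mul_eq_mul_right hpp.pos h1
  have hord : orderOf a = p ^ (n - 2 + 1) := by
    have h1 : Nat.card (zpowers a) = orderOf a := Nat.card_zpowers a
    rw [← h1, haC, hcard]
    congr 1
    omega
  have hGp : IsPGroup p G := IsPGroup.of_card hG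
  have hnorm : C.Normal := by
    apply Subgroup.normal_of_index_eq_minFac_card
    rw [hCi, hG]
    rw [hpp.pow_minFac (by omega)]
  have hUn : (zpowers a).Normal := haC ▸ hnorm
  have hcentral : ∀ g : G, C ≤ centralizer ({g} : Set G) → g ∉ C → centralizer ({g} : Set G) = ⊤ := by
    intro g hg hgC
    apply eq_top_of_lt hCi hg
    intro he
    apply hgC
    rw [← he]
    exact Subgroup.mem_centralizer_singleton_iff.2 rfl
  refine ⟨hGp, hord, hUn, ?_⟩
  intro g hg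
  by_contra hgU
  rw [haC] at hgU
  -- `a` is central
  have hzC : C ≤ centralizer ({g} : Set G) := by
    rw [← haC, zpowers_le, Subgroup.mem_centralizer_singleton_iff]
    exact hg.symm
  have h1 := hcentral g hzC hgU
  have hac : C ≤ centralizer ({a} : Set G) := by
    rw [← haC, zpowers_le]
    exact Subgroup.mem_centralizer_singleton_iff.2 rfl
  have h2 : centralizer ({a} : Set G) = ⊤ := by
    apply eq_top_of_lt hCi hac
    intro he
    apply hgU
    rw [← he]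
    exact Subgroup.mem_centralizer_singleton_iff.2 hg
  have hcent : ∀ x y : G, x ∈ C → x * y = y * x := by
    intro x y hx
    rw [← haC] at hx
    have hmem : y ∈ centralizer ({a} : Set G) := by rw [h2]; trivial
    have h3 : zpowers a ≤ centralizer ({y} : Set G) := by
      rw [zpowers_le, Subgroup.mem_centralizer_singleton_iff]
      exact (Subgroup.mem_centralizer_singleton_iff.1 hmem).symm
    exact Subgroup.mem_centralizer_singleton_iff.1 (h3 hx)
  obtain ⟨x, y, hxy⟩ := hna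
  apply hxy
  by_cases hx : x ∈ C
  · exact hcent x y hx
  · have h3 : C ≤ centralizer ({x} : Set G) := by
      intro c hc
      exact Subgroup.mem_centralizer_singleton_iff.2 (hcent c x hc)
    have h4 := hcentral x h3 hx
    have hmem : y ∈ centralizer ({x} : Set G) := by rw [h4]; trivial
    exact (Subgroup.mem_centralizer_singleton_iff.1 hmem).symm

/-- An element of order `p` acting as `a ↦ a ^ (1 + p ^ m)`, from one in `M` outside `U`. -/
lemma Data.exists_act {m : ℕ} {a : G} (D : Data p m a) {b : G} (hb : b ∈ MM p a) (hb2 : b ∉ zpowers a)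
    (hb3 : b ^ p = 1) : ∃ b' : G, orderOf b' = p ∧ b' ∉ zpowers a ∧ b' * a * b'⁻¹ = a ^ (1 + p ^ m) := by
  have hpp : p.Prime := hp.out
  have hc1 : cc a b ≠ 1 := fun h => hb2 (D.cc_eq_one_iff.1 h)
  obtain ⟨k, hk⟩ : ∃ k : ℕ, zz p m a ^ k = cc a b := mem_powers_iff_mem_zpowers.2 (D.cc_mem_z hb)
  have hcop : k.Coprime p := by
    rw [Nat.coprime_comm, hpp.coprime_iff_not_dvd]
    rintro ⟨t, rfl⟩
    apply hc1
    rw [← hk, pow_mul, D.z_pow, one_pow]
  obtain ⟨j, hj⟩ : ∃ j : ℕ, k * j ≡ 1 [MOD p] := by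
    obtain ⟨j, -, hj⟩ := Nat.exists_mul_mod_eq_one_of_coprime hcop hpp.one_lt
    exact ⟨j, by rw [Nat.ModEq, hj, Nat.mod_eq_of_lt hpp.one_lt]⟩
  have hcj : cc a (b ^ j) = zz p m a := by
    have h1 := map_pow D.ff ⟨b, hb⟩ j
    rw [D.ff_apply] at h1
    have h2 : D.ff ⟨b, hb⟩ = cc a b := D.ff_apply _
    rw [h2] at h1
    have h3 : cc a (b ^ j) = cc a b ^ j := h1
    rw [h3, ← hk, ← pow_mul]
    have h4 : zz p m a ^ (k * j) = zz p m a ^ 1 := by
      apply pow_eq_pow_iff_modEq.2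
      rw [D.z_order]
      exact hj
    rw [h4, pow_one]
  have hbj : b ^ j ∉ zpowers a := by
    intro h
    have := D.cc_eq_one_iff.2 h
    rw [hcj] at this
    exact D.z_ne this
  refine ⟨b ^ j, ?_, hbj, ?_⟩
  · apply orderOf_eq_prime
    · rw [← pow_mul, mul_comm, pow_mul, hb3, one_pow]
    · intro h
      rw [h] at hbj
      exact hbj (one_mem _)
  · rw [cc_mul_a, hcj]
    unfold zz
    rw [← pow_succ, add_comm]

/-- The relations in the odd case. -/
theorem odd_relations (hodd : p ≠ 2) (n : ℕ) (hn : 3 ≤ n) (hG : Nat.card G = p ^ n) (C : Subgroup G)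
    (hC : IsCyclic C) (hCi : C.index = p) (hna : ∃ x y : G, x * y ≠ y * x) :
    ∃ a b : G, orderOf a = p ^ (n - 1) ∧ orderOf b = p ∧ b ∉ zpowers a ∧
      b * a * b⁻¹ = a ^ (1 + p ^ (n - 2)) := by
  obtain ⟨a, D, haC⟩ := setup (by omega) hG C hC hCi hna
  have hne : zpowers a ≠ ⊤ := by
    intro h
    rw [haC] at h
    rw [h, Subgroup.index_top] at hCi
    exact hp.out.one_lt.ne hCi
  obtain ⟨b, hb, hb2⟩ := D.exists_b_odd hodd hne
  obtain ⟨b', hb', hb2', hb3⟩ := D.exists_b' (s := 1) (Nat.coprime_one_left _) (D.form_odd hodd) hb hb2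
  obtain ⟨c, h1, h2, h3⟩ := D.exists_act hb' hb2' hb3
  refine ⟨a, c, ?_, h1, h2, h3⟩
  rw [D.ord]
  congr 1
  omega

section Two

variable {m : ℕ} {a : G}

/-- The relations in the case where `M ≤ U` (or `m = 1`). -/
theorem Data.rels (D : Data 2 m a) (hc : CaseB m a) {x : G} (hx : x ∉ zpowers a) :
    ∃ y : G, y ∉ zpowers a ∧ ((y ^ 2 = 1 ∧ y * a * y⁻¹ = a⁻¹) ∨ (y ^ 2 = a ^ (2 ^ m) ∧ y * a * y⁻¹ = a⁻¹) ∨
      (2 ≤ m ∧ y ^ 2 = 1 ∧ y * a * y⁻¹ = a ^ (2 ^ m - 1))) := by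
  haveI : Fact (Nat.Prime 2) := ⟨Nat.prime_two⟩
  obtain ⟨u, hu⟩ := D.act x
  obtain ⟨⟨t, ht⟩, ht'⟩ := D.act_neg hc hx hu
  have hy : x ^ 2 ∈ zpowers a := by
    rw [pow_two]
    exact D.prod_mem hc hx hx
  obtain ⟨k, hk⟩ : ∃ k : ℕ, a ^ k = x ^ 2 := mem_powers_iff_mem_zpowers.2 hy
  have hxy : x * x ^ 2 * x⁻¹ = x ^ 2 := by
    have : Commute x (x ^ 2) := Commute.pow_right (Commute.refl x) 2
    rw [this.eq]
    group
  rcases Nat.even_or_odd t with ⟨t', rfl⟩ | ht2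
  · have h1 : a ^ (u + 1) = 1 := by
      rw [ht, show 2 ^ m * (t' + t') = 2 ^ (m + 1) * t' by ring, pow_mul, ← D.ord,
        pow_orderOf_eq_one, one_pow]
    have hinv : x * a * x⁻¹ = a⁻¹ := by
      rw [hu]
      apply eq_inv_of_mul_eq_one_left
      rw [← pow_succ]
      exact h1
    have hconj : x * x ^ 2 * x⁻¹ = (x ^ 2)⁻¹ := by
      rw [← hk, ← conj_pow, hinv, inv_pow]
    have hsq : (x ^ 2) ^ 2 = 1 := by
      rw [hxy] at hconj
      rw [pow_two (x ^ 2)]
      nth_rewrite 1 [hconj]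
      simp
    rcases D.mem_z_two (D.mem_z hy hsq) with h2 | h2
    · exact ⟨x, hx, Or.inl ⟨h2, hinv⟩⟩
    · exact ⟨x, hx, Or.inr (Or.inl ⟨h2, hinv⟩)⟩
  · have hm2 : 2 ≤ m := by
      by_contra hcon
      rcases hc with rfl | ⟨hm, -⟩
      · have h4 := ht' rfl
        rw [ht] at h4
        obtain ⟨r, rfl⟩ := ht2
        omega
      · exact hcon hm
    obtain ⟨r, rfl⟩ : ∃ r, m = r + 2 := ⟨m - 2, by omega⟩
    have hact : x * a * x⁻¹ = a ^ (2 ^ (r + 2) - 1) := by
      rw [hu, D.pow_eq]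
      obtain ⟨w, rfl⟩ := ht2
      have h2 : 1 ≤ 2 ^ (r + 2) := Nat.one_le_two_pow
      have e1 : u = 2 ^ (r + 2) * (2 * w) + (2 ^ (r + 2) - 1) := by
        have : 2 ^ (r + 2) * (2 * w + 1) = 2 ^ (r + 2) * (2 * w) + 2 ^ (r + 2) := by ring
        omega
      rw [e1]
      have e2 : 2 ^ (r + 2) * (2 * w) = 2 ^ (r + 2 + 1) * w := by ring
      rw [e2]
      simp [Nat.ModEq]
    have hsq : (x ^ 2) ^ 2 = 1 := by
      have h3 : a ^ (k * (2 ^ (r + 2) - 1)) = a ^ k := by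
        have h4 := hxy
        rw [← hk, ← conj_pow, hact, ← pow_mul, mul_comm] at h4
        exact h4
      have h5 : (x ^ 2) ^ (2 ^ (r + 2)) = (x ^ 2) ^ 2 := by
        rw [← hk]
        have h6 : a ^ (k * 2 ^ (r + 2)) = a ^ (k * (2 ^ (r + 2) - 1)) * a ^ k := by
          rw [← pow_add]
          congr 1
          have h2 : 1 ≤ 2 ^ (r + 2) := Nat.one_le_two_pow
          obtain ⟨q, hq⟩ : ∃ q, 2 ^ (r + 2) = q + 1 := ⟨2 ^ (r + 2) - 1, by omega⟩
          rw [hq]
          simp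
          ring
        rw [← pow_mul, ← pow_mul, h6, h3, ← pow_add]
        congr 1
        ring
      have h6 : ((x ^ 2) ^ 2) ^ (2 ^ (r + 1) - 1) = 1 := by
        have h2 : 1 ≤ 2 ^ (r + 1) := Nat.one_le_two_pow
        have h7 : (x ^ 2) ^ (2 ^ (r + 2)) = ((x ^ 2) ^ 2) ^ (2 ^ (r + 1) - 1) * (x ^ 2) ^ 2 := by
          have h8 : ((x ^ 2) ^ 2) ^ (2 ^ (r + 1) - 1) * (x ^ 2) ^ 2 =
              ((x ^ 2) ^ 2) ^ (2 ^ (r + 1) - 1 + 1) := (pow_succ _ _).symm
          rw [h8, Nat.sub_add_cancel h2, ← pow_mul (x ^ 2) 2 (2 ^ (r + 1))]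
          congr 1
          ring
        rw [h7] at h5
        exact mul_eq_right.1 h5
      obtain ⟨j, hj⟩ := D.hG ((x ^ 2) ^ 2)
      have hj' : ((x ^ 2) ^ 2) ^ 2 ^ j = 1 := hj
      apply CfsgLib.Tr.eq_one_of_pow_eq_one_of_coprime h6 hj'
      apply Nat.Coprime.pow_right
      rw [Nat.coprime_two_right]
      have h2 : 2 ≤ 2 ^ (r + 1) := by
        calc 2 = 2 ^ 1 := by norm_num
          _ ≤ 2 ^ (r + 1) := Nat.pow_le_pow_right (by norm_num) (by omega)
      have h3 : Even (2 ^ (r + 1)) := ⟨2 ^ r, by ring⟩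
      obtain ⟨q, hq⟩ := h3
      exact ⟨q - 1, by omega⟩
    rcases D.mem_z_two (D.mem_z hy hsq) with h2 | h2
    · exact ⟨x, hx, Or.inr (Or.inr ⟨hm2, h2, hact⟩)⟩
    · refine ⟨a * x, ?_, Or.inr (Or.inr ⟨hm2, ?_, ?_⟩)⟩
      · intro h
        apply hx
        have := mul_mem (inv_mem (mem_zpowers a)) h
        simpa using this
      · have h3 : (a * x) ^ 2 = a * (x * a * x⁻¹) * x ^ 2 := by
          rw [pow_two, pow_two]
          group
        rw [h3, hact, h2]
        unfold zz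
        rw [← pow_succ', ← pow_add]
        have h2' : 1 ≤ 2 ^ (r + 2) := Nat.one_le_two_pow
        rw [Nat.sub_add_cancel h2', ← two_mul, ← pow_succ', ← D.ord, pow_orderOf_eq_one]
      · have h3 : a * x * a * (a * x)⁻¹ = a * (x * a * x⁻¹) * a⁻¹ := by group
        rw [h3, hact]
        have : Commute a (a ^ (2 ^ (r + 2) - 1)) := Commute.pow_right (Commute.refl a) _
        rw [this.eq]
        group

end Two

/-- The relations for `p = 2`. -/
theorem two_relations (n : ℕ) (hn : 3 ≤ n) (hG : Nat.card G = 2 ^ n) (C : Subgroup G)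
    (hC : IsCyclic C) (hCi : C.index = 2) (hna : ∃ x y : G, x * y ≠ y * x) :
    ∃ a b : G, orderOf a = 2 ^ (n - 1) ∧ b ∉ zpowers a ∧
      ((b ^ 2 = 1 ∧ b * a * b⁻¹ = a⁻¹) ∨ (b ^ 2 = a ^ (2 ^ (n - 2)) ∧ b * a * b⁻¹ = a⁻¹) ∨
        (4 ≤ n ∧ b ^ 2 = 1 ∧ b * a * b⁻¹ = a ^ (1 + 2 ^ (n - 2))) ∨
        (4 ≤ n ∧ b ^ 2 = 1 ∧ b * a * b⁻¹ = a ^ (2 ^ (n - 2) - 1))) := by
  haveI : Fact (Nat.Prime 2) := ⟨Nat.prime_two⟩
  obtain ⟨a, D, haC⟩ := setup (by omega) hG C hC hCi hna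
  have hord : orderOf a = 2 ^ (n - 1) := by
    rw [D.ord]
    congr 1
    omega
  have hne : zpowers a ≠ ⊤ := by
    intro h
    rw [haC] at h
    rw [h, Subgroup.index_top] at hCi
    omega
  by_cases h : 2 ≤ n - 2 ∧ ¬ MM 2 a ≤ zpowers a
  · obtain ⟨hm, hle⟩ := h
    obtain ⟨b, hb, hb2⟩ := Set.not_subset.1 hle
    have hs : (2 ^ (n - 2 - 1) + 1).Coprime 2 := by
      rw [Nat.coprime_two_right]
      have : Even (2 ^ (n - 2 - 1)) := (Nat.even_pow' (by omega)).2 even_two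
      exact this.add_one
    obtain ⟨b', hb', hb2', hb3⟩ := D.exists_b' hs (D.form_two hm) hb hb2
    obtain ⟨c, h1, h2, h3⟩ := D.exists_act hb' hb2' hb3
    refine ⟨a, c, hord, h2, Or.inr (Or.inr (Or.inl ⟨by omega, ?_, h3⟩))⟩
    rw [← h1, pow_orderOf_eq_one]
  · have hc : CaseB (n - 2) a := by
      by_cases h1 : n - 2 = 1
      · exact Or.inl h1
      · right
        have h2 : 2 ≤ n - 2 := by omega
        refine ⟨h2, ?_⟩
        by_contra h3
        exact h ⟨h2, h3⟩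
    obtain ⟨x, hx⟩ : ∃ x, x ∉ zpowers a := by
      by_contra hcon
      push Not at hcon
      exact hne (eq_top_iff.2 (fun x _ => hcon x))
    obtain ⟨y, hy, hrel⟩ := D.rels hc hx
    refine ⟨a, y, hord, hy, ?_⟩
    rcases hrel with h1 | h1 | ⟨h0, h1, h2⟩
    · exact Or.inl h1
    · exact Or.inr (Or.inl h1)
    · exact Or.inr (Or.inr (Or.inr ⟨by omega, h1, h2⟩))

end CfsgLib.CycMax
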