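import Cfsg.Agent.Lib.Char.Extraspecial
import Cfsg.Agent.Lib.Char.TensorIrr
import Cfsg.Agent.Lib.Char.Linear
import Cfsg.Agent.Lib.Char.Clifford
import Cfsg.Agent.Lib.Char.Integrality

/-!
# A faithful irreducible character of prime degree `p` with `p² ∣ |G|`: the centre is nontrivial.
-/

set_option linter.unusedSectionVars false
set_option linter.style.haveILetI false
set_option linter.unusedSimpArgs false
set_option linter.unusedVariables false

namespace CfsgLib.DegP

open Module Cfsg CfsgLib.Char

universe u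

theorem main {G : Type u} [Group G] [Fintype G] (p : ℕ) (hp : p.Prime) {χ : G → ℂ}
    (hχ : IsIrrCharacter G χ) (hdeg : χ 1 = p) (hfaith : ∀ g : G, χ g = χ 1 → g = 1)
    (hdiv : p ^ 2 ∣ Nat.card G) : Subgroup.center G ≠ ⊥ := by
  classical
  haveI : Fact p.Prime := ⟨hp⟩
  intro hZ
  have hχ' := hχ
  obtain ⟨n, ρ, hρ, hρχ⟩ := hχ'
  subst hρχ
  have hnp : n = p := by
    have h1 : ρ.character (1 : G) = (n : ℂ) := by simp
    rw [h1] at hdeg
    exact_mod_cast hdeg
  subst hnp
  have hinj : Function.Injective ρ := by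
    intro a b hab
    have h1 : ρ (a * b⁻¹) = 1 := by
      rw [map_mul, hab, ← map_mul, mul_inv_cancel, map_one]
    have h2 : a * b⁻¹ = 1 := by
      apply hfaith
      show LinearMap.trace ℂ _ (ρ (a * b⁻¹)) = LinearMap.trace ℂ _ (ρ 1)
      rw [h1, _root_.map_one ρ]
    exact mul_inv_eq_one.mp h2
  let P0 : Sylow n G := default
  obtain ⟨k, hk0⟩ := IsPGroup.iff_card.mp P0.isPGroup'
  have hidx0 : ¬ n ∣ (P0 : Subgroup G).index := P0.not_dvd_index
  have hdvd0 : n ^ 2 ∣ Nat.card (P0 : Subgroup G) := P0.pow_dvd_card_of_pow_dvd_card hdiv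
  obtain ⟨P, hPdef⟩ : ∃ P : Subgroup G, P = (P0 : Subgroup G) := ⟨_, rfl⟩
  rw [← hPdef] at hk0 hidx0 hdvd0
  letI : Fintype P := Fintype.ofFinite _
  have hk : Nat.card P = n ^ k := hk0
  -- the index of P is coprime to n
  have hcop : ∀ x : G, x ∈ (Subgroup.center P).map P.subtype →
      Nat.Coprime n (Subgroup.centralizer ({x} : Set G)).index := by
    intro x hx
    obtain ⟨y, hy, rfl⟩ := Subgroup.mem_map.mp hx
    have hle : P ≤ Subgroup.centralizer ({(P.subtype y)} : Set G) := by
      intro u hu
      rw [Subgroup.mem_centralizer_iff]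
      intro v hv
      rw [Set.mem_singleton_iff] at hv
      subst hv
      have := Subgroup.mem_center_iff.mp hy ⟨u, hu⟩
      exact (congrArg Subtype.val this).symm
    have h1 : (Subgroup.centralizer ({(P.subtype y)} : Set G)).index ∣ P.index :=
      Subgroup.index_dvd_of_le hle
    have h2 : Nat.Coprime n P.index := by
      exact (Nat.Prime.coprime_iff_not_dvd hp).mpr hidx0
    exact Nat.Coprime.coprime_dvd_right h1 h2
  -- the central elements of `P` have zero character value
  have hzero : ∀ x : G, x ∈ (Subgroup.center P).map P.subtype → x ≠ 1 →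
      ρ.character x = 0 := by
    intro x hx hx1
    rcases eq_zero_or_norm_eq ρ x (hcop x hx) with h | h
    · exact h
    · exfalso
      have h3 : x ∈ Subgroup.center G := by
        apply mem_center_of_norm_eq hχ hfaith
        have h1 : ρ.character (1 : G) = (n : ℂ) := by simp
        rw [h, h1]
        simp
      rw [hZ, Subgroup.mem_bot] at h3
      exact hx1 h3
  -- order of P
  have hcardP : Nat.card P = n ^ k := hk
  have hk2 : 2 ≤ k := by
    have h1 := hdvd0
    rw [hcardP] at h1
    exact (Nat.pow_dvd_pow_iff_le_right hp.one_lt).mp h1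
  haveI : Nontrivial P := by
    apply Finite.one_lt_card_iff_nontrivial.mp
    rw [hcardP]
    exact Nat.one_lt_pow (by omega) hp.one_lt
  have hτ : IsCharacter P (fun x : P => ρ.character x) :=
    (isCharacter_character ρ).restrict _
  have hτ1 : (fun x : P => ρ.character x) 1 = (n : ℂ) := by simp
  -- all constituents are linear
  have hlin : ∀ ψ : P → ℂ, IsIrrCharacter P ψ →
      classInner (fun x : P => ρ.character x) ψ ≠ 0 → ψ 1 = 1 := by
    intro ψ hψ hc
    obtain ⟨m, hm0, hm⟩ := hψ.map_one
    have h1 : m ≤ n := degree_le_of_constituent hτ hψ hc hm hτ1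
    have h2 : m ∣ Nat.card P := degree_dvd_card hψ hm
    rw [hcardP] at h2
    obtain ⟨i, hi, rfl⟩ := (Nat.dvd_prime_pow hp).mp h2
    rcases Nat.eq_zero_or_pos i with rfl | hipos
    · simpa using hm
    exfalso
    have hi1 : i = 1 := by
      by_contra hne
      have : n ^ 2 ≤ n ^ i := Nat.pow_le_pow_right hp.pos (by omega)
      have h5 : n < n ^ 2 := by
        rw [pow_two]
        exact lt_mul_of_one_lt_left hp.pos hp.one_lt
      omega
    subst hi1
    have hsub := sub_isCharacter_of_classInner_ne_zero hτ hψ hc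
    have h0 : (fun x : P => ρ.character x) - ψ = 0 := by
      apply hsub.eq_zero_of_map_one
      simp only [Pi.sub_apply]
      rw [hm]
      simp
    have heq : (fun x : P => ρ.character x) = ψ := sub_eq_zero.mp h0
    -- a nontrivial central element
    have hcent : Nontrivial (Subgroup.center P) :=
      IsPGroup.center_nontrivial (IsPGroup.iff_card.mpr ⟨k, hcardP⟩)
    obtain ⟨z, hz1⟩ := exists_ne (1 : Subgroup.center P)
    have hz2 : (z : P) ≠ 1 := fun h => hz1 (Subtype.ext h)
    have hz3 : (((z : P) : G)) ≠ 1 := fun h => hz2 (Subtype.ext h)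
    have hz4 : ρ.character (((z : P) : G)) = 0 := hzero _ (Subgroup.mem_map.mpr ⟨z, z.2, rfl⟩) hz3
    have hz5 := central_norm hψ z.2
    rw [← heq] at hz5
    simp only at hz5
    rw [hz4] at hz5
    have h1 : ρ.character (((1 : P) : G)) = (n : ℂ) := by simp
    rw [h1] at hz5
    simp at hz5
    exact hp.ne_zero (by exact_mod_cast hz5.symm)
  have hcomm : ∀ a b : P, a * b = b * a := by
    intro a b
    exact Subtype.ext (comm_of_constituents_linear ρ hinj P hlin a.2 b.2)
  -- vanishing on P#
  have hvan : ∀ x : P, x ≠ 1 → ρ.character (x : G) = 0 := by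
    intro x hx
    apply hzero _ (Subgroup.mem_map.mpr ⟨x, ?_, rfl⟩) (fun h => hx (Subtype.ext h))
    rw [Subgroup.mem_center_iff]
    intro g
    exact hcomm g x
  obtain ⟨m, hm⟩ := hτ.classInner_nat_of_char (isCharacter_one (G := P))
  have hsum : ∑ g : P, ρ.character (g : G) = (n : ℂ) := by
    rw [Finset.sum_eq_single (1 : P)]
    · simp
    · intro b _ hb
      exact hvan b hb
    · simp
  have hinner : (Nat.card P : ℂ)⁻¹ * (n : ℂ) = m := by
    rw [← hm, classInner]
    simp only [map_one, mul_one]
    rw [hsum]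
  rw [hcardP] at hinner
  have hpos : (n ^ k : ℂ) ≠ 0 := by
    exact_mod_cast (pow_ne_zero k hp.ne_zero)
  have h7 : (n : ℂ) = (m : ℂ) * (n ^ k : ℕ) := by
    rw [← hinner]
    push_cast
    field_simp
  have h8 : n = m * n ^ k := by exact_mod_cast h7
  have h9 : n < n ^ k := by
    calc n < n ^ 2 := by
            rw [pow_two]
            exact lt_mul_of_one_lt_left hp.pos hp.one_lt
      _ ≤ n ^ k := Nat.pow_le_pow_right hp.pos hk2
  rcases Nat.eq_zero_or_pos m with rfl | hmpos
  · simp at h8
    exact hp.ne_zero h8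
  · have : n ^ k ≤ m * n ^ k := Nat.le_mul_of_pos_left _ hmpos
    omega

end CfsgLib.DegP
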