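import Cfsg.Agent.Lib.H3.QD3
import Cfsg.Agent.Lib.H3.DihFus2
import Mathlib

/-! # Elementary abelian subgroups of order `8` in central extensions of dihedral and quasi-dihedral groups. -/

set_option autoImplicit false
set_option linter.unusedSectionVars false
set_option linter.unusedVariables false

namespace CfsgLib.DihKlein

open Subgroup DihedralGroup

/-- The `2`-torsion of `ZMod m` has at most two elements. -/
lemma card_two_torsion {m : ℕ} [NeZero m] :
    Nat.card {i : ZMod m // 2 • i = 0} ≤ 2 := by
  classical
  have h := IsAddCyclic.card_nsmul_eq_zero_le (α := ZMod m) (n := 2) (by norm_num)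
  rw [Nat.card_eq_fintype_card, Fintype.card_subtype]
  exact h

/-- A centralizer of a reflection has at most four elements. -/
lemma card_centralizer_sr {m : ℕ} [NeZero m] (a : ZMod m) :
    Nat.card (centralizer ({sr a} : Set (DihedralGroup m))) ≤ 4 := by
  classical
  let T := {i : ZMod m // 2 • i = 0}
  have hT : Nat.card T ≤ 2 := card_two_torsion
  let G : T × Bool → DihedralGroup m := fun q => if q.2 then sr (a - q.1.1) else r q.1.1
  have hsub : ((centralizer ({sr a} : Set (DihedralGroup m)) : Subgroup (DihedralGroup m)) : Set (DihedralGroup m)) ⊆ Set.range G := by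
    intro g hg
    have h1 := mem_centralizer_iff.1 hg (sr a) rfl
    cases g with
    | r i =>
      simp only [sr_mul_r, r_mul_sr] at h1
      have h2 := sr.inj h1
      refine ⟨(⟨i, ?_⟩, false), by simp [G]⟩
      rw [two_nsmul]
      linear_combination h2
    | sr b =>
      simp only [sr_mul_sr] at h1
      have h2 := r.inj h1
      refine ⟨(⟨a - b, ?_⟩, true), by simp [G]⟩
      rw [two_nsmul]
      linear_combination -h2
  have h1 : Nat.card (centralizer ({sr a} : Set (DihedralGroup m))) ≤ Nat.card (Set.range G) :=
    Nat.card_le_card_of_injective (Set.inclusion hsub) (Set.inclusion_injective hsub)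
  have h2 : Nat.card (Set.range G) ≤ Nat.card (T × Bool) :=
    Nat.card_le_card_of_surjective (Set.rangeFactorization G) Set.rangeFactorization_surjective
  rw [Nat.card_prod] at h2
  have h3 : Nat.card Bool = 2 := by simp
  rw [h3] at h2
  omega

/-- Klein four-subgroups of dihedral groups are self-centralizing. -/
theorem klein_self_centralizing {m : ℕ} (hm : 2 ≤ m) (E : Subgroup (DihedralGroup m)) (hE : IsKleinFour E) :
    centralizer (E : Set (DihedralGroup m)) = E := by
  haveI : NeZero m := ⟨by omega⟩
  have hexp : ∀ t ∈ E, t * t = 1 := by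
    intro t ht
    have h1 := Monoid.pow_exponent_eq_one (⟨t, ht⟩ : E)
    rw [IsKleinFour.exponent_two, pow_two] at h1
    exact congrArg Subtype.val h1
  have hcard : Nat.card E = 4 := IsKleinFour.card_four
  have hle : E ≤ centralizer (E : Set (DihedralGroup m)) := by
    intro x hx
    refine mem_centralizer_iff.2 fun y hy => ?_
    exact CfsgLib.QD.klein_comm hE hy hx
  -- a reflection
  obtain ⟨a, ha⟩ : ∃ a, sr a ∈ E := by
    by_contra hcon
    push Not at hcon
    have hf : ∀ g : E, ∃ i : {i : ZMod m // 2 • i = 0}, (g : DihedralGroup m) = r i.1 := by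
      rintro ⟨g, hg⟩
      cases g with
      | r i =>
        have h1 := hexp _ hg
        simp only [r_mul_r] at h1
        have h2 : i + i = 0 := r.inj h1
        exact ⟨⟨i, by rw [two_nsmul]; exact h2⟩, rfl⟩
      | sr b => exact absurd hg (hcon b)
    choose f hf using hf
    have hinj : Function.Injective f := by
      intro g g' h
      apply Subtype.ext
      rw [hf, hf, h]
    have h1 := Nat.card_le_card_of_injective f hinj
    have h2 := card_two_torsion (m := m)
    omega
  have hE2 : E ≤ centralizer ({sr a} : Set (DihedralGroup m)) := by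
    intro x hx
    refine mem_centralizer_iff.2 fun y hy => ?_
    rw [Set.mem_singleton_iff] at hy
    rw [hy]
    exact CfsgLib.QD.klein_comm hE ha hx
  have hEq : E = centralizer ({sr a} : Set (DihedralGroup m)) := by
    apply Subgroup.eq_of_le_of_card_ge hE2
    rw [hcard]
    exact card_centralizer_sr a
  apply le_antisymm _ hle
  intro g hg
  rw [hEq]
  refine mem_centralizer_iff.2 fun y hy => ?_
  rw [Set.mem_singleton_iff] at hy
  rw [hy]
  exact mem_centralizer_iff.1 hg (sr a) ha

section Main

variable {R : Type*} [Group R] [Finite R]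

/-- S1236. -/
theorem main (t : R) (ht : orderOf t = 2) (htz : t ∈ center R) [hZn : (zpowers t).Normal]
    (hq : (∃ m : ℕ, 2 ≤ m ∧ Nonempty (R ⧸ zpowers t ≃* DihedralGroup m)) ∨ Cfsg.IsQuasiDihedral (R ⧸ zpowers t))
    (A : Subgroup R) (hA : Cfsg.IsElementaryAbelian 2 A) (hA8 : Nat.card A = 8) (htA : t ∈ A) :
    centralizer (A : Set R) = A := by
  set Z := zpowers t with hZ
  have hZA : Z ≤ A := zpowers_le.2 htA
  have hZc : Nat.card Z = 2 := by rw [hZ, Nat.card_zpowers, ht]
  have hAc : ∀ a ∈ A, ∀ b ∈ A, a * b = b * a := by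
    intro a ha b hb
    have := hA.1.is_comm.comm ⟨a, ha⟩ ⟨b, hb⟩
    exact congrArg Subtype.val this
  set π := QuotientGroup.mk' Z with hπ
  have hπ1 : ∀ x, π x = 1 ↔ x ∈ Z := fun x => QuotientGroup.eq_one_iff x
  set B := A.map π with hB
  have hBcard : Nat.card B = 4 := by
    set f : ↥A →* R ⧸ Z := π.comp A.subtype with hf
    have hfr : f.range = B := by
      rw [hf, MonoidHom.range_comp, Subgroup.range_subtype]
    have hfk : f.ker = Z.subgroupOf A := by
      ext k
      rw [MonoidHom.mem_ker, Subgroup.mem_subgroupOf]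
      exact hπ1 _
    have h1 := Subgroup.card_mul_index f.ker
    rw [Subgroup.index_ker, hfr, hfk, show Nat.card (Z.subgroupOf A) = Nat.card Z from
      Nat.card_congr (Subgroup.subgroupOfEquivOfLe hZA).toEquiv, hZc, hA8] at h1
    omega
  have hBk : IsKleinFour B := by
    apply CfsgLib.DihFus.klein_of_sq hBcard
    rintro ⟨_, a, ha, rfl⟩
    apply Subtype.ext
    show (π a) ^ 2 = 1
    rw [← map_pow, hA.2 a ha, map_one]
  have hBself : centralizer (B : Set (R ⧸ Z)) = B := by
    rcases hq with ⟨m, hm, ⟨e⟩⟩ | hqd
    · haveI : NeZero m := ⟨by omega⟩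
      have hk : IsKleinFour (B.map e.toMonoidHom) := by
        apply CfsgLib.DihFus.klein_of_sq
        · rw [Subgroup.card_map_of_injective e.injective, hBcard]
        · rintro ⟨_, b, hb, rfl⟩
          apply Subtype.ext
          show (e b) ^ 2 = 1
          rw [← map_pow]
          have := Monoid.pow_exponent_eq_one (⟨b, hb⟩ : B)
          rw [IsKleinFour.exponent_two] at this
          have h2 : b ^ 2 = 1 := congrArg Subtype.val this
          rw [h2, map_one]
      have h1 := klein_self_centralizing hm _ hk
      apply le_antisymm _ (fun x hx => mem_centralizer_iff.2 fun y hy =>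
        CfsgLib.QD.klein_comm hBk hy hx)
      intro g hg
      have h2 : e g ∈ centralizer ((B.map e.toMonoidHom : Subgroup _) : Set (DihedralGroup m)) := by
        refine mem_centralizer_iff.2 ?_
        rintro _ ⟨b, hb, rfl⟩
        have := mem_centralizer_iff.1 hg b hb
        show e b * e g = e g * e b
        rw [← map_mul, ← map_mul, this]
      rw [h1] at h2
      obtain ⟨b, hb, hbe⟩ := h2
      have : b = g := e.injective hbe
      rw [← this]
      exact hb
    · obtain ⟨n, x, y, hn, hc, D⟩ := CfsgLib.QD.exists_data hqd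
      exact (D.klein_main.2 B hBk).1
  apply le_antisymm _ (fun x hx => mem_centralizer_iff.2 fun y hy => hAc y hy x hx)
  intro y hy
  have h1 : π y ∈ centralizer (B : Set (R ⧸ Z)) := by
    refine mem_centralizer_iff.2 ?_
    rintro _ ⟨a, ha, rfl⟩
    have := mem_centralizer_iff.1 hy a ha
    rw [← map_mul, ← map_mul, this]
  rw [hBself] at h1
  obtain ⟨a, ha, hae⟩ := h1
  have h2 : a⁻¹ * y ∈ Z := by
    rw [← hπ1, map_mul, map_inv, hae]
    simp
  have h3 : y = a * (a⁻¹ * y) := by group
  rw [h3]
  exact A.mul_mem ha (hZA h2)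

end Main

end CfsgLib.DihKlein
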