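import Mathlib
import Cfsg.Agent.Lib.FGS.FrobCon

/-! # Finite subgroups of division rings are Frobenius complements -/

set_option autoImplicit false

namespace CfsgLib.DivFrob

open Cfsg

universe u v

/-- A copy of `Fin n` without its arithmetic. -/
def FinC (n : ℕ) : Type := Fin n

instance (n : ℕ) : Finite (FinC n) := inferInstanceAs (Finite (Fin n))

/-- Universe-polymorphic version of the Frobenius group construction. -/
theorem exists_frob_univ {H₀ : Type u} [Group H₀] [Finite H₀] [Nontrivial H₀]
    {W : Type v} [AddCommGroup W] [Finite W] [Nontrivial W]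
    (f : H₀ → W →+ W) (hf1 : f 1 = AddMonoidHom.id W) (hfm : ∀ g h w, f (g * h) w = f g (f h w))
    (hfpf : ∀ h : H₀, h ≠ 1 → ∀ w : W, f h w = w → w = 0) :
    ∃ (L : Type) (_ : Group L) (_ : Finite L) (C : Subgroup L),
      IsFrobeniusComplement C ∧ Nonempty (H₀ ≃* C) := by
  classical
  obtain ⟨n, ⟨e₀⟩⟩ := Finite.exists_equiv_fin H₀
  obtain ⟨m, ⟨d₀⟩⟩ := Finite.exists_equiv_fin W
  let e : H₀ ≃ FinC n := e₀
  let d : W ≃ FinC m := d₀
  letI gF : Group (FinC n) := e.symm.group
  letI aF : AddCommGroup (FinC m) := d.symm.addCommGroup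
  let E : FinC n ≃* H₀ := { e.symm with
    map_mul' := fun a b => by
      show e.symm (e.symm.symm (e.symm a * e.symm b)) = _
      exact e.symm.apply_symm_apply _ }
  let D : FinC m ≃+ W := { d.symm with
    map_add' := fun a b => by
      show d.symm (d.symm.symm (d.symm a + d.symm b)) = _
      exact d.symm.apply_symm_apply _ }
  haveI : Nontrivial (FinC n) := E.toEquiv.nontrivial
  haveI : Nontrivial (FinC m) := D.toEquiv.nontrivial
  let f' : FinC n → FinC m →+ FinC m := fun h =>
    (D.symm.toAddMonoidHom).comp ((f (E h)).comp D.toAddMonoidHom)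
  have hf' : ∀ h w, D (f' h w) = f (E h) (D w) := fun h w => by
    show D (D.symm _) = _
    rw [D.apply_symm_apply]
    rfl
  obtain ⟨L, gL, fL, C, hC, ⟨i⟩⟩ := CfsgLib.FGS.exists_frobenius_of_fpf_add f'
    (by
      ext w
      apply D.injective
      rw [hf', map_one, hf1]
      rfl)
    (by
      intro g h w
      apply D.injective
      rw [hf', hf', hf', map_mul, hfm])
    (by
      intro h hh w hw
      apply D.injective
      rw [map_zero]
      apply hfpf (E h) (fun h0 => hh (E.injective (by rw [h0, map_one])))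
      rw [← hf', hw])
  exact ⟨L, gL, fL, C, hC, ⟨E.symm.trans i.symm⟩⟩

variable {D : Type*} [DivisionRing D]

/-- S4293. -/
theorem exists_frobenius_of_division_ring (H : Subgroup Dˣ) [Finite H] (hH : H ≠ ⊥) :
    ∃ (L : Type) (_ : Group L) (_ : Finite L) (C : Subgroup L),
      IsFrobeniusComplement C ∧ Nonempty (H ≃* C) := by
  classical
  haveI hnt : Nontrivial H := (Subgroup.nontrivial_iff_ne_bot H).2 hH
  set N := Nat.card H with hN
  have hNpos : 0 < N := Nat.card_pos
  -- the additive group generated by `H`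
  let S : Set D := Set.range (fun h : H => (((h : Dˣ)) : D))
  let R : AddSubgroup D := AddSubgroup.closure S
  have hSR : ∀ h : H, (((h : Dˣ)) : D) ∈ R := fun h => AddSubgroup.subset_closure ⟨h, rfl⟩
  have hmulR : ∀ h : H, ∀ r ∈ R, ((h : Dˣ) : D) * r ∈ R := by
    intro h r hr
    induction hr using AddSubgroup.closure_induction with
    | mem x hx =>
      obtain ⟨k, rfl⟩ := hx
      have : ((h : Dˣ) : D) * (((k : Dˣ)) : D) = (((h * k : H) : Dˣ) : D) := by simp
      rw [this]
      exact hSR _
    | zero => rw [mul_zero]; exact R.zero_mem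
    | add x y _ _ hx hy => rw [mul_add]; exact R.add_mem hx hy
    | neg x _ hx => rw [mul_neg]; exact R.neg_mem hx
  have h1R : (1 : D) ∈ R := by
    have := hSR 1
    simpa using this
  -- the prime
  obtain ⟨p, hp, hpN, hpD⟩ : ∃ p : ℕ, p.Prime ∧ ¬ p ∣ N ∧ ((p : D) = 0 ∨ CharZero D) := by
    obtain ⟨c, hc⟩ := CharP.exists D
    haveI := hc
    rcases CharP.char_is_prime_or_zero D c with hcp | hc0
    · refine ⟨c, hcp, ?_, Or.inl (CharP.cast_eq_zero D c)⟩
      intro hd
      haveI : Fact c.Prime := ⟨hcp⟩
      obtain ⟨h, hh⟩ := exists_prime_orderOf_dvd_card' c hd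
      have h2 : h ^ c = 1 := by rw [← hh]; exact pow_orderOf_eq_one h
      have h3 : (((h : Dˣ) : D)) ^ c = 1 := by
        have := congrArg (fun k : H => (((k : Dˣ)) : D)) h2
        simpa using this
      have h1 : (((h : Dˣ) : D) - 1) ^ c = ((h : Dˣ) : D) ^ c - 1 ^ c :=
        sub_pow_char_of_commute c (Commute.one_right _)
      rw [h3, one_pow, sub_self] at h1
      have h4 : ((h : Dˣ) : D) - 1 = 0 := pow_eq_zero_iff (hcp.ne_zero) |>.1 h1
      have h5 : h = 1 := by
        apply Subtype.ext
        apply Units.ext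
        simpa [sub_eq_zero] using h4
      rw [h5, orderOf_one] at hh
      exact hcp.one_lt.ne hh
    · subst hc0
      haveI : CharZero D := CharP.charP_to_charZero D
      obtain ⟨p, hpN', hp⟩ := Nat.exists_infinite_primes (N + 1)
      exact ⟨p, hp, fun hd => by have := Nat.le_of_dvd hNpos hd; omega, Or.inr inferInstance⟩
  -- the module
  let P : AddSubgroup R := (nsmulAddMonoidHom p : R →+ R).range
  have hPmem : ∀ s : R, p • s ∈ P := fun s => ⟨s, rfl⟩
  let L : H → (R →+ R) := fun h =>
    { toFun := fun r => ⟨((h : Dˣ) : D) * r, hmulR h r r.2⟩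
      map_zero' := Subtype.ext (mul_zero _)
      map_add' := fun a b => Subtype.ext (mul_add _ _ _) }
  have hLP : ∀ h : H, P ≤ P.comap (L h) := by
    rintro h _ ⟨s, rfl⟩
    refine ⟨L h s, ?_⟩
    simp only [nsmulAddMonoidHom_apply, map_nsmul]
  let f : H → ((R ⧸ P) →+ (R ⧸ P)) := fun h => QuotientAddGroup.map P P (L h) (hLP h)
  have hfr : ∀ (h : H) (r : R), f h (r : R ⧸ P) = ((L h r : R) : R ⧸ P) := fun h r => rfl
  have hf1 : f 1 = AddMonoidHom.id _ := by
    refine AddMonoidHom.ext (fun w => ?_)
    induction w using QuotientAddGroup.induction_on with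
    | H r =>
      rw [hfr]
      congr 1
      apply Subtype.ext
      show (((1 : H) : Dˣ) : D) * (r : D) = r
      simp
  have hfm : ∀ g h w, f (g * h) w = f g (f h w) := by
    intro g h w
    induction w using QuotientAddGroup.induction_on with
    | H r =>
      rw [hfr, hfr, hfr]
      congr 1
      apply Subtype.ext
      show (((g * h : H) : Dˣ) : D) * (r : D) = ((g : Dˣ) : D) * (((h : Dˣ) : D) * r)
      simp [mul_assoc]
  have hpW : ∀ w : R ⧸ P, p • w = 0 := by
    intro w
    induction w using QuotientAddGroup.induction_on with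
    | H r =>
      rw [← QuotientAddGroup.mk_nsmul]
      exact (QuotientAddGroup.eq_zero_iff _).2 (hPmem r)
  haveI hfinW : Finite (R ⧸ P) := by
    haveI : AddGroup.FG R := by
      rw [AddGroup.fg_iff_addSubgroup_fg]
      exact ⟨(Set.finite_range (fun h : H => (((h : Dˣ)) : D))).toFinset, by
        rw [Set.Finite.coe_toFinset]⟩
    apply AddCommGroup.finite_of_fg_isAddTorsion
    intro w
    exact isOfFinAddOrder_iff_nsmul_eq_zero.2 ⟨p, hp.pos, hpW w⟩
  haveI hntW : Nontrivial (R ⧸ P) := by
    by_contra hcon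
    rw [not_nontrivial_iff_subsingleton] at hcon
    have hall : ∀ r : R, ∃ s : R, p • s = r := by
      intro r
      have : (r : R ⧸ P) = 0 := Subsingleton.elim _ _
      exact (QuotientAddGroup.eq_zero_iff _).1 this
    rcases hpD with hpD | hcz
    · obtain ⟨s, hs⟩ := hall ⟨1, h1R⟩
      have h2 := congrArg Subtype.val hs
      have h3 : (p : D) * (s : D) = 1 := by
        rw [← nsmul_eq_mul]
        exact h2
      rw [hpD, zero_mul] at h3
      exact zero_ne_one h3
    · let N₀ : Submodule ℤ D := AddSubgroup.toIntSubmodule R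
      have hfg : N₀.FG := by
        refine ⟨(Set.finite_range (fun h : H => (((h : Dˣ)) : D))).toFinset, ?_⟩
        rw [Set.Finite.coe_toFinset]
        apply le_antisymm
        · rw [Submodule.span_le]
          rintro _ ⟨h, rfl⟩
          exact hSR h
        · intro x hx
          have hx' : x ∈ R := hx
          induction hx' using AddSubgroup.closure_induction with
          | mem y hy => exact Submodule.subset_span hy
          | zero => exact Submodule.zero_mem _
          | add a b ha hb iha ihb => exact Submodule.add_mem _ (iha ha) (ihb hb)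
          | neg a ha ih => exact Submodule.neg_mem _ (ih ha)
      let I : Ideal ℤ := Ideal.span {(p : ℤ)}
      have hle : N₀ ≤ I • N₀ := by
        intro x hx
        obtain ⟨s, hs⟩ := hall ⟨x, hx⟩
        have h2 : x = (p : ℤ) • (s : D) := by
          have := congrArg Subtype.val hs
          rw [natCast_zsmul]
          exact this.symm
        rw [h2]
        exact Submodule.smul_mem_smul (Ideal.subset_span rfl) s.2
      obtain ⟨z, hz1, hz2⟩ := Submodule.exists_sub_one_mem_and_smul_eq_zero_of_fg_of_le_smul I N₀ hfg hle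
      have h3 := hz2 1 h1R
      have h4 : z = 0 := by
        have : (z : D) = 0 := by simpa using h3
        exact Int.cast_eq_zero.1 this
      rw [h4, zero_sub, Ideal.neg_mem_iff, Ideal.mem_span_singleton] at hz1
      have h5 : p ∣ 1 := Int.natCast_dvd_natCast.1 (by simpa using hz1)
      exact hp.one_lt.ne' (Nat.dvd_one.1 h5)
  refine exists_frob_univ f hf1 hfm ?_
  intro h hh w hw
  induction w using QuotientAddGroup.induction_on with
  | H r =>
    rw [hfr] at hw
    have h0 := (QuotientAddGroup.eq).1 hw
    obtain ⟨s, hs⟩ := h0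
    have hs' : (p : D) * (s : D) = -(((h : Dˣ) : D) * r) + r := by
      rw [← nsmul_eq_mul]
      exact congrArg Subtype.val hs
    set x : D := ((h : Dˣ) : D) with hx
    have hx1 : x ≠ 1 := by
      intro h0
      apply hh
      apply Subtype.ext
      apply Units.ext
      exact h0
    have hxN : x ^ N = 1 := by
      have h2 : h ^ N = 1 := pow_card_eq_one'
      have := congrArg (fun k : H => (((k : Dˣ)) : D)) h2
      simpa using this
    have hsum : ∑ i ∈ Finset.range N, x ^ i = 0 := by
      have h2 := mul_geom_sum x N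
      rw [hxN, sub_self] at h2
      exact (mul_eq_zero.1 h2).resolve_left (sub_ne_zero.2 hx1)
    have hG : (∑ i ∈ Finset.range N, ∑ j ∈ Finset.range i, x ^ j) * (1 - x) = (N : D) := by
      rw [Finset.sum_mul]
      simp_rw [geom_sum_mul_neg]
      rw [Finset.sum_sub_distrib, hsum]
      simp
    have hGs : (∑ i ∈ Finset.range N, ∑ j ∈ Finset.range i, x ^ j) * (s : D) ∈ R := by
      rw [Finset.sum_mul]
      apply AddSubgroup.sum_mem
      intro i _
      rw [Finset.sum_mul]
      apply AddSubgroup.sum_mem
      intro j _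
      have := hmulR (h ^ j) s s.2
      simpa using this
    have hNr : (N : D) * r = (p : D) * ((∑ i ∈ Finset.range N, ∑ j ∈ Finset.range i, x ^ j) * (s : D)) := by
      rw [← hG, mul_assoc, sub_mul, one_mul, ← mul_assoc (p : D), ((Nat.cast_commute p _).eq), mul_assoc, hs']
      congr 1
      abel
    have hN0 : N • (r : R ⧸ P) = 0 := by
      rw [← QuotientAddGroup.mk_nsmul]
      apply (QuotientAddGroup.eq_zero_iff _).2
      refine ⟨⟨_, hGs⟩, Subtype.ext ?_⟩
      show p • ((∑ i ∈ Finset.range N, ∑ j ∈ Finset.range i, x ^ j) * (s : D)) = N • (r : D)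
      rw [nsmul_eq_mul, nsmul_eq_mul, hNr]
    have hd : addOrderOf (r : R ⧸ P) ∣ Nat.gcd N p :=
      Nat.dvd_gcd (addOrderOf_dvd_of_nsmul_eq_zero hN0) (addOrderOf_dvd_of_nsmul_eq_zero (hpW r))
    have hcop : Nat.gcd N p = 1 := by
      rw [Nat.gcd_comm]
      exact (Nat.Prime.coprime_iff_not_dvd hp).2 hpN
    rw [hcop, Nat.dvd_one, AddMonoid.addOrderOf_eq_one_iff] at hd
    exact hd

end CfsgLib.DivFrob
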