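import Cfsg.Agent.Lib.H3.PComp2
import Cfsg.Agent.Lib.Lead.SylowConj

/-! The extended 2-layer. -/

set_option autoImplicit false
set_option linter.unusedSectionVars false
set_option linter.style.haveILetI false

open scoped Pointwise

namespace CfsgLib.Comp

open Subgroup

variable {X : Type*} [Group X] [Finite X] {p : ℕ}

/-- The `p`-component property is conjugation invariant. -/
theorem pcomp_conj {K : Subgroup X} (hK : Cfsg.IsPComponent p K) (g : X) :
    Cfsg.IsPComponent p (K.map (MulAut.conj g).toMonoidHom) := by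
  set π := QuotientGroup.mk' (Cfsg.pPrimeCore p X) with hπ
  have hmap : ∀ (A : Subgroup X) (h : X), (A.map (MulAut.conj h).toMonoidHom).map π =
      (A.map π).map (MulAut.conj (π h)).toMonoidHom := by
    intro A h
    rw [Subgroup.map_map, Subgroup.map_map]
    congr 1
  refine ⟨hK.1.map (MulAut.conj g).surjective, ?_, ?_⟩
  · rw [hmap]
    exact component_conj hK.2.1 _
  · intro H hHs hHK hHm
    have h1 : H.map (MulAut.conj g⁻¹).toMonoidHom ≤ K := by
      rintro _ ⟨y, hy, rfl⟩
      obtain ⟨z, hz, rfl⟩ := hHK hy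
      simpa [mul_assoc] using hz
    have h2 : (H.map (MulAut.conj g⁻¹).toMonoidHom).map π = K.map π := by
      rw [hmap, hHm, hmap, Subgroup.map_map]
      ext x
      simp [Subgroup.mem_map, mul_assoc]
    have h3 := hK.2.2 _ (hHs.map (MulAut.conj g⁻¹).surjective) h1 h2
    rw [← h3, Subgroup.map_map]
    ext x
    simp [Subgroup.mem_map, mul_assoc]

instance pLayer_normal : (Cfsg.pLayer p X).Normal := by
  constructor
  intro n hn g
  have h : Cfsg.pLayer p X ≤ (Cfsg.pLayer p X).comap (MulAut.conj g).toMonoidHom := by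
    refine sSup_le ?_
    intro K hK
    rw [← Subgroup.map_le_iff_le_comap]
    exact pcomp_le_pLayer (pcomp_conj hK g)
  exact h hn

instance pPrimePCore_normal : (Cfsg.pPrimePCore p X).Normal :=
  Subgroup.Normal.comap inferInstance _

/-- The core of a centralizer. -/
def cc (p : ℕ) (A : Subgroup X) : Subgroup X :=
  (Cfsg.pPrimeCore p (centralizer (A : Set X))).map (centralizer (A : Set X)).subtype

lemma cc_le (p : ℕ) (A : Subgroup X) : cc p A ≤ centralizer (A : Set X) := map_subtype_le _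

lemma cc_conj_le (A : Subgroup X) (g : X) :
    (cc p A).map (MulAut.conj g).toMonoidHom ≤ cc p (A.map (MulAut.conj g).toMonoidHom) := by
  -- the isomorphism between the centralizers
  have hc : ∀ (g : X) (A : Subgroup X) (x : centralizer (A : Set X)),
      g * (x : X) * g⁻¹ ∈ centralizer ((A.map (MulAut.conj g).toMonoidHom : Subgroup X) : Set X) := by
    rintro g A x
    rw [Subgroup.mem_centralizer_iff]
    rintro _ ⟨a, ha, rfl⟩
    have h1 := Subgroup.mem_centralizer_iff.1 x.2 a ha
    simp only [MulEquiv.coe_toMonoidHom, MulAut.conj_apply]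
    calc g * a * g⁻¹ * (g * x * g⁻¹) = g * (a * x) * g⁻¹ := by group
      _ = g * (x * a) * g⁻¹ := by rw [h1]
      _ = _ := by group
  have hc' : ∀ x : centralizer ((A.map (MulAut.conj g).toMonoidHom : Subgroup X) : Set X),
      g⁻¹ * (x : X) * g ∈ centralizer (A : Set X) := by
    intro x
    rw [Subgroup.mem_centralizer_iff]
    intro a ha
    have h1 := Subgroup.mem_centralizer_iff.1 x.2 (g * a * g⁻¹) ⟨a, ha, rfl⟩
    calc a * (g⁻¹ * x * g) = g⁻¹ * ((g * a * g⁻¹) * x) * g := by group
      _ = g⁻¹ * (x * (g * a * g⁻¹)) * g := by rw [h1]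
      _ = _ := by group
  let e : centralizer (A : Set X) ≃*
      centralizer ((A.map (MulAut.conj g).toMonoidHom : Subgroup X) : Set X) :=
    { toFun := fun x => ⟨g * x * g⁻¹, hc g A x⟩
      invFun := fun x => ⟨g⁻¹ * x * g, hc' x⟩
      left_inv := fun x => by
        apply Subtype.ext
        simp [mul_assoc]
      right_inv := fun x => by
        apply Subtype.ext
        simp [mul_assoc]
      map_mul' := fun a b => by
        apply Subtype.ext
        change g * ((a : X) * b) * g⁻¹ = (g * a * g⁻¹) * (g * b * g⁻¹)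
        group }
  have h := CfsgLib.PLocal.pPrimeCore_map_equiv_le (p := p) e
  rintro _ ⟨_, ⟨c, hc₁, rfl⟩, rfl⟩
  exact ⟨e c, h ⟨c, hc₁, rfl⟩, rfl⟩

lemma normalizer_le_normalizer_cc (A : Subgroup X) :
    normalizer (A : Set X) ≤ normalizer ((cc p A : Subgroup X) : Set X) := by
  intro g hg
  apply CfsgLib.CT.mem_normalizer_of_conj_le
  intro a ha
  have h := cc_conj_le (p := p) A g ⟨a, ha, rfl⟩
  rw [CfsgLib.CT.map_conj_eq_iff.2 hg] at h
  exact h

section Two

variable [hp : Fact p.Prime]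

/-- The group `W = L O_{p',p}`. -/
abbrev wW (p : ℕ) (X : Type*) [Group X] : Subgroup X := Cfsg.pLayer p X ⊔ Cfsg.pPrimePCore p X

instance wW_normal : (wW p X).Normal := by
  unfold wW
  infer_instance

/-- Conjugates of the cores over Sylow subgroups of `W`. -/
theorem exists_factor {W : Subgroup X} (hW : W = wW p X) (T : Sylow p W) :
    ∀ w ∈ W, ∃ n ∈ Cfsg.pLayer p X ⊔ Cfsg.pPrimeCore p X, ∃ t ∈ (T : Subgroup W).map W.subtype,
      w = n * t := by
  set N := Cfsg.pLayer p X ⊔ Cfsg.pPrimeCore p X with hN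
  set π := QuotientGroup.mk' (Cfsg.pPrimeCore p X) with hπ
  haveI hNn : N.Normal := by rw [hN]; infer_instance
  haveI hNW : (N.subgroupOf W).Normal := inferInstance
  let φ := QuotientGroup.mk' (N.subgroupOf W)
  have hφs : Function.Surjective φ := QuotientGroup.mk'_surjective _
  -- the quotient is a `p`-group
  have hpg : IsPGroup p (W ⧸ N.subgroupOf W) := by
    intro q
    obtain ⟨w, rfl⟩ := hφs q
    have hWX : ∀ x, x ∈ W → x ∈ Cfsg.pLayer p X ⊔ Cfsg.pPrimePCore p X := by
      rw [hW]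
      exact fun _ h => h
    have hw : (w : X) ∈ Cfsg.pLayer p X ⊔ Cfsg.pPrimePCore p X := hWX _ w.2
    rw [← SetLike.mem_coe, Subgroup.normal_mul, Set.mem_mul] at hw
    obtain ⟨l, hl, u, hu, hlu⟩ := hw
    have hR : IsPGroup p (Cfsg.pCore p (X ⧸ Cfsg.pPrimeCore p X)) := CfsgLib.PLocal.pCore_isPGroup
    obtain ⟨k, hk⟩ := CfsgLib.CT.pow_eq_one_of_mem_pgroup hR (show π u ∈ _ from hu)
    have hu2 : u ^ p ^ k ∈ Cfsg.pPrimeCore p X := by
      apply (QuotientGroup.eq_one_iff _).1
      rw [← map_pow] at hk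
      exact hk
    refine ⟨k, ?_⟩
    -- in the quotient by `N`, the element `w` is the image of `u`
    let ψ := QuotientGroup.mk' N
    have h1 : ψ (w : X) ^ p ^ k = 1 := by
      rw [← hlu, map_mul]
      have h2 : ψ l = 1 := (QuotientGroup.eq_one_iff _).2 (Subgroup.mem_sup_left hl)
      rw [h2, one_mul, ← map_pow]
      exact (QuotientGroup.eq_one_iff _).2 (Subgroup.mem_sup_right hu2)
    rw [← map_pow] at h1 ⊢
    apply (QuotientGroup.eq_one_iff _).2
    apply Subgroup.mem_subgroupOf.2
    have h3 := (QuotientGroup.eq_one_iff _).1 h1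
    simpa using h3
  -- `T` covers this quotient
  have hidx : ((T : Subgroup W).map φ).index.Coprime p := by
    refine Nat.Coprime.coprime_dvd_left (Subgroup.index_map_dvd _ hφs) ?_
    exact ((Nat.Prime.coprime_iff_not_dvd hp.out).2 T.not_dvd_index).symm
  have htop : (T : Subgroup W).map φ = ⊤ := by
    rw [← Subgroup.index_eq_one]
    obtain ⟨n, hn⟩ := IsPGroup.iff_card.1 hpg
    have h1 : ((T : Subgroup W).map φ).index ∣ p ^ n := by
      rw [← hn]
      exact Subgroup.index_dvd_card _
    obtain ⟨m, -, hm⟩ := (Nat.dvd_prime_pow hp.out).1 h1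
    rw [hm] at hidx ⊢
    rcases m with _ | m
    · simp
    · exfalso
      rw [pow_succ] at hidx
      have := Nat.Coprime.coprime_dvd_left (Nat.dvd_mul_left p (p ^ m)) hidx
      rw [Nat.coprime_self] at this
      exact hp.out.one_lt.ne' this
  intro w hw
  have h1 : φ ⟨w, hw⟩ ∈ (T : Subgroup W).map φ := by rw [htop]; exact mem_top _
  obtain ⟨t, ht, hty⟩ := h1
  refine ⟨w * (t : X)⁻¹, ?_, t, ⟨t, ht, rfl⟩, by simp⟩
  have h2 : (⟨w, hw⟩ : W) * t⁻¹ ∈ N.subgroupOf W := by
    apply (QuotientGroup.eq_one_iff _).1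
    change φ _ = 1
    rw [map_mul, map_inv, hty, mul_inv_cancel]
  exact Subgroup.mem_subgroupOf.1 h2

/-- Conjugating Sylow subgroups of a normal subgroup. -/
lemma sylow_conj_map {W : Subgroup X} [hWn : W.Normal] (T : Sylow p W) (g : X) :
    (((MulAut.conjNormal g : MulAut W) • T : Sylow p W) : Subgroup W).map W.subtype =
      ((T : Subgroup W).map W.subtype).map (MulAut.conj g).toMonoidHom := by
  ext y
  constructor
  · rintro ⟨t', ht', rfl⟩
    rw [SetLike.mem_coe, Sylow.pointwise_smul_def] at ht'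
    obtain ⟨s, hs, rfl⟩ := (Subgroup.mem_smul_pointwise_iff_exists _ _ _).1 ht'
    exact ⟨s, ⟨s, hs, rfl⟩, rfl⟩
  · rintro ⟨_, ⟨s, hs, rfl⟩, rfl⟩
    refine ⟨(MulAut.conjNormal g : MulAut W) • s, ?_, rfl⟩
    rw [SetLike.mem_coe, Sylow.pointwise_smul_def]
    exact Subgroup.smul_mem_pointwise_smul _ _ _ hs

lemma map_conj_conj_inv (A : Subgroup X) (g : X) :
    (A.map (MulAut.conj g).toMonoidHom).map (MulAut.conj g⁻¹).toMonoidHom = A := by
  ext y
  constructor
  · rintro ⟨_, ⟨x, hx, rfl⟩, rfl⟩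
    simpa [mul_assoc] using hx
  · intro hy
    exact ⟨g * y * g⁻¹, ⟨y, hy, rfl⟩, by simp [mul_assoc]⟩

/-- General `p` version of the extended layer. -/
def extLayer (p : ℕ) (X : Type*) [Group X] : Subgroup X :=
  Cfsg.pLayer p X ⊔ Cfsg.pPrimeCore p X ⊔
    ⨆ T : Sylow p (wW p X), cc p ((T : Subgroup (wW p X)).map (wW p X).subtype)

/-- S1342 -/
theorem extLayer_normal : (extLayer p X).Normal := by
  constructor
  intro n hn g
  have h : extLayer p X ≤ (extLayer p X).comap (MulAut.conj g).toMonoidHom := by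
    refine sup_le (sup_le ?_ ?_) ?_
    · intro x hx
      exact Subgroup.mem_sup_left (Subgroup.mem_sup_left ((inferInstance : (Cfsg.pLayer p X).Normal).conj_mem x hx g))
    · intro x hx
      exact Subgroup.mem_sup_left (Subgroup.mem_sup_right ((inferInstance : (Cfsg.pPrimeCore p X).Normal).conj_mem x hx g))
    · refine iSup_le ?_
      intro T
      rw [← Subgroup.map_le_iff_le_comap]
      refine (cc_conj_le _ g).trans ?_
      rw [← sylow_conj_map T g]
      exact le_sup_of_le_right (le_iSup_of_le ((MulAut.conjNormal g : MulAut (wW p X)) • T) le_rfl)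
  exact h hn

/-- S1341 -/
theorem extLayer_eq (T : Sylow p (wW p X)) :
    extLayer p X = Cfsg.pLayer p X ⊔ Cfsg.pPrimeCore p X ⊔
      cc p ((T : Subgroup (wW p X)).map (wW p X).subtype) := by
  set Tt := (T : Subgroup (wW p X)).map (wW p X).subtype with hTt
  apply le_antisymm
  · refine sup_le le_sup_left ?_
    refine iSup_le ?_
    intro T₂
    -- `T₂` is conjugate to `T`
    obtain ⟨w, hw⟩ := MulAction.exists_smul_eq (wW p X) T T₂
    have hconj : (T₂ : Subgroup (wW p X)).map (wW p X).subtype =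
        Tt.map (MulAut.conj (w : X)).toMonoidHom := by
      rw [← hw, Sylow.smul_def, ← MulAut.conjNormal_val, sylow_conj_map T (w : X)]
    rw [hconj]
    intro x hx
    have h1 := cc_conj_le (p := p) (Tt.map (MulAut.conj (w : X)).toMonoidHom) (w : X)⁻¹
      ⟨x, hx, rfl⟩
    rw [map_conj_conj_inv] at h1
    obtain ⟨n, hn, t, ht, hwt⟩ := exists_factor rfl T (w : X) w.2
    have hc : (w : X)⁻¹ * x * w ∈ cc p Tt := by
      simpa using h1
    have ht2 : t * ((w : X)⁻¹ * x * w) * t⁻¹ ∈ cc p Tt :=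
      CfsgLib.CT.conj_mem_of_mem_normalizer
        (normalizer_le_normalizer_cc Tt (Subgroup.le_normalizer ht)) hc
    have hx2 : x = n * (t * ((w : X)⁻¹ * x * w) * t⁻¹) * n⁻¹ := by
      rw [hwt]
      group
    rw [hx2]
    refine Subgroup.mul_mem _ (Subgroup.mul_mem _ ?_ (Subgroup.mem_sup_right ht2)) ?_
    · exact Subgroup.mem_sup_left hn
    · exact Subgroup.inv_mem _ (Subgroup.mem_sup_left hn)
  · refine sup_le le_sup_left ?_
    exact le_sup_of_le_right (le_iSup_of_le T le_rfl)

/-- S1343 -/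
theorem extLayer_sup_odd : ∃ F : Subgroup X, (Nat.card F).Coprime p ∧
    (∃ S : Sylow p X, (S : Subgroup X) ≤ normalizer (F : Set X)) ∧
    extLayer p X = Cfsg.pLayer p X ⊔ F := by
  obtain ⟨T⟩ : Nonempty (Sylow p (wW p X)) := inferInstance
  set Tt := (T : Subgroup (wW p X)).map (wW p X).subtype with hTt
  have hTp : IsPGroup p Tt := T.isPGroup'.map _
  refine ⟨Cfsg.pPrimeCore p X ⊔ cc p Tt, ?_, ?_, ?_⟩
  · have h1 : Nat.card ((cc p Tt ⊔ Cfsg.pPrimeCore p X : Subgroup X)) ∣
        Nat.card (cc p Tt) * Nat.card (Cfsg.pPrimeCore p X) :=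
      CfsgLib.Solv.card_sup_dvd_mul _ _
    rw [sup_comm]
    refine Nat.Coprime.coprime_dvd_left h1 (Nat.Coprime.mul_left ?_ ?_)
    · rw [cc, Subgroup.card_map_of_injective (Subtype.val_injective)]
      exact CfsgLib.Solv.pPrimeCore_coprime p
    · exact CfsgLib.Solv.pPrimeCore_coprime p
  · obtain ⟨S, hS⟩ := hTp.exists_le_sylow
    refine ⟨S, ?_⟩
    -- `S ∩ W = T`
    have hTS : (S : Subgroup X) ⊓ wW p X = Tt := by
      symm
      apply le_antisymm (le_inf hS (map_subtype_le _))
      intro y hy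
      have h1 : IsPGroup p (((S : Subgroup X) ⊓ wW p X).subgroupOf (wW p X)) := by
        have h2 : IsPGroup p ((S : Subgroup X) ⊓ wW p X : Subgroup X) := S.isPGroup'.to_le inf_le_left
        exact h2.comap_subtype
      have h3 : (T : Subgroup (wW p X)) ≤ ((S : Subgroup X) ⊓ wW p X).subgroupOf (wW p X) := by
        intro t ht
        apply Subgroup.mem_subgroupOf.2
        exact ⟨hS ⟨t, ht, rfl⟩, t.2⟩
      have h4 := T.is_maximal' h1 h3
      have h5 : (⟨y, hy.2⟩ : wW p X) ∈ (T : Subgroup (wW p X)) := by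
        rw [← h4]
        exact Subgroup.mem_subgroupOf.2 hy
      exact ⟨_, h5, rfl⟩
    have hSN : (S : Subgroup X) ≤ normalizer (Tt : Set X) := by
      rw [← hTS]
      intro s hs
      apply CfsgLib.CT.mem_normalizer_of_conj_le
      rintro a ⟨ha1, ha2⟩
      refine Subgroup.mem_inf.2 ⟨(S : Subgroup X).mul_mem ((S : Subgroup X).mul_mem hs ha1)
        ((S : Subgroup X).inv_mem hs), (inferInstance : (wW p X).Normal).conj_mem a ha2 s⟩
    -- normalizes the join
    intro s hs
    rw [← CfsgLib.CT.map_conj_eq_iff, Subgroup.map_sup]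
    rw [CfsgLib.CT.map_conj_eq_iff.2 (show s ∈ normalizer (Cfsg.pPrimeCore p X : Set X) by
      rw [Subgroup.normalizer_eq_top_iff.2 inferInstance]; exact mem_top s)]
    rw [CfsgLib.CT.map_conj_eq_iff.2 (normalizer_le_normalizer_cc Tt (hSN hs))]
  · rw [extLayer_eq T, sup_assoc]

/-- `C(T)` normalizes every `p`-component. -/
theorem centralizer_sylow_normalizes {K : Subgroup X} (hK : Cfsg.IsPComponent p K)
    (T : Sylow p (wW p X)) :
    centralizer (((T : Subgroup (wW p X)).map (wW p X).subtype : Subgroup X) : Set X) ≤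
      normalizer (K : Set X) := by
  set Tt := (T : Subgroup (wW p X)).map (wW p X).subtype with hTt
  set π := QuotientGroup.mk' (Cfsg.pPrimeCore p X) with hπ
  -- `W` normalizes `K`
  have hKW : K ≤ wW p X := (pcomp_le_pLayer hK).trans le_sup_left
  have hWN : wW p X ≤ normalizer (K : Set X) := by
    refine sup_le ?_ ?_
    · refine sSup_le ?_
      intro J hJ
      by_cases h : J = K
      · rw [h]; exact Subgroup.le_normalizer
      · exact pcomp_normalized hK hJ h
    · intro u hu
      apply CfsgLib.CT.mem_normalizer_of_conj_le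
      rw [← pcomp_eq_closure hK]
      apply conj_pEltClosure
      intro a ha
      rw [← comap_map_core] at ha ⊢
      have hR : Group.IsSolvable (Cfsg.pCore p (X ⧸ Cfsg.pPrimeCore p X)) := by
        have h1 : IsPGroup p (Cfsg.pCore p (X ⧸ Cfsg.pPrimeCore p X)) :=
          CfsgLib.PLocal.pCore_isPGroup
        have := h1.isNilpotent
        infer_instance
      have h1 := layer_commute_solvable_normal (inferInstance) hR (π a)
        (comp_le_layer hK.2.1 ha) (π u) hu
      have h2 : π (u * a * u⁻¹) = π a := by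
        rw [map_mul, map_mul, map_inv, ← h1]
        group
      rw [Subgroup.mem_comap, h2]
      exact ha
  -- a Sylow subgroup of `K` inside `T`
  obtain ⟨S₀⟩ : Nonempty (Sylow p K) := inferInstance
  set A := (S₀ : Subgroup K).map K.subtype with hA
  have hAp : IsPGroup p A := S₀.isPGroup'.map _
  obtain ⟨w, hw⟩ : ∃ w : wW p X, ∀ a ∈ A, (w : X) * a * (w : X)⁻¹ ∈ Tt := by
    have h1 : IsPGroup p (A.subgroupOf (wW p X)) := hAp.comap_subtype
    obtain ⟨P, hP⟩ := h1.exists_le_sylow
    obtain ⟨w, hw⟩ := MulAction.exists_smul_eq (wW p X) P T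
    refine ⟨w, fun a ha => ?_⟩
    have haW : a ∈ wW p X := (map_subtype_le _ |>.trans hKW) ha
    have h2 : (⟨a, haW⟩ : wW p X) ∈ (P : Subgroup (wW p X)) := hP (Subgroup.mem_subgroupOf.2 ha)
    have h3 : w * (⟨a, haW⟩ : wW p X) * w⁻¹ ∈ (T : Subgroup (wW p X)) := by
      rw [← hw, Sylow.smul_def, Sylow.pointwise_smul_def]
      exact Subgroup.smul_mem_pointwise_smul _ _ _ h2
    exact ⟨_, h3, rfl⟩
  -- the conjugate of `A` in `K`
  set A₁ := A.map (MulAut.conj (w : X)).toMonoidHom with hA₁
  have hA₁K : A₁ ≤ K := by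
    rintro _ ⟨a, ha, rfl⟩
    exact CfsgLib.CT.conj_mem_of_mem_normalizer (hWN w.2) (map_subtype_le _ ha)
  have hA₁T : A₁ ≤ Tt := by
    rintro _ ⟨a, ha, rfl⟩
    exact hw a ha
  intro c hc
  by_contra hcK
  set K₂ := K.map (MulAut.conj c).toMonoidHom with hK₂
  have hne : K ≠ K₂ := by
    intro h
    exact hcK (CfsgLib.CT.map_conj_eq_iff.1 h.symm)
  have hK₂c := pcomp_conj hK c
  have hcomm := (pcomp_commutator hK hK₂c hne).1
  -- `A₁` is central modulo the core of `K`
  have hq := pcomp_quot_quasi hK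
  set ρ := QuotientGroup.mk' (Cfsg.pPrimeCore p K) with hρ
  have hρs : Function.Surjective ρ := QuotientGroup.mk'_surjective _
  set B₀ := A₁.subgroupOf K with hB₀
  have hB₀c : B₀.map ρ ≤ center (K ⧸ Cfsg.pPrimeCore p K) := by
    rintro _ ⟨b, hb, rfl⟩
    rw [Subgroup.mem_center_iff]
    intro q
    obtain ⟨k, rfl⟩ := hρs q
    have hbT : (b : X) ∈ Tt := hA₁T (Subgroup.mem_subgroupOf.1 hb)
    have hbK₂ : (b : X) ∈ K₂ := by
      refine ⟨b, b.2, ?_⟩
      have := Subgroup.mem_centralizer_iff.1 hc _ hbT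
      change c * (b : X) * c⁻¹ = b
      rw [← this]
      group
    have h1 : (k : X) * b * (k : X)⁻¹ * (b : X)⁻¹ ∈ (Cfsg.pPrimeCore p K).map K.subtype :=
      (hcomm (Subgroup.commutator_mem_commutator k.2 hbK₂)).1
    obtain ⟨z, hz, hzv⟩ := h1
    have h2 : z = k * b * k⁻¹ * b⁻¹ := Subtype.ext hzv
    rw [h2] at hz
    have h3 : ρ (k * b * k⁻¹ * b⁻¹) = 1 := (QuotientGroup.eq_one_iff _).2 hz
    simp only [map_mul, map_inv] at h3
    have h4 := mul_inv_eq_one.1 h3
    exact (mul_inv_eq_iff_eq_mul.1 h4)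
  -- index computation
  have hcardB : Nat.card B₀ = Nat.card (S₀ : Subgroup K) := by
    rw [hB₀, Nat.card_congr (Subgroup.subgroupOfEquivOfLe hA₁K).toEquiv, hA₁,
      Subgroup.card_map_of_injective (MulAut.conj (w : X)).injective, hA,
      Subgroup.card_map_of_injective K.subtype_injective]
  have hidxB : B₀.index = (S₀ : Subgroup K).index := by
    have h1 := Subgroup.index_mul_card B₀
    have h2 := Subgroup.index_mul_card (S₀ : Subgroup K)
    rw [hcardB] at h1
    exact Nat.eq_of_mul_eq_mul_right Nat.card_pos (h1.trans h2.symm)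
  have hcop : (center (K ⧸ Cfsg.pPrimeCore p K)).index.Coprime p := by
    refine Nat.Coprime.coprime_dvd_left
      ((Subgroup.index_dvd_of_le hB₀c).trans (Subgroup.index_map_dvd _ hρs)) ?_
    rw [hidxB]
    exact ((Nat.Prime.coprime_iff_not_dvd hp.out).2 S₀.not_dvd_index).symm
  refine quasi_not_coprime_index hq ?_ hcop
  -- `p` divides the order of the quotient
  have hd : p ∣ Nat.card K := (pcomp_props hK).2.2.1
  rw [Subgroup.card_eq_card_quotient_mul_card_subgroup (Cfsg.pPrimeCore p K)] at hd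
  rcases (Nat.Prime.dvd_mul hp.out).1 hd with h | h
  · exact h
  · exfalso
    have := CfsgLib.Solv.pPrimeCore_coprime p (G := K)
    exact (Nat.Prime.coprime_iff_not_dvd hp.out).1 this.symm h

/-- S1344 -/
theorem pcomp_normal_extLayer {K : Subgroup X} (hK : Cfsg.IsPComponent p K) :
    K ≤ extLayer p X ∧ (K.subgroupOf (extLayer p X)).Normal := by
  refine ⟨(pcomp_le_pLayer hK).trans (le_sup_of_le_left le_sup_left), ?_⟩
  apply normal_subgroupOf_of_le_normalizer
  refine sup_le (sup_le ?_ ?_) ?_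
  · refine sSup_le ?_
    intro J hJ
    by_cases h : J = K
    · rw [h]; exact Subgroup.le_normalizer
    · exact pcomp_normalized hK hJ h
  · intro u hu
    apply CfsgLib.CT.mem_normalizer_of_conj_le
    rw [← pcomp_eq_closure hK]
    apply conj_pEltClosure
    intro a ha
    refine Subgroup.mul_mem _ (Subgroup.mul_mem _ (Subgroup.mem_sup_right hu) ha) ?_
    exact Subgroup.inv_mem _ (Subgroup.mem_sup_right hu)
  · refine iSup_le ?_
    intro T
    exact (cc_le p _).trans (centralizer_sylow_normalizes hK T)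

end Two

end CfsgLib.Comp
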