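import Cfsg.Agent.Lib.Trans.PGrp

/-! An involution acting on an extraspecial group with a centralizer of index at most two. -/

set_option autoImplicit false
set_option linter.unusedSectionVars false

namespace CfsgLib.ExtraInv

open Subgroup
open scoped commutatorElement

section Abstract

variable {P : Type*} [Group P] [Finite P]

/-- The key computation: the commutators of `α` with `P` are central. -/
lemma comm_central (hP : Cfsg.IsExtraspecial 2 P) (α : MulAut P) (hα : ∀ x, α (α x) = x)
    (M : Subgroup P) (hM : ∀ x, x ∈ M ↔ α x = x) (hi : M.index ≤ 2) (q : P) :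
    q⁻¹ * α q ∈ center P := by
  haveI : Fact (Nat.Prime 2) := ⟨Nat.prime_two⟩
  by_cases hq : q ∈ M
  · rw [(hM q).1 hq, inv_mul_cancel]
    exact one_mem _
  have hidx : M.index = 2 := by
    have h0 : M.index ≠ 0 := Subgroup.index_ne_zero_of_finite
    have h1 : M.index ≠ 1 := by
      intro h
      apply hq
      rw [Subgroup.index_eq_one.1 h]
      trivial
    omega
  set W : P → P := fun y => y⁻¹ * α y with hW
  set w := W q with hwd
  have hαq : α q = q * w := by
    rw [hwd, hW]
    group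
  -- (a) `W` is constant off `M`
  have hconst : ∀ y, y ∉ M → W y = w := by
    intro y hy
    have h1 : y * q⁻¹ ∈ M := by
      rw [Subgroup.mul_mem_iff_of_index_two hidx]
      have h2 : q⁻¹ ∉ M := fun h => hq (by simpa using inv_mem h)
      tauto
    have h2 : y = (y * q⁻¹) * q := by group
    have h3 : α (y * q⁻¹) = y * q⁻¹ := (hM _).1 h1
    show y⁻¹ * α y = q⁻¹ * α q
    rw [h2, map_mul, h3]
    group
  -- (b) `w` commutes with `M`
  have hcomM : ∀ m ∈ M, m * w = w * m := by
    intro m hm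
    have h1 : q * m ∉ M := by
      intro h
      apply hq
      have := mul_mem h (inv_mem hm)
      simpa using this
    have h2 := hconst _ h1
    have h3 : W (q * m) = m⁻¹ * w * m := by
      show (q * m)⁻¹ * α (q * m) = m⁻¹ * (q⁻¹ * α q) * m
      rw [map_mul, (hM m).1 hm]
      group
    rw [h3] at h2
    calc m * w = m * (m⁻¹ * w * m) := by rw [h2]
      _ = w * m := by group
  -- `α w = w⁻¹`
  have hαw : α w = w⁻¹ := by
    have h1 : α (α q) = q := hα q
    rw [hαq, map_mul, hαq] at h1
    have h2 : w * α w = 1 := by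
      have : q * w * α w = q * 1 := by rw [h1, mul_one]
      rw [mul_assoc] at this
      exact mul_left_cancel this
    exact eq_inv_of_mul_eq_one_right h2
  -- (c) `w ∈ M`
  have hwM : w ∈ M := by
    by_contra hn
    have h1 := hconst w hn
    have h2 : W w = w⁻¹ * w⁻¹ := by
      show w⁻¹ * α w = _
      rw [hαw]
    rw [h2] at h1
    have h3 : w ^ 3 = 1 := by
      have h4 : w * w * w = 1 := by
        calc w * w * w = (w⁻¹ * w⁻¹) * w * w := by rw [h1]
          _ = 1 := by group
      rw [pow_succ, pow_two]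
      exact h4
    obtain ⟨k, hk⟩ := hP.1.1 w
    have hw1 : w = 1 := by
      have h4 : orderOf w ∣ 3 := orderOf_dvd_of_pow_eq_one h3
      have h5 : orderOf w ∣ 2 ^ k := orderOf_dvd_of_pow_eq_one hk
      have h6 : orderOf w ∣ Nat.gcd 3 (2 ^ k) := Nat.dvd_gcd h4 h5
      have h7 : Nat.Coprime 3 (2 ^ k) := Nat.Coprime.pow_right _ (by norm_num)
      rw [h7] at h6
      exact orderOf_eq_one_iff.1 (Nat.dvd_one.1 h6)
    apply hn
    rw [hw1]
    exact one_mem _
  -- (d) `w² = 1`
  have hw2 : w * w = 1 := by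
    have h1 := (hM w).1 hwM
    rw [hαw] at h1
    have h2 : w⁻¹ * w = 1 := inv_mul_cancel w
    rw [h1] at h2
    exact h2
  -- `α` fixes the centre
  have hZ2 : ∀ z ∈ center P, α z = z := by
    intro z hz
    have h1 : (α z) ∈ center P := by
      rw [Subgroup.mem_center_iff] at hz ⊢
      intro g
      have := hz (α.symm g)
      have h2 := congrArg α this
      simpa using h2
    have hcard := hP.2
    by_cases hz1 : z = 1
    · rw [hz1, map_one]
    · have hα1 : α z ≠ 1 := by
        intro h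
        apply hz1
        have : α z = α 1 := by rw [h, map_one]
        exact α.injective this
      -- a group of order two
      have hZZ : (⟨α z, h1⟩ : center P) = ⟨z, hz⟩ := by
        haveI : Fact (Nat.Prime (Nat.card (center P))) := ⟨by rw [hcard]; exact Nat.prime_two⟩
        have hne1 : (⟨α z, h1⟩ : center P) ≠ 1 := fun h => hα1 (congrArg Subtype.val h)
        have hne2 : (⟨z, hz⟩ : center P) ≠ 1 := fun h => hz1 (congrArg Subtype.val h)
        obtain ⟨a, ha⟩ := (Nat.card_eq_two_iff' (1 : center P)).1 hcard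
        rw [ha.2 _ hne1, ha.2 _ hne2]
      exact congrArg Subtype.val hZZ
  -- (e) `w` commutes with `q`
  have hq2 : q ^ 2 ∈ center P := CfsgLib.Trans.special_pow_central hP.1 q
  have hcomq : q * w = w * q := by
    have h1 := hZ2 _ hq2
    rw [map_pow, hαq, pow_two, pow_two] at h1
    -- `q w q w = q q`
    have h2 : w * q * w = q := by
      have : q * (w * q * w) = q * q := by
        rw [← h1]
        group
      exact mul_left_cancel this
    have h3 : w⁻¹ = w := inv_eq_of_mul_eq_one_left hw2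
    calc q * w = (w * q * w) * w := by rw [h2]
      _ = w * q * (w * w) := by group
      _ = w * q := by rw [hw2, mul_one]
  -- (f) central
  rw [Subgroup.mem_center_iff]
  intro y
  by_cases hy : y ∈ M
  · exact hcomM y hy
  · have h1 : q⁻¹ * y ∈ M := by
      rw [Subgroup.mul_mem_iff_of_index_two hidx]
      have h2 : q⁻¹ ∉ M := fun h => hq (by simpa using inv_mem h)
      tauto
    have h2 : y = q * (q⁻¹ * y) := by group
    rw [h2]
    have h3 := hcomM _ h1
    show q * (q⁻¹ * y) * w = w * (q * (q⁻¹ * y))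
    calc q * (q⁻¹ * y) * w = q * ((q⁻¹ * y) * w) := by group
      _ = q * (w * (q⁻¹ * y)) := by rw [h3]
      _ = (q * w) * (q⁻¹ * y) := by group
      _ = (w * q) * (q⁻¹ * y) := by rw [hcomq]
      _ = _ := by group

end Abstract

section Cent

variable {G : Type*} [Group G] [Finite G]

/-- The one-element form of `extraspecial_sup_centralizer`. -/
theorem mem_sup_of_comm (E : Subgroup G) (hE : Cfsg.IsExtraspecial 2 E) (g : G)
    (h : ∀ e : E, ⁅g, (e : G)⁆ ∈ E ⊓ centralizer (E : Set G)) : g ∈ E ⊔ centralizer (E : Set G) := by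
  classical
  haveI : Fact (Nat.Prime 2) := ⟨Nat.prime_two⟩
  obtain ⟨hS, hZ⟩ := hE
  -- the elements of the right kind
  let Good : G → Prop := fun g => ∀ e : E, ⁅g, (e : G)⁆ ∈ E ⊓ centralizer (E : Set G)
  have hgood : ∀ e : E, Good (e : G) := by
    intro e f
    have h1 : ⁅e, f⁆ ∈ center E := by
      rw [← hS.2.2]
      exact Subgroup.commutator_mem_commutator (Subgroup.mem_top e) (Subgroup.mem_top f)
    have h2 : ((⁅e, f⁆ : E) : G) = ⁅(e : G), (f : G)⁆ := rfl
    rw [← h2]
    refine ⟨(⁅e, f⁆ : E).2, ?_⟩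
    show ((⁅e, f⁆ : E) : G) ∈ centralizer (E : Set G)
    rw [Subgroup.mem_centralizer_iff]
    intro a ha
    have := Subgroup.mem_center_iff.1 h1 ⟨a, ha⟩
    exact congrArg Subtype.val this
  have hcen : ∀ (g : G) (hg : Good g) (e : E), (⟨⁅g, (e : G)⁆, (hg e).1⟩ : E) ∈ center E := by
    intro g hg e
    rw [Subgroup.mem_center_iff]
    intro f
    apply Subtype.ext
    exact (Subgroup.mem_centralizer_iff.1 (hg e).2 f f.2)
  let τ : ∀ g : G, Good g → (E →* center E) := fun g hg => MonoidHom.mk' (fun e => ⟨⟨⁅g, (e : G)⁆,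
      (hg e).1⟩, hcen g hg e⟩) (by
    intro a b
    apply Subtype.ext
    apply Subtype.ext
    show ⁅g, ((a * b : E) : G)⁆ = ⁅g, (a : G)⁆ * ⁅g, (b : G)⁆
    have h1 := Subgroup.mem_centralizer_iff.1 (hg b).2 a a.2
    simp only [Subgroup.coe_mul, commutatorElement_def] at h1 ⊢
    have h2 : (g * b * g⁻¹ * (b : G)⁻¹) * (a : G)⁻¹ = (a : G)⁻¹ * (g * b * g⁻¹ * (b : G)⁻¹) := by
      calc (g * b * g⁻¹ * (b : G)⁻¹) * (a : G)⁻¹
          = (a : G)⁻¹ * ((a : G) * (g * b * g⁻¹ * (b : G)⁻¹)) * (a : G)⁻¹ := by group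
        _ = (a : G)⁻¹ * ((g * b * g⁻¹ * (b : G)⁻¹) * a) * (a : G)⁻¹ := by rw [h1]
        _ = _ := by group
    calc g * (↑a * ↑b) * g⁻¹ * (↑a * ↑b)⁻¹
        = (g * a * g⁻¹) * ((g * b * g⁻¹ * (b : G)⁻¹) * (a : G)⁻¹) := by group
      _ = (g * a * g⁻¹) * ((a : G)⁻¹ * (g * b * g⁻¹ * (b : G)⁻¹)) := by rw [h2]
      _ = _ := by group)
  have hτ' : ∀ (g : G) (hg : Good g) (e : E), ((((τ g hg) e : center E) : E) : G) = g * e * g⁻¹ * (e : G)⁻¹ :=
    fun g hg e => rfl
  let ι : E ⧸ center E → (E →* center E) := Quotient.lift (fun e : E => τ (e : G) (hgood e)) (by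
    intro a b hab
    have hab' : a⁻¹ * b ∈ center E := QuotientGroup.leftRel_apply.1 hab
    ext f
    show (((τ (a : G) (hgood a)) f : center E) : E).1 = (((τ (b : G) (hgood b)) f : center E) : E).1
    rw [hτ' _ (hgood a), hτ' _ (hgood b)]
    have h1 := Subgroup.mem_center_iff.1 hab' f
    have h2 : ((f : G)) * ((a : G)⁻¹ * b) = ((a : G)⁻¹ * b) * f := congrArg Subtype.val h1
    have h3 : (b : G) = a * ((a : G)⁻¹ * b) := by group
    have h4 : (b : G) * f * (b : G)⁻¹ = a * f * (a : G)⁻¹ := by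
      rw [h3]
      calc (a : G) * ((a : G)⁻¹ * b) * f * (a * ((a : G)⁻¹ * b))⁻¹
          = a * (((a : G)⁻¹ * b) * f) * ((a : G)⁻¹ * b)⁻¹ * (a : G)⁻¹ := by group
        _ = a * ((f : G) * ((a : G)⁻¹ * b)) * ((a : G)⁻¹ * b)⁻¹ * (a : G)⁻¹ := by rw [h2]
        _ = _ := by group
    rw [h4])
  have hιinj : Function.Injective ι := by
    intro a b
    induction a using QuotientGroup.induction_on with
    | H a =>
    induction b using QuotientGroup.induction_on with
    | H b =>
    intro hab
    apply QuotientGroup.eq.2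
    rw [Subgroup.mem_center_iff]
    intro f
    apply Subtype.ext
    have h1 : τ (a : G) (hgood a) = τ (b : G) (hgood b) := hab
    have h2 : (((τ (a : G) (hgood a)) f : center E) : E).1 = (((τ (b : G) (hgood b)) f : center E) : E).1 := by rw [h1]
    rw [hτ' _ (hgood a), hτ' _ (hgood b)] at h2
    have h3 : (a : G) * f * (a : G)⁻¹ = b * f * (b : G)⁻¹ := mul_right_cancel h2
    simp only [Subgroup.coe_mul, Subgroup.coe_inv]
    calc (f : G) * ((a : G)⁻¹ * b) = (a : G)⁻¹ * ((a : G) * f * (a : G)⁻¹) * b := by group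
      _ = (a : G)⁻¹ * (b * f * (b : G)⁻¹) * b := by rw [h3]
      _ = _ := by group
  obtain ⟨n, hn⟩ := (hS.1.to_quotient (center E)).exists_card_eq
  have hindex : (frattini E).index = 2 ^ n := by
    rw [hS.2.1]
    exact hn
  have hcard : Nat.card (E →* center E) ≤ Nat.card (E ⧸ center E) := by
    have h1 := CfsgLib.Trans.card_hom_le hS.1 hZ hindex
    rw [hn]
    exact h1
  haveI hfin : Finite (E →* center E) :=
    Finite.of_injective (fun f => (f : E → center E)) DFunLike.coe_injective
  have hbij := (Function.Injective.bijective_of_nat_card_le hιinj hcard)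
  obtain ⟨q, hq⟩ := hbij.2 (τ g h)
  induction q using QuotientGroup.induction_on with
  | H e =>
  have h1 : τ (e : G) (hgood e) = τ g h := hq
  have h2 : (e : G)⁻¹ * g ∈ centralizer (E : Set G) := by
    refine Subgroup.mem_centralizer_iff.2 ?_
    intro f hf
    have h3 : (((τ (e : G) (hgood e)) ⟨f, hf⟩ : center E) : E).1 = (((τ g h) ⟨f, hf⟩ : center E) : E).1 := by rw [h1]
    rw [hτ' _ (hgood e), hτ' _ h] at h3
    have h4 : (e : G) * f * (e : G)⁻¹ = g * f * g⁻¹ := mul_right_cancel h3
    calc f * ((e : G)⁻¹ * g) = (e : G)⁻¹ * ((e : G) * f * (e : G)⁻¹) * g := by group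
      _ = (e : G)⁻¹ * (g * f * g⁻¹) * g := by rw [h4]
      _ = _ := by group
  have h5 : g = (e : G) * ((e : G)⁻¹ * g) := by group
  rw [h5]
  exact Subgroup.mul_mem _ (Subgroup.mem_sup_left e.2) (Subgroup.mem_sup_right h2)

/-- S1756. -/
theorem main (Q : Subgroup G) (hQ : Cfsg.IsExtraspecial 2 Q) (t : G) (ht : orderOf t = 2)
    (htN : t ∈ normalizer (Q : Set G))
    (hi : (centralizer ({t} : Set G) ⊓ Q).relIndex Q ≤ 2) :
    t ∈ Q ⊔ centralizer (Q : Set G) := by
  apply mem_sup_of_comm Q hQ t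
  set α : MulAut Q := Subgroup.normalizerMonoidHom Q ⟨t, htN⟩ with hα
  have hαa : ∀ x : Q, ((α x : Q) : G) = t * x * t⁻¹ := fun x => rfl
  have ht2 : t * t = 1 := by rw [← pow_two, ← ht, pow_orderOf_eq_one]
  have htinv : t⁻¹ = t := inv_eq_of_mul_eq_one_left ht2
  have hαα : ∀ x, α (α x) = x := by
    intro x
    apply Subtype.ext
    rw [hαa, hαa, htinv]
    calc t * (t * x * t) * t = (t * t) * x * (t * t) := by group
      _ = x := by rw [ht2]; group
  set M : Subgroup Q := (centralizer ({t} : Set G)).subgroupOf Q with hMd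
  have hM : ∀ x, x ∈ M ↔ α x = x := by
    intro x
    rw [hMd, Subgroup.mem_subgroupOf, Subgroup.mem_centralizer_singleton_iff]
    constructor
    · intro h
      apply Subtype.ext
      rw [hαa, htinv, mul_assoc, h, ← mul_assoc, ht2, one_mul]
    · intro h
      have h1 := congrArg Subtype.val h
      rw [hαa, htinv] at h1
      calc (x : G) * t = (t * x * t) * t := by rw [h1]
        _ = t * x * (t * t) := by group
        _ = t * x := by rw [ht2, mul_one]
  have hMi : M.index ≤ 2 := by
    have : M.index = (centralizer ({t} : Set G) ⊓ Q).relIndex Q := by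
      rw [Subgroup.inf_relIndex_right]
      rfl
    rw [this]
    exact hi
  intro e
  have h1 := comm_central hQ α hαα M hM hMi e
  -- the commutator
  have h2 : (⁅t, (e : G)⁆ : G) = (e : G) * ((e⁻¹ * α e : Q) : G) * (e : G)⁻¹ := by
    simp only [commutatorElement_def, Subgroup.coe_mul, Subgroup.coe_inv, hαa]
    group
  have h3 : e * (e⁻¹ * α e) * e⁻¹ = e⁻¹ * α e := by
    have := Subgroup.mem_center_iff.1 h1 e
    rw [this]
    group
  have h4 : (⁅t, (e : G)⁆ : G) = ((e⁻¹ * α e : Q) : G) := by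
    rw [h2]
    exact congrArg Subtype.val h3
  rw [h4]
  refine ⟨(e⁻¹ * α e : Q).2, ?_⟩
  show ((e⁻¹ * α e : Q) : G) ∈ centralizer (Q : Set G)
  rw [Subgroup.mem_centralizer_iff]
  intro a ha
  exact congrArg Subtype.val (Subgroup.mem_center_iff.1 h1 ⟨a, ha⟩)

end Cent

end CfsgLib.ExtraInv
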