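import Mathlib
import Cfsg.Prelude.Def_Solvable
import Cfsg.Agent.Lib.FGS.FrobThm

/-! A Frobenius group acting on an abelian group: the complement has fixed points. -/

set_option autoImplicit false
set_option linter.unusedSectionVars false

namespace CfsgLib.FrobFix

open Subgroup
open scoped Pointwise

universe u

variable {F A : Type*} [Group F] [Finite F] [Group A] [Finite A]

lemma prod_subsingle {α β : Type*} [CommMonoid β] (inst : Fintype α) (x₀ : α) (hx : ∀ x, x = x₀)
    (f : α → β) : @Finset.prod α β _ (@Finset.univ α inst) f = f x₀ := by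
  classical
  exact Fintype.prod_eq_single x₀ (fun x h => absurd (hx x) h)

theorem frob_fixed (hcomm : ∀ a b : A, a * b = b * a) (φ : F →* MulAut A) (H N : Subgroup F)
    (hH : Cfsg.IsFrobeniusComplement H) (hn : N.Normal) (hc : N.IsComplement' H)
    (hN : (N : Set F) = Cfsg.frobeniusKernel H)
    (hfH : ∀ a : A, (∀ h ∈ H, φ h a = a) → a = 1) (hfN : ∀ a : A, (∀ n ∈ N, φ n a = a) → a = 1)
    (hcop : (Nat.card A).Coprime (Nat.card N)) (a : A) : a = 1 := by
  classical
  letI : CommGroup A := { (inferInstance : Group A) with mul_comm := hcomm }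
  haveI := Fintype.ofFinite F
  -- norms
  have hNmH : ∀ b : A, ∏ h : H, φ (h : F) b = 1 := by
    intro b
    apply hfH
    intro h₀ hh₀
    rw [map_prod]
    apply Fintype.prod_equiv (Equiv.mulLeft (⟨h₀, hh₀⟩ : H))
    intro h
    simp [MulAut.mul_apply]
  have hNmN : ∀ b : A, ∏ n : N, φ (n : F) b = 1 := by
    intro b
    apply hfN
    intro h₀ hh₀
    rw [map_prod]
    apply Fintype.prod_equiv (Equiv.mulLeft (⟨h₀, hh₀⟩ : N))
    intro h
    simp [MulAut.mul_apply]
  -- the total norm vanishes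
  have hT : ∏ f : F, φ f a = 1 := by
    have h1 : ∏ f : F, φ f a = ∏ x : N × H, φ ((x.1 : F) * (x.2 : F)) a :=
      (Fintype.prod_equiv (Equiv.ofBijective _ hc) _ _ (fun _ => rfl)).symm
    rw [h1, Fintype.prod_prod_type]
    apply Finset.prod_eq_one
    intro n _
    have h2 : ∀ h : H, φ ((n : F) * (h : F)) a = φ (n : F) (φ (h : F) a) := by
      intro h
      rw [map_mul, MulAut.mul_apply]
    rw [Finset.prod_congr rfl (fun h _ => h2 h), ← map_prod, hNmH, map_one]
  have hdis : ∀ x : F, x ∈ N → x ∈ H → x = 1 := by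
    intro x hx hx'
    have := hc.disjoint.le_bot (show x ∈ N ⊓ H from ⟨hx, hx'⟩)
    exact this
  have hsplit := Fintype.prod_subtype_mul_prod_subtype (fun f : F => f ∈ N) (fun f => φ f a)
  have h1 : ∏ f : {x // x ∈ N}, φ (f : F) a = 1 := by
    convert hNmN a
  rw [h1, one_mul, hT] at hsplit
  -- the bijection
  have hnot : ∀ (n : N) (h : {h : H // h ≠ 1}), ¬ ((n : F) * ((h : H) : F) * (n : F)⁻¹ ∈ N) := by
    intro n h hmem
    have h2 : ((h : H) : F) ∈ N := by
      have := hn.conj_mem _ hmem (n : F)⁻¹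
      simpa [mul_assoc] using this
    have h3 := hdis _ h2 (h : H).2
    exact h.2 (Subtype.ext h3)
  let g : N × {h : H // h ≠ 1} → {f : F // ¬ f ∈ N} :=
    fun x => ⟨(x.1 : F) * ((x.2 : H) : F) * (x.1 : F)⁻¹, hnot x.1 x.2⟩
  have hg : Function.Bijective g := by
    constructor
    · rintro ⟨n, h⟩ ⟨n', h'⟩ he
      have he' : (n : F) * ((h : H) : F) * (n : F)⁻¹ = (n' : F) * ((h' : H) : F) * (n' : F)⁻¹ :=
        congrArg Subtype.val he
      set x : F := (n' : F)⁻¹ * n with hx
      have hconj : x * ((h : H) : F) * x⁻¹ = ((h' : H) : F) := by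
        have : x * ((h : H) : F) * x⁻¹ = (n' : F)⁻¹ * ((n : F) * ((h : H) : F) * (n : F)⁻¹) * n' := by
          rw [hx]
          group
        rw [this, he']
        group
      have hxH : x ∈ H := by
        by_contra hxH
        have h3 := hH.2.2 x hxH
        have h4 : ((h' : H) : F) ∈ H ⊓ (MulAut.conj x • H) := by
          refine ⟨(h' : H).2, ?_⟩
          rw [← hconj]
          exact ⟨_, (h : H).2, rfl⟩
        rw [h3, Subgroup.mem_bot] at h4
        exact h'.2 (Subtype.ext h4)
      have hxN : x ∈ N := mul_mem (inv_mem n'.2) n.2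
      have hx1 := hdis x hxN hxH
      have hnn : n = n' := by
        apply Subtype.ext
        rw [hx] at hx1
        have := inv_mul_eq_one.1 hx1
        exact this.symm
      subst hnn
      have hhh : h = h' := by
        apply Subtype.ext
        apply Subtype.ext
        rw [hx1] at hconj
        simpa using hconj
      rw [hhh]
    · rintro ⟨f, hf⟩
      have hf' : f ∉ Cfsg.frobeniusKernel H := by
        rw [← hN]
        exact hf
      simp only [Cfsg.frobeniusKernel, Set.mem_setOf_eq, not_or, not_forall, not_not] at hf'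
      obtain ⟨hf1, y, hy⟩ := hf'
      obtain ⟨⟨n, h₀⟩, hnh⟩ := hc.2 y
      have hnh' : (n : F) * (h₀ : F) = y := hnh
      obtain ⟨h₁, hh₁, hh₁e⟩ := hy
      have hh₁e' : y * h₁ * y⁻¹ = f := hh₁e
      set h : F := (h₀ : F) * h₁ * (h₀ : F)⁻¹ with hhd
      have hhH : h ∈ H := mul_mem (mul_mem h₀.2 hh₁) (inv_mem h₀.2)
      have hf2 : (n : F) * h * (n : F)⁻¹ = f := by
        rw [← hh₁e', ← hnh', hhd]
        group
      have hh1 : (⟨h, hhH⟩ : H) ≠ 1 := by
        intro he
        apply hf1
        have : h = 1 := congrArg Subtype.val he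
        rw [← hf2, this]
        group
      exact ⟨⟨n, ⟨⟨h, hhH⟩, hh1⟩⟩, Subtype.ext hf2⟩
  have h2 : ∏ f : {x // ¬ x ∈ N}, φ (f : F) a =
      ∏ x : N × {h : H // h ≠ 1}, φ ((x.1 : F) * ((x.2 : H) : F) * (x.1 : F)⁻¹) a :=
    (Fintype.prod_equiv (Equiv.ofBijective g hg) _ _ (fun _ => rfl)).symm
  rw [h2, Fintype.prod_prod_type] at hsplit
  have hb : ∀ b : A, ∏ h : {h : H // h ≠ 1}, φ ((h : H) : F) b = b⁻¹ := by
    intro b
    have h3 := Fintype.prod_subtype_mul_prod_subtype (fun h : H => h = 1) (fun h => φ (h : F) b)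
    rw [hNmH] at h3
    rw [prod_subsingle _ (⟨1, rfl⟩ : {x : H // x = 1}) (fun x => Subtype.ext x.2)] at h3
    simp only [OneMemClass.coe_one, map_one, MulAut.one_apply] at h3
    exact eq_inv_of_mul_eq_one_right h3
  have h3 : ∀ n : N, ∏ h : {h : H // h ≠ 1}, φ ((n : F) * ((h : H) : F) * (n : F)⁻¹) a = a⁻¹ := by
    intro n
    have e : ∀ h : {h : H // h ≠ 1}, φ ((n : F) * ((h : H) : F) * (n : F)⁻¹) a =
        φ (n : F) (φ ((h : H) : F) (φ (n : F)⁻¹ a)) := by
      intro h
      rw [map_mul, map_mul, MulAut.mul_apply, MulAut.mul_apply]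
    rw [Finset.prod_congr rfl (fun h _ => e h), ← map_prod, hb, map_inv, map_inv]
    have : φ (n : F) ((φ (n : F))⁻¹ a) = a := by
      rw [← MulAut.mul_apply, mul_inv_cancel, MulAut.one_apply]
    rw [this]
  rw [Finset.prod_congr rfl (fun n _ => h3 n), Finset.prod_const, Finset.card_univ,
    ← Nat.card_eq_fintype_card, inv_pow] at hsplit
  have h5 : a ^ Nat.card N = 1 := by
    have := inv_eq_one.1 hsplit
    exact this
  have h6 : orderOf a ∣ Nat.card N := orderOf_dvd_of_pow_eq_one h5
  have h7 : orderOf a ∣ Nat.card A := orderOf_dvd_natCard a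
  have h8 : orderOf a ∣ Nat.gcd (Nat.card A) (Nat.card N) := Nat.dvd_gcd h7 h6
  rw [hcop] at h8
  exact orderOf_eq_one_iff.1 (Nat.dvd_one.1 h8)

/-- S0666. -/
theorem main {G : Type u} [Group G] [Finite G] (V F : Subgroup G) (hVab : IsMulCommutative V) (hV1 : V ≠ ⊥)
    (hFV : F ≤ normalizer (V : Set G)) (H : Subgroup F) (hH : Cfsg.IsFrobeniusComplement H)
    (hcop : (Nat.card V).Coprime (Nat.card (Cfsg.frobeniusKernel H)))
    (hCK : V ⊓ centralizer (Subtype.val '' Cfsg.frobeniusKernel H : Set G) = ⊥) :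
    V ⊓ centralizer ((H.map F.subtype : Subgroup G) : Set G) ≠ ⊥ := by
  intro hC
  obtain ⟨N, hNs, hn, hc⟩ := CfsgLib.FGS.exists_frobenius_kernel H hH
  apply hV1
  let φ : F →* MulAut V := (Subgroup.normalizerMonoidHom V).comp (Subgroup.inclusion hFV)
  have hφ : ∀ (f : F) (v : V), ((φ f v : V) : G) = (f : G) * v * (f : G)⁻¹ := fun f v => rfl
  have hcard : Nat.card N = Nat.card (Cfsg.frobeniusKernel H) := by
    rw [← hNs]
    rfl
  have key := frob_fixed (fun a b : V => hVab.is_comm.comm a b) φ H N hH hn hc hNs ?_ ?_ (by rw [hcard]; exact hcop)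
  · rw [eq_bot_iff]
    intro v hv
    have := key ⟨v, hv⟩
    exact congrArg Subtype.val this
  · intro a ha
    have hm : (a : G) ∈ V ⊓ centralizer ((H.map F.subtype : Subgroup G) : Set G) := by
      refine ⟨a.2, ?_⟩
      show (a : G) ∈ centralizer ((H.map F.subtype : Subgroup G) : Set G)
      rw [Subgroup.mem_centralizer_iff]
      rintro _ ⟨h, hh, rfl⟩
      have h1 := ha h hh
      have h2 := congrArg Subtype.val h1
      rw [hφ] at h2
      show ((h : F) : G) * a = a * (h : F)
      calc ((h : F) : G) * a = (((h : F) : G) * a * ((h : F) : G)⁻¹) * (h : F) := by group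
        _ = a * (h : F) := by rw [h2]
    rw [hC, Subgroup.mem_bot] at hm
    exact Subtype.ext hm
  · intro a ha
    have hm : (a : G) ∈ V ⊓ centralizer (Subtype.val '' Cfsg.frobeniusKernel H : Set G) := by
      refine ⟨a.2, ?_⟩
      show (a : G) ∈ centralizer (Subtype.val '' Cfsg.frobeniusKernel H : Set G)
      rw [Subgroup.mem_centralizer_iff]
      rintro _ ⟨h, hh, rfl⟩
      have hhN : h ∈ N := by
        rw [← SetLike.mem_coe, hNs]
        exact hh
      have h1 := ha h hhN
      have h2 := congrArg Subtype.val h1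
      rw [hφ] at h2
      calc (h : G) * a = ((h : G) * a * (h : G)⁻¹) * h := by group
        _ = a * h := by rw [h2]
    rw [hCK, Subgroup.mem_bot] at hm
    exact Subtype.ext hm

end CfsgLib.FrobFix
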