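import Cfsg.Agent.Lib.Lead.Frobenius
import Cfsg.Agent.Lib.FGS.FrobThm
import Cfsg.Agent.Lib.Solv.SZ

/-! # Quotients of Frobenius groups. -/

set_option autoImplicit false
set_option linter.unusedSectionVars false

namespace CfsgLib.FrobQuot

open Subgroup Pointwise

universe u

variable {G : Type u} [Group G] [Finite G]

/-- Fixed-point-freeness passes to the quotient. -/
lemma mem_of_comm_mod {R K N : Subgroup G} (hR : Cfsg.IsFrobeniusComplement R)
    (hK : (K : Set G) = Cfsg.frobeniusKernel R) [hNn : N.Normal] (hNK : N ≤ K)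
    {r : G} (hr : r ∈ R) (hr1 : r ≠ 1) {k : G} (hk : k ∈ K) (hmod : r⁻¹ * k * r * k⁻¹ ∈ N) : k ∈ N := by
  have hinj : ∀ x ∈ K, ∀ y ∈ K, r⁻¹ * x * r * x⁻¹ = r⁻¹ * y * r * y⁻¹ → x = y := by
    intro x hx y hy h
    have h2 : x * r * x⁻¹ = y * r * y⁻¹ := by
      have e1 : r⁻¹ * x * r * x⁻¹ = r⁻¹ * (x * r * x⁻¹) := by group
      have e2 : r⁻¹ * y * r * y⁻¹ = r⁻¹ * (y * r * y⁻¹) := by group
      rw [e1, e2] at h
      exact mul_left_cancel h
    have h1 : r * (y⁻¹ * x) = (y⁻¹ * x) * r := by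
      calc r * (y⁻¹ * x) = y⁻¹ * (y * r * y⁻¹) * x := by group
        _ = y⁻¹ * (x * r * x⁻¹) * x := by rw [h2]
        _ = y⁻¹ * x * r := by group
    have h5 := CfsgLib.Lead.frob_centralizer_trivial hR K hK r hr hr1 (y⁻¹ * x) (mul_mem (inv_mem hy) hx) h1
    exact (inv_mul_eq_one.1 h5).symm
  let f : N → N := fun n => ⟨r⁻¹ * n * r * (n : G)⁻¹, by
    have h1 := hNn.conj_mem _ n.2 r⁻¹
    have h2 : r⁻¹ * (n : G) * r = r⁻¹ * n * r⁻¹⁻¹ := by group
    rw [h2]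
    exact mul_mem h1 (inv_mem n.2)⟩
  have hf : Function.Injective f := by
    intro a b hab
    have h1 : r⁻¹ * (a : G) * r * (a : G)⁻¹ = r⁻¹ * (b : G) * r * (b : G)⁻¹ := congrArg Subtype.val hab
    exact Subtype.ext (hinj _ (hNK a.2) _ (hNK b.2) h1)
  obtain ⟨n, hn⟩ := Finite.surjective_of_injective hf ⟨_, hmod⟩
  have h1 : r⁻¹ * (n : G) * r * (n : G)⁻¹ = r⁻¹ * k * r * k⁻¹ := congrArg Subtype.val hn
  rw [← hinj _ (hNK n.2) _ hk h1]
  exact n.2

theorem main (R : Subgroup G) (hR : Cfsg.IsFrobeniusComplement R) (N : Subgroup G) [hNn : N.Normal]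
    (hKN : ¬ Cfsg.frobeniusKernel R ⊆ N) :
    Cfsg.IsFrobeniusComplement (R.map (QuotientGroup.mk' N)) ∧
      Cfsg.frobeniusKernel (R.map (QuotientGroup.mk' N)) =
        QuotientGroup.mk' N '' Cfsg.frobeniusKernel R := by
  obtain ⟨K, hK, hKn, hc⟩ := CfsgLib.FGS.exists_frobenius_kernel R hR
  have hNK : N ≤ K := by
    refine (CfsgLib.Lead.frob_normal_dichotomy hR K hK N hNn).resolve_left ?_
    intro h
    apply hKN
    rw [← hK]
    exact h
  have hdis : ∀ x, x ∈ K → x ∈ R → x = 1 := fun x h1 h2 => hc.disjoint.le_bot ⟨h1, h2⟩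
  set π := QuotientGroup.mk' N with hπ
  have hπk : ∀ g, π g = 1 ↔ g ∈ N := fun g => QuotientGroup.eq_one_iff g
  have hπs : Function.Surjective π := QuotientGroup.mk'_surjective N
  have hπeq : ∀ a b, π a = π b → a⁻¹ * b ∈ N := by
    intro a b h
    rw [← hπk, map_mul, map_inv, h, inv_mul_cancel]
  -- congruences modulo `K`
  have hmodK : ∀ r₁ ∈ R, ∀ r₂ ∈ R, r₁⁻¹ * r₂ ∈ K → r₁ = r₂ := by
    intro r₁ h1 r₂ h2 h
    have h3 := hdis _ h (mul_mem (inv_mem h1) h2)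
    exact inv_mul_eq_one.1 h3
  obtain ⟨k₀, hk₀, hk₀N⟩ : ∃ k₀, k₀ ∈ K ∧ k₀ ∉ N := by
    rw [Set.not_subset] at hKN
    obtain ⟨x, hx, hxN⟩ := hKN
    exact ⟨x, by rw [← SetLike.mem_coe, hK]; exact hx, hxN⟩
  refine ⟨⟨?_, ?_, ?_⟩, ?_⟩
  · -- non-trivial
    obtain ⟨⟨r, hr⟩, hr1'⟩ := Subgroup.ne_bot_iff_exists_ne_one.1 hR.1
    have hr1 : r ≠ 1 := fun h => hr1' (Subtype.ext h)
    intro h
    have h1 : π r ∈ R.map π := ⟨r, hr, rfl⟩
    rw [h, Subgroup.mem_bot, hπk] at h1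
    exact hr1 (hdis r (hNK h1) hr)
  · intro h
    have h1 : π k₀ ∈ R.map π := by rw [h]; trivial
    obtain ⟨r, hr, hrk⟩ := h1
    have h2 := hπeq _ _ hrk
    have h3 : r ∈ K := by
      have h4 := mul_mem (hNK h2) (inv_mem hk₀)
      have h5 := inv_mem h4
      simpa using h5
    have h6 : r = 1 := hdis r h3 hr
    rw [h6, inv_one, one_mul] at h2
    exact hk₀N h2
  · intro gq hgq
    obtain ⟨g, rfl⟩ := hπs gq
    obtain ⟨⟨k, r₀⟩, hkr⟩ := hc.2 g
    change (k : G) * (r₀ : G) = g at hkr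
    have hkN : (k : G) ∉ N := by
      intro h
      apply hgq
      refine ⟨r₀, r₀.2, ?_⟩
      rw [← hkr, map_mul, (hπk _).2 h, one_mul]
    rw [eq_bot_iff]
    rintro y ⟨⟨r₁, hr₁, rfl⟩, hy⟩
    change π r₁ ∈ MulAut.conj (π g) • R.map π at hy
    rw [CfsgLib.Solv.mem_conj_smul] at hy
    obtain ⟨r₂, hr₂, hy'⟩ := hy
    set r₃ := (r₀ : G) * r₂ * (r₀ : G)⁻¹ with hr₃
    have hr₃R : r₃ ∈ R := mul_mem (mul_mem r₀.2 hr₂) (inv_mem r₀.2)
    have h1 : π r₁ = π (g * r₂ * g⁻¹) := by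
      rw [map_mul, map_mul, map_inv, hy']
      group
    have h2 := hπeq _ _ h1
    have h3 : r₁⁻¹ * (g * r₂ * g⁻¹) = r₁⁻¹ * k * r₃ * (k : G)⁻¹ := by
      rw [← hkr, hr₃]; group
    rw [h3] at h2
    have h4 : r₁⁻¹ * r₃ ∈ K := by
      have e : r₁⁻¹ * r₃ = (r₁⁻¹ * (k : G) * r₁⁻¹⁻¹)⁻¹ * (r₁⁻¹ * k * r₃ * (k : G)⁻¹) * (k : G) := by
        group
      rw [e]
      exact mul_mem (mul_mem (inv_mem (hKn.conj_mem _ k.2 _)) (hNK h2)) k.2
    have h5 := hmodK r₁ hr₁ r₃ hr₃R h4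
    rw [← h5] at h2
    by_cases hr1 : r₁ = 1
    · rw [hr1, map_one, Subgroup.mem_bot]
    · exact absurd (mem_of_comm_mod hR hK hNK hr₁ hr1 k.2 h2) hkN
  · -- the kernel
    ext xq
    constructor
    · rintro (rfl | hall)
      · exact ⟨1, Or.inl rfl, map_one π⟩
      · obtain ⟨x, rfl⟩ := hπs xq
        refine ⟨x, ?_, rfl⟩
        right
        intro g hg
        apply hall (π g)
        rw [CfsgLib.Solv.mem_conj_smul] at hg ⊢
        exact ⟨_, hg, by simp⟩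
    · rintro ⟨x, hx, rfl⟩
      have hxK : x ∈ K := by rw [← SetLike.mem_coe, hK]; exact hx
      by_cases hx1 : π x = 1
      · exact Or.inl hx1
      right
      intro gq hmem
      obtain ⟨g, rfl⟩ := hπs gq
      rw [CfsgLib.Solv.mem_conj_smul] at hmem
      obtain ⟨r, hr, hrx⟩ := hmem
      have h1 : π x = π (g * r * g⁻¹) := by
        rw [map_mul, map_mul, map_inv, hrx]
        group
      have h2 := hπeq _ _ h1
      have h3 : g * r * g⁻¹ ∈ K := by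
        have h4 := mul_mem hxK (hNK h2)
        simpa using h4
      have h5 : r ∈ K := by
        have h6 := hKn.conj_mem _ h3 g⁻¹
        simpa [mul_assoc] using h6
      have h7 := hdis r h5 hr
      rw [h7] at h1
      simp at h1
      exact hx1 h1

end CfsgLib.FrobQuot
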