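import Mathlib
import Cfsg.Agent.Lib.FGS.FrobThm
import Cfsg.Agent.Lib.SS.UniqueP
import Cfsg.Agent.Lib.SS.FPF
import Cfsg.Agent.Lib.SS.FPF3

/-! # Frobenius kernels with quaternion action have odd square order -/

set_option autoImplicit false

namespace CfsgLib.FrobSq

open Subgroup

universe u

section quat

/-- The elementary abelian case. -/
theorem isSquare_elem {E : Type u} [AddCommGroup E] [Finite E] {r : ℕ} (hr : r.Prime) (hr2 : r ≠ 2)
    (hE : ∀ v : E, r • v = 0) (i j : E →+ E) (hi : ∀ v, i (i v) = -v) (hj : ∀ v, j (j v) = -v)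
    (hij : ∀ v, i (j v) = -(j (i v))) : IsSquare (Nat.card E) := by
  classical
  haveI : Fact r.Prime := ⟨hr⟩
  obtain ⟨a', b', hab⟩ := ZMod.sq_add_sq r (-1 : ZMod r)
  obtain ⟨a, rfl⟩ : ∃ a : ℕ, ((a : ℕ) : ZMod r) = a' := ⟨a'.val, ZMod.natCast_zmod_val a'⟩
  obtain ⟨b, rfl⟩ : ∃ b : ℕ, ((b : ℕ) : ZMod r) = b' := ⟨b'.val, ZMod.natCast_zmod_val b'⟩
  have hd : r ∣ a ^ 2 + b ^ 2 + 1 := by
    rw [← ZMod.natCast_eq_zero_iff]
    push_cast
    rw [hab]
    ring
  obtain ⟨c, hc⟩ := hd
  have hkill : ∀ v : E, (a ^ 2 + b ^ 2 + 1) • v = 0 := by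
    intro v
    rw [hc, mul_comm, mul_nsmul, hE]
  -- the elements `u` and `k`
  let u : E →+ E := a • i + b • j
  have hu : ∀ v, u v = a • i v + b • j v := fun v => rfl
  let k : E →+ E := i.comp j
  have hk : ∀ v, k v = i (j v) := fun v => rfl
  have hji : ∀ v, j (i v) = -(i (j v)) := by
    intro v
    rw [hij, neg_neg]
  have huu : ∀ v, u (u v) = v := by
    intro v
    have e : (a ^ 2 + b ^ 2 + 1) • v = a • a • v + b • b • v + v := by
      rw [add_nsmul, add_nsmul, one_nsmul, pow_two, pow_two, mul_nsmul', mul_nsmul']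
    have e2 := hkill v
    rw [e] at e2
    have e3 : u (u v) = -(a • a • v + b • b • v) := by
      rw [hu, hu, map_add, map_add, map_nsmul, map_nsmul, map_nsmul, map_nsmul, hi, hj, hji]
      have e4 : b • a • i (j v) = a • b • i (j v) := smul_comm _ _ _
      simp only [smul_add, smul_neg, e4]
      abel
    rw [e3]
    exact neg_eq_of_add_eq_zero_right e2
  have hjij : ∀ v, j (i (j v)) = i v := by
    intro v
    rw [hji (j v), hj, map_neg, neg_neg]
  have hiji : ∀ v, i (j (i v)) = j v := by
    intro v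
    rw [hij (i v), hi, map_neg, neg_neg]
  have hkk : ∀ v, k (k v) = -v := by
    intro v
    rw [hk, hk, hjij, hi]
  have huk : ∀ v, u (k v) = -(k (u v)) := by
    intro v
    rw [hu, hk, hk, hu, hi, hjij, map_add, map_add, map_nsmul, map_nsmul, map_nsmul, map_nsmul, hiji,
      hj, map_neg]
    simp only [smul_neg, neg_add_rev, neg_neg]
    abel
  let P : AddSubgroup E := (u - AddMonoidHom.id E).ker
  let Q : AddSubgroup E := (u + AddMonoidHom.id E).ker
  have hP : ∀ v, v ∈ P ↔ u v = v := by
    intro v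
    rw [AddMonoidHom.mem_ker, AddMonoidHom.sub_apply, sub_eq_zero]
    rfl
  have hQ : ∀ v, v ∈ Q ↔ u v = -v := by
    intro v
    rw [AddMonoidHom.mem_ker, AddMonoidHom.add_apply, add_eq_zero_iff_eq_neg]
    rfl
  have hkP : ∀ v ∈ P, k v ∈ Q := by
    intro v hv
    rw [hQ, huk, (hP v).1 hv]
  have hkQ : ∀ w ∈ Q, -(k w) ∈ P := by
    intro w hw
    rw [hP, map_neg, huk, (hQ w).1 hw, map_neg, neg_neg]
  let e₁ : P ≃ Q :=
    { toFun := fun v => ⟨k v, hkP v v.2⟩
      invFun := fun w => ⟨-(k w), hkQ w w.2⟩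
      left_inv := fun v => Subtype.ext (by
        show -(k (k v)) = v
        rw [hkk, neg_neg])
      right_inv := fun w => Subtype.ext (by
        show k (-(k w)) = w
        rw [map_neg, hkk, neg_neg]) }
  have hodd : Odd r := hr.odd_of_ne_two hr2
  obtain ⟨s, hs⟩ := hodd
  have h2s : ∀ v : E, (s + 1) • (2 • v) = v := by
    intro v
    have h1 : r • v = 0 := hE v
    rw [hs] at h1
    rw [← mul_nsmul', show (s + 1) * 2 = 2 * s + 1 + 1 by ring, add_nsmul, h1, one_nsmul, zero_add]
  let e₂ : P × Q ≃ E :=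
    { toFun := fun x => (x.1 : E) + x.2
      invFun := fun v =>
        (⟨(s + 1) • (v + u v), (hP _).2 (by
            rw [map_nsmul, map_add, huu, add_comm (u v) v])⟩,
         ⟨(s + 1) • (v - u v), (hQ _).2 (by
            rw [map_nsmul, map_sub, huu, ← smul_neg, neg_sub])⟩)
      left_inv := by
        rintro ⟨⟨x, hx⟩, ⟨y, hy⟩⟩
        have h1 : u x = x := (hP x).1 hx
        have h2 : u y = -y := (hQ y).1 hy
        refine Prod.ext (Subtype.ext ?_) (Subtype.ext ?_)
        · show (s + 1) • ((x + y) + u (x + y)) = x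
          rw [map_add, h1, h2, show x + y + (x + -y) = 2 • x by rw [two_nsmul]; abel, h2s]
        · show (s + 1) • ((x + y) - u (x + y)) = y
          rw [map_add, h1, h2, show x + y - (x + -y) = 2 • y by rw [two_nsmul]; abel, h2s]
      right_inv := by
        intro v
        show (s + 1) • (v + u v) + (s + 1) • (v - u v) = v
        rw [← smul_add, show v + u v + (v - u v) = 2 • v by rw [two_nsmul]; abel, h2s] }
  refine ⟨Nat.card P, ?_⟩
  rw [← Nat.card_congr e₂, Nat.card_prod, ← Nat.card_congr e₁]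

/-- Finite abelian groups of odd order with an action of the quaternion relations have square
order. -/
theorem isSquare_quat : ∀ (n : ℕ) (A : Type u) [AddCommGroup A] [Finite A], Nat.card A = n → Odd n →
    ∀ (i j : A →+ A), (∀ v, i (i v) = -v) → (∀ v, j (j v) = -v) → (∀ v, i (j v) = -(j (i v))) →
    IsSquare n := by
  intro n
  induction n using Nat.strong_induction_on with
  | _ n ih =>
  intro A _ _ hn hodd i j hi hj hij
  classical
  by_cases hn1 : n = 1
  · rw [hn1]
    exact ⟨1, rfl⟩
  obtain ⟨r, hr, hrn⟩ := Nat.exists_prime_and_dvd hn1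
  have hr2 : r ≠ 2 := by
    rintro rfl
    exact (Nat.not_even_iff_odd.2 hodd) (even_iff_two_dvd.2 hrn)
  haveI : Fact r.Prime := ⟨hr⟩
  let E : AddSubgroup A := (nsmulAddMonoidHom r : A →+ A).ker
  have hEm : ∀ v, v ∈ E ↔ r • v = 0 := fun v => Iff.rfl
  have hiE : ∀ v ∈ E, i v ∈ E := by
    intro v hv
    rw [hEm, ← map_nsmul, (hEm v).1 hv, map_zero]
  have hjE : ∀ v ∈ E, j v ∈ E := by
    intro v hv
    rw [hEm, ← map_nsmul, (hEm v).1 hv, map_zero]
  -- the restriction
  let iE : E →+ E := (i.comp E.subtype).codRestrict E (fun v => hiE v v.2)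
  let jE : E →+ E := (j.comp E.subtype).codRestrict E (fun v => hjE v v.2)
  have hsqE : IsSquare (Nat.card E) := by
    apply isSquare_elem hr hr2 (fun v : E => Subtype.ext v.2) iE jE
    · intro v
      exact Subtype.ext (hi v)
    · intro v
      exact Subtype.ext (hj v)
    · intro v
      exact Subtype.ext (hij v)
  -- the quotient
  let iQ : A ⧸ E →+ A ⧸ E := QuotientAddGroup.map E E i (fun v hv => hiE v hv)
  let jQ : A ⧸ E →+ A ⧸ E := QuotientAddGroup.map E E j (fun v hv => hjE v hv)
  have hcard : Nat.card E * Nat.card (A ⧸ E) = n := by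
    rw [← hn]
    exact AddSubgroup.card_mul_index E
  have hE1 : 1 < Nat.card E := by
    obtain ⟨x, hx⟩ := exists_prime_addOrderOf_dvd_card' (G := A) r (by rw [hn]; exact hrn)
    have hxE : x ∈ E := by
      rw [hEm, ← hx]
      exact addOrderOf_nsmul_eq_zero x
    have hx0 : x ≠ 0 := by
      rintro rfl
      rw [addOrderOf_zero] at hx
      exact hr.one_lt.ne hx
    have : Nontrivial E := ⟨⟨⟨x, hxE⟩, 0, fun h => hx0 (congrArg Subtype.val h)⟩⟩
    exact Finite.one_lt_card
  have hnpos : 0 < n := hodd.pos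
  have hlt : Nat.card (A ⧸ E) < n := by
    rw [← hcard]
    have : 0 < Nat.card (A ⧸ E) := Nat.card_pos
    nlinarith
  have hoddQ : Odd (Nat.card (A ⧸ E)) := by
    rw [← hcard] at hodd
    exact (Nat.odd_mul.1 hodd).2
  have hsqQ : IsSquare (Nat.card (A ⧸ E)) := by
    apply ih _ hlt (A ⧸ E) rfl hoddQ iQ jQ
    · intro v
      induction v using QuotientAddGroup.induction_on with
      | H v =>
        show ((i (i v) : A) : A ⧸ E) = _
        rw [hi]
        rfl
    · intro v
      induction v using QuotientAddGroup.induction_on with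
      | H v =>
        show ((j (j v) : A) : A ⧸ E) = _
        rw [hj]
        rfl
    · intro v
      induction v using QuotientAddGroup.induction_on with
      | H v =>
        show ((i (j v) : A) : A ⧸ E) = _
        rw [hij]
        rfl
  rw [← hcard]
  exact hsqE.mul hsqQ

end quat

/-- S4296. -/
theorem frob_kernel_odd_square {L : Type u} [Group L] [Finite L] (H : Subgroup L)
    (hF : Cfsg.IsFrobeniusComplement H)
    (hZ : ∃ (p : ℕ) (_ : Fact p.Prime) (P : Sylow p H), ¬ IsCyclic P) :
    Odd (Nat.card (Cfsg.frobeniusKernel H)) ∧ IsSquare (Nat.card (Cfsg.frobeniusKernel H)) := by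
  classical
  obtain ⟨K, hK, hKn, hc⟩ := CfsgLib.FGS.exists_frobenius_kernel H hF
  have hcardK : Nat.card (Cfsg.frobeniusKernel H) = Nat.card K := by
    rw [← hK]
    rfl
  rw [hcardK]
  have hfpf := CfsgLib.SS.fpf_of_kernel H K hF hK
  have hK0 : K ≠ ⊥ := by
    rintro rfl
    apply hF.2.1
    have h1 := hc.card_mul
    rw [Subgroup.card_bot, one_mul] at h1
    exact Subgroup.eq_top_of_card_eq H h1
  obtain ⟨p, hp, P, hP⟩ := hZ
  obtain ⟨n, ⟨e⟩⟩ := (CfsgLib.SS.fpf_sylow_structure K H hK0 hfpf p P).resolve_left hP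
  -- the quaternion elements
  obtain ⟨x, y, t, hxH, hyH, htH, hxx, hyy, hyx, ht2⟩ : ∃ x y t : L, x ∈ H ∧ y ∈ H ∧ t ∈ H ∧
      x * x = t ∧ y * y = t ∧ y * x = x⁻¹ * y ∧ orderOf t = 2 := by
    cases n with
    | zero =>
      exfalso
      apply hP
      haveI : IsCyclic (QuaternionGroup 1) := QuaternionGroup.quaternionGroup_one_isCyclic
      rw [pow_zero] at e
      exact isCyclic_of_surjective e.symm e.symm.surjective
    | succ m =>
      let f : QuaternionGroup (2 ^ (m + 1)) →* L :=
        H.subtype.comp ((P : Subgroup H).subtype.comp e.symm.toMonoidHom)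
      have hfinj : Function.Injective f :=
        H.subtype_injective.comp ((P : Subgroup H).subtype_injective.comp e.symm.injective)
      have hfH : ∀ q, f q ∈ H := fun q => (((e.symm q : P) : H)).2
      let M : ℕ := 2 ^ m
      have hMN : (2 : ℕ) ^ (m + 1) = M + M := by
        show 2 ^ (m + 1) = 2 ^ m + 2 ^ m
        rw [pow_succ]
        ring
      let I : QuaternionGroup (2 ^ (m + 1)) := QuaternionGroup.a (M : ZMod (2 * 2 ^ (m + 1)))
      let J : QuaternionGroup (2 ^ (m + 1)) := QuaternionGroup.xa 0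
      let T : QuaternionGroup (2 ^ (m + 1)) :=
        QuaternionGroup.a ((2 ^ (m + 1) : ℕ) : ZMod (2 * 2 ^ (m + 1)))
      have hII : I * I = T := by
        show QuaternionGroup.a _ * QuaternionGroup.a _ = QuaternionGroup.a _
        rw [QuaternionGroup.a_mul_a, hMN]
        push_cast
        rfl
      have hJJ : J * J = T := by
        show QuaternionGroup.xa _ * QuaternionGroup.xa _ = QuaternionGroup.a _
        rw [QuaternionGroup.xa_mul_xa]
        simp
      have hJI : J * I = I⁻¹ * J := by
        show QuaternionGroup.xa _ * QuaternionGroup.a _ = (QuaternionGroup.a _)⁻¹ * QuaternionGroup.xa _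
        have hIinv : (QuaternionGroup.a (M : ZMod (2 * 2 ^ (m + 1))))⁻¹ =
            QuaternionGroup.a (-(M : ZMod (2 * 2 ^ (m + 1)))) := rfl
        rw [QuaternionGroup.xa_mul_a, hIinv, QuaternionGroup.a_mul_xa]
        simp
      have hT1 : T ≠ 1 := by
        intro h0
        have h1 : ((2 ^ (m + 1) : ℕ) : ZMod (2 * 2 ^ (m + 1))) = 0 := by
          have := QuaternionGroup.a.inj h0
          exact this
        have h2 : (2 * 2 ^ (m + 1) : ℕ) ∣ 2 ^ (m + 1) := by
          have := (ZMod.natCast_eq_zero_iff _ _).1 h1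
          exact_mod_cast this
        have h3 := Nat.le_of_dvd (by positivity) h2
        have h4 : 0 < 2 ^ (m + 1) := by positivity
        omega
      have hTT : T * T = 1 := by
        show QuaternionGroup.a _ * QuaternionGroup.a _ = 1
        rw [QuaternionGroup.a_mul_a, QuaternionGroup.one_def]
        congr 1
        rw [← Nat.cast_add, ← two_mul]
        exact ZMod.natCast_self _
      refine ⟨f I, f J, f T, hfH _, hfH _, hfH _, ?_, ?_, ?_, ?_⟩
      · rw [← map_mul, hII]
      · rw [← map_mul, hJJ]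
      · rw [← map_mul, hJI, map_mul, map_inv]
      · apply orderOf_eq_prime
        · rw [pow_two, ← map_mul, hTT, map_one]
        · intro h0
          apply hT1
          apply hfinj
          rw [h0, map_one]
  have hinvK := CfsgLib.Solv.involution_inverts K H hfpf htH ht2
  obtain ⟨hinv, hKc⟩ := hinvK
  have hNK : H ≤ normalizer (K : Set L) := by
    rw [Subgroup.normalizer_eq_top_iff.2 hKn]
    exact le_top
  have hcop := CfsgLib.SS.coprime_of_fpf H K hNK hfpf
  have hodd : Odd (Nat.card K) := by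
    have h2 : 2 ∣ Nat.card H := by
      rw [← ht2, ← Subgroup.orderOf_mk t htH]
      exact orderOf_dvd_natCard _
    rw [← Nat.not_even_iff_odd, even_iff_two_dvd]
    intro h3
    exact Nat.Prime.not_dvd_one Nat.prime_two (hcop ▸ Nat.dvd_gcd h2 h3)
  refine ⟨hodd, ?_⟩
  letI cK : CommGroup K := { (inferInstance : Group K) with mul_comm := fun a b => mul_comm' a b }
  let i : Additive K →+ Additive K :=
    MonoidHom.toAdditive ((MulAut.conjNormal x : K ≃* K).toMonoidHom)
  let j : Additive K →+ Additive K :=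
    MonoidHom.toAdditive ((MulAut.conjNormal y : K ≃* K).toMonoidHom)
  have hi_ : ∀ v : Additive K, (((i v).toMul : K) : L) = x * (v.toMul : L) * x⁻¹ := fun v =>
    MulAut.conjNormal_apply x v.toMul
  have hj_ : ∀ v : Additive K, (((j v).toMul : K) : L) = y * (v.toMul : L) * y⁻¹ := fun v =>
    MulAut.conjNormal_apply y v.toMul
  have hext : ∀ v w : Additive K, ((v.toMul : K) : L) = (w.toMul : K) → v = w := fun v w h =>
    (Additive.toMul (α := K)).injective (Subtype.ext h)
  have hneg : ∀ v : Additive K, (((-v).toMul : K) : L) = ((v.toMul : K) : L)⁻¹ := fun v => rfl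
  refine CfsgLib.FrobSq.isSquare_quat _ (Additive K) rfl hodd i j ?_ ?_ ?_
  · intro v
    apply hext
    rw [hi_, hi_, hneg, ← hinv _ v.toMul.2, ← hxx]
    group
  · intro v
    apply hext
    rw [hj_, hj_, hneg, ← hinv _ v.toMul.2, ← hyy]
    group
  · intro v
    apply hext
    rw [hi_, hj_, hneg, hj_, hi_]
    have h3 := hinv (y * (x * (v.toMul : L) * x⁻¹) * y⁻¹)
      (by
        have := (j (i v)).toMul.2
        rwa [hj_, hi_] at this)
    rw [← h3, ← hxx]
    have h4 : x * y * x = y := by
      rw [mul_assoc, hyx, mul_inv_cancel_left]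
    have hZ : x * x * y * x = x * y := by
      rw [mul_assoc x x y, mul_assoc x (x * y) x, h4]
    have e1 : x * x * (y * (x * (v.toMul : L) * x⁻¹) * y⁻¹) * (x * x)⁻¹ =
        (x * x * y * x) * (v.toMul : L) * (x * x * y * x)⁻¹ := by group
    rw [e1, hZ]
    group

end CfsgLib.FrobSq
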