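import Mathlib
import Cfsg.Agent.Lib.H3.FrobSquare
import Cfsg.Agent.Lib.FGS.FrobCon
import Cfsg.Agent.Lib.PLocal.CoreLift

/-! # Frobenius groups with complement `Q₈` -/

set_option autoImplicit false

namespace CfsgLib.FrobSq

open Cfsg

/-- A fixed-point-free action gives a Frobenius group, with control of the kernel. -/
theorem exists_frobenius_card {H₀ : Type} [Group H₀] [Finite H₀] [Nontrivial H₀]
    {V : Type} [Group V] [Finite V] [Nontrivial V]
    (φ : H₀ →* MulAut V) (hfpf : ∀ h : H₀, h ≠ 1 → ∀ v : V, φ h v = v → v = 1) :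
    ∃ (L : Type) (_ : Group L) (_ : Finite L) (H : Subgroup L),
      IsFrobeniusComplement H ∧ Nonempty (H ≃* H₀) ∧ Nat.card (frobeniusKernel H) = Nat.card V := by
  classical
  let L := V ⋊[φ] H₀
  haveI : Finite L := Finite.of_equiv _ (SemidirectProduct.equivProd (φ := φ)).symm
  let inl' : V →* L := SemidirectProduct.inl
  let inr' : H₀ →* L := SemidirectProduct.inr
  have hinrinj : Function.Injective inr' := SemidirectProduct.inr_injective
  have hinlinj : Function.Injective inl' := SemidirectProduct.inl_injective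
  have hcardL : Nat.card L = Nat.card V * Nat.card H₀ := by
    rw [Nat.card_congr (SemidirectProduct.equivProd (φ := φ)), Nat.card_prod]
  have hcardR : Nat.card inr'.range = Nat.card H₀ :=
    Nat.card_congr (MonoidHom.ofInjective hinrinj).symm.toEquiv
  have hF : IsFrobeniusComplement inr'.range := by
    let K : Subgroup L := inl'.range
    haveI hKn : K.Normal := by
      have : K = (SemidirectProduct.rightHom : L →* H₀).ker := SemidirectProduct.range_inl_eq_ker_rightHom
      rw [this]
      infer_instance
    have hdis : Disjoint K inr'.range := by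
      rw [Subgroup.disjoint_def]
      rintro _ ⟨n, rfl⟩ ⟨g, hg⟩
      have h1 : g = 1 := congrArg (SemidirectProduct.right (φ := φ)) hg
      rw [← hg, h1]
      exact map_one inr'
    have hc : Subgroup.IsComplement' K inr'.range := by
      apply Subgroup.isComplement'_of_disjoint_and_mul_eq_univ hdis
      ext x
      simp only [Set.mem_mul, Set.mem_univ, iff_true]
      exact ⟨inl' x.left, ⟨_, rfl⟩, inr' x.right, ⟨_, rfl⟩, SemidirectProduct.inl_left_mul_inr_right x⟩
    have hK : K ≠ ⊥ := by
      obtain ⟨v, hv⟩ := exists_ne (1 : V)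
      intro h0
      have : inl' v ∈ K := ⟨v, rfl⟩
      rw [h0] at this
      have h1 : inl' v = inl' 1 := by rw [map_one]; exact this
      exact hv (hinlinj h1)
    have hH : inr'.range ≠ ⊥ := by
      obtain ⟨v, hv⟩ := exists_ne (1 : H₀)
      intro h0
      have : inr' v ∈ inr'.range := ⟨v, rfl⟩
      rw [h0] at this
      have h1 : inr' v = inr' 1 := by rw [map_one]; exact this
      exact hv (hinrinj h1)
    refine (CfsgLib.Solv.frobenius_complement_iff K inr'.range hc hK hH).mpr ?_
    rintro _ ⟨h, rfl⟩ hh
    have hh1 : h ≠ 1 := fun h0 => hh (by rw [h0, map_one])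
    rw [eq_bot_iff]
    rintro x ⟨⟨v, rfl⟩, hv⟩
    have h2 : inr' h * inl' v = inl' v * inr' h := by
      have := Subgroup.mem_centralizer_singleton_iff.mp hv
      exact this.symm
    have h3 : inl' (φ h v) = inl' v := by
      have h4 := SemidirectProduct.inl_aut (φ := φ) h v
      change inl' (φ h v) = inr' h * inl' v * inr' h⁻¹ at h4
      rw [h4, h2, mul_assoc, ← map_mul, mul_inv_cancel, map_one, mul_one]
    have h5 := hfpf h hh1 v (hinlinj h3)
    rw [h5]
    exact map_one inl'
  refine ⟨L, inferInstance, inferInstance, inr'.range, hF, ⟨(MonoidHom.ofInjective hinrinj).symm⟩, ?_⟩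
  rw [CfsgLib.Solv.card_frobeniusKernel hF]
  have h1 := Subgroup.card_mul_index inr'.range
  rw [hcardR, hcardL, mul_comm] at h1
  exact Nat.eq_of_mul_eq_mul_right Nat.card_pos h1

/-- Version with additive module. -/
theorem exists_frobenius_card_add {H₀ : Type} [Group H₀] [Finite H₀] [Nontrivial H₀]
    {W : Type} [AddCommGroup W] [Finite W] [Nontrivial W]
    (f : H₀ → W →+ W) (hf1 : f 1 = AddMonoidHom.id W) (hfm : ∀ g h w, f (g * h) w = f g (f h w))
    (hfpf : ∀ h : H₀, h ≠ 1 → ∀ w : W, f h w = w → w = 0) :
    ∃ (L : Type) (_ : Group L) (_ : Finite L) (H : Subgroup L),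
      IsFrobeniusComplement H ∧ Nonempty (H ≃* H₀) ∧ Nat.card (frobeniusKernel H) = Nat.card W := by
  let V := Multiplicative W
  have hinv : ∀ h w, f h⁻¹ (f h w) = w := fun h w => by
    rw [← hfm, inv_mul_cancel, hf1]
    rfl
  have hinv' : ∀ h w, f h (f h⁻¹ w) = w := fun h w => by
    rw [← hfm, mul_inv_cancel, hf1]
    rfl
  let φ : H₀ →* MulAut V :=
    { toFun := fun h =>
        { toFun := fun v => Multiplicative.ofAdd (f h (Multiplicative.toAdd v))
          invFun := fun v => Multiplicative.ofAdd (f h⁻¹ (Multiplicative.toAdd v))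
          left_inv := fun v => by
            change Multiplicative.ofAdd (f h⁻¹ (f h (Multiplicative.toAdd v))) = v
            rw [hinv]
            rfl
          right_inv := fun v => by
            change Multiplicative.ofAdd (f h (f h⁻¹ (Multiplicative.toAdd v))) = v
            rw [hinv']
            rfl
          map_mul' := fun a b => by
            change Multiplicative.ofAdd (f h (Multiplicative.toAdd a + Multiplicative.toAdd b)) = _
            rw [map_add]
            rfl }
      map_one' := by
        ext v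
        change Multiplicative.ofAdd (f 1 (Multiplicative.toAdd v)) = v
        rw [hf1]
        rfl
      map_mul' := by
        intro g h
        ext v
        change Multiplicative.ofAdd (f (g * h) (Multiplicative.toAdd v)) = _
        rw [hfm]
        rfl }
  haveI : Nontrivial V := inferInstanceAs (Nontrivial (Multiplicative W))
  have hthis := exists_frobenius_card (V := V) φ (by
    intro h hh v hv
    have h1 : f h (Multiplicative.toAdd v) = Multiplicative.toAdd v := congrArg Multiplicative.toAdd hv
    have h2 := hfpf h hh _ h1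
    exact h2)
  exact hthis

/-- The modules with the quaternion relations, with prescribed order. -/
theorem exists_quat_module (n : ℕ) (hn : Odd n) :
    ∃ (W : Type) (_ : AddCommGroup W) (_ : Finite W) (i j : W →+ W), Nat.card W = n ^ 2 ∧
      (∀ v, i (i v) = -v) ∧ (∀ v, j (j v) = -v) ∧ (∀ v, i (j v) = -(j (i v))) := by
  induction n using Nat.recOnMul with
  | zero => exact absurd hn (by decide)
  | one =>
    refine ⟨PUnit, inferInstance, inferInstance, 0, 0, ?_, fun v => Subsingleton.elim _ _,
      fun v => Subsingleton.elim _ _, fun v => Subsingleton.elim _ _⟩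
    simp
  | prime r hr =>
    haveI : Fact r.Prime := ⟨hr⟩
    obtain ⟨a, b, hab⟩ := ZMod.sq_add_sq r (-1 : ZMod r)
    let i : (ZMod r × ZMod r) →+ (ZMod r × ZMod r) :=
      { toFun := fun v => (-v.2, v.1)
        map_zero' := by simp
        map_add' := fun u v => by
          ext <;> simp <;> ring }
    let j : (ZMod r × ZMod r) →+ (ZMod r × ZMod r) :=
      { toFun := fun v => (a * v.1 + b * v.2, b * v.1 - a * v.2)
        map_zero' := by simp
        map_add' := fun u v => by
          ext <;> simp <;> ring }
    have hab' : a * a + b * b = -1 := by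
      rw [← hab]
      ring
    refine ⟨ZMod r × ZMod r, inferInstance, inferInstance, i, j, ?_, ?_, ?_, ?_⟩
    · rw [Nat.card_prod, Nat.card_zmod, pow_two]
    · intro v
      show (-(v.1), -v.2) = -v
      rfl
    · intro v
      show (a * (a * v.1 + b * v.2) + b * (b * v.1 - a * v.2),
        b * (a * v.1 + b * v.2) - a * (b * v.1 - a * v.2)) = -v
      ext
      · show _ = -v.1
        linear_combination v.1 * hab'
      · show _ = -v.2
        linear_combination v.2 * hab'
    · intro v
      show (-(b * v.1 - a * v.2), a * v.1 + b * v.2) =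
        -(a * (-v.2) + b * v.1, b * (-v.2) - a * v.1)
      ext
      · show _ = -(a * (-v.2) + b * v.1)
        ring
      · show _ = -(b * (-v.2) - a * v.1)
        ring
  | mul m n ihm ihn =>
    have hmn := Nat.odd_mul.1 hn
    obtain ⟨W₁, _, _, i₁, j₁, hc₁, hi₁, hj₁, hij₁⟩ := ihm hmn.1
    obtain ⟨W₂, _, _, i₂, j₂, hc₂, hi₂, hj₂, hij₂⟩ := ihn hmn.2
    refine ⟨W₁ × W₂, inferInstance, inferInstance, i₁.prodMap i₂, j₁.prodMap j₂, ?_, ?_, ?_, ?_⟩
    · rw [Nat.card_prod, hc₁, hc₂, mul_pow]
    · intro v
      exact Prod.ext (hi₁ v.1) (hi₂ v.2)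
    · intro v
      exact Prod.ext (hj₁ v.1) (hj₂ v.2)
    · intro v
      exact Prod.ext (hij₁ v.1) (hij₂ v.2)

section build

variable {W : Type} [AddCommGroup W]

/-- The representation of `Q₈`. -/
noncomputable def quatRep (I J : AddMonoid.End W) : QuaternionGroup 2 → AddMonoid.End W
  | QuaternionGroup.a k => I ^ k.val
  | QuaternionGroup.xa k => J * I ^ k.val

theorem quatRep_mul {I J : AddMonoid.End W} (hII : I * I = -1) (hJJ : J * J = -1)
    (hIJ : I * J = -(J * I))
    (g h : QuaternionGroup 2) : quatRep I J (g * h) = quatRep I J g * quatRep I J h := by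
  have hI4 : I ^ 4 = 1 := by
    rw [show (4 : ℕ) = 2 + 2 from rfl, pow_add, pow_two, hII]
    simp
  have hadd : ∀ k l : ZMod (2 * 2), I ^ (k + l).val = I ^ k.val * I ^ l.val := by
    intro k l
    rw [ZMod.val_add, ← pow_add]
    exact (pow_eq_pow_mod _ hI4).symm
  have hIJI : I * J * I = J := by
    rw [hIJ, neg_mul, mul_assoc, hII]
    simp
  have hm : ∀ m : ℕ, I ^ m * J * I ^ m = J := by
    intro m
    induction m with
    | zero => simp
    | succ m ih =>
      have e1 : I * I ^ m = I ^ (m + 1) := (pow_succ' I m).symm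
      have e2 : I ^ m * I = I ^ (m + 1) := (pow_succ I m).symm
      calc I ^ (m + 1) * J * I ^ (m + 1) = (I * I ^ m) * J * (I ^ m * I) := by
            rw [e1, e2]
        _ = I * (I ^ m * J * I ^ m) * I := by noncomm_ring
        _ = J := by rw [ih, hIJI]
  have hinv : ∀ k : ZMod (2 * 2), I ^ (-k).val * I ^ k.val = 1 := by
    intro k
    rw [← hadd, neg_add_cancel]
    simp
  have hswap : ∀ k : ZMod (2 * 2), I ^ k.val * J = J * I ^ (-k).val := by
    intro k
    have h1 := hm (-k).val
    have h2 := hinv (-k)
    rw [neg_neg] at h2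
    calc I ^ k.val * J = I ^ k.val * (I ^ (-k).val * J * I ^ (-k).val) := by rw [h1]
      _ = (I ^ k.val * I ^ (-k).val) * J * I ^ (-k).val := by noncomm_ring
      _ = J * I ^ (-k).val := by rw [h2, one_mul]
  have hp2 : I ^ (2 : ZMod (2 * 2)).val = -1 := by
    show I ^ 2 = -1
    rw [pow_two, hII]
  rcases g with k | k <;> rcases h with l | l
  · show I ^ (k + l).val = I ^ k.val * I ^ l.val
    exact hadd k l
  · show J * I ^ (l - k).val = I ^ k.val * (J * I ^ l.val)
    rw [← mul_assoc, hswap, mul_assoc, ← hadd, sub_eq_neg_add]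
  · show J * I ^ (k + l).val = J * I ^ k.val * I ^ l.val
    rw [hadd, mul_assoc]
  · show I ^ (((2 : ℕ) : ZMod (2 * 2)) + l - k).val = J * I ^ k.val * (J * I ^ l.val)
    rw [mul_assoc J, ← mul_assoc (I ^ k.val), hswap, mul_assoc J, ← hadd, ← mul_assoc, hJJ]
    have h3 : ((2 : ℕ) : ZMod (2 * 2)) + l - k = 2 + (-k + l) := by
      push_cast
      ring
    rw [h3, hadd, hp2]

end build

/-- S4295. -/
theorem quat_frobenius_iff (m : ℕ) :
    (∃ (L : Type) (_ : Group L) (_ : Finite L) (H : Subgroup L), Cfsg.IsFrobeniusComplement H ∧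
        Nonempty (H ≃* QuaternionGroup 2) ∧ Nat.card (Cfsg.frobeniusKernel H) = m) ↔
    (Odd m ∧ IsSquare m ∧ 1 < m) := by
  classical
  constructor
  · rintro ⟨L, _, _, H, hF, ⟨e⟩, hm⟩
    have hcard : Nat.card H = 2 ^ 3 := by
      rw [Nat.card_congr e.toEquiv, Nat.card_eq_fintype_card, QuaternionGroup.card]
      norm_num
    have hp : IsPGroup 2 H := IsPGroup.of_card hcard
    haveI : Fact (Nat.Prime 2) := ⟨Nat.prime_two⟩
    let P : Sylow 2 H := default
    have hP : (P : Subgroup H) = ⊤ := CfsgLib.PLocal.sylow_eq_top_of_isPGroup hp P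
    have hnc : ¬ IsCyclic P := by
      intro hcyc
      have hcomm : ∀ x y : H, x * y = y * x := by
        intro x y
        have hx : x ∈ (P : Subgroup H) := by rw [hP]; trivial
        have hy : y ∈ (P : Subgroup H) := by rw [hP]; trivial
        have h1 : (⟨x, hx⟩ : P) * ⟨y, hy⟩ = ⟨y, hy⟩ * ⟨x, hx⟩ := by
          letI := hcyc.commGroup
          exact mul_comm _ _
        exact congrArg Subtype.val h1
      have h2 := hcomm (e.symm (QuaternionGroup.a 1)) (e.symm (QuaternionGroup.xa 0))
      rw [← map_mul, ← map_mul] at h2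
      exact absurd (e.symm.injective h2) (by decide)
    have h := frob_kernel_odd_square H hF ⟨2, inferInstance, P, hnc⟩
    rw [hm] at h
    refine ⟨h.1, h.2, ?_⟩
    have h3 : Nat.card (Cfsg.frobeniusKernel H) = H.index := CfsgLib.Solv.card_frobeniusKernel hF
    rw [hm] at h3
    rw [h3]
    have h4 : H.index ≠ 1 := by
      intro h5
      exact hF.2.1 (Subgroup.index_eq_one.1 h5)
    have h5 : H.index ≠ 0 := Subgroup.index_ne_zero_of_finite
    omega
  · rintro ⟨hodd, ⟨n, rfl⟩, h1⟩
    have hn : Odd n := (Nat.odd_mul.1 hodd).1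
    obtain ⟨W, _, _, i, j, hc, hi, hj, hij⟩ := exists_quat_module n hn
    have hWodd : Odd (Nat.card W) := by
      rw [hc, pow_two]
      exact hodd
    have hW1 : 1 < Nat.card W := by
      rw [hc, pow_two]
      exact h1
    haveI : Nontrivial W := Finite.one_lt_card_iff_nontrivial.1 hW1
    have hneg : ∀ w : W, -w = w → w = 0 := by
      intro w hw
      have h2 : 2 • w = 0 := by
        rw [two_nsmul]
        nth_rewrite 1 [← hw]
        exact neg_add_cancel w
      have h3 : addOrderOf w ∣ Nat.gcd 2 (Nat.card W) :=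
        Nat.dvd_gcd (addOrderOf_dvd_of_nsmul_eq_zero h2) (addOrderOf_dvd_natCard w)
      have h4 : Nat.gcd 2 (Nat.card W) = 1 := Nat.coprime_two_left.2 hWodd
      rw [h4, Nat.dvd_one, AddMonoid.addOrderOf_eq_one_iff] at h3
      exact h3
    let I : AddMonoid.End W := i
    let J : AddMonoid.End W := j
    have hII : I * I = -1 := DFunLike.ext _ _ hi
    have hJJ : J * J = -1 := DFunLike.ext _ _ hj
    have hIJ : I * J = -(J * I) := DFunLike.ext _ _ hij
    have hmul := quatRep_mul hII hJJ hIJ
    have hfix2 : ∀ (h : QuaternionGroup 2) (w : W), quatRep I J h w = w →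
        quatRep I J (h * h) w = w := by
      intro h w hw
      rw [hmul]
      show quatRep I J h (quatRep I J h w) = w
      rw [hw, hw]
    have ha2 : ∀ w : W, quatRep I J (QuaternionGroup.a 2) w = -w := by
      intro w
      show (I ^ 2) w = -w
      rw [pow_two, hII]
      rfl
    obtain ⟨L, gL, fL, H, hF, hH, hk⟩ := exists_frobenius_card_add (H₀ := QuaternionGroup 2) (W := W)
      (fun g => (quatRep I J g : W →+ W))
      (by
        refine AddMonoidHom.ext (fun v => ?_)
        rfl)
      (by
        intro g h w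
        have := hmul g h
        exact congrArg (fun t : AddMonoid.End W => t w) this)
      (by
        intro h hh w hw
        have hw' : quatRep I J h w = w := hw
        -- reduce to the central involution
        have hkey : ∀ h : QuaternionGroup 2, h ≠ 1 → h = QuaternionGroup.a 2 ∨
            h * h = QuaternionGroup.a 2 := by decide
        rcases hkey h hh with rfl | h2
        · exact hneg w (by rw [← ha2 w]; exact hw')
        · have := hfix2 h w hw'
          rw [h2, ha2] at this
          exact hneg w this)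
    refine ⟨L, gL, fL, H, hF, hH, ?_⟩
    rw [hk, hc, pow_two]

end CfsgLib.FrobSq
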