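import Cfsg.Agent.Lib.H9.SimpleTools
import Cfsg.Agent.Lib.FGS.Elem
import Cfsg.Agent.Lib.Invol.DihedralIso

/-! Structure of a simple group of order 168: centralizers and conjugacy classes. -/

set_option autoImplicit false
set_option linter.unusedSectionVars false

namespace CfsgLib.G168

open Subgroup CfsgLib.H9 MulAction

instance fact7 : Fact (Nat.Prime 7) := ⟨by norm_num⟩

variable {G : Type*} [Group G] [Finite G] [IsSimpleGroup G]

section general
omit [IsSimpleGroup G]

theorem cent_zpowers (x : G) :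
    centralizer ((zpowers x : Subgroup G) : Set G) = centralizer ({x} : Set G) := by
  ext g
  rw [Subgroup.mem_centralizer_singleton_iff, Subgroup.mem_centralizer_iff]
  constructor
  · intro h
    exact (h x (mem_zpowers x)).symm
  · intro h y hy
    obtain ⟨k, rfl⟩ := hy
    have hc : Commute g x := h
    exact ((hc.zpow_right k).eq).symm

theorem exists_sylow_eq {p : ℕ} [Fact p.Prime] {k m : ℕ} (hG : Nat.card G = p ^ k * m)
    (hm : ¬ p ∣ m) (Q : Subgroup G) (hQ : Nat.card Q = p ^ k) :
    ∃ S : Sylow p G, (S : Subgroup G) = Q := by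
  have hQp : IsPGroup p Q := IsPGroup.of_card hQ
  obtain ⟨S, hS⟩ := hQp.exists_le_sylow
  refine ⟨S, ?_⟩
  symm
  apply Subgroup.eq_of_le_of_card_ge hS
  rw [card_sylow_of_factor hG hm S, hQ]

/-- A cover by conjugacy classes, from a count. -/
theorem cover {n : ℕ} (a : Fin n → G) (hne : ∀ i j, i ≠ j → ¬ IsConj (a i) (a j))
    (hsum : ∑ i, Nat.card {g // IsConj (a i) g} = Nat.card G) (g : G) : ∃ i, IsConj (a i) g := by
  classical
  let f : (Σ i, {g // IsConj (a i) g}) → G := fun p => p.2.1
  have hinj : Function.Injective f := by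
    rintro ⟨i, g₁, h₁⟩ ⟨j, g₂, h₂⟩ (hfe : g₁ = g₂)
    subst hfe
    have hij : i = j := by
      by_contra hij
      exact hne i j hij (h₁.trans h₂.symm)
    subst hij
    rfl
  have hcard : Nat.card (Σ i, {g // IsConj (a i) g}) = Nat.card G := by
    rw [Nat.card_sigma, hsum]
  have hbij := (Nat.bijective_iff_injective_and_card f).2 ⟨hinj, hcard⟩
  obtain ⟨⟨i, g', h'⟩, hfg⟩ := hbij.2 g
  refine ⟨i, ?_⟩
  have : g' = g := hfg
  rwa [← this]

theorem card_conj_mul (g : G) :
    Nat.card {h : G // IsConj g h} * Nat.card (centralizer ({g} : Set G)) = Nat.card G := by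
  rw [← CfsgLib.FGS.index_centralizer_eq_card_conj, mul_comm]
  exact Subgroup.card_mul_index _

theorem orderOf_of_isConj {a b : G} (h : IsConj a b) : orderOf a = orderOf b := by
  obtain ⟨c, hc⟩ := isConj_iff.1 h
  rw [← hc]
  have := (MulAut.conj c).orderOf_eq a
  rw [← this]
  simp [MulAut.conj_apply]

/-- No nontrivial 2-element commutes... helper: a `p`-power order and `q`-power order element. -/
theorem eq_one_of_dvd_coprime {x : G} {a b : ℕ} (hc : a.Coprime b) (h1 : orderOf x ∣ a)
    (h2 : orderOf x ∣ b) : x = 1 :=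
  orderOf_eq_one_iff.1 (Nat.eq_one_of_dvd_coprimes hc h1 h2)

end general

variable (h : Nat.card G = 168)
include h

theorem not_comm : ¬ IsMulCommutative G :=
  not_isMulCommutative_of_not_prime (by rw [h]; norm_num)

theorem index_ge (M : Subgroup G) (hM : M ≠ ⊤) : 7 ≤ M.index := by
  have h1 := two_mul_card_dvd_factorial (not_comm h) M hM
  rw [h] at h1
  have h0 : M.index ≠ 0 := Subgroup.index_ne_zero_of_finite
  by_contra hlt
  have hk : M.index ≤ 6 := by omega
  generalize M.index = k at *
  interval_cases k <;> revert h1 <;> decide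

theorem card_le (M : Subgroup G) (hM : M ≠ ⊤) : Nat.card M ≤ 24 := by
  have h1 := index_ge h M hM
  have h2 := M.card_mul_index
  rw [h] at h2
  nlinarith

theorem card_ne_top {M : Subgroup G} (hM : 24 < Nat.card G → Nat.card M ≤ 24) : M ≠ ⊤ := by
  rintro rfl
  have := hM (by omega)
  rw [Subgroup.card_top, h] at this
  omega

theorem normal_false (N : Subgroup G) (hN : N.Normal) (h1 : N ≠ ⊥) (h2 : N ≠ ⊤) : False := by
  rcases IsSimpleGroup.eq_bot_or_eq_top_of_normal N hN with h3 | h3
  · exact h1 h3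
  · exact h2 h3

/-! ### The prime 7 -/

theorem card_syl7 (P : Sylow 7 G) : Nat.card P = 7 := by
  have := card_sylow_of_factor (p := 7) (k := 1) (m := 24) (by rw [h]; norm_num) (by norm_num) P
  simpa using this

theorem nsyl7 : Nat.card (Sylow 7 G) = 8 := by
  obtain ⟨h1, h2⟩ := card_sylow_dvd_cofactor (G := G) (p := 7) (k := 1) (m := 24)
    (by rw [h]; norm_num) (by norm_num)
  have h3 := card_sylow_ne_one' (G := G) (p := 7) (q := 2) (by norm_num) (by norm_num)
    (by rw [h]; norm_num) (by rw [h]; norm_num)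
  have h4 : Nat.card (Sylow 7 G) ≤ 24 := Nat.le_of_dvd (by norm_num) h1
  generalize Nat.card (Sylow 7 G) = n at *
  interval_cases n <;> first | rfl | (exfalso; revert h1 h2 h3; decide)

theorem card_norm7 (P : Sylow 7 G) : Nat.card (normalizer ((P : Subgroup G) : Set G)) = 21 := by
  have h1 := card_normalizer_mul_card_sylow P
  rw [nsyl7 h, h] at h1
  omega

theorem exists_syl7 (x : G) (hx : orderOf x = 7) : ∃ S : Sylow 7 G, (S : Subgroup G) = zpowers x :=
  exists_sylow_eq (p := 7) (k := 1) (m := 24) (by rw [h]; norm_num) (by norm_num) _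
    (by rw [Nat.card_zpowers, hx]; norm_num)

theorem c7 (x : G) (hx : orderOf x = 7) : centralizer ({x} : Set G) = zpowers x := by
  obtain ⟨S, hS⟩ := exists_syl7 h x hx
  have hN := card_norm7 h S
  rw [hS] at hN
  have hb : (S : Subgroup G) ≠ ⊥ := by
    intro hb
    have := card_syl7 h S
    rw [hb, Subgroup.card_bot] at this
    omega
  haveI hcyc : IsCyclic (zpowers x) := inferInstance
  have hab : IsMulCommutative (S : Subgroup G) := by
    rw [hS]; exact IsCyclic.isMulCommutative
  have hnot := not_normalizer_le_centralizer (not_comm h) S hab hb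
  rw [hS, cent_zpowers] at hnot
  have hle : centralizer ({x} : Set G) ≤ normalizer ((zpowers x : Subgroup G) : Set G) := by
    rw [← cent_zpowers]
    exact Subgroup.centralizer_le_normalizer _
  have hd : Nat.card (centralizer ({x} : Set G)) ∣ 21 := hN ▸ Subgroup.card_dvd_of_le hle
  have hzle : zpowers x ≤ centralizer ({x} : Set G) := by
    rw [Subgroup.zpowers_le, Subgroup.mem_centralizer_singleton_iff]
  have hd7 : 7 ∣ Nat.card (centralizer ({x} : Set G)) := by
    have := Subgroup.card_dvd_of_le hzle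
    rwa [Nat.card_zpowers, hx] at this
  have hc : Nat.card (centralizer ({x} : Set G)) ≠ 21 := by
    intro he
    apply hnot
    apply le_of_eq
    symm
    apply Subgroup.eq_of_le_of_card_ge hle
    rw [hN, he]
  have hc7 : Nat.card (centralizer ({x} : Set G)) = 7 := by
    have h21 := Nat.le_of_dvd (by norm_num) hd
    generalize Nat.card (centralizer ({x} : Set G)) = n at *
    interval_cases n <;> first | rfl | (exfalso; revert hd hd7 hc; decide)
  symm
  apply Subgroup.eq_of_le_of_card_ge hzle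
  rw [hc7, Nat.card_zpowers, hx]

theorem not_conj_inv7 (x : G) (hx : orderOf x = 7) : ¬ IsConj x x⁻¹ := by
  intro hc
  obtain ⟨g, hg⟩ := isConj_iff.1 hc
  obtain ⟨S, hS⟩ := exists_syl7 h x hx
  have hN := card_norm7 h S
  rw [hS] at hN
  have hgN : g ∈ normalizer ((zpowers x : Subgroup G) : Set G) := by
    rw [Subgroup.mem_normalizer_iff]
    intro u
    constructor
    · rintro ⟨k, rfl⟩
      refine ⟨-k, ?_⟩
      change x ^ (-k) = g * x ^ k * g⁻¹
      rw [← conj_zpow, hg]
      simp
    · rintro ⟨k, hk⟩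
      refine ⟨-k, ?_⟩
      change x ^ k = g * u * g⁻¹ at hk
      change x ^ (-k) = u
      have e : u = g⁻¹ * x ^ k * g := by rw [hk]; group
      have hg' : g⁻¹ * x * g = x⁻¹ := by
        have e2 : x = g⁻¹ * (g * x * g⁻¹) * g := by group
        rw [hg] at e2
        have e3 := congrArg (fun w => w⁻¹) e2
        simp only [mul_inv_rev, inv_inv] at e3
        rw [e3]
        group
      have e4 : g⁻¹ * x ^ k * g = (g⁻¹ * x * g) ^ k := by
        have := conj_zpow (a := g⁻¹) (b := x) (i := k)
        simpa using this.symm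
      rw [e, e4, hg']
      simp
  have ho : orderOf g ∣ 21 := by
    have := Subgroup.orderOf_dvd_natCard (s := normalizer ((zpowers x : Subgroup G) : Set G)) hgN
    rwa [hN] at this
  have hg21 : g ^ 21 = 1 := orderOf_dvd_iff_pow_eq_one.1 ho
  have hcomm2 : g ^ 2 * x = x * g ^ 2 := by
    have h1 : g ^ 2 * x * (g ^ 2)⁻¹ = x := by
      have e : g ^ 2 * x * (g ^ 2)⁻¹ = g * (g * x * g⁻¹) * g⁻¹ := by
        rw [pow_two]; simp only [mul_inv_rev, mul_assoc]
      rw [e, hg]
      have e2 : g * x⁻¹ * g⁻¹ = (g * x * g⁻¹)⁻¹ := by group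
      rw [e2, hg, inv_inv]
    calc g ^ 2 * x = g ^ 2 * x * (g ^ 2)⁻¹ * g ^ 2 := by group
      _ = x * g ^ 2 := by rw [h1]
  have hgeq : g = (g ^ 2) ^ 11 := by
    rw [← pow_mul]
    have : g ^ (2 * 11) = g ^ 21 * g := by rw [← pow_succ]
    rw [this, hg21, one_mul]
  have hcomm : Commute g x := by
    rw [hgeq]
    exact Commute.pow_left hcomm2 11
  have hxx : x = x⁻¹ := by
    rw [← hg]
    have : g * x * g⁻¹ = x * g * g⁻¹ := by rw [hcomm.eq]
    rw [this]; group
  have h2 : x ^ 2 = 1 := by
    rw [pow_two]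
    nth_rewrite 1 [hxx]
    group
  have := orderOf_dvd_of_pow_eq_one h2
  rw [hx] at this
  omega

/-! ### The action on the Sylow 7-subgroups -/

theorem smul_self_of_mem (a : Sylow 7 G) {z : G} (hz : z ∈ (a : Subgroup G)) : z • a = a :=
  Sylow.smul_eq_iff_mem_normalizer.2 (Subgroup.le_normalizer hz)

theorem trans7 (a b c : Sylow 7 G) (hb : b ≠ a) (hc : c ≠ a) :
    ∃ z ∈ (a : Subgroup G), z • b = c := by
  classical
  have hcard := card_syl7 h a
  have hst : stabilizer (a : Subgroup G) b = ⊥ := by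
    rw [Subgroup.eq_bot_iff_forall]
    rintro ⟨z, hz⟩ hzb
    apply Subtype.ext
    exact eq_one_of_smul_eq hcard (Ne.symm hb) hz hzb
  have horb : Nat.card (orbit (a : Subgroup G) b) = 7 := by
    have h1 := card_orbit_mul_card_stabilizer' (H := (a : Subgroup G)) b
    rw [hst, Subgroup.card_bot, mul_one, hcard] at h1
    exact h1
  have hsub : orbit (a : Subgroup G) b ⊆ ({a}ᶜ : Set (Sylow 7 G)) := by
    rintro _ ⟨⟨z, hz⟩, rfl⟩ hmem
    apply hb
    have h1 : z • b = a := hmem
    have h2 : z⁻¹ • a = a := smul_self_of_mem h a (Subgroup.inv_mem _ hz)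
    rw [← h2, ← h1, smul_smul]
    simp
  have hcompl : (({a}ᶜ : Set (Sylow 7 G))).ncard = 7 := by
    rw [Set.ncard_compl, Set.ncard_singleton, nsyl7 h]
  have heq : orbit (a : Subgroup G) b = ({a}ᶜ : Set (Sylow 7 G)) := by
    apply Set.eq_of_subset_of_ncard_le hsub
    rw [hcompl, ← Nat.card_coe_set_eq, horb]
  have hcm : c ∈ orbit (a : Subgroup G) b := by
    rw [heq]; exact hc
  obtain ⟨⟨z, hz⟩, hzc⟩ := hcm
  exact ⟨z, hz, hzc⟩

theorem two_trans (a b c d : Sylow 7 G) (hab : a ≠ b) (hcd : c ≠ d) :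
    ∃ g : G, g • a = c ∧ g • b = d := by
  obtain ⟨g₁, hg₁⟩ := MulAction.exists_smul_eq G a c
  have hne : g₁ • b ≠ c := by
    intro he
    apply hab
    have := hg₁.trans he.symm
    exact smul_left_cancel g₁ this
  obtain ⟨z, hz, hzd⟩ := trans7 h c (g₁ • b) d hne (Ne.symm hcd)
  refine ⟨z * g₁, ?_, ?_⟩
  · rw [mul_smul, hg₁]
    exact smul_self_of_mem h c hz
  · rw [mul_smul, hzd]

theorem card_pair (a b : Sylow 7 G) (hab : a ≠ b) :
    Nat.card ↥(normalizer ((a : Subgroup G) : Set G) ⊓ normalizer ((b : Subgroup G) : Set G)) = 3 := by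
  classical
  set N := normalizer ((a : Subgroup G) : Set G) with hN
  have hNc : Nat.card N = 21 := card_norm7 h a
  have horb : orbit N b = ({a}ᶜ : Set (Sylow 7 G)) := by
    ext c
    constructor
    · rintro ⟨⟨g, hg⟩, rfl⟩ hmem
      apply hab
      have h1 : g • b = a := hmem
      have h2 : g • a = a := Sylow.smul_eq_iff_mem_normalizer.2 hg
      have h3 : g • b = g • a := h1.trans h2.symm
      exact (smul_left_cancel g h3).symm
    · intro hc
      obtain ⟨z, hz, hzc⟩ := trans7 h a b c (Ne.symm hab) hc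
      exact ⟨⟨z, Subgroup.le_normalizer hz⟩, hzc⟩
  have hcompl : (({a}ᶜ : Set (Sylow 7 G))).ncard = 7 := by
    rw [Set.ncard_compl, Set.ncard_singleton, nsyl7 h]
  have h1 := card_orbit_mul_card_stabilizer' (H := N) b
  rw [Nat.card_coe_set_eq, horb, hcompl, hNc] at h1
  have hst : stabilizer N b = (normalizer ((b : Subgroup G) : Set G)).subgroupOf N := by
    ext ⟨g, hg⟩
    rw [MulAction.mem_stabilizer_iff, Subgroup.mem_subgroupOf]
    exact Sylow.smul_eq_iff_mem_normalizer
  have h2 : Nat.card (stabilizer N b) = Nat.card ↥(N ⊓ normalizer ((b : Subgroup G) : Set G)) := by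
    rw [hst, ← Subgroup.inf_subgroupOf_right, inf_comm]
    exact Nat.card_congr (Subgroup.subgroupOfEquivOfLe inf_le_left).toEquiv
  rw [h2] at h1
  omega

/-! ### Subgroups of order 3 -/

theorem fixed_eq_pair (T : Subgroup G) (hT : Nat.card T = 3) {a b : Sylow 7 G} (hab : a ≠ b)
    (ha : a ∈ fixedPoints T (Sylow 7 G)) (hb : b ∈ fixedPoints T (Sylow 7 G)) :
    T = normalizer ((a : Subgroup G) : Set G) ⊓ normalizer ((b : Subgroup G) : Set G) := by
  apply Subgroup.eq_of_le_of_card_ge
  · intro t ht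
    exact ⟨Sylow.smul_eq_iff_mem_normalizer.1 (ha ⟨t, ht⟩),
      Sylow.smul_eq_iff_mem_normalizer.1 (hb ⟨t, ht⟩)⟩
  · rw [card_pair h a b hab, hT]

theorem card_norm3 (T : Subgroup G) (hT : Nat.card T = 3) :
    Nat.card (normalizer (T : Set G)) = 6 := by
  classical
  haveI : Fact (Nat.Prime 3) := ⟨by norm_num⟩
  set F := fixedPoints T (Sylow 7 G) with hF
  have hTp : IsPGroup 3 T := IsPGroup.of_card (n := 1) (by simpa using hT)
  have hmod : Nat.card (Sylow 7 G) ≡ Nat.card F [MOD 3] :=
    hTp.card_modEq_card_fixedPoints _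
  rw [nsyl7 h] at hmod
  have hmod' : Nat.card F % 3 = 2 := by
    have := hmod.symm
    unfold Nat.ModEq at this
    simpa using this
  have hFle : Nat.card F ≤ 8 := by
    rw [← nsyl7 h (G := G)]
    exact Nat.card_le_card_of_injective _ Subtype.val_injective
  -- faithful
  have hF8 : Nat.card F ≠ 8 := by
    intro he
    have hFu : F = Set.univ := by
      rw [Set.eq_univ_iff_ncard, ← Nat.card_coe_set_eq F, he, nsyl7 h]
    let φ := MulAction.toPermHom G (Sylow 7 G)
    have hker : φ.ker = ⊥ := by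
      rcases IsSimpleGroup.eq_bot_or_eq_top_of_normal φ.ker inferInstance with h1 | h1
      · exact h1
      · exfalso
        let P : Sylow 7 G := default
        have h2 : normalizer ((P : Subgroup G) : Set G) = ⊤ := by
          rw [eq_top_iff]
          intro g _
          have hg : g ∈ φ.ker := by rw [h1]; trivial
          have h3 : φ g P = P := by rw [MonoidHom.mem_ker.1 hg]; rfl
          exact Sylow.smul_eq_iff_mem_normalizer.1 h3
        have h3 := card_norm7 h P
        rw [h2, Subgroup.card_top, h] at h3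
        omega
    have hTb : T = ⊥ := by
      rw [eq_bot_iff, ← hker]
      intro t ht
      rw [MonoidHom.mem_ker]
      apply Equiv.ext
      intro a
      have ha : a ∈ F := by rw [hFu]; trivial
      exact ha ⟨t, ht⟩
    rw [hTb, Subgroup.card_bot] at hT
    omega
  have hF25 : Nat.card F = 2 ∨ Nat.card F = 5 := by omega
  haveI : Nontrivial F := Finite.one_lt_card_iff_nontrivial.1 (by omega)
  obtain ⟨⟨a, ha⟩, ⟨b, hb⟩, hne⟩ := exists_pair_ne F
  have hab : a ≠ b := fun he => hne (Subtype.ext he)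
  have hpair := fixed_eq_pair h T hT hab ha hb
  set N := normalizer (T : Set G) with hN
  -- transitivity
  have hTmem : ∀ {c d : Sylow 7 G}, c ≠ d → c ∈ F → d ∈ F → ∀ t, t ∈ T ↔ t • c = c ∧ t • d = d := by
    intro c d hcd hc hd t
    rw [fixed_eq_pair h T hT hcd hc hd, Subgroup.mem_inf, Sylow.smul_eq_iff_mem_normalizer,
      Sylow.smul_eq_iff_mem_normalizer]
    rfl
  have hconjs : ∀ (g t : G) (u : Sylow 7 G), (g * t * g⁻¹) • (g • u) = g • (t • u) := by
    intro g t u
    rw [smul_smul, smul_smul]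
    simp
  have htrans : ∀ c ∈ F, ∀ d ∈ F, ∃ g ∈ N, g • c = d := by
    intro c hc d hd
    by_cases hcd : c = d
    · exact ⟨1, Subgroup.one_mem _, by rw [one_smul, hcd]⟩
    obtain ⟨g, hg1, hg2⟩ := two_trans h c d d c hcd (Ne.symm hcd)
    refine ⟨g, ?_, hg1⟩
    rw [hN, Subgroup.mem_normalizer_iff]
    intro t
    rw [hTmem hcd hc hd, hTmem hcd hc hd]
    constructor
    · rintro ⟨h1, h2⟩
      constructor
      · have := hconjs g t d
        rw [hg2, h2, hg2] at this
        exact this
      · have := hconjs g t c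
        rw [hg1, h1, hg1] at this
        exact this
    · rintro ⟨h1, h2⟩
      constructor
      · have := hconjs g t c
        rw [hg1, h2, ← hg1] at this
        exact (smul_left_cancel g this).symm
      · have := hconjs g t d
        rw [hg2, h1, ← hg2] at this
        exact (smul_left_cancel g this).symm
  have hpres : ∀ g ∈ N, ∀ c ∈ F, g • c ∈ F := by
    intro g hg c hc
    rintro ⟨t, ht⟩
    have ht' : g⁻¹ * t * g⁻¹⁻¹ ∈ T := (Subgroup.mem_normalizer_iff.1 (Subgroup.inv_mem _ hg) t).1 ht
    have h1 := hc ⟨_, ht'⟩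
    change (g⁻¹ * t * g⁻¹⁻¹) • c = c at h1
    change t • g • c = g • c
    have h2 := hconjs g (g⁻¹ * t * g⁻¹⁻¹) c
    rw [h1] at h2
    have e : g * (g⁻¹ * t * g⁻¹⁻¹) * g⁻¹ = t := by group
    rw [e] at h2
    exact h2
  have horb : orbit N a = F := by
    ext c
    constructor
    · rintro ⟨⟨g, hg⟩, rfl⟩
      exact hpres g hg a ha
    · intro hc
      obtain ⟨g, hg, hgc⟩ := htrans a ha c hc
      exact ⟨⟨g, hg⟩, hgc⟩
  have hN168 : Nat.card N ∣ 168 := h ▸ Subgroup.card_subgroup_dvd_card N
  have h1 := card_orbit_mul_card_stabilizer' (H := N) a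
  rw [horb] at h1
  have hFd : Nat.card F ∣ Nat.card N := ⟨_, h1.symm⟩
  have hF2 : Nat.card F = 2 := by
    rcases hF25 with h2 | h5
    · exact h2
    · exfalso
      have := hFd.trans hN168
      rw [h5] at this
      omega
  have hFab : ∀ c ∈ F, c = a ∨ c = b := by
    intro c hc
    by_contra hcon
    push Not at hcon
    have h3 : ({a, b, c} : Set (Sylow 7 G)).ncard = 3 := by
      rw [Set.ncard_eq_three]
      exact ⟨a, b, c, hab, Ne.symm hcon.1, Ne.symm hcon.2, rfl⟩
    have hsub : ({a, b, c} : Set (Sylow 7 G)) ⊆ F := by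
      intro u hu
      rcases hu with rfl | rfl | rfl
      · exact ha
      · exact hb
      · exact hc
    have := Set.ncard_le_ncard hsub (Set.toFinite _)
    rw [h3, ← Nat.card_coe_set_eq F, hF2] at this
    omega
  have hst : stabilizer N a = T.subgroupOf N := by
    ext ⟨g, hg⟩
    rw [MulAction.mem_stabilizer_iff, Subgroup.mem_subgroupOf]
    change g • a = a ↔ g ∈ T
    rw [hTmem hab ha hb]
    constructor
    · intro hga
      refine ⟨hga, ?_⟩
      rcases hFab _ (hpres g hg b hb) with h2 | h2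
      · exfalso
        apply hab
        rw [← hga] at h2
        exact (smul_left_cancel g h2).symm
      · exact h2
    · exact fun h2 => h2.1
  rw [hst, hF2] at h1
  have h2 : Nat.card (T.subgroupOf N) = 3 := by
    rw [← hT]
    exact Nat.card_congr (Subgroup.subgroupOfEquivOfLe Subgroup.le_normalizer).toEquiv
  rw [h2] at h1
  omega

theorem exists_syl3 (x : G) (hx : orderOf x = 3) : ∃ S : Sylow 3 G, (S : Subgroup G) = zpowers x :=
  haveI : Fact (Nat.Prime 3) := ⟨by norm_num⟩
  exists_sylow_eq (p := 3) (k := 1) (m := 56) (by rw [h]; norm_num) (by norm_num) _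
    (by rw [Nat.card_zpowers, hx]; norm_num)

theorem c3 (x : G) (hx : orderOf x = 3) : centralizer ({x} : Set G) = zpowers x := by
  haveI : Fact (Nat.Prime 3) := ⟨by norm_num⟩
  obtain ⟨S, hS⟩ := exists_syl3 h x hx
  have hN := card_norm3 h (zpowers x) (by rw [Nat.card_zpowers, hx])
  have hb : (S : Subgroup G) ≠ ⊥ := by
    intro hb
    have h1 : Nat.card (S : Subgroup G) = 3 := by rw [hS, Nat.card_zpowers, hx]
    rw [hb, Subgroup.card_bot] at h1
    omega
  have hab : IsMulCommutative (S : Subgroup G) := by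
    rw [hS]; exact IsCyclic.isMulCommutative
  have hnot := not_normalizer_le_centralizer (not_comm h) S hab hb
  rw [hS, cent_zpowers] at hnot
  have hle : centralizer ({x} : Set G) ≤ normalizer ((zpowers x : Subgroup G) : Set G) := by
    rw [← cent_zpowers]
    exact Subgroup.centralizer_le_normalizer _
  have hd : Nat.card (centralizer ({x} : Set G)) ∣ 6 := hN ▸ Subgroup.card_dvd_of_le hle
  have hzle : zpowers x ≤ centralizer ({x} : Set G) := by
    rw [Subgroup.zpowers_le, Subgroup.mem_centralizer_singleton_iff]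
  have hd3 : 3 ∣ Nat.card (centralizer ({x} : Set G)) := by
    have := Subgroup.card_dvd_of_le hzle
    rwa [Nat.card_zpowers, hx] at this
  have hc : Nat.card (centralizer ({x} : Set G)) ≠ 6 := by
    intro he
    apply hnot
    apply le_of_eq
    symm
    apply Subgroup.eq_of_le_of_card_ge hle
    rw [hN, he]
  have hc3 : Nat.card (centralizer ({x} : Set G)) = 3 := by
    have h21 := Nat.le_of_dvd (by norm_num) hd
    generalize Nat.card (centralizer ({x} : Set G)) = n at *
    interval_cases n <;> first | rfl | (exfalso; revert hd hd3 hc; decide)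
  symm
  apply Subgroup.eq_of_le_of_card_ge hzle
  rw [hc3, Nat.card_zpowers, hx]

/-- A nontrivial element whose order divides `8` commutes with no element of order `3` or `7`. -/
theorem not_comm_3 {u x : G} (hu : orderOf u ∣ 8) (hu1 : u ≠ 1) (hx : orderOf x = 3) (hc : u * x = x * u) : False := by
  have h1 : u ∈ centralizer ({x} : Set G) := Subgroup.mem_centralizer_singleton_iff.2 hc
  rw [c3 h x hx] at h1
  have h2 := Subgroup.orderOf_dvd_natCard (s := zpowers x) h1
  rw [Nat.card_zpowers, hx] at h2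
  exact hu1 (eq_one_of_dvd_coprime (by norm_num : Nat.Coprime 8 3) hu h2)

theorem not_comm_7 {u x : G} (hu : orderOf u ∣ 8) (hu1 : u ≠ 1) (hx : orderOf x = 7) (hc : u * x = x * u) : False := by
  have h1 : u ∈ centralizer ({x} : Set G) := Subgroup.mem_centralizer_singleton_iff.2 hc
  rw [c7 h x hx] at h1
  have h2 := Subgroup.orderOf_dvd_natCard (s := zpowers x) h1
  rw [Nat.card_zpowers, hx] at h2
  exact hu1 (eq_one_of_dvd_coprime (by norm_num : Nat.Coprime 8 7) hu h2)

end CfsgLib.G168
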