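import Cfsg.Agent.Lib.H3.G168

/-! Simple groups of order 168: Sylow 2-subgroups and the class structure. -/

set_option autoImplicit false
set_option linter.unusedSectionVars false

namespace CfsgLib.G168

open Subgroup CfsgLib.H9 MulAction

variable {G : Type*} [Group G] [Finite G] [IsSimpleGroup G]

variable (h : Nat.card G = 168) (T : Sylow 2 G)
include h

theorem card_syl2 : Nat.card (T : Subgroup G) = 8 := by
  have := card_sylow_of_factor (p := 2) (k := 3) (m := 21) (by rw [h]; norm_num) (by norm_num) T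
  simpa using this

theorem order_dvd_8 {t : G} (ht : t ∈ (T : Subgroup G)) : orderOf t ∣ 8 := by
  have := Subgroup.orderOf_dvd_natCard (s := (T : Subgroup G)) ht
  rwa [card_syl2 h T] at this

omit [IsSimpleGroup G] h in
theorem exists_order (p : ℕ) [Fact p.Prime] (M : Subgroup G) (hd : p ∣ Nat.card M) :
    ∃ x ∈ M, orderOf x = p := by
  obtain ⟨x, hx⟩ := exists_prime_orderOf_dvd_card' (G := M) p hd
  exact ⟨x, x.2, by rwa [Subgroup.orderOf_coe]⟩

theorem syl2_ne_top : (T : Subgroup G) ≠ ⊤ := by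
  intro he
  have := card_syl2 h T
  rw [he, Subgroup.card_top, h] at this
  omega

theorem syl2_ne_bot : (T : Subgroup G) ≠ ⊥ := by
  intro he
  have := card_syl2 h T
  rw [he, Subgroup.card_bot] at this
  omega

omit h T in
theorem normalizer_ne_top (h : Nat.card G = 168) {U : Subgroup G} (h1 : U ≠ ⊥) (h2 : U ≠ ⊤) :
    normalizer (U : Set G) ≠ ⊤ := by
  intro he
  exact normal_false h U (Subgroup.normalizer_eq_top_iff.1 he) h1 h2

theorem norm2 : normalizer ((T : Subgroup G) : Set G) = T := by
  classical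
  set N := normalizer ((T : Subgroup G) : Set G) with hN
  have hle : (T : Subgroup G) ≤ N := Subgroup.le_normalizer
  have hne : N ≠ ⊤ := normalizer_ne_top h (syl2_ne_bot h T) (syl2_ne_top h T)
  have h24 := card_le h N hne
  have hd : 8 ∣ Nat.card N := card_syl2 h T ▸ Subgroup.card_dvd_of_le hle
  have hd168 : Nat.card N ∣ 168 := h ▸ Subgroup.card_subgroup_dvd_card N
  have hc : Nat.card N = 8 ∨ Nat.card N = 24 := by
    generalize Nat.card N = n at *
    interval_cases n <;> first | omega | (exfalso; revert hd hd168; decide)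
  have h8 : Nat.card N = 8 := by
    rcases hc with h8 | h24'
    · exact h8
    exfalso
    haveI : Fact (Nat.Prime 3) := ⟨by norm_num⟩
    obtain ⟨x, hxN, hx⟩ := exists_order 3 N (by rw [h24']; norm_num)
    letI : Fintype (T : Subgroup G) := Fintype.ofFinite _
    let f : Function.End (T : Subgroup G) := fun t =>
      ⟨x * t * x⁻¹, (Subgroup.mem_normalizer_iff.1 hxN t).1 t.2⟩
    have hf3 : f ^ 3 ^ 1 = 1 := by
      funext t
      apply Subtype.ext
      have hx3 : x ^ 3 = 1 := by rw [← hx]; exact pow_orderOf_eq_one x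
      have hx3' : x * (x * x) = 1 := by rw [← hx3, pow_succ, pow_two, mul_assoc]
      change x * (x * (x * t * x⁻¹) * x⁻¹) * x⁻¹ = t
      calc x * (x * (x * t * x⁻¹) * x⁻¹) * x⁻¹ = (x * (x * x)) * t * (x * (x * x))⁻¹ := by group
        _ = t := by rw [hx3']; simp
    have hmod := Equiv.Perm.card_fixedPoints_modEq hf3
    have hfp : Fintype.card (Function.fixedPoints f) = 1 := by
      rw [Fintype.card_eq_one_iff]
      refine ⟨⟨1, ?_⟩, ?_⟩
      · apply Subtype.ext
        change x * 1 * x⁻¹ = 1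
        group
      · rintro ⟨t, ht⟩
        apply Subtype.ext
        apply Subtype.ext
        by_contra ht1
        have ht' : x * (t : G) * x⁻¹ = t := congrArg Subtype.val ht
        apply not_comm_3 h (order_dvd_8 h T t.2) ht1 hx
        calc (t : G) * x = x * t * x⁻¹ * x := by rw [ht']
          _ = x * t := by group
    have hcardT : Fintype.card (T : Subgroup G) = 8 := by
      rw [← Nat.card_eq_fintype_card]; exact card_syl2 h T
    rw [hfp, hcardT] at hmod
    exact absurd hmod (by decide)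
  symm
  apply Subgroup.eq_of_le_of_card_ge hle
  rw [h8, card_syl2 h T]

theorem nonab : ¬ IsMulCommutative (T : Subgroup G) := by
  intro hab
  apply not_normalizer_le_centralizer (not_comm h) T hab (syl2_ne_bot h T)
  rw [norm2 h T]
  intro a ha
  rw [Subgroup.mem_centralizer_iff]
  intro b hb
  exact congrArg Subtype.val (hab.is_comm.comm ⟨b, hb⟩ ⟨a, ha⟩)

theorem exists_four : ∃ y ∈ (T : Subgroup G), orderOf y = 4 := by
  by_contra hcon
  push Not at hcon
  apply nonab h T
  by_cases h8 : ∃ t ∈ (T : Subgroup G), orderOf t = 8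
  · obtain ⟨t, ht, hto⟩ := h8
    have he : (T : Subgroup G) = zpowers t := eq_zpowers_of_card _ (card_syl2 h T) t hto ht
    rw [he]
    exact IsCyclic.isMulCommutative
  · push Not at h8
    have h2 : ∀ t ∈ (T : Subgroup G), t * t = 1 := by
      intro t ht
      have h1 := order_dvd_8 h T ht
      have h3 : orderOf t ∈ Nat.divisors 8 := by
        rw [Nat.mem_divisors]; exact ⟨h1, by norm_num⟩
      have h4 : Nat.divisors 8 = {1, 2, 4, 8} := by decide
      rw [h4] at h3
      simp only [Finset.mem_insert, Finset.mem_singleton] at h3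
      rcases h3 with h3 | h3 | h3 | h3
      · rw [orderOf_eq_one_iff.1 h3]; simp
      · rw [← pow_two, ← h3]; exact pow_orderOf_eq_one t
      · exact absurd h3 (hcon t ht)
      · exact absurd h3 (h8 t ht)
    refine ⟨⟨fun a b => ?_⟩⟩
    apply Subtype.ext
    have ha := h2 a a.2
    have hb := h2 b b.2
    have hab := h2 _ (Subgroup.mul_mem _ a.2 b.2)
    have ea : (a : G)⁻¹ = a := inv_eq_of_mul_eq_one_left ha
    have eb : (b : G)⁻¹ = b := inv_eq_of_mul_eq_one_left hb
    have e := inv_eq_of_mul_eq_one_left hab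
    rw [mul_inv_rev, ea, eb] at e
    exact e.symm

section four

variable {y : G} (hyT : y ∈ (T : Subgroup G)) (hy : orderOf y = 4)
include hyT hy

theorem zpowers_le_syl : zpowers y ≤ (T : Subgroup G) := (Subgroup.zpowers_le).2 hyT

theorem index_two : ((zpowers y).subgroupOf (T : Subgroup G)).index = 2 := by
  have h1 := ((zpowers y).subgroupOf (T : Subgroup G)).card_mul_index
  have h2 : Nat.card ((zpowers y).subgroupOf (T : Subgroup G)) = 4 := by
    rw [← hy, ← Nat.card_zpowers]
    exact Nat.card_congr (Subgroup.subgroupOfEquivOfLe (zpowers_le_syl h T hyT hy)).toEquiv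
  rw [h2, card_syl2 h T] at h1
  omega

theorem conj_mem_zpowers {t : G} (ht : t ∈ (T : Subgroup G)) : t * y * t⁻¹ ∈ zpowers y := by
  haveI := Subgroup.normal_of_index_eq_two (index_two h T hyT hy)
  have h1 : (⟨y, hyT⟩ : (T : Subgroup G)) ∈ (zpowers y).subgroupOf (T : Subgroup G) :=
    Subgroup.mem_subgroupOf.2 (mem_zpowers y)
  have h2 := Subgroup.Normal.conj_mem (inferInstance : ((zpowers y).subgroupOf (T : Subgroup G)).Normal) _ h1 ⟨t, ht⟩
  exact Subgroup.mem_subgroupOf.1 h2

omit h T hyT [IsSimpleGroup G] [Finite G] in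
theorem eq_of_order_four [Finite G] {u : G} (hu : u ∈ zpowers y) (huo : orderOf u = 4) : u = y ∨ u = y⁻¹ := by
  have hy4 : y ^ 4 = 1 := by rw [← hy]; exact pow_orderOf_eq_one y
  obtain ⟨k, rfl⟩ := hu
  change y ^ k = y ∨ y ^ k = y⁻¹
  change orderOf (y ^ k) = 4 at huo
  have e := zpow_mod_orderOf y k
  rw [hy] at e
  have hk0 : (0 : ℤ) ≤ k % ((4 : ℕ) : ℤ) := Int.emod_nonneg _ (by norm_num)
  have hk4 : k % ((4 : ℕ) : ℤ) < 4 := Int.emod_lt_of_pos _ (by norm_num)
  generalize k % ((4 : ℕ) : ℤ) = r at *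
  rw [← e] at huo ⊢
  interval_cases r
  · simp at huo
  · left; simp
  · exfalso
    have h2 : (y ^ (2 : ℤ)) ^ 2 = 1 := by
      rw [← zpow_natCast, ← zpow_mul]
      have : (2 : ℤ) * ((2 : ℕ) : ℤ) = ((4 : ℕ) : ℤ) := by norm_num
      rw [this, zpow_natCast, hy4]
    have := orderOf_dvd_of_pow_eq_one h2
    rw [huo] at this
    omega
  · right
    have : y ^ (3 : ℤ) * y = 1 := by
      rw [← zpow_add_one]
      have e3 : (3 : ℤ) + 1 = ((4 : ℕ) : ℤ) := by norm_num
      rw [e3, zpow_natCast, hy4]
    exact eq_inv_of_mul_eq_one_left this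

theorem conj_y {t : G} (ht : t ∈ (T : Subgroup G)) : t * y * t⁻¹ = y ∨ t * y * t⁻¹ = y⁻¹ :=
  eq_of_order_four hy (conj_mem_zpowers h T hyT hy ht)
    (by rw [← hy]; exact (orderOf_of_isConj (isConj_iff.2 ⟨t, rfl⟩)).symm)

theorem anti {s : G} (hs : s ∈ (T : Subgroup G)) (hsQ : s ∉ zpowers y) : s * y * s⁻¹ = y⁻¹ := by
  rcases conj_y h T hyT hy hs with hc | hc
  swap
  · exact hc
  exfalso
  -- `y` is central in `T`
  have hsc : s * y = y * s := by
    calc s * y = s * y * s⁻¹ * s := by group
      _ = y * s := by rw [hc]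
  set C := (T : Subgroup G) ⊓ centralizer ({y} : Set G) with hC
  have hQC : zpowers y ≤ C := by
    rw [Subgroup.zpowers_le]
    exact ⟨hyT, Subgroup.mem_centralizer_singleton_iff.2 rfl⟩
  have hsC : s ∈ C := ⟨hs, Subgroup.mem_centralizer_singleton_iff.2 hsc⟩
  have hCT : C ≤ (T : Subgroup G) := inf_le_left
  have hd4 : 4 ∣ Nat.card C := by
    have := Subgroup.card_dvd_of_le hQC
    rwa [Nat.card_zpowers, hy] at this
  have hd8 : Nat.card C ∣ 8 := card_syl2 h T ▸ Subgroup.card_dvd_of_le hCT
  have hne : Nat.card C ≠ 4 := by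
    intro h4
    have he : zpowers y = C := Subgroup.eq_of_le_of_card_ge hQC (by rw [h4, Nat.card_zpowers, hy])
    rw [← he] at hsC
    exact hsQ hsC
  have h8 : Nat.card C = 8 := by
    have hle := Nat.le_of_dvd (by norm_num) hd8
    generalize Nat.card C = n at *
    interval_cases n <;> first | rfl | (exfalso; revert hd4 hd8 hne; decide)
  have hCe : C = (T : Subgroup G) := Subgroup.eq_of_le_of_card_ge hCT (by rw [h8, card_syl2 h T])
  -- abelian by cyclic centre quotient
  apply nonab h T
  haveI hn := Subgroup.normal_of_index_eq_two (index_two h T hyT hy)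
  have hcard2 : Nat.card ((T : Subgroup G) ⧸ (zpowers y).subgroupOf (T : Subgroup G)) = 2 :=
    index_two h T hyT hy
  haveI : IsCyclic ((T : Subgroup G) ⧸ (zpowers y).subgroupOf (T : Subgroup G)) :=
    isCyclic_of_prime_card (p := 2) hcard2
  refine ⟨⟨fun a b => ?_⟩⟩
  apply commutative_of_cyclic_center_quotient (QuotientGroup.mk' ((zpowers y).subgroupOf (T : Subgroup G)))
  rw [QuotientGroup.ker_mk']
  intro q hq
  rw [Subgroup.mem_center_iff]
  intro t
  have hq' : (q : G) ∈ zpowers y := Subgroup.mem_subgroupOf.1 hq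
  have htC : (t : G) ∈ C := by rw [hCe]; exact t.2
  have hty : Commute (t : G) y := Subgroup.mem_centralizer_singleton_iff.1 htC.2
  obtain ⟨k, hk⟩ := hq'
  apply Subtype.ext
  change (t : G) * q = q * t
  rw [← hk]
  exact (hty.zpow_right k).eq

theorem exists_outside : ∃ s ∈ (T : Subgroup G), s ∉ zpowers y := by
  by_contra hcon
  push Not at hcon
  have := Subgroup.card_le_of_le (H := (T : Subgroup G)) (K := zpowers y) hcon
  rw [card_syl2 h T, Nat.card_zpowers, hy] at this
  omega

theorem y2_order : orderOf (y ^ 2) = 2 := by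
  have := orderOf_pow' y (n := 2) (by norm_num)
  rw [hy] at this
  simpa using this

theorem y2_central {t : G} (ht : t ∈ (T : Subgroup G)) : t * y ^ 2 = y ^ 2 * t := by
  have hy4 : y ^ 4 = 1 := by rw [← hy]; exact pow_orderOf_eq_one y
  have e : t * y ^ 2 * t⁻¹ = y ^ 2 := by
    have e1 : t * y ^ 2 * t⁻¹ = (t * y * t⁻¹) ^ 2 := by
      rw [pow_two, pow_two]; group
    rw [e1]
    rcases conj_y h T hyT hy ht with hc | hc
    · rw [hc]
    · rw [hc, inv_pow]
      apply inv_eq_of_mul_eq_one_left
      rw [← pow_add, hy4]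
  calc t * y ^ 2 = t * y ^ 2 * t⁻¹ * t := by group
    _ = y ^ 2 * t := by rw [e]

end four

/-- The centralizer of a nontrivial central element of `T` is `T`. -/
theorem cent_central {z : G} (hzT : z ∈ (T : Subgroup G)) (hz1 : z ≠ 1)
    (hzc : ∀ t ∈ (T : Subgroup G), t * z = z * t) : centralizer ({z} : Set G) = T := by
  set C := centralizer ({z} : Set G) with hC
  have hle : (T : Subgroup G) ≤ C := by
    intro t ht
    exact Subgroup.mem_centralizer_singleton_iff.2 (hzc t ht)
  have hzo := order_dvd_8 h T hzT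
  have hn3 : ¬ 3 ∣ Nat.card C := by
    intro hd
    haveI : Fact (Nat.Prime 3) := ⟨by norm_num⟩
    obtain ⟨x, hxC, hx⟩ := exists_order 3 C hd
    exact not_comm_3 h hzo hz1 hx (Subgroup.mem_centralizer_singleton_iff.1 hxC).symm
  have hn7 : ¬ 7 ∣ Nat.card C := by
    intro hd
    obtain ⟨x, hxC, hx⟩ := exists_order 7 C hd
    exact not_comm_7 h hzo hz1 hx (Subgroup.mem_centralizer_singleton_iff.1 hxC).symm
  have hd168 : Nat.card C ∣ 168 := h ▸ Subgroup.card_subgroup_dvd_card C
  have hcop : (Nat.card C).Coprime 21 := by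
    have h3 : (Nat.card C).Coprime 3 := ((Nat.Prime.coprime_iff_not_dvd (by norm_num)).2 hn3).symm
    have h7 : (Nat.card C).Coprime 7 := ((Nat.Prime.coprime_iff_not_dvd (by norm_num)).2 hn7).symm
    exact Nat.Coprime.mul_right h3 h7
  have hd8 : Nat.card C ∣ 8 := by
    apply hcop.dvd_of_dvd_mul_right
    simpa using hd168
  symm
  apply Subgroup.eq_of_le_of_card_ge hle
  rw [card_syl2 h T]
  exact Nat.le_of_dvd (by norm_num) hd8

section four2

variable {y : G} (hyT : y ∈ (T : Subgroup G)) (hy : orderOf y = 4)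
include hyT hy

theorem y2_ne_one : y ^ 2 ≠ 1 := by
  intro h1
  have := y2_order h T hyT hy
  rw [h1, orderOf_one] at this
  omega

theorem cent_y2 : centralizer ({y ^ 2} : Set G) = T :=
  cent_central h T (Subgroup.pow_mem _ hyT 2) (y2_ne_one h T hyT hy)
    (fun _ ht => y2_central h T hyT hy ht)

theorem card_cent_y : Nat.card (centralizer ({y} : Set G)) = 4 := by
  set C := centralizer ({y} : Set G) with hC
  have hCT : C ≤ (T : Subgroup G) := by
    rw [← cent_y2 h T hyT hy]
    intro u hu
    have hu' : Commute u y := Subgroup.mem_centralizer_singleton_iff.1 hu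
    exact Subgroup.mem_centralizer_singleton_iff.2 (hu'.pow_right 2).eq
  have hQC : zpowers y ≤ C := by
    rw [Subgroup.zpowers_le]
    exact Subgroup.mem_centralizer_singleton_iff.2 rfl
  have hd4 : 4 ∣ Nat.card C := by
    have := Subgroup.card_dvd_of_le hQC
    rwa [Nat.card_zpowers, hy] at this
  have hd8 : Nat.card C ∣ 8 := card_syl2 h T ▸ Subgroup.card_dvd_of_le hCT
  have hne : Nat.card C ≠ 8 := by
    intro h8
    have hCe : C = (T : Subgroup G) := Subgroup.eq_of_le_of_card_ge hCT (by rw [h8, card_syl2 h T])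
    obtain ⟨s, hs, hsQ⟩ := exists_outside h T hyT hy
    have hsC : s ∈ C := by rw [hCe]; exact hs
    have h1 := anti h T hyT hy hs hsQ
    have h2 : s * y = y * s := Subgroup.mem_centralizer_singleton_iff.1 hsC
    rw [h2] at h1
    have h3 : y = y⁻¹ := by
      rw [← h1]; group
    have h4 : y ^ 2 = 1 := by
      rw [pow_two]
      nth_rewrite 1 [h3]
      group
    exact y2_ne_one h T hyT hy h4
  have hle := Nat.le_of_dvd (by norm_num) hd8
  generalize Nat.card C = n at *
  interval_cases n <;> first | rfl | (exfalso; revert hd4 hd8 hne; decide)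

end four2

/-- The number of conjugates of `x` from the order of its centralizer. -/
theorem card_conj_of (x : G) {c n : ℕ} (hc : Nat.card (centralizer ({x} : Set G)) = c)
    (hn : 168 = n * c) (hcpos : 0 < c) : Nat.card {g : G // IsConj x g} = n := by
  have h1 := card_conj_mul x
  rw [hc, h, hn] at h1
  exact Nat.eq_of_mul_eq_mul_right hcpos h1

theorem card_conj_7 (x : G) (hx : orderOf x = 7) : Nat.card {g : G // IsConj x g} = 24 :=
  card_conj_of h x (c := 7) (by rw [c7 h x hx, Nat.card_zpowers, hx]) (by norm_num) (by norm_num)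

theorem card_conj_3 (x : G) (hx : orderOf x = 3) : Nat.card {g : G // IsConj x g} = 56 :=
  card_conj_of h x (c := 3) (by rw [c3 h x hx, Nat.card_zpowers, hx]) (by norm_num) (by norm_num)

theorem card_conj_y2 {y : G} (hyT : y ∈ (T : Subgroup G)) (hy : orderOf y = 4) :
    Nat.card {g : G // IsConj (y ^ 2) g} = 21 :=
  card_conj_of h _ (c := 8) (by rw [cent_y2 h T hyT hy, card_syl2 h T]) (by norm_num) (by norm_num)

theorem card_conj_y {y : G} (hyT : y ∈ (T : Subgroup G)) (hy : orderOf y = 4) :
    Nat.card {g : G // IsConj y g} = 42 :=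
  card_conj_of h _ (c := 4) (card_cent_y h T hyT hy) (by norm_num) (by norm_num)

omit T in
theorem card_conj_one : Nat.card {g : G // IsConj (1 : G) g} = 1 := by
  rw [Nat.card_eq_one_iff_unique]
  refine ⟨⟨?_⟩, ⟨⟨1, IsConj.refl _⟩⟩⟩
  rintro ⟨a, ha⟩ ⟨b, hb⟩
  apply Subtype.ext
  change a = b
  rw [isConj_one_right.1 ha, isConj_one_right.1 hb]

/-- The six classes cover the group. -/
theorem classes {y x₃ x₇ : G} (hyT : y ∈ (T : Subgroup G)) (hy : orderOf y = 4)
    (h3 : orderOf x₃ = 3) (h7 : orderOf x₇ = 7) (g : G) :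
    g = 1 ∨ IsConj (y ^ 2) g ∨ IsConj y g ∨ IsConj x₃ g ∨ IsConj x₇ g ∨ IsConj x₇⁻¹ g := by
  let a : Fin 6 → G := ![1, y ^ 2, y, x₃, x₇, x₇⁻¹]
  have ho : ∀ i, orderOf (a i) = ![1, 2, 4, 3, 7, 7] i := by
    intro i
    fin_cases i
    · exact orderOf_one
    · exact y2_order h T hyT hy
    · exact hy
    · exact h3
    · exact h7
    · change orderOf x₇⁻¹ = 7
      rw [orderOf_inv, h7]
  have hne : ∀ i j, i ≠ j → ¬ IsConj (a i) (a j) := by
    intro i j hij hc
    have he := orderOf_of_isConj hc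
    rw [ho i, ho j] at he
    fin_cases i <;> fin_cases j <;>
      first
        | exact absurd rfl hij
        | exact absurd he (by decide)
        | exact not_conj_inv7 h x₇ h7 hc
        | exact not_conj_inv7 h x₇ h7 hc.symm
  have hsum : ∑ i, Nat.card {g // IsConj (a i) g} = Nat.card G := by
    rw [Fin.sum_univ_six, h]
    have e0 : Nat.card {g // IsConj (a 0) g} = 1 := card_conj_one h
    have e1 : Nat.card {g // IsConj (a 1) g} = 21 := card_conj_y2 h T hyT hy
    have e2 : Nat.card {g // IsConj (a 2) g} = 42 := card_conj_y h T hyT hy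
    have e3 : Nat.card {g // IsConj (a 3) g} = 56 := card_conj_3 h x₃ h3
    have e4 : Nat.card {g // IsConj (a 4) g} = 24 := card_conj_7 h x₇ h7
    have e5 : Nat.card {g // IsConj (a 5) g} = 24 := card_conj_7 h x₇⁻¹ (by rw [orderOf_inv, h7])
    rw [e0, e1, e2, e3, e4, e5]
  obtain ⟨i, hi⟩ := cover a hne hsum g
  fin_cases i
  · left; exact isConj_one_right.1 hi
  · right; left; exact hi
  · right; right; left; exact hi
  · right; right; right; left; exact hi
  · right; right; right; right; left; exact hi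
  · right; right; right; right; right; exact hi

omit T in
theorem exists_reps : ∃ x₃ x₇ : G, orderOf x₃ = 3 ∧ orderOf x₇ = 7 := by
  haveI : Fact (Nat.Prime 3) := ⟨by norm_num⟩
  obtain ⟨x₃, hx₃⟩ := exists_prime_orderOf_dvd_card' (G := G) 3 (by rw [h]; norm_num)
  obtain ⟨x₇, hx₇⟩ := exists_prime_orderOf_dvd_card' (G := G) 7 (by rw [h]; norm_num)
  exact ⟨x₃, x₇, hx₃, hx₇⟩

end CfsgLib.G168
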