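import Cfsg.Agent.Lib.H3.G168b

/-! Simple groups of order 168: element orders, classes, and the Sylow 2-subgroup. -/

set_option autoImplicit false
set_option linter.unusedSectionVars false

namespace CfsgLib.G168

open Subgroup CfsgLib.H9 MulAction

variable {G : Type*} [Group G] [Finite G] [IsSimpleGroup G]

variable (h : Nat.card G = 168)
include h

theorem exists_T_y : ∃ (T : Sylow 2 G) (y : G), y ∈ (T : Subgroup G) ∧ orderOf y = 4 := by
  let T : Sylow 2 G := default
  obtain ⟨y, hy, hyo⟩ := exists_four h T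
  exact ⟨T, y, hy, hyo⟩

theorem exists_sylow_of_four (s : G) (hs : orderOf s = 4) : ∃ T : Sylow 2 G, s ∈ (T : Subgroup G) := by
  have hp : IsPGroup 2 (zpowers s) := IsPGroup.of_card (n := 2) (by rw [Nat.card_zpowers, hs]; norm_num)
  obtain ⟨T, hT⟩ := hp.exists_le_sylow
  exact ⟨T, hT (mem_zpowers s)⟩

theorem orders (g : G) : orderOf g = 1 ∨ orderOf g = 2 ∨ orderOf g = 3 ∨ orderOf g = 4 ∨ orderOf g = 7 := by
  obtain ⟨T, y, hyT, hy⟩ := exists_T_y h
  obtain ⟨x₃, x₇, h3, h7⟩ := exists_reps h (G := G)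
  rcases classes h T hyT hy h3 h7 g with h1 | h1 | h1 | h1 | h1 | h1
  · left; rw [h1]; exact orderOf_one
  · right; left; rw [← orderOf_of_isConj h1]; exact y2_order h T hyT hy
  · right; right; right; left; rw [← orderOf_of_isConj h1]; exact hy
  · right; right; left; rw [← orderOf_of_isConj h1]; exact h3
  · right; right; right; right; rw [← orderOf_of_isConj h1]; exact h7
  · right; right; right; right; rw [← orderOf_of_isConj h1, orderOf_inv]; exact h7

theorem conj_of_order2 {z : G} (hz : orderOf z = 2) (g : G) (hg : orderOf g = 2) : IsConj z g := by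
  obtain ⟨T, y, hyT, hy⟩ := exists_T_y h
  obtain ⟨x₃, x₇, h3, h7⟩ := exists_reps h (G := G)
  have key : ∀ g : G, orderOf g = 2 → IsConj (y ^ 2) g := by
    intro g hg
    rcases classes h T hyT hy h3 h7 g with h1 | h1 | h1 | h1 | h1 | h1
    · rw [h1, orderOf_one] at hg; omega
    · exact h1
    · rw [← orderOf_of_isConj h1, hy] at hg; omega
    · rw [← orderOf_of_isConj h1, h3] at hg; omega
    · rw [← orderOf_of_isConj h1, h7] at hg; omega
    · rw [← orderOf_of_isConj h1, orderOf_inv, h7] at hg; omega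
  exact (key z hz).symm.trans (key g hg)

theorem conj_of_order3 {x₃ : G} (h3 : orderOf x₃ = 3) (g : G) (hg : orderOf g = 3) : IsConj x₃ g := by
  obtain ⟨T, y, hyT, hy⟩ := exists_T_y h
  obtain ⟨_, x₇, _, h7⟩ := exists_reps h (G := G)
  rcases classes h T hyT hy h3 h7 g with h1 | h1 | h1 | h1 | h1 | h1
  · rw [h1, orderOf_one] at hg; omega
  · rw [← orderOf_of_isConj h1, y2_order h T hyT hy] at hg; omega
  · rw [← orderOf_of_isConj h1, hy] at hg; omega
  · exact h1
  · rw [← orderOf_of_isConj h1, h7] at hg; omega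
  · rw [← orderOf_of_isConj h1, orderOf_inv, h7] at hg; omega

theorem conj_of_order4 {y : G} (hy : orderOf y = 4) (g : G) (hg : orderOf g = 4) : IsConj y g := by
  obtain ⟨T, hyT⟩ := exists_sylow_of_four h y hy
  obtain ⟨x₃, x₇, h3, h7⟩ := exists_reps h (G := G)
  rcases classes h T hyT hy h3 h7 g with h1 | h1 | h1 | h1 | h1 | h1
  · rw [h1, orderOf_one] at hg; omega
  · rw [← orderOf_of_isConj h1, y2_order h T hyT hy] at hg; omega
  · exact h1
  · rw [← orderOf_of_isConj h1, h3] at hg; omega
  · rw [← orderOf_of_isConj h1, h7] at hg; omega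
  · rw [← orderOf_of_isConj h1, orderOf_inv, h7] at hg; omega

theorem conj_of_order7 {x₇ : G} (h7 : orderOf x₇ = 7) (g : G) (hg : orderOf g = 7) :
    IsConj x₇ g ∨ IsConj x₇⁻¹ g := by
  obtain ⟨T, y, hyT, hy⟩ := exists_T_y h
  obtain ⟨x₃, _, h3, _⟩ := exists_reps h (G := G)
  rcases classes h T hyT hy h3 h7 g with h1 | h1 | h1 | h1 | h1 | h1
  · rw [h1, orderOf_one] at hg; omega
  · rw [← orderOf_of_isConj h1, y2_order h T hyT hy] at hg; omega
  · rw [← orderOf_of_isConj h1, hy] at hg; omega
  · rw [← orderOf_of_isConj h1, h3] at hg; omega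
  · exact Or.inl h1
  · exact Or.inr h1

theorem card_order2 : Nat.card {g : G // orderOf g = 2} = 21 := by
  obtain ⟨T, y, hyT, hy⟩ := exists_T_y h
  rw [← card_conj_y2 h T hyT hy]
  apply Nat.card_congr
  apply Equiv.subtypeEquivRight
  intro g
  have hz := y2_order h T hyT hy
  exact ⟨fun hg => conj_of_order2 h hz g hg, fun hc => by rw [← orderOf_of_isConj hc, hz]⟩

theorem card_order3 : Nat.card {g : G // orderOf g = 3} = 56 := by
  obtain ⟨x₃, _, h3, _⟩ := exists_reps h (G := G)
  rw [← card_conj_3 h x₃ h3]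
  apply Nat.card_congr
  apply Equiv.subtypeEquivRight
  intro g
  exact ⟨fun hg => conj_of_order3 h h3 g hg, fun hc => by rw [← orderOf_of_isConj hc, h3]⟩

theorem card_order4 : Nat.card {g : G // orderOf g = 4} = 42 := by
  obtain ⟨T, y, hyT, hy⟩ := exists_T_y h
  rw [← card_conj_y h T hyT hy]
  apply Nat.card_congr
  apply Equiv.subtypeEquivRight
  intro g
  exact ⟨fun hg => conj_of_order4 h hy g hg, fun hc => by rw [← orderOf_of_isConj hc, hy]⟩

theorem card_order7 : Nat.card {g : G // orderOf g = 7} = 48 := by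
  classical
  obtain ⟨_, x₇, _, h7⟩ := exists_reps h (G := G)
  have h1 := card_conj_7 h x₇ h7
  have h2 := card_conj_7 h x₇⁻¹ (by rw [orderOf_inv, h7])
  have hd : Disjoint {g : G | IsConj x₇ g} {g : G | IsConj x₇⁻¹ g} := by
    rw [Set.disjoint_left]
    intro g hg hg'
    exact not_conj_inv7 h x₇ h7 (Set.mem_setOf_eq ▸ hg |>.trans hg'.symm)
  have h3 : {g : G | orderOf g = 7} = {g : G | IsConj x₇ g} ∪ {g : G | IsConj x₇⁻¹ g} := by
    ext g
    simp only [Set.mem_setOf_eq, Set.mem_union]
    constructor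
    · exact conj_of_order7 h h7 g
    · rintro (hc | hc)
      · rw [← orderOf_of_isConj hc, h7]
      · rw [← orderOf_of_isConj hc, orderOf_inv, h7]
  have h4 : Nat.card {g : G // orderOf g = 7} = ({g : G | orderOf g = 7} : Set G).ncard :=
    Nat.card_coe_set_eq _
  rw [h4, h3, Set.ncard_union_eq hd (Set.toFinite _) (Set.toFinite _), ← Nat.card_coe_set_eq,
    ← Nat.card_coe_set_eq]
  change Nat.card {g // IsConj x₇ g} + Nat.card {g // IsConj x₇⁻¹ g} = 48
  rw [h1, h2]

omit h in
theorem mem_norm_of_le {T : Subgroup G} {g : G} (hg : ∀ t ∈ T, g * t * g⁻¹ ∈ T) :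
    g ∈ normalizer (T : Set G) := by
  have hle : T.map (MulAut.conj g).toMonoidHom ≤ T := by
    rintro _ ⟨t, ht, rfl⟩
    exact hg t ht
  have heq : T.map (MulAut.conj g).toMonoidHom = T := by
    apply Subgroup.eq_of_le_of_card_ge hle
    rw [Subgroup.card_map_of_injective (MulAut.conj g).injective]
  rw [Subgroup.mem_normalizer_iff]
  intro u
  constructor
  · exact hg u
  · intro hu
    rw [← heq] at hu
    obtain ⟨t, ht, hte⟩ := hu
    have e : t = u := by
      have h1 : g * t * g⁻¹ = g * u * g⁻¹ := hte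
      have := mul_left_cancel (mul_right_cancel h1)
      exact this
    rwa [← e]

variable (T : Sylow 2 G)

theorem order_outside {y s : G} (hyT : y ∈ (T : Subgroup G)) (hy : orderOf y = 4)
    (hs : s ∈ (T : Subgroup G)) (hsQ : s ∉ zpowers y) : orderOf s = 2 := by
  have h8 := order_dvd_8 h T hs
  have hs1 : orderOf s ≠ 1 := by
    intro h1
    rw [orderOf_eq_one_iff] at h1
    rw [h1] at hsQ
    exact hsQ (Subgroup.one_mem _)
  rcases orders h s with h1 | h1 | h1 | h1 | h1
  · exact absurd h1 hs1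
  · exact h1
  · rw [h1] at h8; omega
  · exfalso
    obtain ⟨g, hg⟩ := isConj_iff.1 (conj_of_order4 h hy s h1)
    have e2 : s ^ 2 = g * y ^ 2 * g⁻¹ := by
      rw [← hg, pow_two, pow_two]; group
    have hgN : g ∈ normalizer ((T : Subgroup G) : Set G) := by
      apply mem_norm_of_le
      intro t ht
      rw [← cent_y2 h T hs h1, Subgroup.mem_centralizer_singleton_iff, e2]
      have hc := y2_central h T hyT hy ht
      calc g * t * g⁻¹ * (g * y ^ 2 * g⁻¹) = g * (t * y ^ 2) * g⁻¹ := by group
        _ = g * (y ^ 2 * t) * g⁻¹ := by rw [hc]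
        _ = _ := by group
    rw [norm2 h T] at hgN
    apply hsQ
    rw [← hg]
    exact conj_mem_zpowers h T hyT hy hgN
  · rw [h1] at h8; omega

theorem dihedral : Nonempty (↥(T : Subgroup G) ≃* DihedralGroup 4) := by
  obtain ⟨y, hyT, hy⟩ := exists_four h T
  obtain ⟨s, hs, hsQ⟩ := exists_outside h T hyT hy
  have hs2 := order_outside h T hyT hy hs hsQ
  set w := s * y with hw
  have hwT : w ∈ (T : Subgroup G) := Subgroup.mul_mem _ hs hyT
  have hwQ : w ∉ zpowers y := by
    intro hmem
    apply hsQ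
    have : s = w * y⁻¹ := by rw [hw]; group
    rw [this]
    exact Subgroup.mul_mem _ hmem (Subgroup.inv_mem _ (mem_zpowers y))
  have hw2 := order_outside h T hyT hy hwT hwQ
  have hne : s ≠ w := by
    intro he
    have h1 : y = 1 := by
      have : s * 1 = s * y := by rw [mul_one]; exact he
      exact (mul_left_cancel this).symm
    rw [h1, orderOf_one] at hy
    omega
  obtain ⟨e⟩ := CfsgLib.Invol.closure_iso hs2 hw2 hne
  have hsw : s * w = y := by
    have hss : s * s = 1 := by
      rw [← pow_two, ← hs2]; exact pow_orderOf_eq_one s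
    rw [hw, ← mul_assoc, hss, one_mul]
  rw [hsw, hy] at e
  have hcard : Nat.card (closure ({s, w} : Set G)) = 8 := by
    rw [Nat.card_congr e.toEquiv, DihedralGroup.nat_card]
  have hle : closure ({s, w} : Set G) ≤ (T : Subgroup G) := by
    rw [Subgroup.closure_le]
    rintro u (rfl | rfl)
    · exact hs
    · exact hwT
  have he : closure ({s, w} : Set G) = (T : Subgroup G) :=
    Subgroup.eq_of_le_of_card_ge hle (by rw [hcard, card_syl2 h T])
  exact ⟨(MulEquiv.subgroupCongr he).symm.trans e⟩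

end CfsgLib.G168
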