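import Cfsg.Agent.Lib.H3.G168c

/-! Simple groups of order 168: Klein four-subgroups. -/

set_option autoImplicit false
set_option linter.unusedSectionVars false

namespace CfsgLib.G168

open Subgroup CfsgLib.H9 MulAction

section D4

open DihedralGroup

set_option maxRecDepth 100000 in
theorem d4_klein_aux : ∀ S : Finset (DihedralGroup 4), S.card = 4 → (∀ a ∈ S, ∀ b ∈ S, a * b ∈ S) →
    (∀ a ∈ S, a * a = 1) → S = {r 0, r 2, sr 0, sr 2} ∨ S = {r 0, r 2, sr 1, sr 3} := by decide

/-- One Klein four-subgroup of the dihedral group of order 8. -/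
def kA : Subgroup (DihedralGroup 4) where
  carrier := (({r 0, r 2, sr 0, sr 2} : Finset (DihedralGroup 4)) : Set (DihedralGroup 4))
  one_mem' := by decide
  mul_mem' := by
    intro a b
    simp only [Finset.mem_coe]
    revert a b
    decide
  inv_mem' := by
    intro a
    simp only [Finset.mem_coe]
    revert a
    decide

/-- The other Klein four-subgroup of the dihedral group of order 8. -/
def kB : Subgroup (DihedralGroup 4) where
  carrier := (({r 0, r 2, sr 1, sr 3} : Finset (DihedralGroup 4)) : Set (DihedralGroup 4))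
  one_mem' := by decide
  mul_mem' := by
    intro a b
    simp only [Finset.mem_coe]
    revert a b
    decide
  inv_mem' := by
    intro a
    simp only [Finset.mem_coe]
    revert a
    decide

theorem card_kA : Nat.card kA = 4 := by
  have h1 : Nat.card kA = Set.ncard (kA : Set (DihedralGroup 4)) := Nat.card_coe_set_eq _
  rw [h1]
  change Set.ncard ((({r 0, r 2, sr 0, sr 2} : Finset (DihedralGroup 4))) : Set (DihedralGroup 4)) = 4
  rw [Set.ncard_coe_finset]
  decide

theorem card_kB : Nat.card kB = 4 := by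
  have h1 : Nat.card kB = Set.ncard (kB : Set (DihedralGroup 4)) := Nat.card_coe_set_eq _
  rw [h1]
  change Set.ncard ((({r 0, r 2, sr 1, sr 3} : Finset (DihedralGroup 4))) : Set (DihedralGroup 4)) = 4
  rw [Set.ncard_coe_finset]
  decide

theorem kA_exp (a : DihedralGroup 4) (ha : a ∈ kA) : a * a = 1 := by
  change a ∈ ({r 0, r 2, sr 0, sr 2} : Finset (DihedralGroup 4)) at ha
  revert a
  decide

theorem kB_exp (a : DihedralGroup 4) (ha : a ∈ kB) : a * a = 1 := by
  change a ∈ ({r 0, r 2, sr 1, sr 3} : Finset (DihedralGroup 4)) at ha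
  revert a
  decide

theorem kA_ne_kB : kA ≠ kB := by
  intro h
  have h1 : (sr 0 : DihedralGroup 4) ∈ kA := by
    change (sr 0 : DihedralGroup 4) ∈ ({r 0, r 2, sr 0, sr 2} : Finset (DihedralGroup 4))
    decide
  rw [h] at h1
  change (sr 0 : DihedralGroup 4) ∈ ({r 0, r 2, sr 1, sr 3} : Finset (DihedralGroup 4)) at h1
  revert h1
  decide

theorem d4_klein (V : Subgroup (DihedralGroup 4)) (hc : Nat.card V = 4) (he : ∀ a ∈ V, a * a = 1) :
    V = kA ∨ V = kB := by
  classical
  have hS := d4_klein_aux ((V : Set (DihedralGroup 4)).toFinset) (by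
      rw [Set.toFinset_card, ← Nat.card_eq_fintype_card]
      exact hc) (by
      intro a ha b hb
      rw [Set.mem_toFinset] at ha hb ⊢
      exact V.mul_mem ha hb) (by
      intro a ha
      rw [Set.mem_toFinset] at ha
      exact he a ha)
  rcases hS with hS | hS
  · left
    ext a
    have h1 : a ∈ V ↔ a ∈ (V : Set (DihedralGroup 4)).toFinset := by
      rw [Set.mem_toFinset]; rfl
    rw [h1, hS]
    rfl
  · right
    ext a
    have h1 : a ∈ V ↔ a ∈ (V : Set (DihedralGroup 4)).toFinset := by
      rw [Set.mem_toFinset]; rfl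
    rw [h1, hS]
    rfl

end D4

variable {G : Type*} [Group G] [Finite G] [IsSimpleGroup G]

section general
omit [IsSimpleGroup G]

theorem isKlein_of (U : Subgroup G) (hc : Nat.card U = 4) (he : ∀ a ∈ U, a * a = 1) :
    IsKleinFour U := by
  haveI : Nontrivial U := Finite.one_lt_card_iff_nontrivial.1 (by omega)
  refine ⟨hc, (Monoid.exponent_eq_prime_iff Nat.prime_two).2 ?_⟩
  intro g hg
  apply orderOf_eq_prime
  · rw [pow_two]
    exact Subtype.ext (he g g.2)
  · exact hg

theorem klein_sq {U : Subgroup G} (hK : IsKleinFour U) (a : G) (ha : a ∈ U) : a * a = 1 := by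
  have h1 : (⟨a, ha⟩ : U) ^ Monoid.exponent U = 1 := Monoid.pow_exponent_eq_one _
  rw [hK.exponent_two, pow_two] at h1
  exact congrArg Subtype.val h1

theorem klein_comm {U : Subgroup G} (hK : IsKleinFour U) (a b : G) (ha : a ∈ U) (hb : b ∈ U) :
    a * b = b * a := by
  have h1 := klein_sq hK _ (U.mul_mem ha hb)
  have ea : a⁻¹ = a := inv_eq_of_mul_eq_one_left (klein_sq hK a ha)
  have eb : b⁻¹ = b := inv_eq_of_mul_eq_one_left (klein_sq hK b hb)
  have e := inv_eq_of_mul_eq_one_left h1
  rw [mul_inv_rev, ea, eb] at e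
  exact e.symm

theorem le_norm_of_two {U T : Subgroup G} (hUT : U ≤ T) (hc : Nat.card T = 2 * Nat.card U) :
    T ≤ normalizer (U : Set G) := by
  intro t ht
  have hidx : (U.subgroupOf T).index = 2 := by
    have h1 := (U.subgroupOf T).card_mul_index
    have h2 : Nat.card (U.subgroupOf T) = Nat.card U :=
      Nat.card_congr (Subgroup.subgroupOfEquivOfLe hUT).toEquiv
    rw [h2, hc] at h1
    have hpos : 0 < Nat.card U := Nat.card_pos
    nlinarith
  haveI hn := Subgroup.normal_of_index_eq_two hidx
  rw [Subgroup.mem_normalizer_iff]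
  intro u
  constructor
  · intro hu
    have h1 : (⟨u, hUT hu⟩ : T) ∈ U.subgroupOf T := Subgroup.mem_subgroupOf.2 hu
    have h2 := hn.conj_mem _ h1 ⟨t, ht⟩
    exact Subgroup.mem_subgroupOf.1 h2
  · intro hu
    have huT : u ∈ T := by
      have h3 := hUT hu
      have e : u = t⁻¹ * (t * u * t⁻¹) * t := by group
      rw [e]
      exact T.mul_mem (T.mul_mem (T.inv_mem ht) h3) ht
    have h1 : (⟨t * u * t⁻¹, hUT hu⟩ : T) ∈ U.subgroupOf T := Subgroup.mem_subgroupOf.2 hu
    have h2 := hn.conj_mem _ h1 ⟨t⁻¹, T.inv_mem ht⟩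
    have h3 := Subgroup.mem_subgroupOf.1 h2
    have e : t⁻¹ * (t * u * t⁻¹) * t = u := by group
    have h4 : t⁻¹ * (t * u * t⁻¹) * t ∈ U := by simpa using h3
    rwa [e] at h4

end general

variable (h : Nat.card G = 168)
include h

theorem card_cent_inv (a : G) (ha : orderOf a = 2) : Nat.card (centralizer ({a} : Set G)) = 8 := by
  have h1 := card_conj_mul a
  have h2 : Nat.card {g : G // IsConj a g} = 21 := by
    rw [← card_order2 h]
    apply Nat.card_congr
    apply Equiv.subtypeEquivRight
    intro g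
    exact ⟨fun hc => by rw [← orderOf_of_isConj hc, ha], fun hg => conj_of_order2 h ha g hg⟩
  rw [h2, h] at h1
  omega

theorem exists_syl_cent (a : G) (ha : orderOf a = 2) :
    ∃ S : Sylow 2 G, (S : Subgroup G) = centralizer ({a} : Set G) :=
  exists_sylow_eq (p := 2) (k := 3) (m := 21) (by rw [h]; norm_num) (by norm_num) _
    (by rw [card_cent_inv h a ha]; norm_num)

/-- The nontrivial central element of a Sylow 2-subgroup is unique. -/
theorem central_unique (T : Sylow 2 G) {y u : G} (hyT : y ∈ (T : Subgroup G)) (hy : orderOf y = 4)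
    (hu : u ∈ (T : Subgroup G)) (hu1 : u ≠ 1) (huc : ∀ t ∈ (T : Subgroup G), t * u = u * t) :
    u = y ^ 2 := by
  have hy4 : y ^ 4 = 1 := by rw [← hy]; exact pow_orderOf_eq_one y
  have huQ : u ∈ zpowers y := by
    by_contra hn
    have h1 := anti h T hyT hy hu hn
    have h2 := huc y hyT
    rw [← h2] at h1
    have h3 : y = y⁻¹ := by
      rw [← h1]; group
    have h4 : y ^ 2 = 1 := by
      rw [pow_two]
      nth_rewrite 1 [h3]
      group
    exact y2_ne_one h T hyT hy h4
  obtain ⟨s, hs, hsQ⟩ := exists_outside h T hyT hy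
  have h1 := anti h T hyT hy hs hsQ
  have hsu := huc s hs
  obtain ⟨k, hk⟩ := huQ
  change y ^ k = u at hk
  have e := zpow_mod_orderOf y k
  rw [hy] at e
  have hk0 : (0 : ℤ) ≤ k % ((4 : ℕ) : ℤ) := Int.emod_nonneg _ (by norm_num)
  have hk4 : k % ((4 : ℕ) : ℤ) < 4 := Int.emod_lt_of_pos _ (by norm_num)
  generalize k % ((4 : ℕ) : ℤ) = r at *
  rw [hk] at e
  have hnot : ¬ (s * y = y * s) := by
    intro hc
    rw [hc] at h1
    have h3 : y = y⁻¹ := by
      rw [← h1]; group
    have h4 : y ^ 2 = 1 := by
      rw [pow_two]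
      nth_rewrite 1 [h3]
      group
    exact y2_ne_one h T hyT hy h4
  interval_cases r
  · exfalso
    apply hu1
    rw [← e]
    simp
  · exfalso
    apply hnot
    have e1 : y = u := by rw [← e]; simp
    rw [e1]
    exact hsu
  · rw [← e]
    exact (zpow_two y).trans (pow_two y).symm
  · exfalso
    apply hnot
    have e1 : y⁻¹ = u := by
      rw [← e]
      apply inv_eq_of_mul_eq_one_left
      rw [← zpow_add_one]
      have e3 : (3 : ℤ) + 1 = ((4 : ℕ) : ℤ) := by norm_num
      rw [e3, zpow_natCast, hy4]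
    have h5 : s * y⁻¹ = y⁻¹ * s := by rw [e1]; exact hsu
    have := (Commute.inv_right (show Commute s y⁻¹ from h5))
    simpa using this.eq

theorem card_norm_klein {U : Subgroup G} (hK : IsKleinFour U) :
    Nat.card (normalizer (U : Set G)) = 24 := by
  classical
  have hc4 : Nat.card U = 4 := hK.card_four
  -- two distinct nontrivial elements
  obtain ⟨a, b, ha, hb, ha1, hb1, hab⟩ : ∃ a b : G, a ∈ U ∧ b ∈ U ∧ a ≠ 1 ∧ b ≠ 1 ∧ a ≠ b := by
    by_contra hcon
    push Not at hcon
    have hle : Nat.card U ≤ 2 := by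
      by_cases hex : ∃ a ∈ U, a ≠ 1
      · obtain ⟨a, ha, ha1⟩ := hex
        have hsub : (U : Set G) ⊆ ({1, a} : Set G) := by
          intro b hb
          by_cases hb1 : b = 1
          · left; exact hb1
          · right
            have := hcon a b ha hb ha1 hb1
            exact this.symm
        have h1 := Set.ncard_le_ncard hsub (Set.toFinite _)
        have h2 : ({1, a} : Set G).ncard ≤ 2 := Set.ncard_insert_le _ _ |>.trans (by simp)
        have h3 : Nat.card U = (U : Set G).ncard := Nat.card_coe_set_eq _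
        omega
      · push Not at hex
        have h3 : U = ⊥ := by
          rw [eq_bot_iff]; intro x hx; exact hex x hx
        rw [h3, Subgroup.card_bot]; omega
    omega
  have ha2 : orderOf a = 2 := orderOf_eq_prime (by rw [pow_two]; exact klein_sq hK a ha) ha1
  have hb2 : orderOf b = 2 := orderOf_eq_prime (by rw [pow_two]; exact klein_sq hK b hb) hb1
  obtain ⟨S₁, hS₁⟩ := exists_syl_cent h a ha2
  obtain ⟨S₂, hS₂⟩ := exists_syl_cent h b hb2
  have hUC : ∀ c ∈ U, U ≤ centralizer ({c} : Set G) := by
    intro c hc u hu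
    exact Subgroup.mem_centralizer_singleton_iff.2 (klein_comm hK u c hu hc)
  have hU₁ : U ≤ (S₁ : Subgroup G) := by rw [hS₁]; exact hUC a ha
  have hU₂ : U ≤ (S₂ : Subgroup G) := by rw [hS₂]; exact hUC b hb
  have hne : (S₁ : Subgroup G) ≠ S₂ := by
    intro he
    obtain ⟨y, hyT, hy⟩ := exists_four h S₁
    have hc1 : a = y ^ 2 := central_unique h S₁ hyT hy (hU₁ ha) ha1 (fun t ht => by
      rw [hS₁] at ht
      exact Subgroup.mem_centralizer_singleton_iff.1 ht)
    have hc2 : b = y ^ 2 := central_unique h S₁ hyT hy (hU₁ hb) hb1 (fun t ht => by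
      rw [he, hS₂] at ht
      exact Subgroup.mem_centralizer_singleton_iff.1 ht)
    exact hab (hc1.trans hc2.symm)
  set N := normalizer (U : Set G) with hN
  have h1N : (S₁ : Subgroup G) ≤ N := le_norm_of_two hU₁ (by rw [card_syl2 h S₁, hc4])
  have h2N : (S₂ : Subgroup G) ≤ N := le_norm_of_two hU₂ (by rw [card_syl2 h S₂, hc4])
  have hUb : U ≠ ⊥ := by
    rintro rfl
    rw [Subgroup.card_bot] at hc4
    omega
  have hUt : U ≠ ⊤ := by
    rintro rfl
    rw [Subgroup.card_top, h] at hc4
    omega
  have hNt : N ≠ ⊤ := normalizer_ne_top h hUb hUt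
  have h24 := card_le h N hNt
  have hd : 8 ∣ Nat.card N := card_syl2 h S₁ ▸ Subgroup.card_dvd_of_le h1N
  have hd168 : Nat.card N ∣ 168 := h ▸ Subgroup.card_subgroup_dvd_card N
  have hn8 : Nat.card N ≠ 8 := by
    intro h8
    have e1 : (S₁ : Subgroup G) = N := Subgroup.eq_of_le_of_card_ge h1N (by rw [h8, card_syl2 h S₁])
    have e2 : (S₂ : Subgroup G) = N := Subgroup.eq_of_le_of_card_ge h2N (by rw [h8, card_syl2 h S₂])
    exact hne (e1.trans e2.symm)
  generalize Nat.card N = n at *
  interval_cases n <;> first | rfl | (exfalso; revert hd hd168 hn8; decide)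

/-- The number of Sylow 3-subgroups of the normalizer of a Klein four-subgroup. -/
theorem n3_klein {U : Subgroup G} (hK : IsKleinFour U) :
    Nat.card (Sylow 3 ↥(normalizer (U : Set G))) = 4 := by
  classical
  haveI : Fact (Nat.Prime 3) := ⟨by norm_num⟩
  set H := normalizer (U : Set G) with hH
  have hHc : Nat.card H = 24 := card_norm_klein h hK
  have hc4 : Nat.card U = 4 := hK.card_four
  have hHG : ∀ (x : H), (x : G) ∈ normalizer (U : Set G) := fun x => x.2
  -- order of Sylow 3-subgroups of `H`
  have hcR : ∀ R : Sylow 3 H, Nat.card R = 3 := by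
    intro R
    have := card_sylow_of_factor (G := H) (p := 3) (k := 1) (m := 8) (by rw [hHc]; norm_num) (by norm_num) R
    simpa using this
  have hord : ∀ (R : Sylow 3 H) (x : H), x ∈ (R : Subgroup H) → x ≠ 1 → orderOf (x : G) = 3 := by
    intro R x hx hx1
    rw [Subgroup.orderOf_coe]
    exact orderOf_eq_of_mem_card_prime (by norm_num) (R : Subgroup H) (hcR R) x hx hx1
  have hexx : ∀ R : Sylow 3 H, ∃ x ∈ (R : Subgroup H), x ≠ 1 := by
    intro R
    by_contra hcon
    push Not at hcon
    have : (R : Subgroup H) = ⊥ := by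
      rw [eq_bot_iff]; intro x hx; exact hcon x hx
    have h3 := hcR R
    rw [this, Subgroup.card_bot] at h3
    omega
  obtain ⟨h1, h2⟩ := card_sylow_dvd_cofactor (G := H) (p := 3) (k := 1) (m := 8)
    (by rw [hHc]; norm_num) (by norm_num)
  have hne1 : Nat.card (Sylow 3 H) ≠ 1 := by
    intro h3
    haveI : Subsingleton (Sylow 3 H) := (Nat.card_eq_one_iff_unique.1 h3).1
    let R : Sylow 3 H := default
    have hRn : (R : Subgroup H).Normal := Sylow.normal_of_subsingleton R
    obtain ⟨x, hx, hx1⟩ := hexx R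
    have hxo := hord R x hx hx1
    -- a nontrivial element of `U`
    obtain ⟨u, hu, hu1⟩ : ∃ u ∈ U, u ≠ 1 := by
      by_contra hcon
      push Not at hcon
      have : U = ⊥ := by
        rw [eq_bot_iff]; intro x hx; exact hcon x hx
      rw [this, Subgroup.card_bot] at hc4
      omega
    have huH : u ∈ H := Subgroup.le_normalizer hu
    have hu2 : u * u = 1 := klein_sq hK u hu
    set c : H := ⟨u, huH⟩ * x * ⟨u, huH⟩⁻¹ * x⁻¹ with hc
    have hcR' : c ∈ (R : Subgroup H) :=
      Subgroup.mul_mem _ (hRn.conj_mem _ hx _) (Subgroup.inv_mem _ hx)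
    have hcU : (c : G) ∈ U := by
      have e : (c : G) = u * ((x : G) * u⁻¹ * (x : G)⁻¹) := by
        rw [hc]
        simp only [Subgroup.coe_mul, Subgroup.coe_inv]
        group
      rw [e]
      exact U.mul_mem hu ((Subgroup.mem_normalizer_iff.1 (hHG x) _).1 (U.inv_mem hu))
    have hc1 : (c : G) = 1 := by
      have h4 : orderOf (c : G) ∣ 3 := by
        rw [Subgroup.orderOf_coe]
        have := Subgroup.orderOf_dvd_natCard (s := (R : Subgroup H)) hcR'
        rwa [hcR R] at this
      have h5 : orderOf (c : G) ∣ 4 := by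
        have := Subgroup.orderOf_dvd_natCard (s := U) hcU
        rwa [hc4] at this
      exact eq_one_of_dvd_coprime (by norm_num : Nat.Coprime 3 4) h4 h5
    have hcomm : u * (x : G) = x * u := by
      have e : (c : G) = u * (x : G) * u⁻¹ * (x : G)⁻¹ := by
        rw [hc]
        simp only [Subgroup.coe_mul, Subgroup.coe_inv]
      rw [e] at hc1
      have h6 : u * (x : G) * u⁻¹ * (x : G)⁻¹ * ((x : G) * u) = (x : G) * u := by rw [hc1, one_mul]
      calc u * (x : G) = u * (x : G) * u⁻¹ * (x : G)⁻¹ * ((x : G) * u) := by group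
        _ = _ := h6
    have huo : orderOf u ∣ 8 := by
      have : orderOf u ∣ 4 := by
        have := Subgroup.orderOf_dvd_natCard (s := U) hu
        rwa [hc4] at this
      exact this.trans (by norm_num)
    exact not_comm_3 h huo hu1 hxo hcomm
  have hle := Nat.le_of_dvd (by norm_num) h1
  generalize Nat.card (Sylow 3 H) = n at *
  interval_cases n <;> first | rfl | (exfalso; revert h1 h2 hne1; decide)

/-- The normalizer of a Klein four-subgroup is isomorphic to `S₄`. -/
theorem norm_klein_iso {U : Subgroup G} (hK : IsKleinFour U) :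
    Nonempty (↥(normalizer (U : Set G)) ≃* Equiv.Perm (Fin 4)) := by
  classical
  haveI : Fact (Nat.Prime 3) := ⟨by norm_num⟩
  set H := normalizer (U : Set G) with hH
  have hHc : Nat.card H = 24 := card_norm_klein h hK
  have hc4 : Nat.card U = 4 := hK.card_four
  have hHG : ∀ (x : H), (x : G) ∈ normalizer (U : Set G) := fun x => x.2
  -- order of Sylow 3-subgroups of `H`
  have hcR : ∀ R : Sylow 3 H, Nat.card R = 3 := by
    intro R
    have := card_sylow_of_factor (G := H) (p := 3) (k := 1) (m := 8) (by rw [hHc]; norm_num) (by norm_num) R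
    simpa using this
  have hord : ∀ (R : Sylow 3 H) (x : H), x ∈ (R : Subgroup H) → x ≠ 1 → orderOf (x : G) = 3 := by
    intro R x hx hx1
    rw [Subgroup.orderOf_coe]
    exact orderOf_eq_of_mem_card_prime (by norm_num) (R : Subgroup H) (hcR R) x hx hx1
  have hexx : ∀ R : Sylow 3 H, ∃ x ∈ (R : Subgroup H), x ≠ 1 := by
    intro R
    by_contra hcon
    push Not at hcon
    have : (R : Subgroup H) = ⊥ := by
      rw [eq_bot_iff]; intro x hx; exact hcon x hx
    have h3 := hcR R
    rw [this, Subgroup.card_bot] at h3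
    omega
  have hn3 : Nat.card (Sylow 3 H) = 4 := n3_klein h hK
  -- the permutation representation
  let φ := MulAction.toPermHom H (Sylow 3 H)
  have hker : φ.ker = ⊥ := by
    rw [eq_bot_iff]
    intro k hk
    rw [Subgroup.mem_bot]
    by_contra hk1
    let R : Sylow 3 H := default
    obtain ⟨x, hx, hx1⟩ := hexx R
    have hxo := hord R x hx hx1
    have hfix : ∀ v ∈ φ.ker, ∀ R' : Sylow 3 H, v • R' = R' := by
      intro v hv R'
      have := MonoidHom.mem_ker.1 hv
      have h2 : φ v R' = R' := by rw [this]; rfl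
      exact h2
    -- a nontrivial element of `R` in the kernel
    have key : ∃ v ∈ (R : Subgroup H), v ∈ φ.ker ∧ v ≠ 1 := by
      set c : H := k * x * k⁻¹ * x⁻¹ with hc
      have hkR : k ∈ normalizer ((R : Subgroup H) : Set H) :=
        Sylow.smul_eq_iff_mem_normalizer.1 (hfix k hk R)
      have hcR' : c ∈ (R : Subgroup H) :=
        Subgroup.mul_mem _ ((Subgroup.mem_normalizer_iff.1 hkR x).1 hx) (Subgroup.inv_mem _ hx)
      have hcK : c ∈ φ.ker := by
        have e : c = k * (x * k⁻¹ * x⁻¹) := by rw [hc]; group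
        rw [e]
        exact Subgroup.mul_mem _ hk ((MonoidHom.normal_ker φ).conj_mem _ (Subgroup.inv_mem _ hk) x)
      by_cases hc1 : c = 1
      · refine ⟨k, ?_, hk, hk1⟩
        have hcomm : k * x = x * k := by
          have e : k * x * k⁻¹ * x⁻¹ * (x * k) = x * k := by
            change c * (x * k) = x * k
            rw [hc1, one_mul]
          calc k * x = k * x * k⁻¹ * x⁻¹ * (x * k) := by group
            _ = _ := e
        have hcomm' : (k : G) * x = x * k := congrArg Subtype.val hcomm
        have hmem : (k : G) ∈ centralizer ({(x : G)} : Set G) :=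
          Subgroup.mem_centralizer_singleton_iff.2 hcomm'
        rw [c3 h x hxo] at hmem
        obtain ⟨j, hj⟩ := hmem
        have hkj : k = x ^ j := by
          apply Subtype.ext
          rw [← hj]
          simp
        rw [hkj]
        exact Subgroup.zpow_mem _ hx j
      · exact ⟨c, hcR', hcK, hc1⟩
    obtain ⟨v, hvR, hvK, hv1⟩ := key
    obtain ⟨R', hR'⟩ : ∃ R' : Sylow 3 H, R ≠ R' := by
      haveI : Nontrivial (Sylow 3 H) := Finite.one_lt_card_iff_nontrivial.1 (by omega)
      obtain ⟨R', hR'⟩ := exists_ne R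
      exact ⟨R', hR'.symm⟩
    exact hv1 (eq_one_of_smul_eq (hcR R) hR' hvR (hfix v hvK R'))
  have hinj : Function.Injective φ := (MonoidHom.ker_eq_bot_iff φ).1 hker
  have hcard : Nat.card H = Nat.card (Equiv.Perm (Sylow 3 H)) := by
    rw [Nat.card_perm, hn3, hHc]
    rfl
  have hbij : Function.Bijective φ := (Nat.bijective_iff_injective_and_card φ).2 ⟨hinj, hcard⟩
  exact ⟨(MulEquiv.ofBijective φ hbij).trans (Finite.equivFinOfCardEq hn3).permCongrHom⟩

end CfsgLib.G168
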