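import Cfsg.Agent.Lib.H3.G168d

/-! Simple groups of order 168: the two Klein four-subgroups of a Sylow 2-subgroup. -/

set_option autoImplicit false
set_option linter.unusedSectionVars false

namespace CfsgLib.G168

open Subgroup CfsgLib.H9 MulAction
open scoped Pointwise

variable {G : Type*} [Group G] [Finite G] [IsSimpleGroup G]

variable (h : Nat.card G = 168) (T : Sylow 2 G)
include h

theorem klein_T : ∃ U₁ U₂ : Subgroup G, U₁ ≠ U₂ ∧ U₁ ≤ (T : Subgroup G) ∧ U₂ ≤ (T : Subgroup G) ∧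
    IsKleinFour U₁ ∧ IsKleinFour U₂ ∧
    ∀ U : Subgroup G, U ≤ (T : Subgroup G) → IsKleinFour U → U = U₁ ∨ U = U₂ := by
  obtain ⟨e⟩ := dihedral h T
  let ψ : DihedralGroup 4 →* G := (T : Subgroup G).subtype.comp e.symm.toMonoidHom
  have hinj : Function.Injective ψ := by
    intro a b hab
    exact e.symm.injective (Subtype.ext hab)
  have hrange : ψ.range = (T : Subgroup G) := by
    ext x
    constructor
    · rintro ⟨a, rfl⟩
      exact (e.symm a).2
    · intro hx
      refine ⟨e ⟨x, hx⟩, ?_⟩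
      change ((e.symm (e ⟨x, hx⟩) : (T : Subgroup G)) : G) = x
      rw [MulEquiv.symm_apply_apply]
  have hle : ∀ V : Subgroup (DihedralGroup 4), V.map ψ ≤ (T : Subgroup G) := by
    intro V
    rw [← hrange]
    exact Subgroup.map_le_range _ _
  have hklein : ∀ V : Subgroup (DihedralGroup 4), Nat.card V = 4 → (∀ a ∈ V, a * a = 1) →
      IsKleinFour (V.map ψ) := by
    intro V hV he
    apply isKlein_of
    · rw [Subgroup.card_map_of_injective hinj, hV]
    · rintro _ ⟨a, ha, rfl⟩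
      rw [← map_mul, he a ha, map_one]
  refine ⟨kA.map ψ, kB.map ψ, ?_, hle _, hle _, hklein _ card_kA kA_exp, hklein _ card_kB kB_exp, ?_⟩
  · intro he2
    exact kA_ne_kB (Subgroup.map_injective hinj he2)
  · intro U hU hK
    have hUr : U ≤ ψ.range := by rw [hrange]; exact hU
    have hmap : (U.comap ψ).map ψ = U := Subgroup.map_comap_eq_self hUr
    have hc : Nat.card (U.comap ψ) = 4 := by
      have h2 := Subgroup.card_map_of_injective (K := U.comap ψ) hinj
      rw [hmap, hK.card_four] at h2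
      exact h2.symm
    have he : ∀ a ∈ U.comap ψ, a * a = 1 := by
      intro a ha
      apply hinj
      rw [map_mul, map_one]
      exact klein_sq hK _ ha
    rcases d4_klein _ hc he with h1 | h1
    · left
      rw [← h1, hmap]
    · right
      rw [← h1, hmap]

theorem card_klein_T : Nat.card {U : Subgroup G // U ≤ (T : Subgroup G) ∧ IsKleinFour ↥U} = 2 := by
  obtain ⟨U₁, U₂, hne, h1, h2, k1, k2, hall⟩ := klein_T h T
  rw [Nat.card_eq_two_iff]
  refine ⟨⟨U₁, h1, k1⟩, ⟨U₂, h2, k2⟩, ?_, ?_⟩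
  · intro he
    exact hne (congrArg Subtype.val he)
  · ext ⟨U, hU, hK⟩
    simp only [Set.mem_insert_iff, Set.mem_singleton_iff, Set.mem_univ, iff_true, Subtype.mk.injEq]
    exact hall U hU hK

theorem not_conj_klein {U W : Subgroup G} (hUT : U ≤ (T : Subgroup G)) (hWT : W ≤ (T : Subgroup G))
    (hKU : IsKleinFour U) (hKW : IsKleinFour W) (hne : U ≠ W) (g : G)
    (he : U.map (MulAut.conj g).toMonoidHom = W) : False := by
  classical
  have hTcU : Nat.card (T : Subgroup G) = 2 * Nat.card U := by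
    rw [card_syl2 h T, hKU.card_four]
  have hTcW : Nat.card (T : Subgroup G) = 2 * Nat.card W := by
    rw [card_syl2 h T, hKW.card_four]
  have hTU : (T : Subgroup G) ≤ normalizer (U : Set G) := le_norm_of_two hUT hTcU
  have hTW : (T : Subgroup G) ≤ normalizer (W : Set G) := le_norm_of_two hWT hTcW
  have hmemW : ∀ a, a ∈ W ↔ g⁻¹ * a * g ∈ U := by
    intro a
    rw [← he]
    constructor
    · rintro ⟨u, hu, rfl⟩
      have e : g⁻¹ * ((MulAut.conj g).toMonoidHom u) * g = u := by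
        simp [MulAut.conj_apply]; group
      rw [e]
      exact hu
    · intro hu
      refine ⟨_, hu, ?_⟩
      simp [MulAut.conj_apply]
      group
  set H := normalizer (W : Set G) with hH
  have hT'H : ((g • T : Sylow 2 G) : Subgroup G) ≤ H := by
    intro x hx
    rw [Sylow.coe_subgroup_smul, Subgroup.mem_smul_pointwise_iff_exists] at hx
    obtain ⟨t, ht, rfl⟩ := hx
    rw [MulAut.smul_def, MulAut.conj_apply]
    apply mem_norm_of_le
    intro w hw
    rw [hmemW] at hw ⊢
    have h1 := (Subgroup.mem_normalizer_iff.1 (hTU ht) _).1 hw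
    have e : g⁻¹ * (g * t * g⁻¹ * w * (g * t * g⁻¹)⁻¹) * g = t * (g⁻¹ * w * g) * t⁻¹ := by group
    rw [e]
    exact h1
  let T₁ : Sylow 2 H := T.subtype hTW
  let T₂ : Sylow 2 H := (g • T : Sylow 2 G).subtype hT'H
  obtain ⟨n, hn⟩ := MulAction.exists_smul_eq H T₂ T₁
  have hm : (n : G) * g ∈ normalizer ((T : Subgroup G) : Set G) := by
    apply mem_norm_of_le
    intro t ht
    have h1 : g * t * g⁻¹ ∈ ((g • T : Sylow 2 G) : Subgroup G) := by
      rw [Sylow.coe_subgroup_smul, Subgroup.mem_smul_pointwise_iff_exists]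
      exact ⟨t, ht, rfl⟩
    have h2 : (⟨g * t * g⁻¹, hT'H h1⟩ : H) ∈ (T₂ : Subgroup H) := by
      rw [Sylow.coe_subtype]
      exact Subgroup.mem_subgroupOf.2 h1
    have h3 : n * ⟨g * t * g⁻¹, hT'H h1⟩ * n⁻¹ ∈ ((n • T₂ : Sylow 2 H) : Subgroup H) := by
      rw [Sylow.coe_subgroup_smul, Subgroup.mem_smul_pointwise_iff_exists]
      exact ⟨_, h2, rfl⟩
    rw [hn, Sylow.coe_subtype, Subgroup.mem_subgroupOf] at h3
    have e : (n : G) * g * t * ((n : G) * g)⁻¹ = (n : G) * (g * t * g⁻¹) * (n : G)⁻¹ := by group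
    rw [e]
    exact h3
  rw [norm2 h T] at hm
  have hmU := hTU hm
  have hUW : U ≤ W := by
    intro u hu
    have ha : ((n : G) * g)⁻¹ * u * ((n : G) * g)⁻¹⁻¹ ∈ U :=
      (Subgroup.mem_normalizer_iff.1 (Subgroup.inv_mem _ hmU) u).1 hu
    have h1 : g * (((n : G) * g)⁻¹ * u * ((n : G) * g)⁻¹⁻¹) * g⁻¹ ∈ W := by
      rw [hmemW]
      have e : g⁻¹ * (g * (((n : G) * g)⁻¹ * u * ((n : G) * g)⁻¹⁻¹) * g⁻¹) * g =
          ((n : G) * g)⁻¹ * u * ((n : G) * g)⁻¹⁻¹ := by group
      rw [e]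
      exact ha
    have h2 := (Subgroup.mem_normalizer_iff.1 n.2 _).1 h1
    have e : (n : G) * (g * (((n : G) * g)⁻¹ * u * ((n : G) * g)⁻¹⁻¹) * g⁻¹) * (n : G)⁻¹ = u := by group
    rwa [e] at h2
  exact hne (Subgroup.eq_of_le_of_card_ge hUW (by rw [hKU.card_four, hKW.card_four]))

end CfsgLib.G168
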