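import Cfsg.Agent.Lib.H3.G168e

/-! Simple groups of order 168: maximal subgroups. -/

set_option autoImplicit false
set_option linter.unusedSectionVars false

namespace CfsgLib.G168

open Subgroup CfsgLib.H9 MulAction
open scoped Pointwise

variable {G : Type*} [Group G] [Finite G] [IsSimpleGroup G]

omit [IsSimpleGroup G] [Finite G] in
theorem coatom_eq {M K : Subgroup G} (hM : IsCoatom M) (hle : M ≤ K) (hK : K ≠ ⊤) : M = K := by
  by_contra hne
  exact hK (hM.2 K (lt_of_le_of_ne hle hne))

omit [IsSimpleGroup G] in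
theorem klein_conj {U : Subgroup G} (hK : IsKleinFour U) (g : G) :
    IsKleinFour (U.map (MulAut.conj g).toMonoidHom) := by
  apply isKlein_of
  · rw [Subgroup.card_map_of_injective (MulAut.conj g).injective]
    exact hK.card_four
  · rintro _ ⟨a, ha, rfl⟩
    rw [← map_mul, klein_sq hK a ha, map_one]

variable (h : Nat.card G = 168)
include h

theorem coatom_of_card24 {M : Subgroup G} (hc : Nat.card M = 24) : IsCoatom M := by
  have hne : M ≠ ⊤ := by
    rintro rfl
    rw [Subgroup.card_top, h] at hc
    omega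
  refine ⟨hne, fun K hlt => ?_⟩
  by_contra hK
  have := card_le h K hK
  exact hlt.ne (Subgroup.eq_of_le_of_card_ge hlt.le (by rw [hc]; exact this))

theorem norm_klein_ne_top {U : Subgroup G} (hK : IsKleinFour U) : normalizer (U : Set G) ≠ ⊤ := by
  intro he
  have := card_norm_klein h hK
  rw [he, Subgroup.card_top, h] at this
  omega

theorem klein_of_sylow (T : Sylow 2 G) : ∃ U : Subgroup G, U ≤ (T : Subgroup G) ∧ IsKleinFour U := by
  obtain ⟨U₁, _, _, h1, _, k1, _, _⟩ := klein_T h T
  exact ⟨U₁, h1, k1⟩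

theorem syl2_le_norm (T : Sylow 2 G) {U : Subgroup G} (hU : U ≤ (T : Subgroup G)) (hK : IsKleinFour U) :
    (T : Subgroup G) ≤ normalizer (U : Set G) :=
  le_norm_of_two hU (by rw [card_syl2 h T, hK.card_four])

/-- Normalizers of elements of order `3` lie in normalizers of Klein four-subgroups. -/
theorem norm3_le (x : G) (hx : orderOf x = 3) :
    ∃ U : Subgroup G, IsKleinFour U ∧
      normalizer ((zpowers x : Subgroup G) : Set G) ≤ normalizer (U : Set G) := by
  classical
  haveI : Fact (Nat.Prime 3) := ⟨by norm_num⟩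
  let T : Sylow 2 G := default
  obtain ⟨U₀, _, hK⟩ := klein_of_sylow h T
  set H := normalizer (U₀ : Set G) with hH
  have hHc : Nat.card H = 24 := card_norm_klein h hK
  obtain ⟨x₀, hx₀H, hx₀⟩ := exists_order 3 H (by rw [hHc]; norm_num)
  let x' : H := ⟨x₀, hx₀H⟩
  have hx' : orderOf x' = 3 := by rw [← Subgroup.orderOf_coe]; exact hx₀
  obtain ⟨R, hR⟩ := exists_sylow_eq (G := H) (p := 3) (k := 1) (m := 8) (by rw [hHc]; norm_num)
    (by norm_num) (zpowers x') (by rw [Nat.card_zpowers, hx']; norm_num)
  have hN := card_normalizer_mul_card_sylow R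
  rw [n3_klein h hK, hHc] at hN
  have hN6 : Nat.card (normalizer ((R : Subgroup H) : Set H)) = 6 := by omega
  have hRQ : ∀ v : H, v ∈ (R : Subgroup H) ↔ (v : G) ∈ zpowers x₀ := by
    intro v
    rw [hR]
    constructor
    · rintro ⟨j, hj⟩
      refine ⟨j, ?_⟩
      change x₀ ^ j = v
      rw [← hj]
      simp [x']
    · rintro ⟨j, hj⟩
      refine ⟨j, ?_⟩
      apply Subtype.ext
      change x₀ ^ j = v at hj
      rw [← hj]
      simp [x']
  have hQH : zpowers x₀ ≤ H := (Subgroup.zpowers_le).2 hx₀H
  have hle : (normalizer ((R : Subgroup H) : Set H)).map H.subtype ≤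
      normalizer ((zpowers x₀ : Subgroup G) : Set G) := by
    rintro _ ⟨a, ha, rfl⟩
    apply mem_norm_of_le
    intro q hq
    have hq' : (⟨q, hQH hq⟩ : H) ∈ (R : Subgroup H) := (hRQ _).2 hq
    have h2 := (Subgroup.mem_normalizer_iff.1 ha _).1 hq'
    exact (hRQ _).1 h2
  have hN₀ := card_norm3 h (zpowers x₀) (by rw [Nat.card_zpowers, hx₀])
  have heq : (normalizer ((R : Subgroup H) : Set H)).map H.subtype =
      normalizer ((zpowers x₀ : Subgroup G) : Set G) := by
    apply Subgroup.eq_of_le_of_card_ge hle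
    rw [hN₀, Subgroup.card_map_of_injective H.subtype_injective, hN6]
  have hN₀H : normalizer ((zpowers x₀ : Subgroup G) : Set G) ≤ H := by
    rw [← heq]
    exact Subgroup.map_subtype_le _
  obtain ⟨c, hc⟩ := isConj_iff.1 (conj_of_order3 h hx x₀ hx₀)
  refine ⟨U₀.map (MulAut.conj c⁻¹).toMonoidHom, klein_conj hK c⁻¹, ?_⟩
  have e1 : zpowers x = (zpowers x₀).map (MulAut.conj c⁻¹).toMonoidHom := by
    rw [MonoidHom.map_zpowers]
    congr 1
    rw [← hc]
    simp [MulAut.conj_apply]
    group
  rw [e1, ← Subgroup.map_equiv_normalizer_eq, ← Subgroup.map_equiv_normalizer_eq]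
  exact Subgroup.map_mono hN₀H

/-- Big subgroups normalize a Klein four-subgroup. -/
theorem big_case (M : Subgroup G) (hc : Nat.card M = 12 ∨ Nat.card M = 24) {x : G} (hxM : x ∈ M)
    (hx : orderOf x = 3) : ∃ L : Subgroup G, IsKleinFour L ∧ M ≤ normalizer (L : Set G) := by
  classical
  let S : Sylow 2 M := default
  have hSc : (Nat.card M = 12 ∧ Nat.card (S : Subgroup M) = 4) ∨ (Nat.card M = 24 ∧ Nat.card (S : Subgroup M) = 8) := by
    rcases hc with h1 | h1
    · left
      have := card_sylow_of_factor (G := M) (p := 2) (k := 2) (m := 3) (by rw [h1]; norm_num) (by norm_num) S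
      exact ⟨h1, by simpa using this⟩
    · right
      have := card_sylow_of_factor (G := M) (p := 2) (k := 3) (m := 3) (by rw [h1]; norm_num) (by norm_num) S
      exact ⟨h1, by simpa using this⟩
  have hSi : (S : Subgroup M).index = 3 := by
    have := (S : Subgroup M).card_mul_index
    rcases hSc with ⟨h1, h2⟩ | ⟨h1, h2⟩ <;> rw [h1, h2] at this <;> omega
  let φ := MulAction.toPermHom M (M ⧸ (S : Subgroup M))
  set K := φ.ker with hK
  have hKn : K.Normal := MonoidHom.normal_ker φ
  have hKS : K ≤ (S : Subgroup M) := by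
    intro k hk
    have h1 : φ k ((1 : M) : M ⧸ (S : Subgroup M)) = ((1 : M) : M ⧸ (S : Subgroup M)) := by
      rw [MonoidHom.mem_ker.1 hk]; rfl
    have h2 : ((k * 1 : M) : M ⧸ (S : Subgroup M)) = ((1 : M) : M ⧸ (S : Subgroup M)) := h1
    rw [QuotientGroup.eq] at h2
    simpa using h2
  have hKi : K.index ∣ 6 := by
    rw [hK, Subgroup.index_ker]
    have h1 := Subgroup.card_subgroup_dvd_card φ.range
    rw [Nat.card_perm] at h1
    have h2 : Nat.card (M ⧸ (S : Subgroup M)) = 3 := hSi
    rw [h2] at h1
    exact h1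
  have hKc := K.card_mul_index
  have hKd : Nat.card K ∣ Nat.card (S : Subgroup M) := Subgroup.card_dvd_of_le hKS
  have hcases : Nat.card K = 2 ∨ Nat.card K = 4 ∨ Nat.card K = 8 := by
    have hi : K.index = 1 ∨ K.index = 2 ∨ K.index = 3 ∨ K.index = 6 := by
      have h5 : K.index ∈ Nat.divisors 6 := by
        rw [Nat.mem_divisors]; exact ⟨hKi, by norm_num⟩
      have h6 : Nat.divisors 6 = {1, 2, 3, 6} := by decide
      rw [h6] at h5
      simpa using h5
    rcases hSc with ⟨h1, h2⟩ | ⟨h1, h2⟩ <;> rw [h1] at hKc <;> rw [h2] at hKd <;>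
      have hkle := Nat.le_of_dvd (by norm_num) hKd <;>
      rcases hi with hi | hi | hi | hi <;> rw [hi] at hKc <;> omega
  set L := K.map M.subtype with hL
  have hLc : Nat.card L = Nat.card K := Subgroup.card_map_of_injective M.subtype_injective
  have hLM : L ≤ M := Subgroup.map_subtype_le _
  have hML : M ≤ normalizer (L : Set G) := by
    intro m hm
    apply mem_norm_of_le
    rintro _ ⟨k, hk, rfl⟩
    exact ⟨_, hKn.conj_mem k hk ⟨m, hm⟩, rfl⟩
  have hxN := hML hxM
  have hx3 : x * (x * x) = 1 := by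
    have : x ^ 3 = 1 := by rw [← hx]; exact pow_orderOf_eq_one x
    rwa [pow_succ, pow_two, mul_assoc] at this
  refine ⟨L, ?_, hML⟩
  have hL4 : Nat.card L = 4 := by
    rcases hcases with h2 | h4 | h8
    · exfalso
      rw [← hLc] at h2
      obtain ⟨k, hk, hk1⟩ : ∃ k ∈ L, k ≠ 1 := by
        by_contra hcon
        push Not at hcon
        have : L = ⊥ := by
          rw [eq_bot_iff]; intro x hx; exact hcon x hx
        rw [this, Subgroup.card_bot] at h2
        omega
      have hk' : x * k * x⁻¹ ∈ L := (Subgroup.mem_normalizer_iff.1 hxN k).1 hk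
      have hk'1 : x * k * x⁻¹ ≠ 1 := by
        intro h0
        apply hk1
        have e : k = x⁻¹ * (x * k * x⁻¹) * x := by group
        rw [e, h0]; group
      have hee : x * k * x⁻¹ = k := by
        by_contra hne
        have h3 : ({1, k, x * k * x⁻¹} : Set G).ncard = 3 := by
          rw [Set.ncard_eq_three]
          exact ⟨1, k, x * k * x⁻¹, Ne.symm hk1, Ne.symm hk'1, Ne.symm hne, rfl⟩
        have hsub : ({1, k, x * k * x⁻¹} : Set G) ⊆ (L : Set G) := by
          intro u hu
          rcases hu with rfl | rfl | rfl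
          · exact L.one_mem
          · exact hk
          · exact hk'
        have := Set.ncard_le_ncard hsub (Set.toFinite _)
        rw [h3, ← Nat.card_coe_set_eq (L : Set G)] at this
        change 3 ≤ Nat.card L at this
        omega
      have hko : orderOf k ∣ 8 := by
        have := Subgroup.orderOf_dvd_natCard (s := L) hk
        rw [h2] at this
        exact this.trans (by norm_num)
      apply not_comm_3 h hko hk1 hx
      calc k * x = x * k * x⁻¹ * x := by rw [hee]
        _ = x * k := by group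
    · rw [hLc]; exact h4
    · exfalso
      rw [← hLc] at h8
      obtain ⟨S', hS'⟩ := exists_sylow_eq (G := G) (p := 2) (k := 3) (m := 21) (by rw [h]; norm_num)
        (by norm_num) L (by rw [h8]; norm_num)
      have h1 := norm2 h S'
      rw [hS'] at h1
      rw [h1] at hML
      have h2 := Subgroup.card_le_of_le hML
      rcases hc with h3 | h3 <;> rw [h3, h8] at h2 <;> omega
  apply isKlein_of L hL4
  intro a ha
  by_contra hne
  have hao : orderOf a ∣ 4 := by
    have := Subgroup.orderOf_dvd_natCard (s := L) ha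
    rwa [hL4] at this
  have ha4 : orderOf a = 4 := by
    have hn2 : orderOf a ≠ 2 := by
      intro h2
      apply hne
      rw [← pow_two, ← h2]
      exact pow_orderOf_eq_one a
    have hn1 : orderOf a ≠ 1 := by
      intro h1
      apply hne
      rw [orderOf_eq_one_iff.1 h1]; simp
    have hle := Nat.le_of_dvd (by norm_num) hao
    generalize orderOf a = n at *
    interval_cases n <;> first | rfl | (exfalso; revert hao hn1 hn2; decide)
  have hLz : L = zpowers a := eq_zpowers_of_card L hL4 a ha4 ha
  have hxa : x * a * x⁻¹ ∈ zpowers a := by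
    rw [← hLz]
    exact (Subgroup.mem_normalizer_iff.1 hxN a).1 ha
  have haA : a ≠ 1 := by
    intro h1
    rw [h1, orderOf_one] at ha4
    omega
  rcases eq_of_order_four ha4 hxa (by rw [← ha4]; exact (orderOf_of_isConj (isConj_iff.2 ⟨x, rfl⟩)).symm) with h1 | h1
  · apply not_comm_3 h (by rw [ha4]; norm_num) haA hx
    calc a * x = x * a * x⁻¹ * x := by rw [h1]
      _ = x * a := by group
  · apply hne
    have e1 : (x * (x * x)) * a * (x * (x * x))⁻¹ = x * (x * (x * a * x⁻¹) * x⁻¹) * x⁻¹ := by group
    rw [hx3] at e1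
    have e2 : x * a⁻¹ * x⁻¹ = (x * a * x⁻¹)⁻¹ := by group
    rw [h1, e2, h1, inv_inv, h1] at e1
    have e3 : a = a⁻¹ := by
      rw [← e1]; group
    calc a * a = a⁻¹ * a := by rw [← e3]
      _ = 1 := by group

/-- Every coatom is the normalizer of a Klein four-subgroup or of a Sylow 7-subgroup. -/
theorem coatom_cases (M : Subgroup G) (hM : IsCoatom M) :
    (∃ U : Subgroup G, IsKleinFour U ∧ M = normalizer (U : Set G)) ∨
      ∃ P : Sylow 7 G, M = normalizer ((P : Subgroup G) : Set G) := by
  classical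
  haveI : Fact (Nat.Prime 3) := ⟨by norm_num⟩
  have hMt := hM.1
  have hc24 := card_le h M hMt
  have hd : Nat.card M ∣ 168 := h ▸ Subgroup.card_subgroup_dvd_card M
  by_cases h7 : 7 ∣ Nat.card M
  · right
    obtain ⟨x, hxM, hx⟩ := exists_order 7 M h7
    obtain ⟨S, hS⟩ := exists_syl7 h x hx
    have hSM : (S : Subgroup G) ≤ M := by
      rw [hS]; exact (Subgroup.zpowers_le).2 hxM
    refine ⟨S, coatom_eq hM ?_ ?_⟩
    · apply le_normalizer_of_index_lt S M hSM
      have h1 := ((S : Subgroup G).subgroupOf M).card_mul_index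
      have h2 : Nat.card ((S : Subgroup G).subgroupOf M) = Nat.card (S : Subgroup G) :=
        Nat.card_congr (Subgroup.subgroupOfEquivOfLe hSM).toEquiv
      rw [card_syl7 h S] at h2
      rw [h2] at h1
      omega
    · intro he
      have := card_norm7 h S
      rw [he, Subgroup.card_top, h] at this
      omega
  left
  by_cases h3 : 3 ∣ Nat.card M
  · obtain ⟨x, hxM, hx⟩ := exists_order 3 M h3
    by_cases hsmall : Nat.card M ≤ 6
    · obtain ⟨S, hS⟩ := exists_syl3 h x hx
      have hSM : (S : Subgroup G) ≤ M := by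
        rw [hS]; exact (Subgroup.zpowers_le).2 hxM
      have hle : M ≤ normalizer ((S : Subgroup G) : Set G) := by
        apply le_normalizer_of_index_lt S M hSM
        have h1 := ((S : Subgroup G).subgroupOf M).card_mul_index
        have h2 : Nat.card ((S : Subgroup G).subgroupOf M) = 3 := by
          rw [Nat.card_congr (Subgroup.subgroupOfEquivOfLe hSM).toEquiv, hS, Nat.card_zpowers, hx]
        rw [h2] at h1
        omega
      rw [hS] at hle
      obtain ⟨U, hK, hU⟩ := norm3_le h x hx
      exact ⟨U, hK, coatom_eq hM (hle.trans hU) (norm_klein_ne_top h hK)⟩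
    · have hc : Nat.card M = 12 ∨ Nat.card M = 24 := by
        generalize Nat.card M = n at *
        interval_cases n <;> first | omega | (exfalso; revert hd h3 h7; decide)
      obtain ⟨L, hK, hL⟩ := big_case h M hc hxM hx
      exact ⟨L, hK, coatom_eq hM hL (norm_klein_ne_top h hK)⟩
  · have hcop : (Nat.card M).Coprime 21 := by
      have h3' : (Nat.card M).Coprime 3 := ((Nat.Prime.coprime_iff_not_dvd (by norm_num)).2 h3).symm
      have h7' : (Nat.card M).Coprime 7 := ((Nat.Prime.coprime_iff_not_dvd (by norm_num)).2 h7).symm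
      exact Nat.Coprime.mul_right h3' h7'
    have hd8 : Nat.card M ∣ 2 ^ 3 := by
      apply hcop.dvd_of_dvd_mul_right
      simpa using hd
    obtain ⟨k, -, hk⟩ := (Nat.dvd_prime_pow Nat.prime_two).1 hd8
    have hp : IsPGroup 2 M := IsPGroup.of_card hk
    obtain ⟨T, hT⟩ := hp.exists_le_sylow
    obtain ⟨U, hU, hK⟩ := klein_of_sylow h T
    exact ⟨U, hK, coatom_eq hM (hT.trans (syl2_le_norm h T hU hK)) (norm_klein_ne_top h hK)⟩

/-- Klein four-subgroups are determined by their normalizers. -/
theorem norm_inj {U V : Subgroup G} (hU : IsKleinFour U) (hV : IsKleinFour V)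
    (he : normalizer (U : Set G) = normalizer (V : Set G)) : U = V := by
  classical
  by_contra hne
  have hUp : IsPGroup 2 U := IsPGroup.of_card (n := 2) (by rw [hU.card_four]; norm_num)
  have hVp : IsPGroup 2 V := IsPGroup.of_card (n := 2) (by rw [hV.card_four]; norm_num)
  have hUV : U ≤ normalizer (V : Set G) := by
    rw [← he]; exact Subgroup.le_normalizer
  have hp : IsPGroup 2 (U ⊔ V : Subgroup G) := hUp.to_sup_of_normal_right' hVp hUV
  obtain ⟨S, hS⟩ := hp.exists_le_sylow
  have hd8 : Nat.card (U ⊔ V : Subgroup G) ∣ 8 := card_syl2 h S ▸ Subgroup.card_dvd_of_le hS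
  have hd4 : 4 ∣ Nat.card (U ⊔ V : Subgroup G) := by
    have := Subgroup.card_dvd_of_le (le_sup_left : U ≤ U ⊔ V)
    rwa [hU.card_four] at this
  have hn4 : Nat.card (U ⊔ V : Subgroup G) ≠ 4 := by
    intro h4
    have e1 : U = U ⊔ V := Subgroup.eq_of_le_of_card_ge le_sup_left (by rw [h4, hU.card_four])
    have e2 : V = U ⊔ V := Subgroup.eq_of_le_of_card_ge le_sup_right (by rw [h4, hV.card_four])
    exact hne (e1.trans e2.symm)
  have h8 : Nat.card (U ⊔ V : Subgroup G) = 8 := by
    have hle := Nat.le_of_dvd (by norm_num) hd8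
    generalize Nat.card (U ⊔ V : Subgroup G) = n at *
    interval_cases n <;> first | rfl | (exfalso; revert hd4 hd8 hn4; decide)
  have heS : U ⊔ V = (S : Subgroup G) := Subgroup.eq_of_le_of_card_ge hS (by rw [h8, card_syl2 h S])
  have hH : normalizer (U : Set G) ≤ normalizer ((U ⊔ V : Subgroup G) : Set G) := by
    intro a ha
    apply mem_norm_of_le
    intro t ht
    have hle : U ⊔ V ≤ (U ⊔ V).comap (MulAut.conj a).toMonoidHom := by
      apply sup_le
      · intro u hu
        exact Subgroup.mem_sup_left ((Subgroup.mem_normalizer_iff.1 ha u).1 hu)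
      · intro u hu
        have ha' : a ∈ normalizer (V : Set G) := he ▸ ha
        exact Subgroup.mem_sup_right ((Subgroup.mem_normalizer_iff.1 ha' u).1 hu)
    exact hle ht
  rw [heS, norm2 h S] at hH
  have h2 := Subgroup.card_le_of_le hH
  rw [card_norm_klein h hU, card_syl2 h S] at h2
  omega

/-- Coatoms of order 21 are normalizers of Sylow 7-subgroups. -/
theorem coatom_21 (M : Subgroup G) (hM : IsCoatom M) (hc : Nat.card M = 21) :
    ∃ P : Sylow 7 G, M = normalizer ((P : Subgroup G) : Set G) := by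
  rcases coatom_cases h M hM with ⟨U, hK, hU⟩ | hP
  · exfalso
    have := card_norm_klein h hK
    rw [← hU, hc] at this
    omega
  · exact hP

theorem maximal_main :
    (∀ M : Subgroup G, IsCoatom M → Nonempty (↥M ≃* Equiv.Perm (Fin 4)) ∨ (Nat.card ↥M = 21 ∧ ¬ IsMulCommutative ↥M)) ∧
    (∀ M M' : Subgroup G, IsCoatom M → IsCoatom M' → Nat.card ↥M = 21 → Nat.card ↥M' = 21 → ∃ g : G, M' = M.map (MulAut.conj g).toMonoidHom) ∧
    ∃ M₁ M₂ : Subgroup G, IsCoatom M₁ ∧ IsCoatom M₂ ∧ Nonempty (↥M₁ ≃* Equiv.Perm (Fin 4)) ∧ Nonempty (↥M₂ ≃* Equiv.Perm (Fin 4)) ∧ (∀ g : G, M₂ ≠ M₁.map (MulAut.conj g).toMonoidHom) ∧ ∀ M : Subgroup G, IsCoatom M → Nonempty (↥M ≃* Equiv.Perm (Fin 4)) → ∃ g : G, M = M₁.map (MulAut.conj g).toMonoidHom ∨ M = M₂.map (MulAut.conj g).toMonoidHom := by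
  classical
  refine ⟨?_, ?_, ?_⟩
  · intro M hM
    rcases coatom_cases h M hM with ⟨U, hK, rfl⟩ | ⟨P, rfl⟩
    · left
      exact norm_klein_iso h hK
    · right
      refine ⟨card_norm7 h P, ?_⟩
      intro hcomm
      -- an element of order `7`
      obtain ⟨x, hx, hxo⟩ := exists_order 7 (P : Subgroup G) (by rw [card_syl7 h P])
      have hle : normalizer ((P : Subgroup G) : Set G) ≤ centralizer ({x} : Set G) := by
        intro a ha
        rw [Subgroup.mem_centralizer_singleton_iff]
        have := congrArg Subtype.val (hcomm.is_comm.comm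
          (⟨a, ha⟩ : normalizer ((P : Subgroup G) : Set G)) ⟨x, Subgroup.le_normalizer hx⟩)
        exact this
      have h2 := Subgroup.card_le_of_le hle
      rw [card_norm7 h P, c7 h x hxo, Nat.card_zpowers, hxo] at h2
      omega
  · intro M M' hM hM' hc hc'
    obtain ⟨P, rfl⟩ := coatom_21 h M hM hc
    obtain ⟨P', rfl⟩ := coatom_21 h M' hM' hc'
    obtain ⟨g, hg⟩ := MulAction.exists_smul_eq G P P'
    refine ⟨g, ?_⟩
    rw [Subgroup.map_equiv_normalizer_eq, ← hg]
    rfl
  · let T : Sylow 2 G := default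
    obtain ⟨U₁, U₂, hne, h1, h2, k1, k2, hall⟩ := klein_T h T
    refine ⟨normalizer (U₁ : Set G), normalizer (U₂ : Set G),
      coatom_of_card24 h (card_norm_klein h k1), coatom_of_card24 h (card_norm_klein h k2),
      norm_klein_iso h k1, norm_klein_iso h k2, ?_, ?_⟩
    · intro g he
      rw [Subgroup.map_equiv_normalizer_eq] at he
      have h3 := norm_inj h k2 (klein_conj k1 g) he
      exact not_conj_klein h T h1 h2 k1 k2 hne g h3.symm
    · intro M hM hiso
      rcases coatom_cases h M hM with ⟨U, hK, rfl⟩ | ⟨P, rfl⟩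
      · -- `U` lies in a conjugate of `T`
        have hUp : IsPGroup 2 U := IsPGroup.of_card (n := 2) (by rw [hK.card_four]; norm_num)
        obtain ⟨S, hS⟩ := hUp.exists_le_sylow
        obtain ⟨g, hg⟩ := MulAction.exists_smul_eq G S T
        -- conjugate `U` into `T`
        have hUT : U.map (MulAut.conj g).toMonoidHom ≤ (T : Subgroup G) := by
          rw [← hg]
          rintro _ ⟨u, hu, rfl⟩
          rw [Sylow.coe_subgroup_smul, Subgroup.mem_smul_pointwise_iff_exists]
          exact ⟨u, hS hu, rfl⟩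
        refine ⟨g⁻¹, ?_⟩
        have hinv : (U.map (MulAut.conj g).toMonoidHom).map (MulAut.conj g⁻¹).toMonoidHom = U := by
          ext a
          constructor
          · rintro ⟨_, ⟨u, hu, rfl⟩, rfl⟩
            have e : (MulAut.conj g⁻¹).toMonoidHom ((MulAut.conj g).toMonoidHom u) = u := by
              simp [MulAut.conj_apply]; group
            rw [e]
            exact hu
          · intro ha
            refine ⟨_, ⟨a, ha, rfl⟩, ?_⟩
            simp [MulAut.conj_apply]
            group
        rcases hall _ hUT (klein_conj hK g) with h3 | h3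
        · left
          rw [Subgroup.map_equiv_normalizer_eq, ← h3, hinv]
        · right
          rw [Subgroup.map_equiv_normalizer_eq, ← h3, hinv]
      · exfalso
        obtain ⟨e⟩ := hiso
        have h3 := Nat.card_congr e.toEquiv
        rw [card_norm7 h P, Nat.card_perm, Nat.card_fin] at h3
        revert h3
        decide

end CfsgLib.G168
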