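import Mathlib
import Cfsg.Agent.Lib.H3.FrobSpec

/-!
The generalized dihedral group of `(Z/p)³` acting on `F_p^m ⊕ F_p^{m+1}`, with trivial
centralizer in the projective special linear group.
-/

set_option autoImplicit false

namespace CfsgLib.GenDih

open Matrix
open CfsgLib.FrobSpec

variable {p : ℕ} [Fact p.Prime]

/-- Vectors. -/
abbrev V (p : ℕ) := Fin 3 → ZMod p

/-- Generalized dihedral group. -/
abbrev GD (p : ℕ) := Aff (V p) ℤˣ

/-- A sign in the field. -/
def cc (ε : ℤˣ) : ZMod p := (((ε : ℤˣ) : ℤ) : ZMod p)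

theorem cc_mul (a b : ℤˣ) : (cc (a * b) : ZMod p) = cc a * cc b := by
  simp [cc]

theorem cc_one : (cc 1 : ZMod p) = 1 := by simp [cc]

theorem cc_neg : (cc (-1) : ZMod p) = -1 := by simp [cc]

theorem cc_sq (a : ℤˣ) : (cc a : ZMod p) * cc a = 1 := by
  rcases Int.units_eq_one_or a with rfl | rfl
  · simp [cc]
  · simp [cc]

/-- The linear map from the first to the second summand. -/
def NN (m : ℕ) (v : V p) : Matrix (Fin (m + 1)) (Fin m) (ZMod p) := Matrix.of fun i j =>
  v 0 * (if i.val = j.val then 1 else 0) + v 1 * (if i.val = j.val + 1 then 1 else 0) +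
    v 2 * (if i.val = j.val + 2 then 1 else 0)

theorem NN_add (m : ℕ) (v w : V p) : NN m (v + w) = NN m v + NN m w := by
  ext i j
  simp only [NN, Matrix.of_apply, Matrix.add_apply, Pi.add_apply]
  ring

theorem NN_smul (m : ℕ) (a : ℤˣ) (v : V p) : NN m (a • v) = (cc a : ZMod p) • NN m v := by
  rcases Int.units_eq_one_or a with rfl | rfl
  · simp [cc]
  · ext i j
    simp only [NN, Matrix.of_apply, Matrix.smul_apply, Units.neg_smul, one_smul, Pi.neg_apply, cc_neg, smul_eq_mul]
    ring

theorem NN_zero (m : ℕ) : (NN m (0 : V p)) = 0 := by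
  ext i j
  simp [NN]

/-- The matrix of a group element. -/
def MM (m : ℕ) (h : GD p) : Matrix (Fin m ⊕ Fin (m + 1)) (Fin m ⊕ Fin (m + 1)) (ZMod p) :=
  fromBlocks 1 0 (NN m h.v) ((cc h.q : ZMod p) • 1)

theorem MM_mul (m : ℕ) (x y : GD p) : MM m (x * y) = MM m x * MM m y := by
  simp only [MM, fromBlocks_multiply, mul_v, mul_q, NN_add, NN_smul, cc_mul]
  congr 1
  · simp
  · simp
  · simp [Matrix.mul_one, Matrix.one_mul, Matrix.smul_mul, smul_smul]
  · simp [Matrix.mul_one, Matrix.one_mul, Matrix.smul_mul, smul_smul, mul_comm]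

theorem MM_one (m : ℕ) : MM m (1 : GD p) = 1 := by
  simp only [MM, one_v, one_q, NN_zero, cc_one, one_smul, fromBlocks_one]

/-- As a monoid homomorphism. -/
def MMh (m : ℕ) : GD p →* Matrix (Fin m ⊕ Fin (m + 1)) (Fin m ⊕ Fin (m + 1)) (ZMod p) where
  toFun := MM m
  map_one' := MM_one m
  map_mul' := MM_mul m

theorem det_MM {m : ℕ} (hm : Odd m) (h : GD p) : (MM m h).det = 1 := by
  rw [MM, det_fromBlocks_zero₁₂, det_one, one_mul, det_smul, det_one, mul_one, Fintype.card_fin]
  obtain ⟨k, rfl⟩ := hm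
  rw [show 2 * k + 1 + 1 = 2 * (k + 1) by ring, pow_mul, pow_two, cc_sq, one_pow]

/-- The scalar conjugation relation is iterated. -/
theorem conj_pow_rel {ι : Type*} [Fintype ι] [DecidableEq ι] (g X : Matrix ι ι (ZMod p)) (c : ZMod p)
    (h : g * X = c • (X * g)) (k : ℕ) : g * X ^ k = c ^ k • (X ^ k * g) := by
  induction k with
  | zero => simp
  | succ k ih =>
    rw [pow_succ, ← Matrix.mul_assoc, ih, Matrix.smul_mul, Matrix.mul_assoc, h, Matrix.mul_smul,
      smul_smul, pow_succ, Matrix.mul_assoc]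

theorem pow_unip (m : ℕ) (v : V p) : (MM m (⟨v, 1⟩ : GD p)) ^ p = 1 := by
  have h1 : (⟨v, 1⟩ : GD p) ^ p = 1 := by
    apply Aff.ext'
    · rw [pow_v]
      simp only [one_pow, one_smul, Finset.sum_const, Finset.card_range]
      funext i
      simp
    · rw [pow_q]
      simp
  have := map_pow (MMh (p := p) m) (⟨v, 1⟩ : GD p) p
  rw [h1, map_one] at this
  exact this.symm

theorem pow_t (m : ℕ) : (MM m (⟨0, -1⟩ : GD p)) ^ 2 = 1 := by
  have h1 : (⟨0, -1⟩ : GD p) ^ 2 = 1 := by
    apply Aff.ext'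
    · rw [pow_v]
      simp
    · rw [pow_q]
      simp
  have := map_pow (MMh (p := p) m) (⟨0, -1⟩ : GD p) 2
  rw [h1, map_one] at this
  exact this.symm

theorem two_ne (hp : p ≠ 2) : (2 : ZMod p) ≠ 0 := by
  intro h
  have h1 : ((2 : ℕ) : ZMod p) = 0 := by exact_mod_cast h
  rw [ZMod.natCast_eq_zero_iff] at h1
  have hpp : p.Prime := Fact.out
  exact hp ((Nat.prime_dvd_prime_iff_eq hpp Nat.prime_two).1 h1)

theorem comm_unip {ι : Type*} [Fintype ι] [DecidableEq ι] {g X : Matrix ι ι (ZMod p)} (hg0 : g ≠ 0)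
    (hX : X ^ p = 1) (hc : ∃ c : ZMod p, g * X = c • (X * g)) : g * X = X * g := by
  obtain ⟨c, hc⟩ := hc
  have h1 := conj_pow_rel g X c hc p
  rw [hX, ZMod.pow_card, Matrix.mul_one, Matrix.one_mul] at h1
  have h2 : (c - 1) • g = 0 := by
    rw [sub_smul, one_smul, ← h1, sub_self]
  rcases smul_eq_zero.1 h2 with h3 | h3
  · have : c = 1 := sub_eq_zero.1 h3
    rw [hc, this, one_smul]
  · exact absurd h3 hg0

theorem comm_t (hp : p ≠ 2) {m : ℕ} {g : Matrix (Fin m ⊕ Fin (m + 1)) (Fin m ⊕ Fin (m + 1)) (ZMod p)}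
    (hu : IsUnit g.det)
    (hc : ∃ c : ZMod p, g * MM m (⟨0, -1⟩ : GD p) = c • (MM m (⟨0, -1⟩ : GD p) * g)) :
    g * MM m (⟨0, -1⟩ : GD p) = MM m (⟨0, -1⟩ : GD p) * g := by
  obtain ⟨c, hc⟩ := hc
  set X := MM m (⟨0, -1⟩ : GD p) with hX
  have hinv : g⁻¹ * g = 1 := Matrix.nonsing_inv_mul g hu
  have hinv' : g * g⁻¹ = 1 := Matrix.mul_nonsing_inv g hu
  have hg0 : g ≠ 0 := by
    rintro rfl
    have h3 := congrFun (congrFun hinv (Sum.inr 0)) (Sum.inr 0)
    simp at h3
  have h1 := conj_pow_rel g X c hc 2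
  rw [hX, pow_t, Matrix.mul_one, Matrix.one_mul] at h1
  have h2 : (c ^ 2 - 1) • g = 0 := by
    rw [sub_smul, one_smul, ← h1, sub_self]
  have hc2 : c ^ 2 = 1 := by
    rcases smul_eq_zero.1 h2 with h3 | h3
    · exact sub_eq_zero.1 h3
    · exact absurd h3 hg0
  have hc3 : c = 1 ∨ c = -1 := by
    have h3 : (c - 1) * (c + 1) = 0 := by linear_combination hc2
    rcases mul_eq_zero.1 h3 with h4 | h4
    · exact Or.inl (sub_eq_zero.1 h4)
    · exact Or.inr (eq_neg_of_add_eq_zero_left h4)
  rcases hc3 with rfl | rfl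
  · rw [hc, one_smul]
  · exfalso
    have htr : X.trace = -1 := by
      rw [hX, MM]
      simp only [Matrix.trace, Fintype.sum_sum_type, Matrix.diag_apply, fromBlocks_apply₁₁, fromBlocks_apply₂₂, Matrix.smul_apply, Matrix.one_apply_eq, smul_eq_mul, mul_one, cc_neg, Finset.sum_const, Finset.card_univ, Fintype.card_fin, nsmul_eq_mul, Nat.cast_add, Nat.cast_one]
      ring
    have h4 : X = -(g⁻¹ * (X * g)) := by
      have : g⁻¹ * (g * X) = g⁻¹ * ((-1 : ZMod p) • (X * g)) := by rw [hc]
      rw [← Matrix.mul_assoc, hinv, Matrix.one_mul, Matrix.mul_smul] at this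
      rw [neg_smul, one_smul] at this
      exact this
    have h5 := congrArg Matrix.trace h4
    rw [trace_neg, Matrix.trace_mul_comm, Matrix.mul_assoc, hinv', Matrix.mul_one, htr] at h5
    apply two_ne (p := p) hp
    linear_combination -h5

/-- The combinatorial core: the commutation relations force scalars. -/
theorem comb {F : Type*} [Field F] (m : ℕ) (hm : 1 ≤ m) (P' S' : ℕ → ℕ → F)
    (hP : ∀ a b, m ≤ a ∨ m ≤ b → P' a b = 0)
    (E1 : ∀ a b, a ≤ m → b < m → S' a b = P' a b)
    (E2a : ∀ b, b < m → S' 0 (b + 1) = 0)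
    (E2b : ∀ a b, a < m → b < m → S' (a + 1) (b + 1) = P' a b) :
    (∀ a b, a < m → b < m → P' a b = if a = b then P' 0 0 else 0) ∧
    (∀ a b, a ≤ m → b ≤ m → S' a b = if a = b then P' 0 0 else 0) := by
  have ha : ∀ b, b + 1 < m → P' 0 (b + 1) = 0 := by
    intro b hb
    rw [← E1 0 (b + 1) (by omega) hb]
    exact E2a b (by omega)
  have hb : ∀ a b, a < m → b + 1 < m → P' (a + 1) (b + 1) = P' a b := by
    intro a b h1 h2
    rw [← E1 (a + 1) (b + 1) (by omega) h2]
    exact E2b a b h1 (by omega)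
  have hup : ∀ a b, a < b → b < m → P' a b = 0 := by
    intro a
    induction a with
    | zero =>
      intro b h1 h2
      obtain ⟨c, rfl⟩ : ∃ c, b = c + 1 := ⟨b - 1, by omega⟩
      exact ha c h2
    | succ a ih =>
      intro b h1 h2
      obtain ⟨c, rfl⟩ : ∃ c, b = c + 1 := ⟨b - 1, by omega⟩
      rw [hb a c (by omega) h2]
      exact ih c (by omega) (by omega)
  have hlo : ∀ k a b, a + k = m → b < a → P' a b = 0 := by
    intro k
    induction k with
    | zero =>
      intro a b h1 h2
      exact hP a b (Or.inl (by omega))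
    | succ k ih =>
      intro a b h1 h2
      rw [← hb a b (by omega) (by omega)]
      exact ih (a + 1) (b + 1) (by omega) (by omega)
  have hdiag : ∀ a, a < m → P' a a = P' 0 0 := by
    intro a
    induction a with
    | zero => intro _; rfl
    | succ a ih =>
      intro h
      rw [hb a a (by omega) h]
      exact ih (by omega)
  have hPf : ∀ a b, a < m → b < m → P' a b = if a = b then P' 0 0 else 0 := by
    intro a b h1 h2
    by_cases hab : a = b
    · subst hab
      rw [if_pos rfl]
      exact hdiag a h1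
    · rw [if_neg hab]
      rcases Nat.lt_or_gt_of_ne hab with h | h
      · exact hup a b h h2
      · exact hlo (m - a) a b (by omega) h
  refine ⟨hPf, ?_⟩
  intro a b h1 h2
  by_cases hbm : b < m
  · rw [E1 a b h1 hbm]
    by_cases ham : a < m
    · exact hPf a b ham hbm
    · rw [hP a b (Or.inl (by omega)), if_neg (by omega)]
  · have hbm' : b = m := by omega
    subst hbm'
    obtain ⟨c, hc⟩ : ∃ c, b = c + 1 := ⟨b - 1, by omega⟩
    rw [hc]
    rcases Nat.eq_zero_or_pos a with h0 | h0
    · subst h0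
      rw [E2a c (by omega), if_neg (by omega)]
    · obtain ⟨d, rfl⟩ : ∃ d, a = d + 1 := ⟨a - 1, by omega⟩
      rw [E2b d c (by omega) (by omega), hPf d c (by omega) (by omega)]
      simp

theorem NN_e0 (m : ℕ) (i : Fin (m + 1)) (j : Fin m) :
    (NN m (![1, 0, 0] : V p)) i j = if i.val = j.val then 1 else 0 := by
  simp [NN]

theorem NN_e1 (m : ℕ) (i : Fin (m + 1)) (j : Fin m) :
    (NN m (![0, 1, 0] : V p)) i j = if i.val = j.val + 1 then 1 else 0 := by
  simp [NN]

/-- The key fact: a matrix commuting projectively with the group is scalar. -/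
theorem key (hp : p ≠ 2) {m : ℕ} (hm : 1 ≤ m)
    (g : Matrix (Fin m ⊕ Fin (m + 1)) (Fin m ⊕ Fin (m + 1)) (ZMod p)) (hu : IsUnit g.det)
    (hc : ∀ h : GD p, ∃ c : ZMod p, g * MM m h = c • (MM m h * g)) :
    ∃ l : ZMod p, g = l • 1 := by
  have hg0 : g ≠ 0 := by
    rintro rfl
    have hinv := Matrix.nonsing_inv_mul (0 : Matrix (Fin m ⊕ Fin (m + 1)) (Fin m ⊕ Fin (m + 1)) (ZMod p)) hu
    have h3 := congrFun (congrFun hinv (Sum.inr 0)) (Sum.inr 0)
    simp at h3
  have ht := comm_t hp hu (hc ⟨0, -1⟩)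
  have hv : ∀ v : V p, g * MM m (⟨v, 1⟩ : GD p) = MM m (⟨v, 1⟩ : GD p) * g := fun v =>
    comm_unip hg0 (pow_unip m v) (hc ⟨v, 1⟩)
  set P := g.toBlocks₁₁ with hPd
  set Q := g.toBlocks₁₂ with hQd
  set R := g.toBlocks₂₁ with hRd
  set S := g.toBlocks₂₂ with hSd
  have hg : g = fromBlocks P Q R S := (fromBlocks_toBlocks g).symm
  have hQ : Q = 0 := by
    rw [hg] at ht
    simp only [MM, fromBlocks_multiply, NN_zero, cc_neg] at ht
    have h1 := (fromBlocks_inj.1 ht).2.1
    simp only [Matrix.mul_zero, Matrix.zero_mul, add_zero, zero_add, Matrix.mul_smul, Matrix.mul_one, Matrix.one_mul, neg_smul, one_smul, Matrix.mul_neg, Matrix.neg_mul, mul_one, one_mul] at h1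
    ext i j
    have h2 := congrFun (congrFun h1 i) j
    simp only [Matrix.neg_apply, Matrix.zero_apply] at h2 ⊢
    have h3 : (2 : ZMod p) * Q i j = 0 := by linear_combination -h2
    exact (mul_eq_zero.1 h3).resolve_left (two_ne hp)
  have hR : R = 0 := by
    rw [hg] at ht
    simp only [MM, fromBlocks_multiply, NN_zero, cc_neg] at ht
    have h1 := (fromBlocks_inj.1 ht).2.2.1
    simp only [Matrix.mul_zero, Matrix.zero_mul, add_zero, zero_add, Matrix.smul_mul, Matrix.mul_one, Matrix.one_mul, neg_smul, one_smul, Matrix.mul_neg, Matrix.neg_mul, mul_one, one_mul] at h1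
    ext i j
    have h2 := congrFun (congrFun h1 i) j
    simp only [Matrix.neg_apply, Matrix.zero_apply] at h2 ⊢
    have h3 : (2 : ZMod p) * R i j = 0 := by linear_combination h2
    exact (mul_eq_zero.1 h3).resolve_left (two_ne hp)
  have hN : ∀ v : V p, S * NN m v = NN m v * P := by
    intro v
    have h := hv v
    rw [hg, hQ, hR] at h
    simp only [MM, fromBlocks_multiply, cc_one, one_smul] at h
    have h1 := (fromBlocks_inj.1 h).2.2.1
    simpa using h1
  let P' : ℕ → ℕ → ZMod p := fun a b => if h : a < m ∧ b < m then P ⟨a, h.1⟩ ⟨b, h.2⟩ else 0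
  let S' : ℕ → ℕ → ZMod p := fun a b => if h : a < m + 1 ∧ b < m + 1 then S ⟨a, h.1⟩ ⟨b, h.2⟩ else 0
  have hP'v : ∀ (i j : Fin m), P' i.val j.val = P i j := by
    intro i j
    show (if h : i.val < m ∧ j.val < m then P ⟨i.val, h.1⟩ ⟨j.val, h.2⟩ else 0) = _
    rw [dif_pos ⟨i.2, j.2⟩]
  have hS'v : ∀ (i j : Fin (m + 1)), S' i.val j.val = S i j := by
    intro i j
    show (if h : i.val < m + 1 ∧ j.val < m + 1 then S ⟨i.val, h.1⟩ ⟨j.val, h.2⟩ else 0) = _
    rw [dif_pos ⟨i.2, j.2⟩]
  have e1 : ∀ (i : Fin (m + 1)) (j : Fin m), S i j.castSucc = P' i.val j.val := by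
    intro i j
    have h := congrFun (congrFun (hN ![1, 0, 0]) i) j
    simp only [Matrix.mul_apply, NN_e0] at h
    rw [Finset.sum_eq_single j.castSucc (fun k _ hk => by
      rw [if_neg (fun h' => hk (Fin.ext (by simpa using h'))), mul_zero])
      (fun h' => absurd (Finset.mem_univ _) h')] at h
    rw [if_pos (by simp), mul_one] at h
    rw [h]
    by_cases hi : i.val < m
    · rw [Finset.sum_eq_single (⟨i.val, hi⟩ : Fin m) (fun k _ hk => by
        rw [if_neg (fun h' => hk (Fin.ext h'.symm)), zero_mul])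
        (fun h' => absurd (Finset.mem_univ _) h')]
      rw [if_pos rfl, one_mul]
      exact (hP'v ⟨i.val, hi⟩ j).symm
    · rw [Finset.sum_eq_zero (fun k _ => by
        rw [if_neg (fun h' => hi (by rw [h']; exact k.2)), zero_mul])]
      show (0 : ZMod p) = if h : i.val < m ∧ j.val < m then P ⟨i.val, h.1⟩ ⟨j.val, h.2⟩ else 0
      rw [dif_neg (fun h' => hi h'.1)]
  have e2 : ∀ (i : Fin (m + 1)) (j : Fin m), S i j.succ = if i.val = 0 then 0 else P' (i.val - 1) j.val := by
    intro i j
    have h := congrFun (congrFun (hN ![0, 1, 0]) i) j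
    simp only [Matrix.mul_apply, NN_e1] at h
    rw [Finset.sum_eq_single j.succ (fun k _ hk => by
      rw [if_neg (fun h' => hk (Fin.ext (by simpa using h'))), mul_zero])
      (fun h' => absurd (Finset.mem_univ _) h')] at h
    rw [if_pos (by simp), mul_one] at h
    rw [h]
    by_cases hi : i.val = 0
    · rw [if_pos hi, Finset.sum_eq_zero (fun k _ => by
        rw [if_neg (by omega), zero_mul])]
    · rw [if_neg hi]
      have hi' : i.val - 1 < m := by have := i.2; omega
      rw [Finset.sum_eq_single (⟨i.val - 1, hi'⟩ : Fin m) (fun k _ hk => by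
        rw [if_neg (fun h' => hk (Fin.ext (by simp; omega))), zero_mul])
        (fun h' => absurd (Finset.mem_univ _) h')]
      rw [if_pos (by simp; omega), one_mul]
      exact (hP'v ⟨i.val - 1, hi'⟩ j).symm
  obtain ⟨h1, h2⟩ := comb m hm P' S'
    (by
      intro a b h
      simp only [P']
      rw [dif_neg]
      omega)
    (by
      intro a b ha hb
      have h3 := e1 ⟨a, by omega⟩ ⟨b, hb⟩
      have h4 := hS'v ⟨a, by omega⟩ (Fin.castSucc ⟨b, hb⟩)
      exact h4.trans h3)
    (by
      intro b hb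
      have h3 := e2 0 ⟨b, hb⟩
      simp only [Fin.val_zero, if_true] at h3
      have h4 := hS'v 0 (Fin.succ ⟨b, hb⟩)
      exact h4.trans h3)
    (by
      intro a b ha hb
      have h3 := e2 ⟨a + 1, by omega⟩ ⟨b, hb⟩
      simp only [Nat.add_eq_zero_iff, one_ne_zero, and_false, if_false, Nat.add_sub_cancel] at h3
      have h4 := hS'v ⟨a + 1, by omega⟩ (Fin.succ ⟨b, hb⟩)
      exact h4.trans h3)
  refine ⟨P' 0 0, ?_⟩
  rw [hg, hQ, hR]
  ext i j
  rcases i with i | i <;> rcases j with j | j
  · have h3 := h1 i.val j.val i.2 j.2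
    rw [hP'v] at h3
    by_cases hij : i = j
    · subst hij
      simp [h3]
    · have h4 : i.val ≠ j.val := fun h => hij (Fin.ext h)
      simp [h3, h4, hij]
  · simp
  · simp
  · have h3 := h2 i.val j.val (by have := i.2; omega) (by have := j.2; omega)
    rw [hS'v] at h3
    by_cases hij : i = j
    · subst hij
      simp [h3]
    · have h4 : i.val ≠ j.val := fun h => hij (Fin.ext h)
      simp [h3, h4, hij]

/-- The special linear representation on `Fin (m + (m + 1))`. -/
def MF (m : ℕ) (hm : Odd m) : GD p →* Matrix.SpecialLinearGroup (Fin (m + (m + 1))) (ZMod p) where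
  toFun h := ⟨(MM m h).submatrix finSumFinEquiv.symm finSumFinEquiv.symm, by
    rw [det_submatrix_equiv_self, det_MM hm]⟩
  map_one' := by
    apply Subtype.ext
    show (MM m (1 : GD p)).submatrix finSumFinEquiv.symm finSumFinEquiv.symm = 1
    rw [MM_one, submatrix_one_equiv]
  map_mul' x y := by
    apply Subtype.ext
    show (MM m (x * y)).submatrix finSumFinEquiv.symm finSumFinEquiv.symm =
      (MM m x).submatrix finSumFinEquiv.symm finSumFinEquiv.symm *
        (MM m y).submatrix finSumFinEquiv.symm finSumFinEquiv.symm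
    rw [MM_mul, submatrix_mul_equiv]

theorem MF_val (m : ℕ) (hm : Odd m) (h : GD p) :
    ((MF m hm h : Matrix.SpecialLinearGroup (Fin (m + (m + 1))) (ZMod p)) : Matrix _ _ (ZMod p)) =
      (MM m h).submatrix finSumFinEquiv.symm finSumFinEquiv.symm := rfl

theorem card_GD : Nat.card (GD p) = 2 * p ^ 3 := by
  rw [Nat.card_congr affEquiv, Nat.card_prod, Nat.card_fun, Nat.card_zmod, Nat.card_eq_fintype_card (α := Fin 3),
    Fintype.card_fin, Nat.card_eq_fintype_card (α := ℤˣ), Fintype.card_units_int, mul_comm]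

/-- The final statement. -/
theorem main (hp : p ≠ 2) (N : ℕ) : ∃ n, N ≤ n ∧
    ∃ φ : GD p →* Matrix.ProjectiveSpecialLinearGroup (Fin n) (ZMod p),
      Function.Injective φ ∧
        Subgroup.centralizer (φ.range : Set (Matrix.ProjectiveSpecialLinearGroup (Fin n) (ZMod p))) = ⊥ := by
  classical
  set m := 2 * N + 3 with hmd
  have hm : Odd m := ⟨N + 1, by omega⟩
  refine ⟨m + (m + 1), by omega, (QuotientGroup.mk' _).comp (MF m hm), ?_, ?_⟩
  · rw [injective_iff_map_eq_one]
    intro h hh
    have h1 : MF m hm h ∈ Subgroup.center (Matrix.SpecialLinearGroup (Fin (m + (m + 1))) (ZMod p)) :=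
      (QuotientGroup.eq_one_iff _).1 hh
    obtain ⟨r, -, hr2⟩ := Matrix.SpecialLinearGroup.mem_center_iff.mp h1
    have hM : MM m h = r • 1 := by
      ext a b
      have h2 := congrFun (congrFun hr2 (finSumFinEquiv a)) (finSumFinEquiv b)
      rw [MF_val] at h2
      simp only [submatrix_apply, Equiv.symm_apply_apply] at h2
      rw [← h2]
      simp [Matrix.scalar_apply, Matrix.diagonal_apply, Matrix.one_apply, finSumFinEquiv.injective.eq_iff]
    have h3 := congrFun (congrFun hM (Sum.inl ⟨0, by omega⟩)) (Sum.inl ⟨0, by omega⟩)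
    simp [MM] at h3
    have hr : r = 1 := h3.symm
    subst hr
    have h4 := congrFun (congrFun hM (Sum.inr 0)) (Sum.inr 0)
    simp [MM] at h4
    have hv : ∀ (i : Fin (m + 1)), NN m h.v i ⟨0, by omega⟩ = 0 := by
      intro i
      have h5 := congrFun (congrFun hM (Sum.inr i)) (Sum.inl ⟨0, by omega⟩)
      simpa [MM] using h5
    have hv' : ∀ (i : ℕ) (hi : i < m + 1), h.v 0 * (if i = 0 then 1 else 0) + h.v 1 * (if i = 1 then 1 else 0) +
        h.v 2 * (if i = 2 then 1 else 0) = 0 := fun i hi => hv ⟨i, hi⟩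
    have hv0 := hv' 0 (by omega)
    have hv1 := hv' 1 (by omega)
    have hv2 := hv' 2 (by omega)
    simp at hv0 hv1 hv2
    apply Aff.ext'
    · show h.v = 0
      funext i
      fin_cases i
      · exact hv0
      · exact hv1
      · exact hv2
    · rcases Int.units_eq_one_or h.q with h5 | h5
      · exact h5
      · exfalso
        rw [h5, cc_neg] at h4
        apply two_ne (p := p) hp
        linear_combination -h4
  · rw [eq_bot_iff]
    intro x hx
    rw [Subgroup.mem_bot]
    obtain ⟨g, rfl⟩ := QuotientGroup.mk'_surjective _ x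
    have hc : ∀ h : GD p, ∃ c : ZMod p, g.1.submatrix finSumFinEquiv finSumFinEquiv * MM m h =
        c • (MM m h * g.1.submatrix finSumFinEquiv finSumFinEquiv) := by
      intro h
      have h1 := Subgroup.mem_centralizer_iff.1 hx _ (MonoidHom.mem_range.2 ⟨h, rfl⟩)
      have h2 : ((QuotientGroup.mk' (Subgroup.center (Matrix.SpecialLinearGroup (Fin (m + (m + 1))) (ZMod p)))) (MF m hm h * g)) =
          (QuotientGroup.mk' _) (g * MF m hm h) := by
        rw [map_mul, map_mul]
        exact h1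
      have h3 : (MF m hm h * g)⁻¹ * (g * MF m hm h) ∈ Subgroup.center (Matrix.SpecialLinearGroup (Fin (m + (m + 1))) (ZMod p)) :=
        QuotientGroup.eq.1 h2
      obtain ⟨z, hzmem, hz⟩ : ∃ z ∈ Subgroup.center (Matrix.SpecialLinearGroup (Fin (m + (m + 1))) (ZMod p)),
          g * MF m hm h = (MF m hm h * g) * z := ⟨_, h3, by group⟩
      obtain ⟨r, -, hr2⟩ := Matrix.SpecialLinearGroup.mem_center_iff.mp hzmem
      refine ⟨r, ?_⟩
      have h5 := congrArg Subtype.val hz
      have h6 : g.1 * (MF m hm h).1 = r • ((MF m hm h).1 * g.1) := by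
        have h8 : z.1 = r • 1 := by
          rw [← hr2]
          ext i j
          simp [Matrix.scalar_apply, Matrix.diagonal_apply, Matrix.one_apply]
        have h9 : (g * MF m hm h).1 = g.1 * (MF m hm h).1 := rfl
        have h10 : (MF m hm h * g * z).1 = (MF m hm h).1 * g.1 * z.1 := rfl
        rw [h9, h10, h8] at h5
        rw [h5]
        simp
      have hF : (MF m hm h).1.submatrix finSumFinEquiv finSumFinEquiv = MM m h := by
        rw [MF_val]
        ext a b
        simp
      rw [← hF, submatrix_mul_equiv, submatrix_mul_equiv, h6]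
      ext i j
      simp
    have hdet : IsUnit (g.1.submatrix finSumFinEquiv finSumFinEquiv).det := by
      rw [det_submatrix_equiv_self, g.2]
      exact isUnit_one
    obtain ⟨l, hl⟩ := key hp (by omega) _ hdet hc
    have hg : g.1 = l • 1 := by
      ext i j
      have h2 := congrFun (congrFun hl (finSumFinEquiv.symm i)) (finSumFinEquiv.symm j)
      simpa [Matrix.one_apply, finSumFinEquiv.symm.injective.eq_iff] using h2
    have hcen : g ∈ Subgroup.center (Matrix.SpecialLinearGroup (Fin (m + (m + 1))) (ZMod p)) := by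
      rw [Subgroup.mem_center_iff]
      intro y
      apply Subtype.ext
      simp only [Matrix.SpecialLinearGroup.coe_mul, hg]
      simp
    exact (QuotientGroup.eq_one_iff _).2 hcen

end CfsgLib.GenDih
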