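import Cfsg.Prelude.Def_TwoFusion
import Cfsg.Agent.Lib.Invol.Isolated

/-! Isolated involutions with the `Cfsg.IsIsolatedInvolution` definition. -/

namespace CfsgLib.IsoInv

open CfsgLib.Invol

variable {G : Type*} [Group G]

lemma orderOf_conj (g x : G) : orderOf (g * x * g⁻¹) = orderOf x := by
  have := (MulAut.conj g).orderOf_eq x
  rw [MulAut.conj_apply] at this
  exact this

lemma isolated_conj {z : G} (hz : Cfsg.IsIsolatedInvolution z) (g : G) :
    Cfsg.IsIsolatedInvolution (g * z * g⁻¹) := by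
  refine ⟨by rw [orderOf_conj]; exact hz.1, fun h hc => ?_⟩
  have hc' : Commute z ((g⁻¹ * h * g) * z * (g⁻¹ * h * g)⁻¹) := by
    have := hc.eq
    refine (show z * _ = _ * z from ?_)
    have h1 : g⁻¹ * (g * z * g⁻¹ * (h * (g * z * g⁻¹) * h⁻¹)) * g
        = g⁻¹ * (h * (g * z * g⁻¹) * h⁻¹ * (g * z * g⁻¹)) * g := by rw [this]
    calc z * (g⁻¹ * h * g * z * (g⁻¹ * h * g)⁻¹)
        = g⁻¹ * (g * z * g⁻¹ * (h * (g * z * g⁻¹) * h⁻¹)) * g := by group
      _ = g⁻¹ * (h * (g * z * g⁻¹) * h⁻¹ * (g * z * g⁻¹)) * g := h1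
      _ = _ := by group
  have h2 := hz.2 _ hc'
  calc h * (g * z * g⁻¹) * h⁻¹ = g * ((g⁻¹ * h * g) * z * (g⁻¹ * h * g)⁻¹) * g⁻¹ := by group
    _ = g * z * g⁻¹ := by rw [h2]

section
variable [Finite G]

/-- the product with a conjugate has odd order. -/
lemma odd_mul_conj {z : G} (hz : Cfsg.IsIsolatedInvolution z) (g : G) :
    Odd (orderOf (z * (g * z * g⁻¹))) := by
  by_contra hodd
  set d := g * z * g⁻¹ with hd
  have hu := hz.1
  have hv : orderOf d = 2 := by rw [hd, orderOf_conj]; exact hu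
  have hconj : IsConj z d := isConj_iff.2 ⟨g, rfl⟩
  have heven : Even (orderOf (z * d)) := Nat.not_odd_iff_even.1 hodd
  obtain ⟨hw, hwu, hwv⟩ := z_props hu hv heven
  set w := (z * d) ^ (orderOf (z * d) / 2) with hwdef
  obtain ⟨c, hc⟩ : ∃ c : G, c * z * c⁻¹ = z * w := by
    by_cases h4 : 4 ∣ orderOf (z * d)
    · obtain ⟨c, _, hc⟩ := (conj_xz_iff hu hv heven).2 h4
      exact ⟨c, hc⟩
    · have h2 : orderOf (z * d) % 4 = 2 := by
        have := heven.two_dvd
        omega
      obtain ⟨c, _, hc⟩ := conj_xz_of_two_mod_four hu hv h2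
      exact ⟨c * g, by rw [← hc, hd]; group⟩
  have hcomm : Commute z (c * z * c⁻¹) := by
    rw [hc]
    exact (Commute.refl z).mul_right hwu.symm
  have h5 := hz.2 c hcomm
  rw [hc] at h5
  have h6 : w = 1 := by
    have : z * w = z * 1 := by rw [h5, mul_one]
    exact mul_left_cancel this
  exact ne_one_of_order_two hw h6

end

/-- Odd-order elements with equal squares coincide. -/
lemma eq_of_sq_eq_of_odd {a b : G} (ha : Odd (orderOf a)) (hb : Odd (orderOf b))
    (h : a ^ 2 = b ^ 2) : a = b := by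
  have key : ∀ c : G, Odd (orderOf c) → c = (c ^ 2) ^ ((orderOf c + 1) / 2) := by
    intro c hc
    obtain ⟨m, hm⟩ := hc
    have h1 : (orderOf c + 1) / 2 = m + 1 := by omega
    rw [h1, ← pow_mul]
    have h2 : 2 * (m + 1) = orderOf c + 1 := by omega
    rw [h2, pow_succ, pow_orderOf_eq_one, one_mul]
  have hord : ∀ c : G, Odd (orderOf c) → orderOf (c ^ 2) = orderOf c := by
    intro c hc
    have := orderOf_pow' (x := c) (n := 2) (by norm_num)
    rw [this, Nat.Coprime.gcd_eq_one (by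
      exact (Nat.coprime_two_right.2 hc)), Nat.div_one]
  have h3 : orderOf a = orderOf b := by
    rw [← hord a ha, ← hord b hb, h]
  rw [key a ha, key b hb, h, h3]

lemma mem_zpowers_of_odd_sq {a : G} (ha : Odd (orderOf a)) : a ∈ Subgroup.zpowers (a ^ 2) := by
  obtain ⟨m, hm⟩ := ha
  refine Subgroup.mem_zpowers_iff.2 ⟨((m + 1 : ℕ) : ℤ), ?_⟩
  rw [zpow_natCast, ← pow_mul]
  have h2 : 2 * (m + 1) = orderOf a + 1 := by omega
  rw [h2, pow_succ, pow_orderOf_eq_one, one_mul]

variable [Finite G]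

/-- Data: if `z`, `d` are involutions, `r = d z` has odd order. The element `k = r^(m+1)`:
it has odd order, is inverted by `z`, lies in `⟨d z⟩`, and `k z k⁻¹ = d`. -/
lemma exists_k {z d : G} (hz : orderOf z = 2) (hd : orderOf d = 2)
    (hodd : Odd (orderOf (d * z))) :
    ∃ k ∈ Subgroup.zpowers (d * z), Odd (orderOf k) ∧ z * k * z⁻¹ = k⁻¹ ∧ k * z * k⁻¹ = d := by
  obtain ⟨m, hm⟩ := hodd
  set r := d * z with hr
  have hzi : z⁻¹ = z := inv_eq_of_order_two hz
  have hdi : d⁻¹ = d := inv_eq_of_order_two hd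
  have hzz : z * z = 1 := mul_self_of_order_two hz
  have hdd : d * d = 1 := mul_self_of_order_two hd
  have hinv : z * r * z⁻¹ = r⁻¹ := by
    rw [hr, hzi, mul_inv_rev, hzi, hdi, mul_assoc, mul_assoc, hzz, mul_one]
  have hinvk : ∀ n : ℕ, z * r ^ n * z⁻¹ = (r ^ n)⁻¹ := by
    intro n
    have := conj_pow (a := z) (b := r) (i := n)
    rw [← this, hinv, inv_pow]
  refine ⟨r ^ (m + 1), Subgroup.npow_mem_zpowers _ _, ?_, hinvk _, ?_⟩
  · have hgcd : Nat.gcd (orderOf r) (m + 1) = 1 := by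
      rw [hm]
      have h1 := Nat.gcd_dvd_left (2 * m + 1) (m + 1)
      have h2 := Nat.gcd_dvd_right (2 * m + 1) (m + 1)
      have h3 : Nat.gcd (2 * m + 1) (m + 1) ∣ 2 * (m + 1) := Dvd.dvd.mul_left h2 2
      have h4 := Nat.dvd_sub h3 h1
      rw [show 2 * (m + 1) - (2 * m + 1) = 1 by omega] at h4
      exact Nat.dvd_one.1 h4
    have := orderOf_pow' (x := r) (n := m + 1) (by omega)
    rw [this, hgcd, Nat.div_one]
    exact ⟨m, hm⟩
  · -- k z k⁻¹ = r^(2m+2) z
    have h0 : r ^ (m + 1) * z = z * (r ^ (m + 1))⁻¹ := by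
      have h1 := hinvk (m + 1)
      rw [hzi] at h1
      rw [← h1]
      calc r ^ (m + 1) * z = (z * z) * r ^ (m + 1) * z := by rw [hzz, one_mul]
        _ = _ := by group
    have h2 : r ^ (m + 1) * r ^ (m + 1) = r := by
      rw [← pow_add]
      have h3 : m + 1 + (m + 1) = orderOf r + 1 := by omega
      rw [h3, pow_succ, pow_orderOf_eq_one, one_mul]
    calc r ^ (m + 1) * z * (r ^ (m + 1))⁻¹
        = r ^ (m + 1) * (z * (r ^ (m + 1))⁻¹) := by group
      _ = r ^ (m + 1) * (r ^ (m + 1) * z) := by rw [h0]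
      _ = (r ^ (m + 1) * r ^ (m + 1)) * z := by group
      _ = r * z := by rw [h2]
      _ = d := by rw [hr, mul_assoc, hzz, mul_one]

/-- Main structural lemma: for a conjugate `d` of the isolated `z`, there is `k ∈ ⟨d z⟩`,
odd, inverted by `z`, conjugating `z` to `d`. -/
lemma exists_k_conj {z : G} (hz : Cfsg.IsIsolatedInvolution z) (g : G) :
    ∃ k ∈ Subgroup.zpowers (g * z * g⁻¹ * z), Odd (orderOf k) ∧ z * k * z⁻¹ = k⁻¹ ∧
      k * z * k⁻¹ = g * z * g⁻¹ := by
  apply exists_k hz.1 (by rw [orderOf_conj]; exact hz.1)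
  have := odd_mul_conj hz g
  rwa [orderOf_mul_comm'] at this

/-- Uniqueness: an odd-order element inverted by `z` is determined by `k z k⁻¹`. -/
lemma k_unique {z k k' : G} (hz : orderOf z = 2) (hk : Odd (orderOf k)) (hk' : Odd (orderOf k'))
    (hi : z * k * z⁻¹ = k⁻¹) (hi' : z * k' * z⁻¹ = k'⁻¹) (h : k * z * k⁻¹ = k' * z * k'⁻¹) :
    k = k' := by
  have hzi : z⁻¹ = z := inv_eq_of_order_two hz
  have hsq : ∀ c : G, z * c * z⁻¹ = c⁻¹ → c * z * c⁻¹ * z = c ^ 2 := by
    intro c hc
    rw [hzi] at hc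
    have h1 : z * c⁻¹ * z = c := by
      have := congrArg (· ⁻¹) hc
      simp only [mul_inv_rev, inv_inv, hzi] at this
      rw [mul_assoc]; exact this
    calc c * z * c⁻¹ * z = c * (z * c⁻¹ * z) := by group
      _ = c ^ 2 := by rw [h1, pow_two]
  apply eq_of_sq_eq_of_odd hk hk'
  rw [← hsq k hi, ← hsq k' hi', h]

/-- the product `s t` of distinct conjugates does not commute with `z`. -/
lemma not_commute_mul {z : G} (hz : Cfsg.IsIsolatedInvolution z) (g h : G)
    (hne : g * z * g⁻¹ ≠ h * z * h⁻¹) : ¬ Commute (g * z * g⁻¹ * (h * z * h⁻¹)) z := by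
  intro hc
  set s := g * z * g⁻¹ with hs
  set t := h * z * h⁻¹ with ht
  have hs2 : orderOf s = 2 := by rw [hs, orderOf_conj]; exact hz.1
  have ht2 : orderOf t = 2 := by rw [ht, orderOf_conj]; exact hz.1
  -- `r = s t` has odd order
  have hro : Odd (orderOf (s * t)) := by
    have h1 := odd_mul_conj (isolated_conj hz g) (h * g⁻¹)
    have h2 : h * g⁻¹ * (g * z * g⁻¹) * (h * g⁻¹)⁻¹ = t := by rw [ht]; group
    rwa [h2] at h1
  set r := s * t with hr
  have hr1 : r ≠ 1 := by
    intro h1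
    apply hne
    have h2 : s * t = t * t := by rw [← hr, h1, mul_self_of_order_two ht2]
    exact mul_right_cancel h2
  -- `x = z * s` has odd order and inverts `r`
  have hxo : Odd (orderOf (z * s)) := odd_mul_conj hz g
  have hzi := inv_eq_of_order_two hz.1
  have hsi := inv_eq_of_order_two hs2
  have hti := inv_eq_of_order_two ht2
  have hzz := mul_self_of_order_two hz.1
  have hss := mul_self_of_order_two hs2
  have htt := mul_self_of_order_two ht2
  -- `y = z t` also has odd order and `y = x r`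
  set x := z * s with hx
  have hinv : x * r * x⁻¹ = r⁻¹ := by
    -- x r x⁻¹ = z s (s t) s z = z t s z = z (t s) z = t s since t s = r⁻¹ commutes with z
    have hrinv : r⁻¹ = t * s := by rw [hr, mul_inv_rev, hsi, hti]
    have hc' : Commute r⁻¹ z := hc.inv_left
    calc x * r * x⁻¹ = z * (s * (s * t) * s) * z⁻¹ := by rw [hx, hr, mul_inv_rev, hsi]; group
      _ = z * (t * s) * z⁻¹ := by
          congr 2
          calc s * (s * t) * s = (s * s) * (t * s) := by group
            _ = t * s := by rw [hss, one_mul]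
      _ = z * r⁻¹ * z⁻¹ := by rw [hrinv]
      _ = r⁻¹ := by rw [hc'.symm.eq]; group
  have hpow : ∀ n : ℕ, x ^ n * r * (x ^ n)⁻¹ = if Even n then r else r⁻¹ := by
    intro n
    induction n with
    | zero => simp
    | succ n ih =>
      have : x ^ (n + 1) * r * (x ^ (n + 1))⁻¹ = x * (x ^ n * r * (x ^ n)⁻¹) * x⁻¹ := by
        rw [pow_succ']; group
      rw [this, ih]
      by_cases hn : Even n
      · have hn' : ¬ Even (n + 1) := by simpa [Nat.even_add_one] using hn
        simp only [hn, hn', if_true, if_false]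
        exact hinv
      · have hn' : Even (n + 1) := by
          rw [Nat.even_add_one]; exact hn
        simp only [hn, hn', if_true, if_false]
        have h5 : x * r⁻¹ * x⁻¹ = (x * r * x⁻¹)⁻¹ := by group
        rw [h5, hinv, inv_inv]
  have h0 := hpow (orderOf x)
  rw [pow_orderOf_eq_one] at h0
  have hneven : ¬ Even (orderOf x) := Nat.not_even_iff_odd.2 hxo
  simp only [hneven, if_false, one_mul, inv_one, mul_one] at h0
  have hr2 : r * r = 1 := by
    nth_rw 1 [h0]
    simp
  have hr3 : r ^ 2 = 1 := by rw [pow_two, hr2]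
  have hdvd : orderOf r ∣ 2 := orderOf_dvd_of_pow_eq_one hr3
  have h4 : orderOf r = 1 := by
    obtain ⟨m, hm⟩ := hro
    have := Nat.le_of_dvd (by norm_num) hdvd
    interval_cases h : orderOf r
    · omega
    · rfl
    · omega
  exact hr1 (orderOf_eq_one_iff.1 h4)

end CfsgLib.IsoInv
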