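import Cfsg.Agent.Lib.H3.IsoInv
import Cfsg.Agent.Lib.H3.ClassSize
import Cfsg.Agent.Lib.H3.ConjTools
import Cfsg.Agent.Lib.H9.Count

/-! Isolated involutions, part 2: Sylow, fusion, counting. -/

namespace CfsgLib.IsoInv

open CfsgLib.Invol

variable {G : Type*} [Group G] [Finite G]

/-- An element of odd order in a `2`-subgroup is trivial. -/
lemma eq_one_of_odd_of_mem_two {x : G} {P : Subgroup G} (hP : IsPGroup 2 P) (hx : x ∈ P)
    (hodd : Odd (orderOf x)) : x = 1 := by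
  obtain ⟨k, hk⟩ := CfsgLib.CT.pow_eq_one_of_mem_pgroup hP hx
  have h1 : orderOf x ∣ 2 ^ k := orderOf_dvd_of_pow_eq_one hk
  obtain ⟨m, _, hm⟩ := (Nat.dvd_prime_pow Nat.prime_two).1 h1
  rcases m with _ | m
  · simpa using hm
  · rw [pow_succ] at hm
    exfalso
    rw [hm] at hodd
    exact (Nat.not_even_iff_odd.2 hodd) (even_two.mul_left _)

/-- In a `2`-subgroup containing the isolated `z`, all elements commute with `z`. -/
lemma commute_of_mem_two {z s : G} (hz : Cfsg.IsIsolatedInvolution z) {P : Subgroup G}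
    (hP : IsPGroup 2 P) (hzP : z ∈ P) (hs : s ∈ P) : Commute s z := by
  have h1 : z * (s * z * s⁻¹) ∈ P := P.mul_mem hzP (P.mul_mem (P.mul_mem hs hzP) (P.inv_mem hs))
  have h2 := eq_one_of_odd_of_mem_two hP h1 (odd_mul_conj hz s)
  have hzi := inv_eq_of_order_two hz.1
  have h3 : s * z * s⁻¹ = z := by
    have := eq_inv_of_mul_eq_one_right h2
    rwa [hzi] at this
  show s * z = z * s
  calc s * z = s * z * s⁻¹ * s := by group
    _ = z * s := by rw [h3]

/-- The centralizer of an isolated involution contains a Sylow `2`-subgroup. -/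
lemma exists_sylow_le_centralizer {z : G} (hz : Cfsg.IsIsolatedInvolution z) :
    ∃ S : Sylow 2 G, z ∈ (S : Subgroup G) ∧
      (S : Subgroup G) ≤ Subgroup.centralizer ({z} : Set G) := by
  have hp : IsPGroup 2 (Subgroup.zpowers z) := CfsgLib.CT.isPGroup_zpowers_of_pow (k := 1) (by
    rw [pow_one, ← hz.1]; exact pow_orderOf_eq_one z)
  obtain ⟨S, hS⟩ := hp.exists_le_sylow
  have hzS : z ∈ (S : Subgroup G) := hS (Subgroup.mem_zpowers z)
  refine ⟨S, hzS, fun s hs => ?_⟩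
  rw [Subgroup.mem_centralizer_singleton_iff]
  exact (commute_of_mem_two hz S.isPGroup' hzS hs)

/-- The index of the centralizer is odd. -/
lemma odd_index_centralizer {z : G} (hz : Cfsg.IsIsolatedInvolution z) :
    Odd (Subgroup.centralizer ({z} : Set G)).index := by
  obtain ⟨S, _, hS⟩ := exists_sylow_le_centralizer hz
  have h1 : (Subgroup.centralizer ({z} : Set G)).index ∣ (S : Subgroup G).index :=
    Subgroup.index_dvd_of_le hS
  have h2 : Odd (S : Subgroup G).index := by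
    have h3 := S.not_dvd_index
    rw [← Nat.not_even_iff_odd]
    intro h
    exact h3 h.two_dvd
  exact Odd.of_dvd_nat h2 h1

/-- General fusion statement (S1182). -/
lemma exists_conj_in_centralizer {z : G} (hz : Cfsg.IsIsolatedInvolution z) (H : Subgroup G)
    (hzH : z ∈ Subgroup.normalizer (H : Set G)) (x y : G) (hxz : Commute x z) (hyz : Commute y z)
    (h : G) (hh : h ∈ H) (hconj : h * x * h⁻¹ = y) :
    ∃ c ∈ H, Commute c z ∧ c * x * c⁻¹ = y := by
  have hzm : ∀ a ∈ H, z * a * z⁻¹ ∈ H := by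
    intro a ha
    exact (Subgroup.mem_normalizer_iff.1 hzH a).1 ha
  have hy2 : Commute (h⁻¹ * z * h) x := by
    have h1 : x = h⁻¹ * y * h := by rw [← hconj]; group
    rw [h1]
    show h⁻¹ * z * h * (h⁻¹ * y * h) = h⁻¹ * y * h * (h⁻¹ * z * h)
    have h2 := hyz.eq
    calc h⁻¹ * z * h * (h⁻¹ * y * h) = h⁻¹ * (z * y) * h := by group
      _ = h⁻¹ * (y * z) * h := by rw [h2]
      _ = _ := by group
  obtain ⟨u, hu, _, _, huc⟩ := exists_k_conj hz h⁻¹
  have hh' : h⁻¹ * z * h⁻¹⁻¹ = h⁻¹ * z * h := by rw [inv_inv]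
  rw [hh'] at hu huc
  have hzi : z⁻¹ = z := inv_eq_of_order_two hz.1
  have hdH : h⁻¹ * z * h * z ∈ H := by
    have h1 : h⁻¹ * z * h * z = h⁻¹ * (z * h * z⁻¹) := by rw [hzi]; group
    rw [h1]
    exact H.mul_mem (H.inv_mem hh) (hzm h hh)
  have hdC : h⁻¹ * z * h * z ∈ Subgroup.centralizer ({x} : Set G) := by
    rw [Subgroup.mem_centralizer_singleton_iff]
    exact (Commute.mul_left hy2 hxz.symm).eq
  have huH : u ∈ H := (Subgroup.zpowers_le.2 hdH) hu
  have huC : u ∈ Subgroup.centralizer ({x} : Set G) := (Subgroup.zpowers_le.2 hdC) hu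
  rw [Subgroup.mem_centralizer_singleton_iff] at huC
  refine ⟨h * u, H.mul_mem hh huH, ?_, ?_⟩
  · show h * u * z = z * (h * u)
    have h1 : u * z = h⁻¹ * z * h * u := by
      have : u * z * u⁻¹ * u = h⁻¹ * z * h * u := by rw [huc]
      rwa [inv_mul_cancel_right] at this
    calc h * u * z = h * (u * z) := by group
      _ = h * (h⁻¹ * z * h * u) := by rw [h1]
      _ = z * (h * u) := by group
  · calc h * u * x * (h * u)⁻¹ = h * (u * x * u⁻¹) * h⁻¹ := by group
      _ = h * x * h⁻¹ := by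
          congr 2
          rw [huC]
          group
      _ = y := hconj

/-- Decomposition: `g = k c` with `k` odd and inverted by `z`, `c` centralizing `z`. -/
lemma exists_decomp {z : G} (hz : Cfsg.IsIsolatedInvolution z) (g : G) :
    ∃ k c : G, Odd (orderOf k) ∧ z * k * z⁻¹ = k⁻¹ ∧ Commute c z ∧ g = k * c := by
  obtain ⟨k, _, hko, hki, hkc⟩ := exists_k_conj hz g
  refine ⟨k, k⁻¹ * g, hko, hki, ?_, by group⟩
  show k⁻¹ * g * z = z * (k⁻¹ * g)
  have h3 : z * k⁻¹ = k⁻¹ * (g * z * g⁻¹) := by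
    rw [← hkc]; group
  calc k⁻¹ * g * z = k⁻¹ * (g * z * g⁻¹) * g := by group
    _ = z * k⁻¹ * g := by rw [h3]
    _ = z * (k⁻¹ * g) := by group

/-- The number of odd elements inverted by `z` commuting with `u` equals the number of conjugates
of `z` commuting with `u`. -/
lemma card_KC_eq_fix {z : G} (hz : Cfsg.IsIsolatedInvolution z) (u : G) (hu : Commute z u) :
    Nat.card {k : G // Odd (orderOf k) ∧ z * k * z⁻¹ = k⁻¹ ∧ Commute k u}
      = Nat.card {d : G // IsConj z d ∧ Commute d u} := by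
  apply Nat.card_congr
  refine Equiv.ofBijective (fun k => ⟨k.1 * z * k.1⁻¹, isConj_iff.2 ⟨k.1, rfl⟩, ?_⟩) ⟨?_, ?_⟩
  · exact ((k.2.2.2.mul_left hu).mul_left k.2.2.2.inv_left)
  · rintro ⟨k, hko, hki, _⟩ ⟨k', hko', hki', _⟩ h
    apply Subtype.ext
    exact k_unique hz.1 hko hko' hki hki' (congrArg Subtype.val h)
  · rintro ⟨d, hd, hdu⟩
    obtain ⟨g, rfl⟩ := isConj_iff.1 hd
    obtain ⟨k, hk, hko, hki, hkc⟩ := exists_k_conj hz g
    have hc : g * z * g⁻¹ * z ∈ Subgroup.centralizer ({u} : Set G) := by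
      rw [Subgroup.mem_centralizer_singleton_iff]
      exact (hdu.mul_left hu).eq
    have hk2 : k ∈ Subgroup.centralizer ({u} : Set G) := (Subgroup.zpowers_le.2 hc) hk
    rw [Subgroup.mem_centralizer_singleton_iff] at hk2
    exact ⟨⟨k, hko, hki, hk2⟩, Subtype.ext hkc⟩

/-- For `k` of odd order inverted by an involution `d`, `k d` is conjugate to `d`. -/
lemma isConj_mul_of_inverted {d k : G} (hd : orderOf d = 2) (hko : Odd (orderOf k))
    (hki : d * k * d⁻¹ = k⁻¹) : IsConj d (k * d) := by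
  obtain ⟨m, hm⟩ := hko
  set k₁ := k ^ (m + 1) with hk1
  have h2 : k₁ * k₁ = k := by
    rw [hk1, ← pow_add]
    have h3 : m + 1 + (m + 1) = orderOf k + 1 := by omega
    rw [h3, pow_succ, pow_orderOf_eq_one, one_mul]
  have h4 : d * k₁ * d⁻¹ = k₁⁻¹ := by
    rw [hk1, ← conj_pow, hki, inv_pow]
  have hdi := inv_eq_of_order_two hd
  refine isConj_iff.2 ⟨k₁, ?_⟩
  have h5 : k₁ * d = d * k₁⁻¹ := by
    rw [← h4, hdi]
    have hdd := mul_self_of_order_two hd
    calc k₁ * d = (d * d) * k₁ * d := by rw [hdd, one_mul]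
      _ = d * (d * k₁ * d) := by group
  calc k₁ * d * k₁⁻¹ = d * k₁⁻¹ * k₁⁻¹ := by rw [h5]
    _ = d * (k₁ * k₁)⁻¹ := by group
    _ = d * k⁻¹ := by rw [h2]
    _ = d * k⁻¹ * d⁻¹ * d := by group
    _ = k * d := by
        have h6 : d * k⁻¹ * d⁻¹ = k := by
          have : d * k⁻¹ * d⁻¹ = (d * k * d⁻¹)⁻¹ := by group
          rw [this, hki, inv_inv]
        rw [h6]

/-- Existence and uniqueness of midpoints. -/
lemma existsUnique_mid_aux {d d' : G} (hdi : Cfsg.IsIsolatedInvolution d) (hd' : IsConj d d') :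
    ∃! y : G, IsConj d y ∧ y * d * y⁻¹ = d' := by
  obtain ⟨g, hg⟩ := isConj_iff.1 hd'
  have hd2 : orderOf d = 2 := hdi.1
  have hdinv := inv_eq_of_order_two hd2
  have hdd := mul_self_of_order_two hd2
  obtain ⟨k, _, hko, hki, hkc⟩ := exists_k_conj hdi g
  rw [hg] at hkc
  have hconj := isConj_mul_of_inverted hd2 hko hki
  refine ⟨k * d, ⟨hconj, ?_⟩, ?_⟩
  · calc k * d * d * (k * d)⁻¹ = k * (d * d) * d⁻¹ * k⁻¹ := by group
      _ = k * d * k⁻¹ := by rw [hdd, mul_one, hdinv]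
      _ = d' := hkc
  · rintro y ⟨hy, hyd⟩
    have hy2 : orderOf y = 2 := by
      rw [← hd2]; exact (orderOf_eq_of_isConj hy).symm
    have hyi := inv_eq_of_order_two hy2
    have hyy := mul_self_of_order_two hy2
    obtain ⟨b, hb⟩ := isConj_iff.1 hy
    have hodd : Odd (orderOf (y * d)) := by
      have := odd_mul_conj hdi b
      rw [hb] at this
      rwa [orderOf_mul_comm'] at this
    have hinv : d * (y * d) * d⁻¹ = (y * d)⁻¹ := by
      rw [mul_inv_rev, hdinv, hyi]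
      calc d * (y * d) * d = d * y * (d * d) := by group
        _ = d * y := by rw [hdd, mul_one]
    have h1 : (y * d) * d * (y * d)⁻¹ = k * d * k⁻¹ := by
      rw [hkc, ← hyd]
      calc (y * d) * d * (y * d)⁻¹ = y * (d * d) * d⁻¹ * y⁻¹ := by group
        _ = y * d * y⁻¹ := by rw [hdd, mul_one, hdinv]
    have h2 : y * d = k := k_unique hd2 hodd hko hinv hki h1
    rw [← h2, mul_assoc, hdd, mul_one]

lemma existsUnique_mid {z : G} (hz : Cfsg.IsIsolatedInvolution z) {d d' : G} (hd : IsConj z d)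
    (hd' : IsConj z d') : ∃! y : G, IsConj z y ∧ y * d * y⁻¹ = d' := by
  obtain ⟨a, rfl⟩ := isConj_iff.1 hd
  obtain ⟨y, ⟨hy1, hy2⟩, hy3⟩ := existsUnique_mid_aux (isolated_conj hz a)
    ((isConj_iff.2 ⟨a, rfl⟩ : IsConj z (a * z * a⁻¹)).symm.trans hd')
  refine ⟨y, ⟨(isConj_iff.2 ⟨a, rfl⟩ : IsConj z (a * z * a⁻¹)).trans hy1, hy2⟩, ?_⟩
  rintro y' ⟨hy1', hy2'⟩
  exact hy3 y' ⟨(isConj_iff.2 ⟨a, rfl⟩ : IsConj z (a * z * a⁻¹)).symm.trans hy1', hy2'⟩

/-- Factorization: the number of conjugates. -/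
theorem card_conj_eq_mul {z s : G} (hz : Cfsg.IsIsolatedInvolution z) (hs : orderOf s = 2)
    (hsz : Commute s z) :
    Nat.card {d : G // IsConj z d}
      = Nat.card {d : G // IsConj z d ∧ Commute d s}
        * Nat.card {d : G // IsConj z d ∧ Commute d (s * z)} := by
  classical
  have hss := mul_self_of_order_two hs
  have hsi := inv_eq_of_order_two hs
  -- the map
  have hex : ∀ d : {d : G // IsConj z d}, ∃ y : G, IsConj z y ∧ y * d.1 * y⁻¹ = s * d.1 * s⁻¹ := by
    intro d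
    have h1 : IsConj z (s * d.1 * s⁻¹) := d.2.trans (isConj_iff.2 ⟨s, rfl⟩)
    exact (existsUnique_mid hz d.2 h1).exists
  choose μ hμ1 hμ2 using hex
  have hμc : ∀ d, Commute (μ d) s := by
    intro d
    -- `s y s⁻¹` is also a midpoint of `s d s⁻¹` and `d`, so is `y`.
    have hd := d.2
    have h1 : IsConj z (s * d.1 * s⁻¹) := d.2.trans (isConj_iff.2 ⟨s, rfl⟩)
    have hy2 : orderOf (μ d) = 2 := by
      rw [← hz.1]; exact (orderOf_eq_of_isConj (hμ1 d)).symm
    have hyi := inv_eq_of_order_two hy2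
    have hyy := mul_self_of_order_two hy2
    have hu := (existsUnique_mid hz h1 hd)
    have hA : (μ d) * (s * d.1 * s⁻¹) * (μ d)⁻¹ = d.1 := by
      rw [← hμ2 d, hyi]
      calc μ d * (μ d * d.1 * μ d) * μ d = (μ d * μ d) * d.1 * (μ d * μ d) := by group
        _ = d.1 := by rw [hyy]; group
    have hB : (s * μ d * s⁻¹) * (s * d.1 * s⁻¹) * (s * μ d * s⁻¹)⁻¹ = d.1 := by
      have e : (s * μ d * s⁻¹) * (s * d.1 * s⁻¹) * (s * μ d * s⁻¹)⁻¹
          = s * (μ d * d.1 * (μ d)⁻¹) * s⁻¹ := by group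
      rw [e, hμ2 d, hsi]
      calc s * (s * d.1 * s) * s = (s * s) * d.1 * (s * s) := by group
        _ = d.1 := by rw [hss]; group
    have h2 := hu.unique (y₁ := μ d) (y₂ := s * μ d * s⁻¹) ⟨hμ1 d, hA⟩
      ⟨(hμ1 d).trans (isConj_iff.2 ⟨s, rfl⟩), hB⟩
    show μ d * s = s * μ d
    calc μ d * s = s * μ d * s⁻¹ * s := by rw [← h2]
      _ = s * μ d := by group
  let f : {d : G // IsConj z d} → {d : G // IsConj z d ∧ Commute d s} :=
    fun d => ⟨μ d, hμ1 d, hμc d⟩
  apply CfsgLib.H9.natCard_eq_of_fibers f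
  rintro ⟨b, hb, hbs⟩
  -- each fibre
  obtain ⟨g, hg⟩ := isConj_iff.1 hb
  obtain ⟨c, hc, hcO, hci, hcc⟩ := exists_k_conj hz g
  have hcs : Commute c s := by
    have h1 : g * z * g⁻¹ * z ∈ Subgroup.centralizer ({s} : Set G) := by
      rw [Subgroup.mem_centralizer_singleton_iff, hg]
      exact (hbs.mul_left hsz.symm).eq
    have h2 := (Subgroup.zpowers_le.2 h1) hc
    rw [Subgroup.mem_centralizer_singleton_iff] at h2
    exact h2
  have hbe : b = c * z * c⁻¹ := by rw [hcc, hg]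
  have hb2 : orderOf b = 2 := by
    rw [← hz.1]; exact (orderOf_eq_of_isConj hb).symm
  have hbi := inv_eq_of_order_two hb2
  apply Nat.card_congr
  refine
    { toFun := fun d => ⟨c⁻¹ * d.1.1 * c, ?_, ?_⟩
      invFun := fun d => ⟨⟨c * d.1 * c⁻¹, ?_⟩, ?_⟩
      left_inv := ?_
      right_inv := ?_ }
  · exact d.1.2.trans (isConj_iff.2 ⟨c⁻¹, by group⟩)
  · -- commute with `s z`
    have hfib : μ d.1 = b := congrArg Subtype.val d.2
    have h0 : b * d.1.1 * b⁻¹ = s * d.1.1 * s⁻¹ := by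
      have h00 := hμ2 d.1
      rwa [hfib] at h00
    have h1 : Commute d.1.1 (s * b) := by
      show d.1.1 * (s * b) = (s * b) * d.1.1
      have h2 : (s * b) * d.1.1 * (s * b)⁻¹ = d.1.1 := by
        have e : (s * b) * d.1.1 * (s * b)⁻¹ = s * (b * d.1.1 * b⁻¹) * s⁻¹ := by group
        rw [e, h0, hsi]
        calc s * (s * d.1.1 * s) * s = (s * s) * d.1.1 * (s * s) := by group
          _ = d.1.1 := by rw [hss]; group
      calc d.1.1 * (s * b) = (s * b) * d.1.1 * (s * b)⁻¹ * (s * b) := by rw [h2]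
        _ = _ := by group
    have h3 : c⁻¹ * (s * b) * c = s * z := by
      rw [hbe]
      have hcs' : c⁻¹ * s * c = s := by
        rw [mul_assoc, hcs.symm.eq]; group
      calc c⁻¹ * (s * (c * z * c⁻¹)) * c = (c⁻¹ * s * c) * z := by group
        _ = s * z := by rw [hcs']
    rw [← h3]
    show c⁻¹ * d.1.1 * c * (c⁻¹ * (s * b) * c) = c⁻¹ * (s * b) * c * (c⁻¹ * d.1.1 * c)
    calc c⁻¹ * d.1.1 * c * (c⁻¹ * (s * b) * c) = c⁻¹ * (d.1.1 * (s * b)) * c := by group
      _ = c⁻¹ * ((s * b) * d.1.1) * c := by rw [h1.eq]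
      _ = _ := by group
  · exact d.2.1.trans (isConj_iff.2 ⟨c, rfl⟩)
  · -- fibre condition
    apply Subtype.ext
    show μ _ = b
    have hd' : IsConj z (c * d.1 * c⁻¹) := d.2.1.trans (isConj_iff.2 ⟨c, rfl⟩)
    have huniq := existsUnique_mid hz hd' (hd'.trans (isConj_iff.2 ⟨s, rfl⟩))
    apply huniq.unique (y₁ := μ ⟨c * d.1 * c⁻¹, hd'⟩) (y₂ := b)
    · exact ⟨hμ1 _, hμ2 _⟩
    · refine ⟨hb, ?_⟩
      -- `d` commutes with `s z`
      have hdc := d.2.2
      have hb3 : s * b = c * (s * z) * c⁻¹ := by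
        rw [hbe]
        have hcs' : c * s * c⁻¹ = s := by
          rw [hcs.eq]; group
        calc s * (c * z * c⁻¹) = (c * s * c⁻¹) * (c * z * c⁻¹) := by rw [hcs']
          _ = _ := by group
      have h1 : Commute (c * d.1 * c⁻¹) (s * b) := by
        rw [hb3]
        show c * d.1 * c⁻¹ * (c * (s * z) * c⁻¹) = c * (s * z) * c⁻¹ * (c * d.1 * c⁻¹)
        calc c * d.1 * c⁻¹ * (c * (s * z) * c⁻¹) = c * (d.1 * (s * z)) * c⁻¹ := by group
          _ = c * ((s * z) * d.1) * c⁻¹ := by rw [hdc.eq]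
          _ = _ := by group
      set e := c * d.1 * c⁻¹ with he
      have h2 : (s * b) * e * (s * b)⁻¹ = e := by
        rw [h1.symm.eq]; group
      calc b * e * b⁻¹ = s⁻¹ * ((s * b) * e * (s * b)⁻¹) * s := by group
        _ = s⁻¹ * e * s := by rw [h2]
        _ = s * e * s⁻¹ := by rw [hsi]
  · intro d
    apply Subtype.ext
    apply Subtype.ext
    show c * (c⁻¹ * d.1.1 * c) * c⁻¹ = d.1.1
    group
  · intro d
    apply Subtype.ext
    show c⁻¹ * (c * d.1 * c⁻¹) * c = d.1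
    group

/-- The formula of S1186. -/
theorem card_eq_mul {z s : G} (hz : Cfsg.IsIsolatedInvolution z) (hs : orderOf s = 2)
    (hsz : Commute s z) :
    Nat.card G = Nat.card (Subgroup.centralizer ({z} : Set G)) *
      Nat.card {k : G // Odd (orderOf k) ∧ z * k * z⁻¹ = k⁻¹ ∧ Commute k (s * z)} *
      Nat.card {k : G // Odd (orderOf k) ∧ z * k * z⁻¹ = k⁻¹ ∧ Commute k s} := by
  rw [card_KC_eq_fix hz s hsz.symm,
    card_KC_eq_fix hz (s * z) ((hsz.symm).mul_right (Commute.refl z))]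
  rw [← CfsgLib.CS.card_class_mul_centralizer z, card_conj_eq_mul hz hs hsz]
  ring

end CfsgLib.IsoInv
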