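import Cfsg.Agent.Lib.H3.ConjTools
import Cfsg.Prelude.Def_Balance

/-! The commuting graph on elementary abelian subgroups, strongly `p`-embedded subgroups. -/

set_option autoImplicit false
set_option linter.unusedSectionVars false
set_option linter.style.haveILetI false

namespace CfsgLib.KConn

open Subgroup

variable {G : Type*} [Group G] {p : ℕ}

/-- The edge relation. -/
def Edge (p : ℕ) (G : Type*) [Group G] (A B : Subgroup G) : Prop :=
  Cfsg.IsElementaryAbelian p A ∧ p ^ 1 ≤ Nat.card A ∧ Cfsg.IsElementaryAbelian p B ∧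
    p ^ 1 ≤ Nat.card B ∧ ∀ a ∈ A, ∀ b ∈ B, a * b = b * a

/-- Vertices. -/
def Vert (p : ℕ) (A : Subgroup G) : Prop :=
  Cfsg.IsElementaryAbelian p A ∧ p ^ 1 ≤ Nat.card A

/-- Connectedness. -/
def Conn (p : ℕ) (A B : Subgroup G) : Prop :=
  Relation.ReflTransGen (Edge p G) A B

lemma edge_symm {A B : Subgroup G} (h : Edge p G A B) : Edge p G B A :=
  ⟨h.2.2.1, h.2.2.2.1, h.1, h.2.1, fun a ha b hb => (h.2.2.2.2 b hb a ha).symm⟩

lemma conn_symm {A B : Subgroup G} (h : Conn p A B) : Conn p B A := by
  induction h with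
  | refl => exact Relation.ReflTransGen.refl
  | tail _ he ih => exact Relation.ReflTransGen.head (edge_symm he) ih

lemma conn_trans {A B C : Subgroup G} (h : Conn p A B) (h' : Conn p B C) : Conn p A C :=
  Relation.ReflTransGen.trans h h'

lemma vert_conj {A : Subgroup G} (h : Vert p A) (g : G) :
    Vert p (A.map (MulAut.conj g).toMonoidHom) := by
  obtain ⟨⟨hc, he⟩, hcard⟩ := h
  refine ⟨⟨?_, ?_⟩, ?_⟩
  · constructor
    constructor
    rintro ⟨_, a, ha, rfl⟩ ⟨_, b, hb, rfl⟩
    apply Subtype.ext
    have : a * b = b * a := by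
      have := hc.is_comm.comm (⟨a, ha⟩ : A) ⟨b, hb⟩
      exact congrArg Subtype.val this
    change (MulAut.conj g).toMonoidHom a * (MulAut.conj g).toMonoidHom b =
      (MulAut.conj g).toMonoidHom b * (MulAut.conj g).toMonoidHom a
    rw [← map_mul, ← map_mul, this]
  · rintro _ ⟨a, ha, rfl⟩
    rw [← map_pow, he a ha, map_one]
  · rwa [Subgroup.card_map_of_injective (MulAut.conj g).injective]

lemma edge_conj {A B : Subgroup G} (h : Edge p G A B) (g : G) :
    Edge p G (A.map (MulAut.conj g).toMonoidHom) (B.map (MulAut.conj g).toMonoidHom) := by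
  have h1 := vert_conj (⟨h.1, h.2.1⟩ : Vert p A) g
  have h2 := vert_conj (⟨h.2.2.1, h.2.2.2.1⟩ : Vert p B) g
  refine ⟨h1.1, h1.2, h2.1, h2.2, ?_⟩
  rintro _ ⟨a, ha, rfl⟩ _ ⟨b, hb, rfl⟩
  rw [← map_mul, ← map_mul, h.2.2.2.2 a ha b hb]

lemma conn_conj {A B : Subgroup G} (h : Conn p A B) (g : G) :
    Conn p (A.map (MulAut.conj g).toMonoidHom) (B.map (MulAut.conj g).toMonoidHom) := by
  induction h with
  | refl => exact Relation.ReflTransGen.refl
  | tail _ he ih => exact Relation.ReflTransGen.tail ih (edge_conj he g)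

lemma map_conj_mul (A : Subgroup G) (g h : G) :
    A.map (MulAut.conj (g * h)).toMonoidHom =
      (A.map (MulAut.conj h).toMonoidHom).map (MulAut.conj g).toMonoidHom := by
  rw [Subgroup.map_map]
  congr 1
  ext x
  simp [MulAut.conj_apply, mul_assoc]

lemma map_conj_one (A : Subgroup G) : A.map (MulAut.conj (1 : G)).toMonoidHom = A := by
  ext x
  simp [Subgroup.mem_map]

section Finite

variable [Finite G] [hp : Fact p.Prime]

lemma isPGroup_of_vert {A : Subgroup G} (h : Vert p A) : IsPGroup p A := by
  intro a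
  refine ⟨1, ?_⟩
  apply Subtype.ext
  simpa using h.1.2 a a.2

lemma dvd_card_of_vert {A : Subgroup G} (h : Vert p A) : p ∣ Nat.card A := by
  obtain ⟨k, hk⟩ := IsPGroup.iff_card.1 (isPGroup_of_vert h)
  have h1 := h.2
  rw [hk] at h1 ⊢
  refine dvd_pow_self p ?_
  rintro rfl
  have := hp.out.one_lt
  simp at h1
  omega

/-- An element of order `p` gives a vertex. -/
lemma vert_zpowers {x : G} (hx : orderOf x = p) : Vert p (zpowers x) := by
  refine ⟨⟨?_, ?_⟩, ?_⟩
  · infer_instance
  · rintro _ ⟨k, rfl⟩
    simp only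
    rw [← zpow_natCast, ← zpow_mul, mul_comm, zpow_mul, zpow_natCast, ← hx, pow_orderOf_eq_one,
      one_zpow]
  · rw [Nat.card_zpowers, hx, pow_one]

/-- Two vertices inside one `p`-subgroup are connected. -/
lemma conn_of_pgroup {Q A B : Subgroup G} (hQ : IsPGroup p Q) (hA : Vert p A) (hB : Vert p B)
    (hAQ : A ≤ Q) (hBQ : B ≤ Q) : Conn p A B := by
  -- a central element of order `p`
  have hQn : Nontrivial Q := by
    have h1 : Nat.card A ≤ Nat.card Q := Subgroup.card_le_of_le hAQ
    have h2 := hA.2
    have h3 := hp.out.one_lt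
    rw [pow_one] at h2
    exact Finite.one_lt_card_iff_nontrivial.1 (by omega)
  have hzc : Nontrivial (center Q) := hQ.center_nontrivial
  have hdvd : p ∣ Nat.card (center Q) := by
    obtain ⟨k, hk⟩ := IsPGroup.iff_card.1 (hQ.to_subgroup (center Q))
    have h1 : 1 < Nat.card (center Q) := Finite.one_lt_card
    rw [hk] at h1 ⊢
    exact dvd_pow_self p (by rintro rfl; simp at h1)
  obtain ⟨z, hz⟩ := exists_prime_orderOf_dvd_card' p hdvd
  set t : G := ((z : Q) : G) with ht
  have htord : orderOf t = p := by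
    rw [ht, Subgroup.orderOf_coe, Subgroup.orderOf_coe, hz]
  have htc : ∀ a ∈ Q, a * t = t * a := by
    intro a ha
    have := Subgroup.mem_center_iff.1 z.2 ⟨a, ha⟩
    exact congrArg Subtype.val this
  have hV := vert_zpowers htord
  have hcomm : ∀ a ∈ Q, ∀ b ∈ zpowers t, a * b = b * a := by
    rintro a ha _ ⟨k, rfl⟩
    exact (Commute.zpow_right (htc a ha) k)
  have e1 : Edge p G A (zpowers t) :=
    ⟨hA.1, hA.2, hV.1, hV.2, fun a ha b hb => hcomm a (hAQ ha) b hb⟩
  have e2 : Edge p G (zpowers t) B :=
    ⟨hV.1, hV.2, hB.1, hB.2, fun b hb a ha => (hcomm a (hBQ ha) b hb).symm⟩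
  exact Relation.ReflTransGen.head e1 (Relation.ReflTransGen.single e2)

/-- S1336 -/
theorem strongly_embedded_iff :
    (∃ H : Subgroup G, H ≠ ⊤ ∧ p ∣ Nat.card H ∧
      ∀ g : G, g ∉ H → ¬ p ∣ Nat.card (H ⊓ H.map (MulAut.conj g).toMonoidHom : Subgroup G)) ↔
    ¬ Cfsg.IsKConnected p 1 G := by
  constructor
  · rintro ⟨H, hHt, hpH, hH⟩ hconn
    -- a vertex in `H`
    obtain ⟨x, hx⟩ := exists_prime_orderOf_dvd_card' p hpH
    set x' : G := (x : G) with hx'
    have hxord : orderOf x' = p := by rw [hx', Subgroup.orderOf_coe, hx]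
    have hE := vert_zpowers hxord
    have hEH : zpowers x' ≤ H := by
      rw [Subgroup.zpowers_le]
      exact x.2
    obtain ⟨g, hg⟩ : ∃ g, g ∉ H := by
      by_contra h
      push Not at h
      exact hHt (eq_top_iff.2 (fun g _ => h g))
    have hEg := vert_conj hE g
    have h1 : ∀ V : Subgroup G, Conn p (zpowers x') V → V ≤ H := by
      intro V hV
      induction hV with
      | refl => exact hEH
      | @tail A B _ he ih =>
        intro w hw
        by_contra hwH
        have hdvd := dvd_card_of_vert (⟨he.1, he.2.1⟩ : Vert p A)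
        have hle : A ≤ H ⊓ H.map (MulAut.conj w).toMonoidHom := by
          intro a ha
          refine Subgroup.mem_inf.2 ⟨ih ha, ?_⟩
          rw [CfsgLib.CT.mem_map_conj']
          have h2 := he.2.2.2.2 a ha w hw
          have : w⁻¹ * a * w = a := by
            rw [mul_assoc, h2]; group
          rw [this]
          exact ih ha
        exact hH w hwH (hdvd.trans (Subgroup.card_dvd_of_le hle))
    have h2 : Conn p (zpowers x') ((zpowers x').map (MulAut.conj g).toMonoidHom) :=
      hconn _ _ hE.1 hE.2 hEg.1 hEg.2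
    have h3 := h1 _ h2
    have h4 : (zpowers x').map (MulAut.conj g).toMonoidHom ≤ H ⊓ H.map (MulAut.conj g).toMonoidHom :=
      le_inf h3 (Subgroup.map_mono hEH)
    exact hH g hg ((dvd_card_of_vert hEg).trans (Subgroup.card_dvd_of_le h4))
  · intro hnc
    unfold Cfsg.IsKConnected at hnc
    push Not at hnc
    obtain ⟨E, E', hE1, hE2, hE'1, hE'2, hnE⟩ := hnc
    have hE : Vert p E := ⟨hE1, hE2⟩
    have hE' : Vert p E' := ⟨hE'1, hE'2⟩
    have hnE' : ¬ Conn p E E' := hnE
    -- the stabilizer of the connected component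
    let H : Subgroup G :=
      { carrier := {g | Conn p E (E.map (MulAut.conj g).toMonoidHom)}
        one_mem' := by
          change Conn p E _
          rw [map_conj_one]
          exact Relation.ReflTransGen.refl
        mul_mem' := by
          intro a b ha hb
          change Conn p E _ at ha hb
          change Conn p E _
          rw [map_conj_mul]
          exact conn_trans ha (conn_conj hb a)
        inv_mem' := by
          intro a ha
          change Conn p E _ at ha
          change Conn p E _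
          have h1 := conn_conj ha a⁻¹
          have h2 : (E.map (MulAut.conj a).toMonoidHom).map (MulAut.conj a⁻¹).toMonoidHom = E := by
            rw [← map_conj_mul, inv_mul_cancel, map_conj_one]
          rw [h2] at h1
          exact conn_symm h1 }
    have hmem : ∀ g, g ∈ H ↔ Conn p E (E.map (MulAut.conj g).toMonoidHom) := fun g => Iff.rfl
    have hEH : E ≤ H := by
      intro e he
      rw [hmem]
      have : E.map (MulAut.conj e).toMonoidHom = E := by
        rw [CfsgLib.CT.map_conj_eq_iff]
        exact Subgroup.le_normalizer he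
      rw [this]
      exact Relation.ReflTransGen.refl
    have hEp := isPGroup_of_vert hE
    -- every vertex inside `H` is connected to `E`
    obtain ⟨S⟩ : Nonempty (Sylow p H) := inferInstance
    have hconnH : ∀ x : G, x ∈ H → orderOf x = p → Conn p E (zpowers x) := by
      intro x hxH hxord
      -- put `E` and `⟨x⟩` into Sylow subgroups of `H`
      have hE₁ : IsPGroup p (E.subgroupOf H) := hEp.comap_subtype
      obtain ⟨P₁, hP₁⟩ := hE₁.exists_le_sylow
      have hx₁ : IsPGroup p ((zpowers x).subgroupOf H) :=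
        (isPGroup_of_vert (vert_zpowers hxord)).comap_subtype
      obtain ⟨P₂, hP₂⟩ := hx₁.exists_le_sylow
      obtain ⟨h, hh⟩ := MulAction.exists_smul_eq H P₁ P₂
      set Q : Subgroup G := (P₂ : Subgroup H).map H.subtype with hQ
      have hQp : IsPGroup p Q := P₂.isPGroup'.map _
      have h1 : E.map (MulAut.conj (h : G)).toMonoidHom ≤ Q := by
        rintro _ ⟨e, he, rfl⟩
        have h2 : (⟨e, hEH he⟩ : H) ∈ P₁ := hP₁ (Subgroup.mem_subgroupOf.2 he)
        have h3 : h * (⟨e, hEH he⟩ : H) * h⁻¹ ∈ P₂ := by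
          rw [← hh]
          change _ ∈ (P₁ : Subgroup H).map (MulAut.conj h).toMonoidHom
          exact ⟨_, h2, rfl⟩
        exact ⟨_, h3, rfl⟩
      have h2 : zpowers x ≤ Q := by
        rw [Subgroup.zpowers_le]
        have h3 : (⟨x, hxH⟩ : H) ∈ (zpowers x).subgroupOf H :=
          Subgroup.mem_subgroupOf.2 (mem_zpowers x)
        exact ⟨_, hP₂ h3, rfl⟩
      have h3 := conn_of_pgroup hQp (vert_conj hE h) (vert_zpowers hxord) h1 h2
      exact conn_trans ((hmem h).1 h.2) h3
    refine ⟨H, ?_, ?_, ?_⟩
    · intro hHt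
      -- every vertex would be connected to `E`
      have hE'p := isPGroup_of_vert hE'
      obtain ⟨P, hP⟩ := hEp.exists_le_sylow
      obtain ⟨P', hP'⟩ := hE'p.exists_le_sylow
      obtain ⟨g, hg⟩ := MulAction.exists_smul_eq G P P'
      have h1 : E.map (MulAut.conj g).toMonoidHom ≤ P' := by
        rw [← hg]
        exact Subgroup.map_mono hP
      have h2 := conn_of_pgroup P'.isPGroup' (vert_conj hE g) hE' h1 hP'
      have h3 : g ∈ H := by rw [hHt]; exact mem_top g
      exact hnE' (conn_trans ((hmem g).1 h3) h2)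
    · exact (dvd_card_of_vert hE).trans (Subgroup.card_dvd_of_le hEH)
    · intro g hg hdvd
      apply hg
      obtain ⟨y, hy⟩ := exists_prime_orderOf_dvd_card' p hdvd
      set x : G := (y : G) with hxdef
      have hxord : orderOf x = p := by rw [hxdef, Subgroup.orderOf_coe, hy]
      have hxH : x ∈ H := y.2.1
      have hxHg := y.2.2
      have hxg : g⁻¹ * x * g ∈ H := CfsgLib.CT.mem_map_conj'.1 hxHg
      have hord2 : orderOf (g⁻¹ * x * g) = p := by
        have : g⁻¹ * x * g = (MulAut.conj g⁻¹) x := by simp [MulAut.conj_apply]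
        rw [this, MulEquiv.orderOf_eq, hxord]
      have h1 := hconnH x hxH hxord
      have h2 := hconnH _ hxg hord2
      have h3 := conn_conj h2 g
      have h4 : (zpowers (g⁻¹ * x * g)).map (MulAut.conj g).toMonoidHom = zpowers x := by
        rw [MonoidHom.map_zpowers]
        congr 1
        simp [mul_assoc]
      rw [h4] at h3
      exact (hmem g).2 (conn_trans h1 (conn_symm h3))

end Finite

end CfsgLib.KConn
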