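import Cfsg.Prelude.Def_ConjugacyFunctors
import Cfsg.Agent.Lib.H3.Signal2

set_option autoImplicit false
set_option linter.unusedSectionVars false
set_option linter.style.haveILetI false

/-! The K-sequence of a finite `p`-group. -/

namespace CfsgLib.KSeq

open Subgroup Cfsg
open scoped commutatorElement

variable {P : Type*} [Group P]

theorem lower_anti {Q₁ Q₂ : Subgroup P} (h : Q₁ ≤ Q₂) :
    kLowerStarFamily Q₂ ⊆ kLowerStarFamily Q₁ := by
  rintro B ⟨h1, h2, h3⟩
  exact ⟨h1, h.trans h2, fun A hA hAQ => h3 A hA (hAQ.trans h)⟩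

theorem upper_anti {Q₁ Q₂ : Subgroup P} (h : Q₁ ≤ Q₂) :
    kUpperStarFamily Q₂ ⊆ kUpperStarFamily Q₁ := by
  rintro B ⟨h1, h2⟩
  exact ⟨h1, (Subgroup.commutator_mono le_rfl h).trans h2⟩

theorem lower_sup_anti {Q₁ Q₂ : Subgroup P} (h : Q₁ ≤ Q₂) :
    sSup (kLowerStarFamily Q₂) ≤ sSup (kLowerStarFamily Q₁) := sSup_le_sSup (lower_anti h)

theorem upper_sup_anti {Q₁ Q₂ : Subgroup P} (h : Q₁ ≤ Q₂) :
    sSup (kUpperStarFamily Q₂) ≤ sSup (kUpperStarFamily Q₁) := sSup_le_sSup (upper_anti h)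

theorem odd_succ (n : ℕ) : kSeqOdd P (n + 1) = sSup (kUpperStarFamily (kSeqEven P n)) := rfl

theorem even_def (n : ℕ) : kSeqEven P n = sSup (kLowerStarFamily (kSeqOdd P n)) := rfl

theorem odd_succ_le (n : ℕ) : kSeqOdd P (n + 1) ≤ kSeqOdd P n := by
  induction n with
  | zero => exact le_top
  | succ n ih =>
    rw [odd_succ, odd_succ n]
    exact upper_sup_anti (lower_sup_anti ih)

theorem even_le_succ (n : ℕ) : kSeqEven P n ≤ kSeqEven P (n + 1) :=
  lower_sup_anti (odd_succ_le n)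

theorem odd_anti : Antitone (kSeqOdd P) := antitone_nat_of_succ_le odd_succ_le

theorem even_mono : Monotone (kSeqEven P) := monotone_nat_of_le_succ even_le_succ

theorem exists_stable [Finite P] : ∃ n : ℕ, ∀ m : ℕ, n ≤ m →
    kSeqEven P m = kInfLower P ∧ kSeqOdd P m = kInfUpper P := by
  obtain ⟨n₁, h₁⟩ := WellFoundedGT.monotone_chain_condition
    (⟨kSeqEven P, even_mono⟩ : ℕ →o Subgroup P)
  obtain ⟨n₂, h₂⟩ := WellFoundedGT.monotone_chain_condition
    (⟨fun n => OrderDual.toDual (kSeqOdd P n), odd_anti⟩ : ℕ →o (Subgroup P)ᵒᵈ)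
  simp only [OrderHom.coe_mk] at h₁ h₂
  refine ⟨max n₁ n₂, fun m hm => ⟨?_, ?_⟩⟩
  · apply le_antisymm (le_iSup (kSeqEven P) m)
    refine iSup_le fun k => ?_
    rcases le_total k m with hk | hk
    · exact even_mono hk
    · have h1 : kSeqEven P m = kSeqEven P k := by
        rw [← h₁ m (le_of_max_le_left hm), ← h₁ k ((le_of_max_le_left hm).trans hk)]
      exact h1.ge
  · apply le_antisymm _ (iInf_le (kSeqOdd P) m)
    refine le_iInf fun k => ?_
    rcases le_total k m with hk | hk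
    · exact odd_anti hk
    · have h1 : kSeqOdd P m = kSeqOdd P k := by
        have h3 := h₂ m (le_of_max_le_right hm)
        have h4 := h₂ k ((le_of_max_le_right hm).trans hk)
        exact OrderDual.toDual.injective (h3.symm.trans h4)
      exact h1.le

/-- Abelian normal subgroups lie in every family. -/
theorem abelian_class2 {A : Subgroup P} (hA : IsMulCommutative A) : A ∈ classTwoSubgroups P := by
  have h : ⁅A, A⁆ = ⊥ := by
    rw [Subgroup.commutator_eq_bot_iff_le_centralizer]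
    intro x hx
    rw [Subgroup.mem_centralizer_iff]
    intro y hy
    exact congrArg Subtype.val (mul_comm' (⟨y, hy⟩ : A) ⟨x, hx⟩)
  show ⁅A, A⁆ ≤ _
  rw [h]
  exact bot_le

theorem abelian_center {A : Subgroup P} (hA : IsMulCommutative A) : A ⊓ centralizer (A : Set P) = A := by
  apply inf_eq_left.2
  intro x hx
  rw [Subgroup.mem_centralizer_iff]
  intro y hy
  exact congrArg Subtype.val (mul_comm' (⟨y, hy⟩ : A) ⟨x, hx⟩)

theorem abelian_lower {A Q : Subgroup P} [hn : A.Normal] (hA : IsMulCommutative A) :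
    A ∈ kLowerStarFamily Q := by
  refine ⟨abelian_class2 hA, ?_, ?_⟩
  · rw [Subgroup.normalizer_eq_top A]
    exact le_top
  · intro A' _ _ _ _ _
    rw [abelian_center hA]
    exact Subgroup.commutator_le_left A A'

theorem abelian_upper {A Q : Subgroup P} [hn : A.Normal] (hA : IsMulCommutative A) :
    A ∈ kUpperStarFamily Q := by
  refine ⟨abelian_class2 hA, ?_⟩
  rw [abelian_center hA]
  exact Subgroup.commutator_le_left A Q

section Max

variable [Finite P] {p : ℕ} [Fact p.Prime]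

theorem exists_ext (hP : IsPGroup p P) {B : Subgroup P} (h : ¬ centralizer (B : Set P) ≤ B) :
    ∃ x ∈ centralizer (B : Set P), x ∉ B ∧ ∀ t ∈ normalizer (B : Set P),
      x * t * x⁻¹ * t⁻¹ ∈ B ⊓ centralizer (B : Set P) := by
  set T : Subgroup P := normalizer (B : Set P) with hT
  set R : Subgroup P := centralizer (B : Set P) ⊔ B with hR
  have hTnil : Group.IsNilpotent T := (hP.to_subgroup T).isNilpotent
  have hBT : B ≤ T := le_normalizer
  have hCN : centralizer (B : Set P) ≤ T := by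
    intro c hc
    apply CfsgLib.CT.mem_normalizer_of_conj_le
    intro b hb
    have h1 := (Subgroup.mem_centralizer_iff.1 hc) b hb
    rw [← h1, mul_inv_cancel_right]
    exact hb
  have hCnorm : T ≤ normalizer ((centralizer (B : Set P) : Subgroup P) : Set P) := by
    intro t ht
    apply CfsgLib.CT.mem_normalizer_of_conj_le
    intro c hc
    rw [Subgroup.mem_centralizer_iff] at hc ⊢
    intro b hb
    have h1 : t⁻¹ * b * t ∈ B := by
      have := CfsgLib.CT.conj_mem_of_mem_normalizer (Subgroup.inv_mem _ ht) hb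
      simpa using this
    have h2 := hc _ h1
    calc b * (t * c * t⁻¹) = t * ((t⁻¹ * b * t) * c) * t⁻¹ := by group
      _ = t * (c * (t⁻¹ * b * t)) * t⁻¹ := by rw [h2]
      _ = t * c * t⁻¹ * b := by group
  have hRT : R ≤ T := sup_le hCN hBT
  have hBR : B < R := by
    refine lt_of_le_of_ne le_sup_right ?_
    intro he
    apply h
    intro c hc
    have h1 : c ∈ R := Subgroup.mem_sup_left hc
    rw [← he] at h1
    exact h1
  have hRN : T ≤ normalizer (R : Set P) := by
    intro t ht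
    apply CfsgLib.CT.mem_normalizer_of_conj_le
    intro r hr
    obtain ⟨c, hc, b, hb, rfl⟩ := CfsgLib.Signal.mem_sup_mul (X := centralizer (B : Set P)) (Y := B)
      (hBT.trans hCnorm) hr
    have h1 : t * (c * b) * t⁻¹ = (t * c * t⁻¹) * (t * b * t⁻¹) := by group
    rw [h1]
    exact Subgroup.mul_mem _
      (Subgroup.mem_sup_left (CfsgLib.CT.conj_mem_of_mem_normalizer (hCnorm ht) hc))
      (Subgroup.mem_sup_right (CfsgLib.CT.conj_mem_of_mem_normalizer ht hb))
  obtain ⟨x, hxR, hxB, hxc⟩ := CfsgLib.Solv.exists_central_mod_in hTnil hBT hRT le_rfl hRN hBR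
  obtain ⟨c, hc, b, hb, rfl⟩ := CfsgLib.Signal.mem_sup_mul (X := centralizer (B : Set P)) (Y := B)
    (hBT.trans hCnorm) hxR
  have hcB : c ∉ B := fun h => hxB (B.mul_mem h hb)
  refine ⟨c, hc, hcB, ?_⟩
  intro t ht
  refine ⟨?_, ?_⟩
  · -- in B
    have h1 := hxc t ht
    have h2 : ⁅c * b, t⁆ = c * (b * t * b⁻¹ * t⁻¹) * c⁻¹ * (c * t * c⁻¹ * t⁻¹) := by
      simp only [commutatorElement_def]
      group
    rw [h2] at h1
    -- first factor is in B
    have h3 : b * t * b⁻¹ * t⁻¹ ∈ B := by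
      have h4 : t * b⁻¹ * t⁻¹ ∈ B := CfsgLib.CT.conj_mem_of_mem_normalizer ht (B.inv_mem hb)
      have h5 : b * t * b⁻¹ * t⁻¹ = b * (t * b⁻¹ * t⁻¹) := by group
      rw [h5]
      exact B.mul_mem hb h4
    have h6 : c * (b * t * b⁻¹ * t⁻¹) * c⁻¹ ∈ B :=
      CfsgLib.CT.conj_mem_of_mem_normalizer (hCN hc) h3
    have h7 := B.mul_mem (B.inv_mem h6) h1
    rwa [inv_mul_cancel_left] at h7
  · have h1 : t * c⁻¹ * t⁻¹ ∈ centralizer (B : Set P) :=
      CfsgLib.CT.conj_mem_of_mem_normalizer (hCnorm ht) (Subgroup.inv_mem _ hc)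
    have h2 : c * t * c⁻¹ * t⁻¹ = c * (t * c⁻¹ * t⁻¹) := by group
    rw [h2]
    exact Subgroup.mul_mem _ hc h1

theorem zpowers_le_norm {B : Subgroup P} {x : P} (hx : x ∈ centralizer (B : Set P)) :
    zpowers x ≤ normalizer (B : Set P) := by
  intro y hy
  apply CfsgLib.CT.mem_normalizer_of_conj_le
  intro b hb
  have h1 := (Subgroup.mem_centralizer_iff.1 ((Subgroup.zpowers_le.2 hx) hy)) b hb
  rw [← h1, mul_inv_cancel_right]
  exact hb

theorem mem_cent_sup {B : Subgroup P} {x w : P} (h1 : w ∈ centralizer (B : Set P)) (h2 : w * x = x * w) :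
    w ∈ centralizer ((B ⊔ zpowers x : Subgroup P) : Set P) := by
  have h3 : B ⊔ zpowers x ≤ centralizer ({w} : Set P) := by
    refine sup_le ?_ ?_
    · intro b hb
      rw [Subgroup.mem_centralizer_iff]
      intro u hu
      rw [Set.mem_singleton_iff] at hu
      subst hu
      exact ((Subgroup.mem_centralizer_iff.1 h1) b hb).symm
    · rw [Subgroup.zpowers_le, Subgroup.mem_centralizer_iff]
      intro u hu
      rw [Set.mem_singleton_iff] at hu
      subst hu
      exact h2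
  rw [Subgroup.mem_centralizer_iff]
  intro y hy
  have h4 := (Subgroup.mem_centralizer_iff.1 (h3 hy)) w rfl
  exact h4.symm

/-- The extension `B' = B ⟨x⟩`. -/
theorem ext_class2 {B : Subgroup P} (hB : B ∈ classTwoSubgroups P) {x : P}
    (hx : x ∈ centralizer (B : Set P)) : B ⊔ zpowers x ∈ classTwoSubgroups P := by
  have hzC : zpowers x ≤ centralizer (B : Set P) := Subgroup.zpowers_le.2 hx
  have hzN : zpowers x ≤ normalizer (B : Set P) := zpowers_le_norm hx
  have hcomz : ∀ y ∈ zpowers x, ∀ y' ∈ zpowers x, y * y' = y' * y := by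
    intro y hy y' hy'
    obtain ⟨i, rfl⟩ := Subgroup.mem_zpowers_iff.1 hy
    obtain ⟨j, rfl⟩ := Subgroup.mem_zpowers_iff.1 hy'
    exact zpow_mul_comm x i j
  have h1 : ⁅B ⊔ zpowers x, B ⊔ zpowers x⁆ ≤ ⁅B, B⁆ := by
    rw [Subgroup.commutator_le]
    intro g hg h hh
    obtain ⟨b, hb, y, hy, rfl⟩ := CfsgLib.Signal.mem_sup_mul hzN hg
    obtain ⟨b', hb', y', hy', rfl⟩ := CfsgLib.Signal.mem_sup_mul hzN hh
    have hyb' : b' * y = y * b' := (Subgroup.mem_centralizer_iff.1 (hzC hy)) b' hb'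
    have hy'b : b * y' = y' * b := (Subgroup.mem_centralizer_iff.1 (hzC hy')) b hb
    have hyy' := hcomz y hy y' hy'
    have e1 : b * y * (b' * y') = (b * b') * (y * y') := by
      calc b * y * (b' * y') = b * (y * b') * y' := by group
        _ = b * (b' * y) * y' := by rw [hyb']
        _ = _ := by group
    have e2 : b' * y' * (b * y) = (b' * b) * (y * y') := by
      calc b' * y' * (b * y) = b' * (y' * b) * y := by group
        _ = b' * (b * y') * y := by rw [hy'b]
        _ = (b' * b) * (y' * y) := by group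
        _ = _ := by rw [hyy']
    have h2 : ⁅b * y, b' * y'⁆ = ⁅b, b'⁆ := by
      have e3 : ⁅b * y, b' * y'⁆ = (b * y * (b' * y')) * (b' * y' * (b * y))⁻¹ := by
        simp only [commutatorElement_def]
        group
      rw [e3, e1, e2]
      simp only [commutatorElement_def]
      group
    rw [h2]
    exact Subgroup.commutator_mem_commutator hb hb'
  refine h1.trans ?_
  intro w hw
  have hwB : w ∈ B := CfsgLib.Solv.commutator_le_of_normalizes le_normalizer hw
  refine mem_cent_sup (hB hw) ?_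
  exact (Subgroup.mem_centralizer_iff.1 hx w hwB)

theorem center_le_ext {B : Subgroup P} {x : P} (hx : x ∈ centralizer (B : Set P)) :
    B ⊓ centralizer (B : Set P) ≤ (B ⊔ zpowers x) ⊓ centralizer ((B ⊔ zpowers x : Subgroup P) : Set P) := by
  rintro z ⟨hz1, hz2⟩
  refine Subgroup.mem_inf.2 ⟨Subgroup.mem_sup_left hz1, mem_cent_sup hz2 ?_⟩
  exact (Subgroup.mem_centralizer_iff.1 hx z hz1)

theorem comm_sup_le {B Q Z' : Subgroup P} {x : P}
    (hZ : B ⊔ zpowers x ≤ normalizer (Z' : Set P)) (h1 : ⁅B, Q⁆ ≤ Z')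
    (h2 : ∀ q ∈ Q, x * q * x⁻¹ * q⁻¹ ∈ Z') : ⁅B ⊔ zpowers x, Q⁆ ≤ Z' := by
  rw [Subgroup.commutator_le]
  intro g hg q hq
  let S : Subgroup P :=
    { carrier := {y | y ∈ B ⊔ zpowers x ∧ y * q * y⁻¹ * q⁻¹ ∈ Z'}
      one_mem' := ⟨Subgroup.one_mem _, by simp⟩
      mul_mem' := by
        rintro a c ⟨ha, ha'⟩ ⟨hc, hc'⟩
        refine ⟨Subgroup.mul_mem _ ha hc, ?_⟩
        have h3 : a * c * q * (a * c)⁻¹ * q⁻¹ =
            a * (c * q * c⁻¹ * q⁻¹) * a⁻¹ * (a * q * a⁻¹ * q⁻¹) := by group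
        rw [h3]
        exact Z'.mul_mem (CfsgLib.CT.conj_mem_of_mem_normalizer (hZ ha) hc') ha'
      inv_mem' := by
        rintro a ⟨ha, ha'⟩
        refine ⟨Subgroup.inv_mem _ ha, ?_⟩
        have h3 : a⁻¹ * q * a⁻¹⁻¹ * q⁻¹ = a⁻¹ * (a * q * a⁻¹ * q⁻¹)⁻¹ * a := by group
        rw [h3]
        have := CfsgLib.CT.conj_mem_of_mem_normalizer (Subgroup.inv_mem _ (hZ ha)) (Z'.inv_mem ha')
        simpa using this }
  have hle : B ⊔ zpowers x ≤ S := by
    refine sup_le ?_ ?_
    · intro b hb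
      exact ⟨Subgroup.mem_sup_left hb, h1 (Subgroup.commutator_mem_commutator hb hq)⟩
    · rw [Subgroup.zpowers_le]
      exact ⟨Subgroup.mem_sup_right (Subgroup.mem_zpowers x), h2 q hq⟩
  exact (hle hg).2

theorem center_normal {B : Subgroup P} :
    B ≤ normalizer ((B ⊓ centralizer (B : Set P) : Subgroup P) : Set P) := by
  intro b hb
  apply CfsgLib.CT.mem_normalizer_of_conj_le
  rintro z ⟨hz1, hz2⟩
  have h1 := (Subgroup.mem_centralizer_iff.1 hz2) b hb
  rw [h1, mul_inv_cancel_right]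
  exact ⟨hz1, hz2⟩

/-- Maximal members of the class-two family. -/
theorem max_class2 (hP : IsPGroup p P) {B : Subgroup P} (hB : B ∈ classTwoSubgroups P)
    (hmax : ∀ C ∈ classTwoSubgroups P, B ≤ C → C = B) : centralizer (B : Set P) ≤ B := by
  intro x hx
  have h1 := hmax _ (ext_class2 hB hx) le_sup_left
  rw [← h1]
  exact Subgroup.mem_sup_right (Subgroup.mem_zpowers x)

theorem ext_norm_center {B : Subgroup P} {x : P} (hx : x ∈ centralizer (B : Set P)) :
    B ⊔ zpowers x ≤ normalizer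
      (((B ⊔ zpowers x) ⊓ centralizer ((B ⊔ zpowers x : Subgroup P) : Set P) : Subgroup P) : Set P) :=
  center_normal

theorem max_upper (hP : IsPGroup p P) {Q B : Subgroup P} (hB : B ∈ kUpperStarFamily Q)
    (hmax : ∀ C ∈ kUpperStarFamily Q, B ≤ C → C = B) : centralizer (B : Set P) ≤ B := by
  by_contra hne
  obtain ⟨x, hx, hxB, hxt⟩ := exists_ext hP hne
  have hQN : Q ≤ normalizer (B : Set P) := by
    intro q hq
    apply CfsgLib.CT.mem_normalizer_of_conj_le
    intro b hb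
    have h1 : b * q * b⁻¹ * q⁻¹ ∈ B := (hB.2 (Subgroup.commutator_mem_commutator hb hq)).1
    have h2 : q * b * q⁻¹ = (b * q * b⁻¹ * q⁻¹)⁻¹ * b := by group
    rw [h2]
    exact B.mul_mem (B.inv_mem h1) hb
  have hcen := center_le_ext hx
  have hnew : B ⊔ zpowers x ∈ kUpperStarFamily Q := by
    refine ⟨ext_class2 hB.1 hx, ?_⟩
    exact comm_sup_le (ext_norm_center hx) (hB.2.trans hcen) (fun q hq => hcen (hxt q (hQN hq)))
  have h1 := hmax _ hnew le_sup_left
  apply hxB
  rw [← h1]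
  exact Subgroup.mem_sup_right (Subgroup.mem_zpowers x)

theorem max_lower (hP : IsPGroup p P) {Q B : Subgroup P} (hB : B ∈ kLowerStarFamily Q)
    (hmax : ∀ C ∈ kLowerStarFamily Q, B ≤ C → C = B) : centralizer (B : Set P) ≤ B := by
  by_contra hne
  obtain ⟨x, hx, hxB, hxt⟩ := exists_ext hP hne
  have hQN : Q ≤ normalizer (B : Set P) := hB.2.1
  have hcen := center_le_ext hx
  have hnew : B ⊔ zpowers x ∈ kLowerStarFamily Q := by
    refine ⟨ext_class2 hB.1 hx, ?_, ?_⟩
    · intro q hq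
      apply CfsgLib.CT.mem_normalizer_of_conj_le
      intro y hy
      obtain ⟨b, hb, z, hz, rfl⟩ := CfsgLib.Signal.mem_sup_mul (zpowers_le_norm hx) hy
      have h1 : q * (b * z) * q⁻¹ = (q * b * q⁻¹) * (q * z * q⁻¹) := by group
      rw [h1]
      refine Subgroup.mul_mem _ (Subgroup.mem_sup_left (CfsgLib.CT.conj_mem_of_mem_normalizer (hQN hq) hb)) ?_
      obtain ⟨k, rfl⟩ := Subgroup.mem_zpowers_iff.1 hz
      rw [← conj_zpow]
      refine Subgroup.zpow_mem _ ?_ k
      have h2 : x * q * x⁻¹ * q⁻¹ ∈ B := (hxt q (hQN hq)).1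
      have h3 : q * x * q⁻¹ = (x * q * x⁻¹ * q⁻¹)⁻¹ * x := by group
      rw [h3]
      exact Subgroup.mul_mem _ (Subgroup.mem_sup_left (B.inv_mem h2))
        (Subgroup.mem_sup_right (Subgroup.mem_zpowers x))
    · intro A hA hAQ hBA h1 h2
      have h3 : ⁅B, A⁆ ≤ B ⊓ centralizer (B : Set P) := by
        refine hB.2.2 A hA hAQ ((le_sup_left).trans hBA) ?_ ?_
        · exact le_bot_iff.1 ((Subgroup.commutator_mono le_sup_left le_rfl).trans h1.le)
        · exact le_bot_iff.1 ((Subgroup.commutator_mono (Subgroup.commutator_mono hcen le_rfl) le_rfl).trans h2.le)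
      exact comm_sup_le (ext_norm_center hx) (h3.trans hcen) (fun q hq => hcen (hxt q (hQN (hAQ hq))))
  have h1 := hmax _ hnew le_sup_left
  apply hxB
  rw [← h1]
  exact Subgroup.mem_sup_right (Subgroup.mem_zpowers x)

theorem exists_max_of_mem {𝒦 : Set (Subgroup P)} {B : Subgroup P} (hB : B ∈ 𝒦) :
    ∃ C ∈ 𝒦, B ≤ C ∧ ∀ D ∈ 𝒦, C ≤ D → D = C := by
  obtain ⟨C, hC⟩ := (Set.toFinite {D | D ∈ 𝒦 ∧ B ≤ D}).exists_maximal ⟨B, hB, le_rfl⟩
  refine ⟨C, hC.1.1, hC.1.2, fun D hD hCD => ?_⟩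
  exact le_antisymm (hC.2 ⟨hD, hC.1.2.trans hCD⟩ hCD) hCD

theorem bot_abelian : IsMulCommutative (⊥ : Subgroup P) := by
  refine ⟨⟨fun a b => ?_⟩⟩
  apply Subtype.ext
  have ha : (a : P) = 1 := a.2
  have hb : (b : P) = 1 := b.2
  simp [ha, hb]

/-- The sup of a family with self-centralizing maximal members is self-centralizing. -/
theorem sup_self_centr {𝒦 : Set (Subgroup P)} (hbot : (⊥ : Subgroup P) ∈ 𝒦)
    (h : ∀ B ∈ 𝒦, (∀ C ∈ 𝒦, B ≤ C → C = B) → centralizer (B : Set P) ≤ B) :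
    centralizer ((sSup 𝒦 : Subgroup P) : Set P) ≤ sSup 𝒦 := by
  obtain ⟨C, hC, _, hmax⟩ := exists_max_of_mem hbot
  have h1 : C ≤ sSup 𝒦 := le_sSup hC
  exact (Subgroup.centralizer_le h1).trans ((h C hC hmax).trans h1)

theorem even_self_centr (hP : IsPGroup p P) (n : ℕ) :
    centralizer ((kSeqEven P n : Subgroup P) : Set P) ≤ kSeqEven P n :=
  sup_self_centr (abelian_lower bot_abelian) (fun _ hB hm => max_lower hP hB hm)

theorem odd_succ_self_centr (hP : IsPGroup p P) (n : ℕ) :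
    centralizer ((kSeqOdd P (n + 1) : Subgroup P) : Set P) ≤ kSeqOdd P (n + 1) :=
  sup_self_centr (abelian_upper bot_abelian) (fun _ hB hm => max_upper hP hB hm)

end Max

end CfsgLib.KSeq
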