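import Cfsg.Agent.Lib.H3.KSeq

set_option autoImplicit false
set_option linter.unusedSectionVars false
set_option linter.style.haveILetI false

/-! K-sequences of subgroups containing the K-sequence. -/

namespace CfsgLib.KSeq

open Subgroup Cfsg

variable {P : Type*} [Group P] [Finite P] (Q : Subgroup P)

theorem mem_cent_map {B : Subgroup Q} {x : Q} :
    (x : P) ∈ centralizer ((B.map Q.subtype : Subgroup P) : Set P) ↔ x ∈ centralizer (B : Set Q) := by
  rw [Subgroup.mem_centralizer_iff, Subgroup.mem_centralizer_iff]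
  constructor
  · intro h b hb
    exact Subtype.ext (h b ⟨b, hb, rfl⟩)
  · rintro h _ ⟨b, hb, rfl⟩
    exact congrArg Subtype.val (h b hb)

theorem center_map (B : Subgroup Q) :
    (B ⊓ centralizer (B : Set Q)).map Q.subtype =
      B.map Q.subtype ⊓ centralizer ((B.map Q.subtype : Subgroup P) : Set P) := by
  ext y
  constructor
  · rintro ⟨x, ⟨hx1, hx2⟩, rfl⟩
    exact ⟨⟨x, hx1, rfl⟩, (mem_cent_map Q).2 hx2⟩
  · rintro ⟨⟨x, hx1, rfl⟩, hx2⟩
    exact ⟨x, ⟨hx1, (mem_cent_map Q).1 hx2⟩, rfl⟩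

theorem norm_map {B : Subgroup Q} {x : Q} :
    (x : P) ∈ normalizer ((B.map Q.subtype : Subgroup P) : Set P) ↔ x ∈ normalizer (B : Set Q) := by
  constructor
  · intro hx
    apply CfsgLib.CT.mem_normalizer_of_conj_le
    intro b hb
    obtain ⟨c, hc, he⟩ := CfsgLib.CT.conj_mem_of_mem_normalizer hx (Subgroup.mem_map_of_mem _ hb)
    have : c = x * b * x⁻¹ := Subtype.ext he
    rwa [← this]
  · intro hx
    apply CfsgLib.CT.mem_normalizer_of_conj_le
    rintro _ ⟨b, hb, rfl⟩
    exact ⟨x * b * x⁻¹, CfsgLib.CT.conj_mem_of_mem_normalizer hx hb, rfl⟩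

theorem class2_map {B : Subgroup Q} :
    B ∈ classTwoSubgroups Q ↔ B.map Q.subtype ∈ classTwoSubgroups P := by
  show ⁅B, B⁆ ≤ _ ↔ ⁅B.map Q.subtype, B.map Q.subtype⁆ ≤ _
  rw [← Subgroup.map_commutator]
  constructor
  · rintro h _ ⟨x, hx, rfl⟩
    exact (mem_cent_map Q).2 (h hx)
  · intro h x hx
    exact (mem_cent_map Q).1 (h ⟨x, hx, rfl⟩)

theorem upper_map {B Q₀ : Subgroup Q} :
    B ∈ kUpperStarFamily Q₀ ↔ B.map Q.subtype ∈ kUpperStarFamily (Q₀.map Q.subtype) := by
  show (B ∈ classTwoSubgroups Q ∧ ⁅B, Q₀⁆ ≤ _) ↔ (B.map Q.subtype ∈ classTwoSubgroups P ∧ ⁅B.map Q.subtype, Q₀.map Q.subtype⁆ ≤ _)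
  rw [← class2_map, ← Subgroup.map_commutator, ← center_map,
    Subgroup.map_le_map_iff_of_injective Q.subtype_injective]

theorem map_eq_bot_of (X : Subgroup Q) : X.map Q.subtype = ⊥ ↔ X = ⊥ :=
  Subgroup.map_eq_bot_iff_of_injective _ Q.subtype_injective

theorem lower_map {B Q₀ : Subgroup Q} :
    B ∈ kLowerStarFamily Q₀ ↔ B.map Q.subtype ∈ kLowerStarFamily (Q₀.map Q.subtype) := by
  constructor
  · rintro ⟨h1, h2, h3⟩
    refine ⟨(class2_map Q).1 h1, ?_, ?_⟩
    · rintro _ ⟨x, hx, rfl⟩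
      exact (norm_map Q).2 (h2 hx)
    · intro A hA hAQ hBA h4 h5
      have hAm : (A.subgroupOf Q).map Q.subtype = A := by
        rw [Subgroup.subgroupOf_map_subtype]
        exact inf_eq_left.2 (hAQ.trans (Subgroup.map_subtype_le _))
      set A' : Subgroup Q := A.subgroupOf Q with hA'
      rw [← hAm] at hA hAQ hBA h4 h5 ⊢
      rw [Subgroup.map_le_map_iff_of_injective Q.subtype_injective] at hAQ
      rw [← Subgroup.map_commutator, ← Subgroup.map_commutator, map_eq_bot_of] at h4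
      rw [← center_map, ← Subgroup.map_commutator, ← Subgroup.map_commutator, map_eq_bot_of] at h5
      rw [← center_map, ← Subgroup.map_commutator, Subgroup.map_le_map_iff_of_injective Q.subtype_injective]
      refine h3 A' ((class2_map Q).2 hA) hAQ ?_ h4 h5
      intro b hb
      exact (norm_map Q).1 (hBA ⟨b, hb, rfl⟩)
  · rintro ⟨h1, h2, h3⟩
    refine ⟨(class2_map Q).2 h1, ?_, ?_⟩
    · intro x hx
      exact (norm_map Q).1 (h2 ⟨x, hx, rfl⟩)
    · intro A hA hAQ hBA h4 h5
      have h6 := h3 (A.map Q.subtype) ((class2_map Q).1 hA) (Subgroup.map_mono hAQ) ?_ ?_ ?_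
      · rw [← center_map, ← Subgroup.map_commutator,
          Subgroup.map_le_map_iff_of_injective Q.subtype_injective] at h6
        exact h6
      · rintro _ ⟨b, hb, rfl⟩
        exact (norm_map Q).2 (hBA hb)
      · rw [← Subgroup.map_commutator, ← Subgroup.map_commutator, map_eq_bot_of]
        exact h4
      · rw [← center_map, ← Subgroup.map_commutator, ← Subgroup.map_commutator, map_eq_bot_of]
        exact h5

theorem map_top_eq : (⊤ : Subgroup Q).map Q.subtype = Q := by
  rw [← MonoidHom.range_eq_map, Subgroup.range_subtype]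

theorem subgroupOf_map_of_le {B : Subgroup P} (h : B ≤ Q) : (B.subgroupOf Q).map Q.subtype = B := by
  rw [Subgroup.subgroupOf_map_subtype]
  exact inf_eq_left.2 h

theorem map_sSup_le {𝒜 : Set (Subgroup Q)} {R : Subgroup P}
    (h : ∀ B ∈ 𝒜, B.map Q.subtype ≤ R) : (sSup 𝒜).map Q.subtype ≤ R := by
  rw [Subgroup.map_le_iff_le_comap]
  exact sSup_le fun B hB => Subgroup.map_le_iff_le_comap.1 (h B hB)

theorem le_map_sSup {𝒜 : Set (Subgroup Q)} {𝒝 : Set (Subgroup P)}
    (h : ∀ B ∈ 𝒝, B ≤ Q ∧ B.subgroupOf Q ∈ 𝒜) : sSup 𝒝 ≤ (sSup 𝒜).map Q.subtype := by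
  refine sSup_le fun B hB => ?_
  obtain ⟨h1, h2⟩ := h B hB
  rw [← subgroupOf_map_of_le Q h1]
  exact Subgroup.map_mono (le_sSup h2)

theorem kinf_of_subgroup {p : ℕ} [Fact p.Prime] (hP : IsPGroup p P)
    (hQ : ∀ n : ℕ, kSeqEven P n ≤ Q ∧ kSeqOdd P (n + 1) ≤ Q) :
    (kInfLower Q).map Q.subtype = kInfLower P ∧ (kInfUpper Q).map Q.subtype = kInfUpper P := by
  have hstep1 : ∀ n, (kSeqOdd Q n).map Q.subtype ≤ kSeqOdd P n →
      kSeqEven P n ≤ (kSeqEven Q n).map Q.subtype := by
    intro n h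
    refine le_map_sSup Q fun B hB => ?_
    have hBQ : B ≤ Q := (le_sSup hB).trans (hQ n).1
    refine ⟨hBQ, ?_⟩
    rw [lower_map, subgroupOf_map_of_le Q hBQ]
    exact lower_anti h hB
  have hstep2 : ∀ n, kSeqEven P n ≤ (kSeqEven Q n).map Q.subtype →
      (kSeqOdd Q (n + 1)).map Q.subtype ≤ kSeqOdd P (n + 1) := by
    intro n h
    refine map_sSup_le Q fun B hB => ?_
    rw [upper_map] at hB
    exact le_sSup (upper_anti h hB)
  have h1 : ∀ n, (kSeqOdd Q n).map Q.subtype ≤ kSeqOdd P n := by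
    intro n
    induction n with
    | zero => exact le_top
    | succ n ih => exact hstep2 n (hstep1 n ih)
  have h2 : ∀ n, kSeqEven P n ≤ (kSeqEven Q n).map Q.subtype := fun n => hstep1 n (h1 n)
  obtain ⟨N, hN⟩ := exists_stable (P := P)
  have hU : kInfUpper P = kSeqOdd P (N + 1) := ((hN (N + 1) (by omega)).2).symm
  have hU' : kInfUpper P = kSeqOdd P N := ((hN N le_rfl).2).symm
  have hL : kInfLower P = kSeqEven P N := ((hN N le_rfl).1).symm
  have hLdef : kInfLower P = sSup (kLowerStarFamily (kInfUpper P)) := by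
    rw [hL, even_def, ← hU']
  have hUdef : kInfUpper P = sSup (kUpperStarFamily (kInfLower P)) := by
    rw [hU, odd_succ, ← hL]
  have hUQ : kInfUpper P ≤ Q := by
    rw [hU]
    exact (hQ N).2
  have h3 : ∀ n, kInfUpper P ≤ (kSeqOdd Q n).map Q.subtype →
      (kSeqEven Q n).map Q.subtype ≤ kInfLower P := by
    intro n h
    refine map_sSup_le Q fun B hB => ?_
    rw [lower_map] at hB
    rw [hLdef]
    exact le_sSup (lower_anti h hB)
  have h4 : ∀ n, kInfUpper P ≤ (kSeqOdd Q n).map Q.subtype := by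
    intro n
    induction n with
    | zero =>
      show kInfUpper P ≤ (⊤ : Subgroup Q).map Q.subtype
      rw [map_top_eq]
      exact hUQ
    | succ n ih =>
      have h5 := h3 n ih
      conv_lhs => rw [hUdef]
      refine le_map_sSup Q fun B hB => ?_
      have hBQ : B ≤ Q := by
        have h6 : B ≤ kInfUpper P := by
          conv_rhs => rw [hUdef]
          exact le_sSup hB
        exact h6.trans hUQ
      refine ⟨hBQ, ?_⟩
      rw [upper_map, subgroupOf_map_of_le Q hBQ]
      exact upper_anti h5 hB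
  constructor
  · apply le_antisymm
    · rw [Subgroup.map_le_iff_le_comap]
      refine iSup_le fun n => ?_
      rw [← Subgroup.map_le_iff_le_comap]
      exact h3 n (h4 n)
    · refine iSup_le fun n => (h2 n).trans ?_
      exact Subgroup.map_mono (le_iSup (kSeqEven Q) n)
  · obtain ⟨N', hN'⟩ := exists_stable (P := Q)
    have hM := (hN' (max N N') (le_max_right _ _)).2
    have hM2 := (hN (max N N') (le_max_left _ _)).2
    rw [← hM]
    apply le_antisymm
    · rw [← hM2]
      exact h1 _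
    · exact h4 _

end CfsgLib.KSeq
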