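import Mathlib

/-! The Mathieu groups `M₁₁`, `M₁₂` from explicit generators: a stabilizer chain certificate. -/

set_option autoImplicit false

namespace CfsgLib.M12

/-- Permutations of twelve points. -/
abbrev P := Equiv.Perm (Fin 12)

/-- The generators. -/
def s : P := Equiv.swap (3 : Fin 12) 5 * Equiv.swap (3 : Fin 12) 4 * Equiv.swap (6 : Fin 12) 8 * Equiv.swap (6 : Fin 12) 7 * Equiv.swap (9 : Fin 12) 11 * Equiv.swap (9 : Fin 12) 10
def t : P := Equiv.swap (3 : Fin 12) 9 * Equiv.swap (3 : Fin 12) 6 * Equiv.swap (4 : Fin 12) 10 * Equiv.swap (4 : Fin 12) 7 * Equiv.swap (5 : Fin 12) 11 * Equiv.swap (5 : Fin 12) 8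
def u : P := Equiv.swap (4 : Fin 12) 9 * Equiv.swap (4 : Fin 12) 5 * Equiv.swap (4 : Fin 12) 6 * Equiv.swap (7 : Fin 12) 10 * Equiv.swap (7 : Fin 12) 11 * Equiv.swap (7 : Fin 12) 8
def v : P := Equiv.swap (4 : Fin 12) 11 * Equiv.swap (4 : Fin 12) 5 * Equiv.swap (4 : Fin 12) 7 * Equiv.swap (6 : Fin 12) 8 * Equiv.swap (6 : Fin 12) 9 * Equiv.swap (6 : Fin 12) 10
def w : P := Equiv.swap (4 : Fin 12) 8 * Equiv.swap (4 : Fin 12) 5 * Equiv.swap (4 : Fin 12) 10 * Equiv.swap (6 : Fin 12) 7 * Equiv.swap (6 : Fin 12) 9 * Equiv.swap (6 : Fin 12) 11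
def x1 : P := Equiv.swap (0 : Fin 12) 3 * Equiv.swap (6 : Fin 12) 7 * Equiv.swap (8 : Fin 12) 10 * Equiv.swap (9 : Fin 12) 11
def x2 : P := Equiv.swap (0 : Fin 12) 1 * Equiv.swap (6 : Fin 12) 9 * Equiv.swap (7 : Fin 12) 10 * Equiv.swap (8 : Fin 12) 11
def x3 : P := Equiv.swap (1 : Fin 12) 2 * Equiv.swap (6 : Fin 12) 11 * Equiv.swap (7 : Fin 12) 9 * Equiv.swap (8 : Fin 12) 10

/-- Transversals. -/
def T0 : Fin 12 → P := ![1, 1, 1, 1, 1, u * u, u, v, u * v, v * w, w, w * u]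
def T1 : Fin 12 → P := ![1, 1, 1, 1, s, s * s, t, t * s, t * s * s, t * t, w * s, w * t]
def T2 : Fin 12 → P := ![1, 1, 1, x1, s * x1, s * s * x1, t * x1, t * s * x1, t * s * s * x1, t * t * x1, w * s * x1, w * t * x1]
def T3 : Fin 12 → P := ![x2, 1, 1, x1 * x2, s * x1 * x2, s * s * x1 * x2, t * x1 * x2, t * s * x1 * x2, t * s * s * x1 * x2, t * t * x1 * x2, w * s * x1 * x2, w * t * x1 * x2]
def T4 : Fin 12 → P := ![x2 * x3, x3, 1, x1 * x2 * x3, s * x1 * x2 * x3, s * s * x1 * x2 * x3, t * x1 * x2 * x3, t * s * x1 * x2 * x3, t * s * s * x1 * x2 * x3, t * t * x1 * x2 * x3, w * s * x1 * x2 * x3, w * t * x1 * x2 * x3]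

/-- Orbits. -/
def D0 (c : Fin 12) : Bool := decide (4 ≤ c.val)
def D1 (c : Fin 12) : Bool := decide (3 ≤ c.val)
def D2 (c : Fin 12) : Bool := decide (c.val = 0 ∨ 3 ≤ c.val)
def D3 (c : Fin 12) : Bool := decide (c.val ≠ 2)
def D4 (_ : Fin 12) : Bool := true

/-- Sifting. -/
def siftm (x : P) : Bool := (List.finRange 12).all fun i => decide (x i = i)
def sift0 (x : P) : Bool := D0 (x 4) && siftm ((T0 (x 4))⁻¹ * x)
def sift1 (x : P) : Bool := D1 (x 3) && sift0 ((T1 (x 3))⁻¹ * x)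
def sift2 (x : P) : Bool := D2 (x 0) && sift1 ((T2 (x 0))⁻¹ * x)
def sift3 (x : P) : Bool := D3 (x 1) && sift2 ((T3 (x 1))⁻¹ * x)

theorem chk0 : ([u, v, w] : List P).all (fun g => (List.finRange 12).all fun c =>
    !(D0 c) || (D0 (g c) && siftm ((T0 (g c))⁻¹ * g * T0 c))) = true := by decide +kernel

theorem chk1 : ([s, t, u, v, w] : List P).all (fun g => (List.finRange 12).all fun c =>
    !(D1 c) || (D1 (g c) && sift0 ((T1 (g c))⁻¹ * g * T1 c))) = true := by decide +kernel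

theorem chk2 : ([s, t, u, v, w, x1] : List P).all (fun g => (List.finRange 12).all fun c =>
    !(D2 c) || (D2 (g c) && sift1 ((T2 (g c))⁻¹ * g * T2 c))) = true := by decide +kernel

theorem chk3 : ([s, t, u, v, w, x1, x2] : List P).all (fun g => (List.finRange 12).all fun c =>
    !(D3 c) || (D3 (g c) && sift2 ((T3 (g c))⁻¹ * g * T3 c))) = true := by decide +kernel

theorem chk4 : ([s, t, u, v, w, x1, x2, x3] : List P).all (fun g => (List.finRange 12).all fun c =>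
    !(D4 c) || (D4 (g c) && sift3 ((T4 (g c))⁻¹ * g * T4 c))) = true := by decide +kernel

/-! ### The generic step -/

theorem schreier {S : Set P} {H : Subgroup P} {a : Fin 12} {D : Fin 12 → Bool} {T : Fin 12 → P}
    (ha : D a = true) (hTa : T a = 1) (hTv : ∀ c, D c = true → T c a = c)
    (hHfix : ∀ h ∈ H, h a = a)
    (hS : ∀ g ∈ S, ∀ c, D c = true → D (g c) = true ∧ (T (g c))⁻¹ * g * T c ∈ H) :
    ∀ x ∈ Subgroup.closure S, D (x a) = true ∧ (T (x a))⁻¹ * x ∈ H := by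
  have hp : ∀ x ∈ Subgroup.closure S, ∃ c, D c = true ∧ ∃ h ∈ H, x = T c * h := by
    intro x hx
    have hstep : ∀ g ∈ S, ∀ y : P, (∃ c, D c = true ∧ ∃ h ∈ H, y = T c * h) →
        (∃ c, D c = true ∧ ∃ h ∈ H, g * y = T c * h) := by
      rintro g hg y ⟨c, hc, h, hh, rfl⟩
      obtain ⟨h1, h2⟩ := hS g hg c hc
      refine ⟨g c, h1, (T (g c))⁻¹ * g * T c * h, H.mul_mem h2 hh, ?_⟩
      group
    have hpow : ∀ g ∈ S, ∀ (n : ℕ) (y : P), (∃ c, D c = true ∧ ∃ h ∈ H, y = T c * h) →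
        (∃ c, D c = true ∧ ∃ h ∈ H, g ^ n * y = T c * h) := by
      intro g hg n
      induction n with
      | zero =>
        intro y hy
        simpa using hy
      | succ n ih =>
        intro y hy
        rw [pow_succ', mul_assoc]
        exact hstep g hg _ (ih y hy)
    induction hx using Subgroup.closure_induction_left with
    | one => exact ⟨a, ha, 1, H.one_mem, by rw [hTa, one_mul]⟩
    | mul_left g hg y _ ih => exact hstep g hg y ih
    | inv_mul_cancel g hg y _ ih =>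
      have h1 : g⁻¹ = g ^ (orderOf g - 1) := by
        rw [eq_comm, pow_sub _ (orderOf_pos g), pow_orderOf_eq_one, one_mul, pow_one]
      rw [h1]
      exact hpow g hg _ y ih
  intro x hx
  obtain ⟨c, hc, h, hh, rfl⟩ := hp x hx
  have h1 : (T c * h) a = c := by
    rw [Equiv.Perm.mul_apply, hHfix h hh, hTv c hc]
  rw [h1]
  refine ⟨hc, ?_⟩
  rw [inv_mul_cancel_left]
  exact hh

theorem card_step {G H : Subgroup P} {a : Fin 12} {D : Fin 12 → Bool} {T : Fin 12 → P}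
    (hT : ∀ c, D c = true → T c ∈ G) (hTv : ∀ c, D c = true → T c a = c) (hH : H ≤ G)
    (hfix : ∀ h ∈ H, h a = a) (hX : ∀ x ∈ G, D (x a) = true ∧ (T (x a))⁻¹ * x ∈ H) :
    Nat.card G = Nat.card {c // D c = true} * Nat.card H := by
  rw [← Nat.card_prod]
  apply Nat.card_congr
  refine
    { toFun := fun x => (⟨x.1 a, (hX x.1 x.2).1⟩, ⟨(T (x.1 a))⁻¹ * x.1, (hX x.1 x.2).2⟩)
      invFun := fun q => ⟨T q.1.1 * q.2.1, G.mul_mem (hT _ q.1.2) (hH q.2.2)⟩
      left_inv := ?_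
      right_inv := ?_ }
  · intro x
    apply Subtype.ext
    simp
  · rintro ⟨⟨c, hc⟩, ⟨h, hh⟩⟩
    have h1 : (T c * h) a = c := by
      rw [Equiv.Perm.mul_apply, hfix h hh, hTv c hc]
    apply Prod.ext
    · exact Subtype.ext h1
    · apply Subtype.ext
      simp only
      rw [h1, inv_mul_cancel_left]

theorem fix_of_gens {S : Set P} {a : Fin 12} (h : ∀ g ∈ S, g a = a) :
    ∀ x ∈ Subgroup.closure S, x a = a := by
  intro x hx
  induction hx using Subgroup.closure_induction with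
  | mem x hx => exact h x hx
  | one => rfl
  | mul x y _ _ hx hy => rw [Equiv.Perm.mul_apply, hy, hx]
  | inv x _ hx => rw [Equiv.Perm.inv_eq_iff_eq, hx]

/-! ### The chain -/

/-- The chain of groups. -/
def L0 : Subgroup P := Subgroup.closure {u, v, w}
def L1 : Subgroup P := Subgroup.closure {s, t, u, v, w}
def L2 : Subgroup P := Subgroup.closure {s, t, u, v, w, x1}
def L3 : Subgroup P := Subgroup.closure {s, t, u, v, w, x1, x2}
def L4 : Subgroup P := Subgroup.closure {s, t, u, v, w, x1, x2, x3}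

theorem sub_aux0 {α : Type*} (a b c d e : α) : ({c, d, e} : Set α) ⊆ {a, b, c, d, e} := by
  intro g hg
  simp only [Set.mem_insert_iff, Set.mem_singleton_iff] at hg ⊢
  tauto
theorem sub_aux1 {α : Type*} (a b c d e f : α) : ({a, b, c, d, e} : Set α) ⊆ {a, b, c, d, e, f} := by
  intro g hg
  simp only [Set.mem_insert_iff, Set.mem_singleton_iff] at hg ⊢
  tauto
theorem sub_aux2 {α : Type*} (a b c d e f h : α) : ({a, b, c, d, e, f} : Set α) ⊆ {a, b, c, d, e, f, h} := by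
  intro g hg
  simp only [Set.mem_insert_iff, Set.mem_singleton_iff] at hg ⊢
  tauto
theorem sub_aux3 {α : Type*} (a b c d e f h k : α) : ({a, b, c, d, e, f, h} : Set α) ⊆ {a, b, c, d, e, f, h, k} := by
  intro g hg
  simp only [Set.mem_insert_iff, Set.mem_singleton_iff] at hg ⊢
  tauto

theorem L0_le : L0 ≤ L1 := Subgroup.closure_mono (sub_aux0 _ _ _ _ _)
theorem L1_le : L1 ≤ L2 := Subgroup.closure_mono (sub_aux1 _ _ _ _ _ _)
theorem L2_le : L2 ≤ L3 := Subgroup.closure_mono (sub_aux2 _ _ _ _ _ _ _)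
theorem L3_le : L3 ≤ L4 := Subgroup.closure_mono (sub_aux3 _ _ _ _ _ _ _ _)

theorem mem_aux1 {α : Type*} (a : α) (S : Set α) : a ∈ insert a S := Set.mem_insert a S
theorem mem_aux2 {α : Type*} (a b : α) (S : Set α) : a ∈ insert b (insert a S) :=
  Set.mem_insert_of_mem _ (Set.mem_insert a S)
theorem mem_aux3 {α : Type*} (a b c : α) : a ∈ ({b, c, a} : Set α) := by simp
theorem mem_aux4 {α : Type*} (a b c : α) : a ∈ ({b, a, c} : Set α) := by simp
theorem mem_aux5 {α : Type*} (a b c d e f : α) : a ∈ ({b, c, d, e, f, a} : Set α) := by simp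
theorem mem_aux6 {α : Type*} (a b c d e f g : α) : a ∈ ({b, c, d, e, f, g, a} : Set α) := by simp
theorem mem_aux7 {α : Type*} (a b c d e f g h : α) : a ∈ ({b, c, d, e, f, g, h, a} : Set α) := by simp

theorem s_mem : s ∈ L1 := Subgroup.subset_closure (mem_aux1 _ _)
theorem t_mem : t ∈ L1 := Subgroup.subset_closure (mem_aux2 _ _ _)
theorem u_mem : u ∈ L0 := Subgroup.subset_closure (mem_aux1 _ _)
theorem v_mem : v ∈ L0 := Subgroup.subset_closure (mem_aux4 _ _ _)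
theorem w_mem : w ∈ L0 := Subgroup.subset_closure (mem_aux3 _ _ _)
theorem x1_mem : x1 ∈ L2 := Subgroup.subset_closure (mem_aux5 _ _ _ _ _ _)
theorem x2_mem : x2 ∈ L3 := Subgroup.subset_closure (mem_aux6 _ _ _ _ _ _ _)
theorem x3_mem : x3 ∈ L4 := Subgroup.subset_closure (mem_aux7 _ _ _ _ _ _ _ _)

theorem vec12_mem {L : Subgroup P} {a0 a1 a2 a3 a4 a5 a6 a7 a8 a9 a10 a11 : P}
    (h0 : a0 ∈ L) (h1 : a1 ∈ L) (h2 : a2 ∈ L) (h3 : a3 ∈ L) (h4 : a4 ∈ L) (h5 : a5 ∈ L)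
    (h6 : a6 ∈ L) (h7 : a7 ∈ L) (h8 : a8 ∈ L) (h9 : a9 ∈ L) (h10 : a10 ∈ L) (h11 : a11 ∈ L)
    (c : Fin 12) :
    (![a0, a1, a2, a3, a4, a5, a6, a7, a8, a9, a10, a11] : Fin 12 → P) c ∈ L := by
  fin_cases c
  · exact h0
  · exact h1
  · exact h2
  · exact h3
  · exact h4
  · exact h5
  · exact h6
  · exact h7
  · exact h8
  · exact h9
  · exact h10
  · exact h11

theorem T0_mem : ∀ c, D0 c = true → T0 c ∈ L0 := by
  have hu := u_mem
  have hv := v_mem
  have hw := w_mem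
  intro c _
  exact vec12_mem (L := L0)
    L0.one_mem
    L0.one_mem
    L0.one_mem
    L0.one_mem
    L0.one_mem
    (L0.mul_mem hu hu)
    hu
    hv
    (L0.mul_mem hu hv)
    (L0.mul_mem hv hw)
    hw
    (L0.mul_mem hw hu)
    c

theorem T1_mem : ∀ c, D1 c = true → T1 c ∈ L1 := by
  have hs := s_mem
  have ht := t_mem
  have hw := L0_le w_mem
  intro c _
  exact vec12_mem (L := L1)
    L1.one_mem
    L1.one_mem
    L1.one_mem
    L1.one_mem
    hs
    (L1.mul_mem hs hs)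
    ht
    (L1.mul_mem ht hs)
    (L1.mul_mem (L1.mul_mem ht hs) hs)
    (L1.mul_mem ht ht)
    (L1.mul_mem hw hs)
    (L1.mul_mem hw ht)
    c

theorem T2_mem : ∀ c, D2 c = true → T2 c ∈ L2 := by
  have hs := L1_le s_mem
  have ht := L1_le t_mem
  have hw := L1_le (L0_le w_mem)
  have hx1 := x1_mem
  intro c _
  exact vec12_mem (L := L2)
    L2.one_mem
    L2.one_mem
    L2.one_mem
    hx1
    (L2.mul_mem hs hx1)
    (L2.mul_mem (L2.mul_mem hs hs) hx1)
    (L2.mul_mem ht hx1)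
    (L2.mul_mem (L2.mul_mem ht hs) hx1)
    (L2.mul_mem (L2.mul_mem (L2.mul_mem ht hs) hs) hx1)
    (L2.mul_mem (L2.mul_mem ht ht) hx1)
    (L2.mul_mem (L2.mul_mem hw hs) hx1)
    (L2.mul_mem (L2.mul_mem hw ht) hx1)
    c

theorem T3_mem : ∀ c, D3 c = true → T3 c ∈ L3 := by
  have hs := L2_le (L1_le s_mem)
  have ht := L2_le (L1_le t_mem)
  have hw := L2_le (L1_le (L0_le w_mem))
  have hx1 := L2_le x1_mem
  have hx2 := x2_mem
  intro c _
  exact vec12_mem (L := L3)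
    hx2
    L3.one_mem
    L3.one_mem
    (L3.mul_mem hx1 hx2)
    (L3.mul_mem (L3.mul_mem hs hx1) hx2)
    (L3.mul_mem (L3.mul_mem (L3.mul_mem hs hs) hx1) hx2)
    (L3.mul_mem (L3.mul_mem ht hx1) hx2)
    (L3.mul_mem (L3.mul_mem (L3.mul_mem ht hs) hx1) hx2)
    (L3.mul_mem (L3.mul_mem (L3.mul_mem (L3.mul_mem ht hs) hs) hx1) hx2)
    (L3.mul_mem (L3.mul_mem (L3.mul_mem ht ht) hx1) hx2)
    (L3.mul_mem (L3.mul_mem (L3.mul_mem hw hs) hx1) hx2)
    (L3.mul_mem (L3.mul_mem (L3.mul_mem hw ht) hx1) hx2)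
    c

theorem T4_mem : ∀ c, D4 c = true → T4 c ∈ L4 := by
  have hs := L3_le (L2_le (L1_le s_mem))
  have ht := L3_le (L2_le (L1_le t_mem))
  have hw := L3_le (L2_le (L1_le (L0_le w_mem)))
  have hx1 := L3_le (L2_le x1_mem)
  have hx2 := L3_le x2_mem
  have hx3 := x3_mem
  intro c _
  exact vec12_mem (L := L4)
    (L4.mul_mem hx2 hx3)
    hx3
    L4.one_mem
    (L4.mul_mem (L4.mul_mem hx1 hx2) hx3)
    (L4.mul_mem (L4.mul_mem (L4.mul_mem hs hx1) hx2) hx3)
    (L4.mul_mem (L4.mul_mem (L4.mul_mem (L4.mul_mem hs hs) hx1) hx2) hx3)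
    (L4.mul_mem (L4.mul_mem (L4.mul_mem ht hx1) hx2) hx3)
    (L4.mul_mem (L4.mul_mem (L4.mul_mem (L4.mul_mem ht hs) hx1) hx2) hx3)
    (L4.mul_mem (L4.mul_mem (L4.mul_mem (L4.mul_mem (L4.mul_mem ht hs) hs) hx1) hx2) hx3)
    (L4.mul_mem (L4.mul_mem (L4.mul_mem (L4.mul_mem ht ht) hx1) hx2) hx3)
    (L4.mul_mem (L4.mul_mem (L4.mul_mem (L4.mul_mem hw hs) hx1) hx2) hx3)
    (L4.mul_mem (L4.mul_mem (L4.mul_mem (L4.mul_mem hw ht) hx1) hx2) hx3)
    c

theorem T0v : ∀ c, D0 c = true → T0 c 4 = c := by decide +kernel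
theorem T1v : ∀ c, D1 c = true → T1 c 3 = c := by decide +kernel
theorem T2v : ∀ c, D2 c = true → T2 c 0 = c := by decide +kernel
theorem T3v : ∀ c, D3 c = true → T3 c 1 = c := by decide +kernel
theorem T4v : ∀ c, D4 c = true → T4 c 2 = c := by decide +kernel

theorem siftm_sound {x : P} (h : siftm x = true) : x = 1 := by
  apply Equiv.ext
  intro i
  have := List.all_eq_true.1 h i (List.mem_finRange i)
  exact of_decide_eq_true this

theorem sift0_sound {x : P} (h : sift0 x = true) : x ∈ L0 := by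
  simp only [sift0, Bool.and_eq_true] at h
  have h1 := siftm_sound h.2
  have h2 : x = T0 (x 4) := by
    rw [inv_mul_eq_one] at h1
    exact h1.symm
  rw [h2]
  exact T0_mem _ h.1

theorem sift1_sound {x : P} (h : sift1 x = true) : x ∈ L1 := by
  simp only [sift1, Bool.and_eq_true] at h
  have h1 := L0_le (sift0_sound h.2)
  have h2 := L1.mul_mem (T1_mem _ h.1) h1
  rwa [mul_inv_cancel_left] at h2

theorem sift2_sound {x : P} (h : sift2 x = true) : x ∈ L2 := by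
  simp only [sift2, Bool.and_eq_true] at h
  have h1 := L1_le (sift1_sound h.2)
  have h2 := L2.mul_mem (T2_mem _ h.1) h1
  rwa [mul_inv_cancel_left] at h2

theorem sift3_sound {x : P} (h : sift3 x = true) : x ∈ L3 := by
  simp only [sift3, Bool.and_eq_true] at h
  have h1 := L2_le (sift2_sound h.2)
  have h2 := L3.mul_mem (T3_mem _ h.1) h1
  rwa [mul_inv_cancel_left] at h2

theorem fix_L0 : ∀ x ∈ L0, x 0 = 0 ∧ x 1 = 1 ∧ x 2 = 2 ∧ x 3 = 3 := by
  intro x hx
  have key : ∀ a : Fin 12, a = 0 ∨ a = 1 ∨ a = 2 ∨ a = 3 → x a = a := by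
    intro a ha
    apply fix_of_gens _ x hx
    intro g hg
    simp only [Set.mem_insert_iff, Set.mem_singleton_iff] at hg
    rcases ha with rfl | rfl | rfl | rfl <;> rcases hg with rfl | rfl | rfl <;> decide +kernel
  exact ⟨key 0 (by simp), key 1 (by simp), key 2 (by simp), key 3 (by simp)⟩

theorem fix_L1 : ∀ x ∈ L1, x 0 = 0 ∧ x 1 = 1 ∧ x 2 = 2 := by
  intro x hx
  have key : ∀ a : Fin 12, a = 0 ∨ a = 1 ∨ a = 2 → x a = a := by
    intro a ha
    apply fix_of_gens _ x hx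
    intro g hg
    simp only [Set.mem_insert_iff, Set.mem_singleton_iff] at hg
    rcases ha with rfl | rfl | rfl <;> rcases hg with rfl | rfl | rfl | rfl | rfl <;> decide +kernel
  exact ⟨key 0 (by simp), key 1 (by simp), key 2 (by simp)⟩

theorem fix_L2 : ∀ x ∈ L2, x 1 = 1 ∧ x 2 = 2 := by
  intro x hx
  have key : ∀ a : Fin 12, a = 1 ∨ a = 2 → x a = a := by
    intro a ha
    apply fix_of_gens _ x hx
    intro g hg
    simp only [Set.mem_insert_iff, Set.mem_singleton_iff] at hg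
    rcases ha with rfl | rfl <;> rcases hg with rfl | rfl | rfl | rfl | rfl | rfl <;> decide +kernel
  exact ⟨key 1 (by simp), key 2 (by simp)⟩

theorem fix_L3 : ∀ x ∈ L3, x 2 = 2 := by
  intro x hx
  apply fix_of_gens _ x hx
  intro g hg
  simp only [Set.mem_insert_iff, Set.mem_singleton_iff] at hg
  rcases hg with rfl | rfl | rfl | rfl | rfl | rfl | rfl <;> decide +kernel

theorem X0 : ∀ x ∈ L0, D0 (x 4) = true ∧ (T0 (x 4))⁻¹ * x ∈ (⊥ : Subgroup P) := by
  refine schreier (by decide) (by decide +kernel) T0v (fun h hh => ?_) ?_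
  · rw [Subgroup.mem_bot.1 hh]
    rfl
  · intro g hg c hc
    have hl : g ∈ ([u, v, w] : List P) := by simpa using hg
    have h1 := List.all_eq_true.1 (List.all_eq_true.1 chk0 g hl) c (List.mem_finRange c)
    rw [hc, Bool.not_true, Bool.false_or, Bool.and_eq_true] at h1
    exact ⟨h1.1, Subgroup.mem_bot.2 (siftm_sound h1.2)⟩

theorem X1 : ∀ x ∈ L1, D1 (x 3) = true ∧ (T1 (x 3))⁻¹ * x ∈ L0 := by
  refine schreier (by decide) (by decide +kernel) T1v (fun h hh => (fix_L0 h hh).2.2.2) ?_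
  intro g hg c hc
  have hl : g ∈ ([s, t, u, v, w] : List P) := by simpa using hg
  have h1 := List.all_eq_true.1 (List.all_eq_true.1 chk1 g hl) c (List.mem_finRange c)
  rw [hc, Bool.not_true, Bool.false_or, Bool.and_eq_true] at h1
  exact ⟨h1.1, sift0_sound h1.2⟩

theorem X2 : ∀ x ∈ L2, D2 (x 0) = true ∧ (T2 (x 0))⁻¹ * x ∈ L1 := by
  refine schreier (by decide) (by decide +kernel) T2v (fun h hh => (fix_L1 h hh).1) ?_
  intro g hg c hc
  have hl : g ∈ ([s, t, u, v, w, x1] : List P) := by simpa using hg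
  have h1 := List.all_eq_true.1 (List.all_eq_true.1 chk2 g hl) c (List.mem_finRange c)
  rw [hc, Bool.not_true, Bool.false_or, Bool.and_eq_true] at h1
  exact ⟨h1.1, sift1_sound h1.2⟩

theorem X3 : ∀ x ∈ L3, D3 (x 1) = true ∧ (T3 (x 1))⁻¹ * x ∈ L2 := by
  refine schreier (by decide) (by decide +kernel) T3v (fun h hh => (fix_L2 h hh).1) ?_
  intro g hg c hc
  have hl : g ∈ ([s, t, u, v, w, x1, x2] : List P) := by simpa using hg
  have h1 := List.all_eq_true.1 (List.all_eq_true.1 chk3 g hl) c (List.mem_finRange c)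
  rw [hc, Bool.not_true, Bool.false_or, Bool.and_eq_true] at h1
  exact ⟨h1.1, sift2_sound h1.2⟩

theorem X4 : ∀ x ∈ L4, D4 (x 2) = true ∧ (T4 (x 2))⁻¹ * x ∈ L3 := by
  refine schreier (by decide) (by decide +kernel) T4v (fun h hh => fix_L3 h hh) ?_
  intro g hg c hc
  have hl : g ∈ ([s, t, u, v, w, x1, x2, x3] : List P) := by simpa using hg
  have h1 := List.all_eq_true.1 (List.all_eq_true.1 chk4 g hl) c (List.mem_finRange c)
  rw [hc, Bool.not_true, Bool.false_or, Bool.and_eq_true] at h1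
  exact ⟨h1.1, sift3_sound h1.2⟩

theorem T0a : T0 4 = 1 := by decide +kernel
theorem T1a : T1 3 = 1 := by decide +kernel
theorem T2a : T2 0 = 1 := by decide +kernel
theorem T3a : T3 1 = 1 := by decide +kernel
theorem T4a : T4 2 = 1 := by decide +kernel

theorem card_L0 : Nat.card L0 = 8 := by
  have h := card_step (G := L0) (H := ⊥) T0_mem T0v bot_le
    (fun h hh => by rw [Subgroup.mem_bot.1 hh]; rfl) X0
  rw [h, Subgroup.card_bot, mul_one, Nat.card_eq_fintype_card]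
  decide +kernel

theorem card_L1 : Nat.card L1 = 72 := by
  have h := card_step (G := L1) (H := L0) T1_mem T1v L0_le (fun h hh => (fix_L0 h hh).2.2.2) X1
  rw [h, card_L0, Nat.card_eq_fintype_card]
  decide +kernel

theorem card_L2 : Nat.card L2 = 720 := by
  have h := card_step (G := L2) (H := L1) T2_mem T2v L1_le (fun h hh => (fix_L1 h hh).1) X2
  rw [h, card_L1, Nat.card_eq_fintype_card]
  decide +kernel

theorem card_L3 : Nat.card L3 = 7920 := by
  have h := card_step (G := L3) (H := L2) T3_mem T3v L2_le (fun h hh => (fix_L2 h hh).1) X3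
  rw [h, card_L2, Nat.card_eq_fintype_card]
  decide +kernel

theorem card_L4 : Nat.card L4 = 95040 := by
  have h := card_step (G := L4) (H := L3) T4_mem T4v L3_le (fun h hh => fix_L3 h hh) X4
  rw [h, card_L3, Nat.card_eq_fintype_card]
  decide +kernel

/-- Descent along the chain. -/
theorem stab4 {x : P} (hx : x ∈ L4) (h : x 2 = 2) : x ∈ L3 := by
  have := (X4 x hx).2
  rwa [h, T4a, inv_one, one_mul] at this

theorem stab3 {x : P} (hx : x ∈ L3) (h : x 1 = 1) : x ∈ L2 := by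
  have := (X3 x hx).2
  rwa [h, T3a, inv_one, one_mul] at this

theorem stab2 {x : P} (hx : x ∈ L2) (h : x 0 = 0) : x ∈ L1 := by
  have := (X2 x hx).2
  rwa [h, T2a, inv_one, one_mul] at this

theorem stab1 {x : P} (hx : x ∈ L1) (h : x 3 = 3) : x ∈ L0 := by
  have := (X1 x hx).2
  rwa [h, T1a, inv_one, one_mul] at this

theorem stab0 {x : P} (hx : x ∈ L0) (h : x 4 = 4) : x = 1 := by
  have := (X0 x hx).2
  rwa [h, T0a, inv_one, one_mul, Subgroup.mem_bot] at this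

/-- Every ordered 5-tuple of distinct points is moved to the base. -/
theorem to_base (y : Fin 5 → Fin 12) (hy : Function.Injective y) :
    ∃ g ∈ L4, g (y 0) = 2 ∧ g (y 1) = 1 ∧ g (y 2) = 0 ∧ g (y 3) = 3 ∧ g (y 4) = 4 := by
  have hinv : ∀ (g : P) (a c : Fin 12), g a = c → g⁻¹ c = a := by
    intro g a c h
    rw [Equiv.Perm.inv_eq_iff_eq, h]
  have hne : ∀ (g : P) (i j : Fin 5), i ≠ j → g (y i) ≠ g (y j) := by
    intro g i j hij h
    exact hij (hy (g.injective h))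
  -- level 4
  obtain ⟨g4, g4m, g40⟩ : ∃ g ∈ L4, g (y 0) = 2 :=
    ⟨(T4 (y 0))⁻¹, L4.inv_mem (T4_mem _ rfl), hinv _ _ _ (T4v _ rfl)⟩
  -- level 3
  have hc1 : D3 (g4 (y 1)) = true := by
    have h1 := hne g4 1 0 (by decide)
    rw [g40] at h1
    simp only [D3, decide_eq_true_eq]
    intro h2
    exact h1 (Fin.ext h2)
  obtain ⟨g3, g3m, g31⟩ : ∃ g ∈ L3, g (g4 (y 1)) = 1 :=
    ⟨(T3 (g4 (y 1)))⁻¹, L3.inv_mem (T3_mem _ hc1), hinv _ _ _ (T3v _ hc1)⟩
  have g3f2 : g3 2 = 2 := fix_L3 _ g3m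
  -- level 2
  obtain ⟨y2, hy2⟩ : ∃ y2 : Fin 5 → Fin 12, ∀ i, y2 i = g3 (g4 (y i)) := ⟨_, fun _ => rfl⟩
  have hy2ne : ∀ i j, i ≠ j → y2 i ≠ y2 j := fun i j hij h =>
    hne g4 i j hij (g3.injective (by rw [← hy2, ← hy2, h]))
  have y20 : y2 0 = 2 := by rw [hy2, g40, g3f2]
  have y21 : y2 1 = 1 := by rw [hy2, g31]
  have hc2 : D2 (y2 2) = true := by
    have h1 := hy2ne 2 0 (by decide)
    have h2 := hy2ne 2 1 (by decide)
    rw [y20] at h1
    rw [y21] at h2
    simp only [D2, decide_eq_true_eq]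
    have h3 : (y2 2).val ≠ 2 := fun h => h1 (Fin.ext h)
    have h4 : (y2 2).val ≠ 1 := fun h => h2 (Fin.ext h)
    omega
  obtain ⟨g2, g2m, g22⟩ : ∃ g ∈ L2, g (y2 2) = 0 :=
    ⟨(T2 (y2 2))⁻¹, L2.inv_mem (T2_mem _ hc2), hinv _ _ _ (T2v _ hc2)⟩
  -- level 1
  obtain ⟨y3, hy3⟩ : ∃ y3 : Fin 5 → Fin 12, ∀ i, y3 i = g2 (y2 i) := ⟨_, fun _ => rfl⟩
  have hy3ne : ∀ i j, i ≠ j → y3 i ≠ y3 j := fun i j hij h =>
    hy2ne i j hij (g2.injective (by rw [← hy3, ← hy3, h]))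
  have y30 : y3 0 = 2 := by rw [hy3, y20, (fix_L2 _ g2m).2]
  have y31 : y3 1 = 1 := by rw [hy3, y21, (fix_L2 _ g2m).1]
  have y32 : y3 2 = 0 := by rw [hy3, g22]
  have hc3 : D1 (y3 3) = true := by
    have h1 := hy3ne 3 0 (by decide)
    have h2 := hy3ne 3 1 (by decide)
    have h5 := hy3ne 3 2 (by decide)
    rw [y30] at h1
    rw [y31] at h2
    rw [y32] at h5
    simp only [D1, decide_eq_true_eq]
    have h3 : (y3 3).val ≠ 2 := fun h => h1 (Fin.ext h)
    have h4 : (y3 3).val ≠ 1 := fun h => h2 (Fin.ext h)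
    have h6 : (y3 3).val ≠ 0 := fun h => h5 (Fin.ext h)
    omega
  obtain ⟨g1, g1m, g13⟩ : ∃ g ∈ L1, g (y3 3) = 3 :=
    ⟨(T1 (y3 3))⁻¹, L1.inv_mem (T1_mem _ hc3), hinv _ _ _ (T1v _ hc3)⟩
  -- level 0
  obtain ⟨y4, hy4⟩ : ∃ y4 : Fin 5 → Fin 12, ∀ i, y4 i = g1 (y3 i) := ⟨_, fun _ => rfl⟩
  have hy4ne : ∀ i j, i ≠ j → y4 i ≠ y4 j := fun i j hij h =>
    hy3ne i j hij (g1.injective (by rw [← hy4, ← hy4, h]))
  have y40 : y4 0 = 2 := by rw [hy4, y30, (fix_L1 _ g1m).2.2]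
  have y41 : y4 1 = 1 := by rw [hy4, y31, (fix_L1 _ g1m).2.1]
  have y42 : y4 2 = 0 := by rw [hy4, y32, (fix_L1 _ g1m).1]
  have y43 : y4 3 = 3 := by rw [hy4, g13]
  have hc4 : D0 (y4 4) = true := by
    have h1 := hy4ne 4 0 (by decide)
    have h2 := hy4ne 4 1 (by decide)
    have h5 := hy4ne 4 2 (by decide)
    have h7 := hy4ne 4 3 (by decide)
    rw [y40] at h1
    rw [y41] at h2
    rw [y42] at h5
    rw [y43] at h7
    simp only [D0, decide_eq_true_eq]
    have h3 : (y4 4).val ≠ 2 := fun h => h1 (Fin.ext h)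
    have h4 : (y4 4).val ≠ 1 := fun h => h2 (Fin.ext h)
    have h6 : (y4 4).val ≠ 0 := fun h => h5 (Fin.ext h)
    have h8 : (y4 4).val ≠ 3 := fun h => h7 (Fin.ext h)
    omega
  obtain ⟨g0, g0m, g04⟩ : ∃ g ∈ L0, g (y4 4) = 4 :=
    ⟨(T0 (y4 4))⁻¹, L0.inv_mem (T0_mem _ hc4), hinv _ _ _ (T0v _ hc4)⟩
  have hfix0 := fix_L0 _ g0m
  have key : ∀ i, (g0 * g1 * g2 * g3 * g4) (y i) = g0 (y4 i) := by
    intro i
    rw [hy4, hy3, hy2]
    rfl
  refine ⟨g0 * g1 * g2 * g3 * g4, ?_, ?_, ?_, ?_, ?_, ?_⟩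
  · exact L4.mul_mem (L4.mul_mem (L4.mul_mem (L4.mul_mem (L3_le (L2_le (L1_le (L0_le g0m))))
      (L3_le (L2_le (L1_le g1m)))) (L3_le (L2_le g2m))) (L3_le g3m)) g4m
  · rw [key, y40, hfix0.2.2.1]
  · rw [key, y41, hfix0.2.1]
  · rw [key, y42, hfix0.1]
  · rw [key, y43, hfix0.2.2.2]
  · rw [key, g04]

/-- The final statement in terms of the chain. -/
theorem main :
    MulAction.IsMultiplyPretransitive L4 (Fin 12) 5 ∧ (∀ y : Fin 5 ↪ Fin 12, MulAction.stabilizer L4 y = ⊥) ∧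
    Nat.card L4 = 95040 ∧ Nat.card L3 = 7920 ∧
    L3 = L4 ⊓ MulAction.stabilizer (Equiv.Perm (Fin 12)) (2 : Fin 12) := by
  refine ⟨?_, ?_, card_L4, card_L3, ?_⟩
  · constructor
    intro y y'
    obtain ⟨g, hg, h0, h1, h2, h3, h4⟩ := to_base y y.injective
    obtain ⟨g', hg', h0', h1', h2', h3', h4'⟩ := to_base y' y'.injective
    refine ⟨⟨g'⁻¹ * g, L4.mul_mem (L4.inv_mem hg') hg⟩, ?_⟩
    apply Function.Embedding.ext
    intro i
    have key : ∀ i : Fin 5, g (y i) = g' (y' i) := by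
      intro i
      fin_cases i
      · exact h0.trans h0'.symm
      · exact h1.trans h1'.symm
      · exact h2.trans h2'.symm
      · exact h3.trans h3'.symm
      · exact h4.trans h4'.symm
    show ((g'⁻¹ * g) (y i)) = y' i
    rw [Equiv.Perm.mul_apply, Equiv.Perm.inv_eq_iff_eq, key]
  · intro y
    rw [eq_bot_iff]
    intro h hh
    rw [Subgroup.mem_bot]
    obtain ⟨g, hg, h0, h1, h2, h3, h4⟩ := to_base y y.injective
    have hfix : ∀ i : Fin 5, (h : P) (y i) = y i := by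
      intro i
      have h5 : h • y = y := hh
      have := congrArg (fun e : Fin 5 ↪ Fin 12 => e i) h5
      exact this
    set k : P := g * (h : P) * g⁻¹ with hk
    have hkm : k ∈ L4 := L4.mul_mem (L4.mul_mem hg h.2) (L4.inv_mem hg)
    have hkfix : ∀ (i : Fin 5) (a : Fin 12), g (y i) = a → k a = a := by
      intro i a ha
      show g ((h : P) (g⁻¹ a)) = a
      have h6 : g⁻¹ a = y i := by
        rw [Equiv.Perm.inv_eq_iff_eq, ha]
      rw [h6, hfix, ha]
    have h1k : k = 1 := by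
      have a1 := stab4 hkm (hkfix 0 2 h0)
      have a2 := stab3 a1 (hkfix 1 1 h1)
      have a3 := stab2 a2 (hkfix 2 0 h2)
      have a4 := stab1 a3 (hkfix 3 3 h3)
      exact stab0 a4 (hkfix 4 4 h4)
    apply Subtype.ext
    have h7 : (h : P) = g⁻¹ * k * g := by rw [hk]; group
    rw [h7, h1k]
    simp
  · ext x
    constructor
    · intro hx
      exact ⟨L3_le hx, fix_L3 x hx⟩
    · rintro ⟨hx, hx2⟩
      exact stab4 hx hx2

end CfsgLib.M12
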