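import Cfsg.Prelude.Def_FusionSystem
import Cfsg.Agent.Lib.Solv.Core
import Mathlib.GroupTheory.Sylow
import Mathlib.GroupTheory.SchurZassenhaus

set_option autoImplicit false

namespace CfsgLib.ModelRigid

open Cfsg

/-- Vanishing of a crossed homomorphism that is trivial on a subgroup of index coprime to `|A|`. -/
theorem crossed {G A : Type*} [Group G] [Finite G] [Group A] [Finite A]
    (hA : ∀ a b : A, a * b = b * a) (act : G →* MulAut A) (z : G → A)
    (hz : ∀ g h, z (g * h) = z g * act g (z h)) (T : Subgroup G) (hT : ∀ t ∈ T, z t = 1)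
    (hc : (Nat.card A).Coprime T.index) : ∃ y : A, ∀ g, z g = y * (act g y)⁻¹ := by
  classical
  letI : CommGroup A := { ‹Group A› with mul_comm := hA }
  haveI : Fintype (G ⧸ T) := Fintype.ofFinite _
  have hwell : ∀ a b : G, (QuotientGroup.leftRel T) a b → z a = z b := by
    intro a b hab
    have h1 : a⁻¹ * b ∈ T := QuotientGroup.leftRel_apply.1 hab
    have h2 : z (a * (a⁻¹ * b)) = z a * act a (z (a⁻¹ * b)) := hz _ _
    rw [hT _ h1, map_one, mul_one, mul_inv_cancel_left] at h2
    exact h2.symm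
  let f : G ⧸ T → A := fun c => Quotient.lift z hwell c
  have hf : ∀ g : G, f (g : G ⧸ T) = z g := fun g => rfl
  have hfact : ∀ (g : G) (c : G ⧸ T), f (g • c) = z g * act g (f c) := by
    intro g c
    induction c using QuotientGroup.induction_on with
    | H x =>
      show f ((g * x : G) : G ⧸ T) = z g * act g (f (x : G ⧸ T))
      rw [hf, hf, hz]
  set w : A := ∏ c : G ⧸ T, f c with hw
  have hcard : Fintype.card (G ⧸ T) = T.index := by
    rw [Subgroup.index, Nat.card_eq_fintype_card]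
  have hkey : ∀ g : G, w = (z g) ^ T.index * act g w := by
    intro g
    have h1 : w = ∏ c : G ⧸ T, f (g • c) :=
      (Equiv.prod_comp (MulAction.toPerm g : Equiv.Perm (G ⧸ T)) f).symm
    have h3 : ∀ c : G ⧸ T, f (g • c) = z g * act g (f c) := hfact g
    calc w = ∏ c : G ⧸ T, f (g • c) := h1
      _ = ∏ c : G ⧸ T, (z g * act g (f c)) := Finset.prod_congr rfl (fun c _ => h3 c)
      _ = (z g) ^ T.index * act g w := by
        rw [Finset.prod_mul_distrib, Finset.prod_const, Finset.card_univ, hcard, hw, map_prod]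
  obtain ⟨y, hy⟩ : ∃ y : A, y ^ T.index = w := (powCoprime hc).surjective w
  refine ⟨y, fun g => ?_⟩
  apply (powCoprime hc).injective
  simp only [powCoprime_apply]
  have h2 := hkey g
  rw [← hy, map_pow] at h2
  rw [mul_pow, inv_pow, ← map_pow, map_pow]
  rw [eq_mul_inv_iff_mul_eq]
  exact h2.symm

/-- Rigidity: an automorphism fixing a Sylow subgroup elementwise, in a group with `C(O_p) ≤ O_p`,
is conjugation by an element of the centre of the Sylow subgroup. -/
theorem rigid {G : Type*} [Group G] [Finite G] (p : ℕ) [hp : Fact p.Prime] (T : Sylow p G)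
    (hcen : Subgroup.centralizer ((pCore p G : Subgroup G) : Set G) ≤ pCore p G)
    (ψ : G ≃* G) (hψ : ∀ t ∈ (T : Subgroup G), ψ t = t) :
    ∃ y ∈ (T : Subgroup G), (∀ t ∈ (T : Subgroup G), y * t = t * y) ∧ ∀ g, ψ g = y * g * y⁻¹ := by
  classical
  set Q := pCore p G with hQ
  haveI hQn : Q.Normal := inferInstance
  set A := Subgroup.centralizer (Q : Set G) with hAdef
  haveI hAn : A.Normal := Subgroup.normal_centralizer
  have hQT : Q ≤ T := CfsgLib.Solv.pCore_le_of_isPGroup_normal T
  have hAcomm : ∀ a b : A, a * b = b * a := by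
    intro a b
    apply Subtype.ext
    exact Subgroup.mem_centralizer_iff.1 b.2 _ (hcen a.2)
  have hAp : IsPGroup p A := (CfsgLib.Solv.pCore_isPGroup p).to_le hcen
  have hzmem : ∀ g : G, ψ g * g⁻¹ ∈ A := by
    intro g
    rw [hAdef, Subgroup.mem_centralizer_iff]
    intro x hx
    have hx' : g⁻¹ * x * g ∈ Q := by
      have := hQn.conj_mem x hx g⁻¹
      simpa using this
    have h1 : ψ (g⁻¹ * x * g) = g⁻¹ * x * g := hψ _ (hQT hx')
    have h2 : ψ g⁻¹ * ψ x * ψ g = g⁻¹ * x * g := by
      rw [← map_mul, ← map_mul]; exact h1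
    have h3 : ψ x = x := hψ _ (hQT hx)
    rw [h3, map_inv] at h2
    have h4 : x * ψ g = ψ g * (g⁻¹ * x * g) := by
      rw [← h2]; group
    calc x * (ψ g * g⁻¹) = (x * ψ g) * g⁻¹ := by group
      _ = ψ g * (g⁻¹ * x * g) * g⁻¹ := by rw [h4]
      _ = ψ g * g⁻¹ * x := by group
  let z : G → A := fun g => ⟨ψ g * g⁻¹, hzmem g⟩
  have hcop : (Nat.card A).Coprime (T : Subgroup G).index := by
    obtain ⟨n, hn⟩ := IsPGroup.iff_card.1 hAp
    rw [hn]
    apply Nat.Coprime.pow_left
    rw [Nat.Prime.coprime_iff_not_dvd hp.out]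
    exact T.not_dvd_index
  obtain ⟨y, hy⟩ := crossed hAcomm (MulAut.conjNormal (H := A)) z (by
      intro g h
      apply Subtype.ext
      show ψ (g * h) * (g * h)⁻¹ = ψ g * g⁻¹ * (g * (ψ h * h⁻¹) * g⁻¹)
      rw [map_mul]; group) (T : Subgroup G) (by
      intro t ht
      apply Subtype.ext
      show ψ t * t⁻¹ = 1
      rw [hψ t ht]; group) hcop
  have hy' : ∀ g, ψ g = (y : G) * g * (y : G)⁻¹ := by
    intro g
    have h1 := congrArg Subtype.val (hy g)
    have h2 : ψ g * g⁻¹ = (y : G) * (g * (y : G) * g⁻¹)⁻¹ := h1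
    calc ψ g = ψ g * g⁻¹ * g := by group
      _ = (y : G) * (g * (y : G) * g⁻¹)⁻¹ * g := by rw [h2]
      _ = _ := by group
  refine ⟨y, hQT (hcen y.2), ?_, hy'⟩
  intro t ht
  have h1 := hy' t
  rw [hψ t ht] at h1
  have h2 : t * (y : G) = (y : G) * t * (y : G)⁻¹ * (y : G) := by rw [← h1]
  rw [h2]; group

end CfsgLib.ModelRigid
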