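import Cfsg.Agent.Lib.PLocal.Core
import Cfsg.Agent.Lib.Solv.Act
import Cfsg.Agent.Lib.Solv.SZ

/-! Thompson's strengthening of the `P × Q` lemma for odd primes. -/

set_option autoImplicit false

namespace CfsgLib.PQLemma

open Subgroup
open scoped commutatorElement

section Baer

variable {A : Type*} [Group A]

/-- The set of `A` with the Baer multiplication. -/
def BaerT (A : Type*) := A

/-- into the Baer type -/
def toB (x : A) : BaerT A := x
/-- out of the Baer type -/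
def ofB (x : BaerT A) : A := x

variable (hz : ∀ x y z : A, ⁅x, y⁆ * z = z * ⁅x, y⁆)
include hz

theorem comm_mul_left (x y z : A) : ⁅x * y, z⁆ = ⁅x, z⁆ * ⁅y, z⁆ := by
  have h1 : ⁅x * y, z⁆ = x * (y * z * y⁻¹ * z⁻¹) * z * x⁻¹ * z⁻¹ := by
    simp only [commutatorElement_def]; group
  have h2 : y * z * y⁻¹ * z⁻¹ = ⁅y, z⁆ := by simp only [commutatorElement_def]
  rw [h1, h2]
  have h3 : x * ⁅y, z⁆ = ⁅y, z⁆ * x := (hz y z x).symm
  rw [h3]
  have h4 : ⁅x, z⁆ * ⁅y, z⁆ = ⁅y, z⁆ * ⁅x, z⁆ := hz x z _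
  rw [h4]
  simp only [commutatorElement_def]; group

theorem comm_mul_right (x y z : A) : ⁅x, y * z⁆ = ⁅x, y⁆ * ⁅x, z⁆ := by
  have h1 : ⁅x, y * z⁆ = ⁅x, y⁆ * (y * ⁅x, z⁆ * y⁻¹) := by
    simp only [commutatorElement_def]; group
  rw [h1, ← hz x z y]
  simp

theorem comm_pow_central (k : ℕ) (x y z : A) : ⁅x, y⁆ ^ k * z = z * ⁅x, y⁆ ^ k :=
  (Commute.pow_left (show Commute ⁅x, y⁆ z from hz x y z) k).eq

theorem comm_central_left (c z : A) (hc : ∀ t : A, c * t = t * c) : ⁅c, z⁆ = 1 := by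
  rw [commutatorElement_eq_one_iff_mul_comm]
  exact hc z

theorem comm_central_right (c z : A) (hc : ∀ t : A, c * t = t * c) : ⁅z, c⁆ = 1 := by
  rw [commutatorElement_eq_one_iff_mul_comm]
  exact (hc z).symm

variable (k : ℕ) (hk : ∀ x y : A, ⁅x, y⁆ ^ (2 * k) = ⁅x, y⁆)

include hk in
/-- The Baer group. -/
def baerInst : CommGroup (BaerT A) where
  mul x y := toB (ofB x * ofB y * ⁅ofB y, ofB x⁆ ^ k)
  one := toB 1
  inv x := toB (ofB x)⁻¹
  mul_assoc x y z := by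
    change toB (ofB (toB (ofB x * ofB y * ⁅ofB y, ofB x⁆ ^ k)) * ofB z *
      ⁅ofB z, ofB (toB (ofB x * ofB y * ⁅ofB y, ofB x⁆ ^ k))⁆ ^ k) =
      toB (ofB x * ofB (toB (ofB y * ofB z * ⁅ofB z, ofB y⁆ ^ k)) *
      ⁅ofB (toB (ofB y * ofB z * ⁅ofB z, ofB y⁆ ^ k)), ofB x⁆ ^ k)
    change toB ((ofB x * ofB y * ⁅ofB y, ofB x⁆ ^ k) * ofB z *
      ⁅ofB z, (ofB x * ofB y * ⁅ofB y, ofB x⁆ ^ k)⁆ ^ k) =
      toB (ofB x * (ofB y * ofB z * ⁅ofB z, ofB y⁆ ^ k) *
      ⁅(ofB y * ofB z * ⁅ofB z, ofB y⁆ ^ k), ofB x⁆ ^ k)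
    congr 1
    generalize ofB x = a
    generalize ofB y = b
    generalize ofB z = c
    have hc1 : ∀ t : A, ⁅b, a⁆ ^ k * t = t * ⁅b, a⁆ ^ k := comm_pow_central hz k b a
    have hc2 : ∀ t : A, ⁅c, b⁆ ^ k * t = t * ⁅c, b⁆ ^ k := comm_pow_central hz k c b
    have e1 : ⁅c, a * b * ⁅b, a⁆ ^ k⁆ = ⁅c, a⁆ * ⁅c, b⁆ := by
      rw [comm_mul_right hz, comm_mul_right hz, comm_central_right hz _ _ hc1, mul_one]
    have e2 : ⁅b * c * ⁅c, b⁆ ^ k, a⁆ = ⁅b, a⁆ * ⁅c, a⁆ := by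
      rw [comm_mul_left hz, comm_mul_left hz, comm_central_left hz _ _ hc2, mul_one]
    rw [e1, e2]
    have e3 : (⁅c, a⁆ * ⁅c, b⁆) ^ k = ⁅c, a⁆ ^ k * ⁅c, b⁆ ^ k :=
      (show Commute ⁅c, a⁆ ⁅c, b⁆ from hz c a _).mul_pow k
    have e4 : (⁅b, a⁆ * ⁅c, a⁆) ^ k = ⁅b, a⁆ ^ k * ⁅c, a⁆ ^ k :=
      (show Commute ⁅b, a⁆ ⁅c, a⁆ from hz b a _).mul_pow k
    rw [e3, e4]
    have e5 : a * b * ⁅b, a⁆ ^ k * c * (⁅c, a⁆ ^ k * ⁅c, b⁆ ^ k) =
        a * b * c * ⁅b, a⁆ ^ k * ⁅c, a⁆ ^ k * ⁅c, b⁆ ^ k := by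
      have : a * b * ⁅b, a⁆ ^ k * c = a * b * c * ⁅b, a⁆ ^ k := by
        rw [mul_assoc (a * b), hc1 c, ← mul_assoc]
      rw [this]; group
    have e6 : a * (b * c * ⁅c, b⁆ ^ k) * (⁅b, a⁆ ^ k * ⁅c, a⁆ ^ k) =
        a * b * c * ⁅b, a⁆ ^ k * ⁅c, a⁆ ^ k * ⁅c, b⁆ ^ k := by
      have h7 : ⁅c, b⁆ ^ k * (⁅b, a⁆ ^ k * ⁅c, a⁆ ^ k) = (⁅b, a⁆ ^ k * ⁅c, a⁆ ^ k) * ⁅c, b⁆ ^ k := hc2 _
      calc a * (b * c * ⁅c, b⁆ ^ k) * (⁅b, a⁆ ^ k * ⁅c, a⁆ ^ k)
          = a * b * c * (⁅c, b⁆ ^ k * (⁅b, a⁆ ^ k * ⁅c, a⁆ ^ k)) := by group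
        _ = a * b * c * ((⁅b, a⁆ ^ k * ⁅c, a⁆ ^ k) * ⁅c, b⁆ ^ k) := by rw [h7]
        _ = _ := by group
    rw [e5, e6]
  one_mul x := by
    change toB ((1 : A) * ofB x * ⁅ofB x, (1 : A)⁆ ^ k) = x
    have : ∀ a : A, (1 : A) * a * ⁅a, (1 : A)⁆ ^ k = a := by
      intro a; simp
    exact this x
  mul_one x := by
    change toB (ofB x * (1 : A) * ⁅(1 : A), ofB x⁆ ^ k) = x
    have : ∀ a : A, a * (1 : A) * ⁅(1 : A), a⁆ ^ k = a := by
      intro a; simp
    exact this x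
  inv_mul_cancel x := by
    change toB ((ofB x)⁻¹ * ofB x * ⁅ofB x, (ofB x)⁻¹⁆ ^ k) = toB 1
    congr 1
    have : ⁅ofB x, (ofB x)⁻¹⁆ = 1 := by
      simp only [commutatorElement_def]; group
    rw [this]; simp
  mul_comm x y := by
    change toB (ofB x * ofB y * ⁅ofB y, ofB x⁆ ^ k) = toB (ofB y * ofB x * ⁅ofB x, ofB y⁆ ^ k)
    congr 1
    generalize ofB x = a
    generalize ofB y = b
    have h1 : a * b = ⁅a, b⁆ * (b * a) := by
      simp only [commutatorElement_def]; group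
    have h2 : ⁅b, a⁆ = ⁅a, b⁆⁻¹ := by
      simp only [commutatorElement_def]; group
    have h3 : ⁅a, b⁆ ^ k * ⁅a, b⁆ ^ k = ⁅a, b⁆ := by
      rw [← pow_add, ← two_mul]; exact hk a b
    rw [h1, h2, inv_pow]
    have hcz : ∀ t, ⁅a, b⁆ * t = t * ⁅a, b⁆ := hz a b
    generalize ⁅a, b⁆ = c at hcz h3 ⊢
    rw [hcz (b * a)]
    have h5 : c * (c ^ k)⁻¹ = c ^ k := by
      calc c * (c ^ k)⁻¹ = (c ^ k * c ^ k) * (c ^ k)⁻¹ := by rw [h3]
        _ = c ^ k := by simp
    rw [mul_assoc, h5]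

end Baer

section Abstract

variable {A : Type*} [Group A] [Finite A] {p : ℕ} [Fact p.Prime]

/-- The class two case. -/
theorem class_two_case (hp : p ≠ 2) (hA : IsPGroup p A) (hz : ∀ x y z : A, ⁅x, y⁆ * z = z * ⁅x, y⁆)
    (PP QQ : Subgroup (MulAut A)) (hPP : IsPGroup p PP) (hQQ : (Nat.card QQ).Coprime p)
    (hN : ∀ π ∈ PP, ∀ κ ∈ QQ, π * κ * π⁻¹ ∈ QQ)
    (hfix : ∀ y : A, (∀ π ∈ PP, π y = y) → ∀ κ ∈ QQ, κ y = y) :
    ∀ κ ∈ QQ, ∀ y : A, κ y = y := by
  classical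
  -- halves
  obtain ⟨n, hn⟩ := IsPGroup.iff_card.1 hA
  have hodd : Odd (Nat.card A) := by
    rw [hn]
    exact ((Fact.out : p.Prime).odd_of_ne_two hp).pow
  obtain ⟨k, hk'⟩ : ∃ k, 2 * k = Nat.card A + 1 := by
    obtain ⟨m, hm⟩ := hodd
    exact ⟨m + 1, by omega⟩
  have hk : ∀ x y : A, ⁅x, y⁆ ^ (2 * k) = ⁅x, y⁆ := by
    intro x y
    rw [hk', pow_succ, pow_card_eq_one', one_mul]
  letI inst : CommGroup (BaerT A) := baerInst hz k hk
  have hmul : ∀ x y : A, toB x * toB y = toB (x * y * ⁅y, x⁆ ^ k) := fun _ _ => rfl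
  have hone : (1 : BaerT A) = toB 1 := rfl
  have hcard : Nat.card (BaerT A) = Nat.card A := rfl
  -- automorphisms
  let bA : MulAut A → (BaerT A →* BaerT A) := fun σ =>
    MonoidHom.mk' (fun x => toB (σ (ofB x))) (by
      intro a b
      change toB (σ (ofB a * ofB b * ⁅ofB b, ofB a⁆ ^ k)) =
        toB (σ (ofB a) * σ (ofB b) * ⁅σ (ofB b), σ (ofB a)⁆ ^ k)
      rw [map_mul, map_mul, map_pow, map_commutatorElement])
  have hbA : ∀ (σ : MulAut A) (x : A), bA σ (toB x) = toB (σ x) := fun _ _ => rfl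
  have hbAmul : ∀ (σ τ : MulAut A) (x : BaerT A), bA σ (bA τ x) = bA (σ * τ) x := fun _ _ _ => rfl
  haveI : Fintype QQ := Fintype.ofFinite QQ
  -- the norm
  let N : BaerT A →* BaerT A :=
    MonoidHom.mk' (fun y => ∏ κ : QQ, bA κ y) (by
      intro a b
      simp only [map_mul, Finset.prod_mul_distrib])
  have hNdef : ∀ y, N y = ∏ κ : QQ, bA κ y := fun _ => rfl
  -- the norm lands in the fixed points
  have hNfix : ∀ (τ : QQ) (y : BaerT A), bA τ (N y) = N y := by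
    intro τ y
    rw [hNdef, map_prod]
    simp only [hbAmul]
    exact Fintype.prod_equiv (Equiv.mulLeft τ) _ _ (fun κ => rfl)
  -- the norm commutes with `PP`
  have hNP : ∀ π ∈ PP, ∀ y : BaerT A, bA π (N y) = N (bA π y) := by
    intro π hπ y
    rw [hNdef, hNdef, map_prod]
    simp only [hbAmul]
    let e : QQ ≃ QQ :=
      { toFun := fun κ => ⟨π * κ * π⁻¹, hN π hπ κ κ.2⟩
        invFun := fun κ => ⟨π⁻¹ * κ * π, by
          have := hN π⁻¹ (PP.inv_mem hπ) κ κ.2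
          simpa using this⟩
        left_inv := fun κ => by
          apply Subtype.ext
          simp [mul_assoc]
        right_inv := fun κ => by
          apply Subtype.ext
          simp [mul_assoc] }
    refine Fintype.prod_equiv e _ _ (fun κ => ?_)
    change bA (π * κ) y = bA (π * κ * π⁻¹ * π) y
    simp
  -- powers
  have hpow : ∀ (y : A) (m : ℕ), (toB y) ^ m = toB (y ^ m) := by
    intro y m
    induction m with
    | zero =>
      rw [pow_zero, pow_zero]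
      rfl
    | succ m ih =>
      rw [pow_succ, ih, hmul]
      have : ⁅y, y ^ m⁆ = 1 := by
        rw [commutatorElement_eq_one_iff_mul_comm]
        exact (Commute.refl y).pow_right m
      rw [this, one_pow, mul_one, pow_succ]
  -- on fixed elements
  have hNfixed : ∀ y : A, (∀ κ ∈ QQ, κ y = y) → N (toB y) = toB (y ^ Nat.card QQ) := by
    intro y hy
    rw [hNdef]
    have h1 : ∀ κ : QQ, bA κ (toB y) = toB y := by
      intro κ
      rw [hbA, hy κ κ.2]
    simp only [h1, Finset.prod_const, Finset.card_univ, Nat.card_eq_fintype_card, hpow]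
  by_contra hcon
  push Not at hcon
  obtain ⟨κ₀, hκ₀, y₀, hy₀⟩ := hcon
  -- the kernel is nontrivial
  have hY : N.ker ≠ ⊥ := by
    intro hb
    have hinj : Function.Injective N := (MonoidHom.ker_eq_bot_iff N).1 hb
    have hsurj : Function.Surjective N := by
      haveI : Finite (BaerT A) := inferInstanceAs (Finite A)
      exact Finite.surjective_of_injective hinj
    obtain ⟨y₁, hy₁⟩ := hsurj (toB y₀)
    have h1 := hNfix ⟨κ₀, hκ₀⟩ y₁
    rw [hy₁, hbA] at h1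
    exact hy₀ h1
  -- action of `PP` on the kernel
  have hPker : ∀ π ∈ PP, ∀ y ∈ N.ker, bA π y ∈ N.ker := by
    intro π hπ y hy
    rw [MonoidHom.mem_ker] at hy ⊢
    rw [← hNP π hπ, hy, map_one]
  haveI : Finite (BaerT A) := inferInstanceAs (Finite A)
  letI act : MulAction PP N.ker :=
    { smul := fun π y => ⟨bA π y, hPker π π.2 y y.2⟩
      one_smul := fun y => Subtype.ext (by
        change bA 1 y.1 = y.1
        rfl)
      mul_smul := fun π τ y => Subtype.ext (by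
        change bA (π * τ) y.1 = bA π (bA τ y.1)
        rfl) }
  have hsm : ∀ (π : PP) (y : N.ker), ((π • y : N.ker) : BaerT A) = bA π y := fun _ _ => rfl
  have hdvd : p ∣ Nat.card N.ker := by
    have h1 : Nat.card N.ker ∣ p ^ n := by
      rw [← hn, ← hcard]
      exact Subgroup.card_subgroup_dvd_card _
    obtain ⟨j, -, hj⟩ := (Nat.dvd_prime_pow Fact.out).1 h1
    rw [hj]
    have hj0 : j ≠ 0 := by
      rintro rfl
      rw [pow_zero] at hj
      apply hY
      exact Subgroup.card_eq_one.1 hj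
    exact dvd_pow_self p hj0
  have hfix1 : (1 : N.ker) ∈ MulAction.fixedPoints PP N.ker := by
    intro π
    apply Subtype.ext
    rw [hsm]
    exact map_one (bA π)
  obtain ⟨b, hb, hb1⟩ := hPP.exists_fixed_point_of_prime_dvd_card_of_fixed_point N.ker hdvd hfix1
  set y : A := ofB (b : BaerT A) with hy
  have hyP : ∀ π ∈ PP, π y = y := by
    intro π hπ
    have h1 := hb ⟨π, hπ⟩
    have h2 := congrArg Subtype.val h1
    exact h2
  have hyQ := hfix y hyP
  have hyN : N (toB y) = 1 := b.2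
  rw [hNfixed y hyQ] at hyN
  have h5 : y ^ Nat.card QQ = 1 := hyN
  have h6 : y ^ (p ^ n) = 1 := by
    rw [← hn]; exact pow_card_eq_one'
  have h7 : orderOf y = 1 :=
    Nat.Coprime.eq_one_of_dvd (Nat.Coprime.coprime_dvd_left (orderOf_dvd_of_pow_eq_one h5)
      (Nat.Coprime.pow_right n hQQ)) (orderOf_dvd_of_pow_eq_one h6)
  rw [orderOf_eq_one_iff] at h7
  apply hb1
  apply Subtype.ext
  exact h7.symm

end Abstract

section Main

variable {X : Type*} [Group X] [Finite X] {p : ℕ} [Fact p.Prime]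

omit [Finite X] [Fact p.Prime] in
theorem mem_norm_comm {A B : Subgroup X} {x : X} (h1 : x ∈ normalizer (A : Set X))
    (h2 : x ∈ normalizer (B : Set X)) : x ∈ normalizer ((⁅A, B⁆ : Subgroup X) : Set X) := by
  have key : ∀ x : X, x ∈ normalizer (A : Set X) → x ∈ normalizer (B : Set X) →
      ∀ c ∈ ⁅A, B⁆, x * c * x⁻¹ ∈ ⁅A, B⁆ := by
    intro x h1 h2 c hc
    have hle : ⁅A, B⁆ ≤ (⁅A, B⁆ : Subgroup X).comap (MulAut.conj x).toMonoidHom := by
      rw [Subgroup.commutator_le]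
      intro a ha b hb
      change x * ⁅a, b⁆ * x⁻¹ ∈ ⁅A, B⁆
      have e : x * ⁅a, b⁆ * x⁻¹ = ⁅x * a * x⁻¹, x * b * x⁻¹⁆ := by
        simp only [commutatorElement_def]; group
      rw [e]
      exact Subgroup.commutator_mem_commutator ((Subgroup.mem_normalizer_iff.1 h1 a).1 ha)
        ((Subgroup.mem_normalizer_iff.1 h2 b).1 hb)
    exact hle hc
  rw [Subgroup.mem_normalizer_iff]
  intro z
  constructor
  · exact key x h1 h2 z
  · intro hz
    have := key x⁻¹ (Subgroup.inv_mem _ h1) (Subgroup.inv_mem _ h2) _ hz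
    have e : x⁻¹ * (x * z * x⁻¹) * x⁻¹⁻¹ = z := by group
    rwa [e] at this

omit [Finite X] [Fact p.Prime] in
theorem comm_le_of_norm {G Q : Subgroup X} (hQG : Q ≤ normalizer (G : Set X)) : ⁅G, Q⁆ ≤ G := by
  rw [Subgroup.commutator_le]
  intro g hg q hq
  have e : ⁅g, q⁆ = g * (q * g⁻¹ * q⁻¹) := by
    simp only [commutatorElement_def]; group
  rw [e]
  exact G.mul_mem hg (((Subgroup.mem_normalizer_iff.1 (hQG hq)) g⁻¹).1 (G.inv_mem hg))

theorem centralizes_of_comm {G Q : Subgroup X} (hQ : (Nat.card Q).Coprime p) (hG : IsPGroup p G)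
    (hQG : Q ≤ normalizer (G : Set X)) (h : Q ≤ centralizer ((⁅G, Q⁆ : Subgroup X) : Set X)) :
    Q ≤ centralizer (G : Set X) := by
  intro q hq
  rw [mem_centralizer_iff]
  intro g hg
  set c := q * g * q⁻¹ * g⁻¹ with hc
  have hcm : c ∈ ⁅G, Q⁆ := by
    have e : c = ⁅g, q⁆⁻¹ := by
      simp only [hc, commutatorElement_def]; group
    rw [e]
    exact Subgroup.inv_mem _ (Subgroup.commutator_mem_commutator hg hq)
  have hcq : q * c = c * q := ((mem_centralizer_iff.1 (h hq)) c hcm).symm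
  have hpow : ∀ n : ℕ, q ^ n * g * (q ^ n)⁻¹ = c ^ n * g := by
    intro n
    induction n with
    | zero => simp
    | succ n ih =>
      have e1 : q * g * q⁻¹ = c * g := by rw [hc]; group
      have h2 : Commute q (c ^ n) := (show Commute q c from hcq).pow_right n
      calc q ^ (n + 1) * g * (q ^ (n + 1))⁻¹ = q * (q ^ n * g * (q ^ n)⁻¹) * q⁻¹ := by
            rw [pow_succ']; group
        _ = q * (c ^ n * g) * q⁻¹ := by rw [ih]
        _ = (q * c ^ n) * g * q⁻¹ := by group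
        _ = (c ^ n * q) * g * q⁻¹ := by rw [h2.eq]
        _ = c ^ n * (q * g * q⁻¹) := by group
        _ = c ^ n * (c * g) := by rw [e1]
        _ = c ^ (n + 1) * g := by rw [pow_succ]; group
  have h1 := hpow (orderOf q)
  rw [pow_orderOf_eq_one] at h1
  have h2 : c ^ orderOf q = 1 := by
    have : g = c ^ orderOf q * g := by simpa using h1
    exact mul_eq_right.1 this.symm
  have hcG : c ∈ G := comm_le_of_norm hQG hcm
  obtain ⟨j, hj⟩ := hG ⟨c, hcG⟩
  have hj' : c ^ (p ^ j) = 1 := by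
    have := congrArg Subtype.val hj
    simpa using this
  have h3 : orderOf c ∣ orderOf q := orderOf_dvd_of_pow_eq_one h2
  have h4 : orderOf c ∣ p ^ j := orderOf_dvd_of_pow_eq_one hj'
  have hqc : (orderOf q).Coprime p := by
    have h5 : orderOf (⟨q, hq⟩ : Q) ∣ Nat.card Q := orderOf_dvd_natCard _
    rw [Subgroup.orderOf_mk] at h5
    exact Nat.Coprime.coprime_dvd_left h5 hQ
  have h5 : orderOf c = 1 :=
    Nat.Coprime.eq_one_of_dvd (Nat.Coprime.coprime_dvd_left h3 (Nat.Coprime.pow_right j hqc)) h4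
  rw [orderOf_eq_one_iff] at h5
  rw [hc, mul_inv_eq_one, mul_inv_eq_iff_eq_mul] at h5
  exact h5.symm

/-- The class two case inside `X`. -/
theorem class_two_in (hp : p ≠ 2) (P Q G : Subgroup X) (hP : IsPGroup p P) (hQ : (Nat.card Q).Coprime p)
    (hPQ : P ≤ normalizer (Q : Set X)) (hG : IsPGroup p G) (hPG : P ≤ normalizer (G : Set X))
    (hQG : Q ≤ normalizer (G : Set X)) (hC : G ⊓ centralizer (P : Set X) ≤ centralizer (Q : Set X))
    (hcl : ⁅G, ⁅G, G⁆⁆ = ⊥) : Q ≤ centralizer (G : Set X) := by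
  set fP : P →* MulAut G := (normalizerMonoidHom G).comp (Subgroup.inclusion hPG) with hfP
  set fQ : Q →* MulAut G := (normalizerMonoidHom G).comp (Subgroup.inclusion hQG) with hfQ
  have hfPa : ∀ (a : P) (v : G), ((fP a v : G) : X) = a * v * (a : X)⁻¹ := fun a v => rfl
  have hfQa : ∀ (a : Q) (v : G), ((fQ a v : G) : X) = a * v * (a : X)⁻¹ := fun a v => rfl
  have hA : IsPGroup p G := hG
  have hz : ∀ x y z : G, ⁅x, y⁆ * z = z * ⁅x, y⁆ := by
    intro x y z
    apply Subtype.ext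
    have h1 : (⁅(x : X), (y : X)⁆) ∈ ⁅G, G⁆ := Subgroup.commutator_mem_commutator x.2 y.2
    have h2 : ⁅(z : X), ⁅(x : X), (y : X)⁆⁆ ∈ ⁅G, ⁅G, G⁆⁆ := Subgroup.commutator_mem_commutator z.2 h1
    rw [hcl, Subgroup.mem_bot, commutatorElement_eq_one_iff_mul_comm] at h2
    exact h2.symm
  have hPP : IsPGroup p fP.range := hP.of_surjective fP.rangeRestrict fP.rangeRestrict_surjective
  have hQQ : (Nat.card fQ.range).Coprime p := by
    have h1 : Nat.card fQ.range ∣ Nat.card Q := by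
      rw [← Subgroup.index_ker]
      exact Subgroup.index_dvd_card _
    exact Nat.Coprime.coprime_dvd_left h1 hQ
  have key := class_two_case hp hA hz fP.range fQ.range hPP hQQ (by
    rintro _ ⟨a, rfl⟩ _ ⟨b, rfl⟩
    have hm : (a : X) * b * (a : X)⁻¹ ∈ Q := ((Subgroup.mem_normalizer_iff.1 (hPQ a.2)) b).1 b.2
    refine ⟨⟨_, hm⟩, ?_⟩
    ext v
    change (a : X) * b * (a : X)⁻¹ * v * ((a : X) * b * (a : X)⁻¹)⁻¹ =
      a * (b * ((a : X)⁻¹ * v * (a : X)⁻¹⁻¹) * (b : X)⁻¹) * (a : X)⁻¹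
    group) (by
    intro y hy
    rintro _ ⟨b, rfl⟩
    have h1 : (y : X) ∈ centralizer (P : Set X) := by
      rw [mem_centralizer_iff]
      intro a ha
      have h2 := congrArg Subtype.val (hy (fP ⟨a, ha⟩) ⟨_, rfl⟩)
      rw [hfPa] at h2
      change a * (y : X) * a⁻¹ = y at h2
      rw [mul_inv_eq_iff_eq_mul] at h2
      exact h2
    have h3 := hC (Subgroup.mem_inf.2 ⟨y.2, h1⟩)
    apply Subtype.ext
    rw [hfQa]
    have h4 := (mem_centralizer_iff.1 h3) b b.2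
    rw [h4]
    simp)
  intro q hq
  rw [mem_centralizer_iff]
  intro g hg
  have h1 := congrArg Subtype.val (key (fQ ⟨q, hq⟩) ⟨_, rfl⟩ ⟨g, hg⟩)
  rw [hfQa] at h1
  change q * g * q⁻¹ = g at h1
  rw [mul_inv_eq_iff_eq_mul] at h1
  exact h1.symm

/-- Thompson's strengthening of the `P × Q` lemma. -/
theorem main (hp : p ≠ 2) (P Q : Subgroup X) (hP : IsPGroup p P) (hQ : (Nat.card Q).Coprime p)
    (hPQ : P ≤ normalizer (Q : Set X)) : ∀ (n : ℕ) (G : Subgroup X), Nat.card G = n → IsPGroup p G →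
    P ≤ normalizer (G : Set X) → Q ≤ normalizer (G : Set X) →
    G ⊓ centralizer (P : Set X) ≤ centralizer (Q : Set X) → Q ≤ centralizer (G : Set X) := by
  intro n
  induction n using Nat.strong_induction_on with
  | _ n ih =>
  intro G hn hG hPG hQG hC
  have hsub : ∀ G₀ : Subgroup X, G₀ ≤ G → G₀ ≠ G → P ≤ normalizer (G₀ : Set X) →
      Q ≤ normalizer (G₀ : Set X) → Q ≤ centralizer (G₀ : Set X) := by
    intro G₀ hle hne h1 h2
    have hlt : Nat.card G₀ < n := by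
      rw [← hn]
      refine lt_of_le_of_ne (Subgroup.card_le_of_le hle) ?_
      intro he
      exact hne (Subgroup.eq_of_le_of_card_ge hle he.ge)
    exact ih _ hlt G₀ rfl (hG.to_le hle) h1 h2
      ((inf_le_inf_right _ hle).trans hC)
  by_cases hGb : G = ⊥
  · subst hGb
    intro q _
    rw [mem_centralizer_iff]
    intro g hg
    have : g = 1 := by simpa using hg
    rw [this]; group
  by_cases hcomm : ⁅G, Q⁆ = G
  · -- class at most two
    haveI hGsolv : Group.IsSolvable G := by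
      haveI := hG.isNilpotent
      infer_instance
    have hne : ⁅G, G⁆ ≠ G := CfsgLib.Solv.commutator_ne_self_of_solvable G hGsolv hGb
    have hQ' : Q ≤ centralizer ((⁅G, G⁆ : Subgroup X) : Set X) :=
      hsub _ (Subgroup.commutator_le_self G) hne (fun x hx => mem_norm_comm (hPG hx) (hPG hx))
        (fun x hx => mem_norm_comm (hQG hx) (hQG hx))
    have hQ2 : (⁅G, G⁆ : Subgroup X) ≤ centralizer (Q : Set X) := Subgroup.le_centralizer_iff.1 hQ'
    have hGG : G ≤ normalizer ((⁅G, G⁆ : Subgroup X) : Set X) := by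
      intro x hx
      have h : x ∈ normalizer (G : Set X) := Subgroup.le_normalizer hx
      exact mem_norm_comm h h
    have h0 := comm_le_of_norm hGG
    have h1 : ⁅⁅G, ⁅G, G⁆⁆, Q⁆ = ⊥ := by
      rw [Subgroup.commutator_eq_bot_iff_le_centralizer]
      exact (Subgroup.commutator_comm G (⁅G, G⁆)).le.trans (h0.trans hQ2)
    have h2 : ⁅⁅⁅G, G⁆, Q⁆, G⁆ = ⊥ := by
      have : ⁅⁅G, G⁆, Q⁆ = ⊥ := by
        rw [Subgroup.commutator_eq_bot_iff_le_centralizer]
        exact hQ2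
      rw [this, Subgroup.commutator_bot_left]
    have h3 := Subgroup.commutator_commutator_eq_bot_of_rotate h1 h2
    have h4 : ⁅G, ⁅G, G⁆⁆ = ⊥ := by
      rw [Subgroup.commutator_comm Q G, hcomm] at h3
      exact h3
    exact class_two_in hp P Q G hP hQ hPQ hG hPG hQG hC h4
  · -- the commutator is smaller
    have hQ' : Q ≤ centralizer ((⁅G, Q⁆ : Subgroup X) : Set X) :=
      hsub _ (comm_le_of_norm hQG) hcomm (fun x hx => mem_norm_comm (hPG hx) (hPQ hx))
        (fun x hx => mem_norm_comm (hQG hx) (Subgroup.le_normalizer hx))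
    exact centralizes_of_comm hQ hG hQG hQ'

end Main

end CfsgLib.PQLemma
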