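import Mathlib
import Cfsg.Agent.Lib.Dickson.Tri
import Cfsg.Agent.Lib.Dickson.Apps

/-! `PSL₂(11)` acts 2-transitively on the cosets of `A₅`. -/

set_option autoImplicit false

namespace CfsgLib.PSL11A5

open scoped Pointwise

section generic

variable {G : Type*} [Group G] [Finite G]

theorem no_small_index {Γ : Type*} [Group Γ] [Finite Γ] [IsSimpleGroup Γ] (h60 : Nat.card Γ = 60)
    (K : Subgroup Γ) (hk : K.index ≤ 4) : K = ⊤ := by
  let f := MulAction.toPermHom Γ (Γ ⧸ K)
  rcases (f.normal_ker).eq_bot_or_eq_top with h | h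
  · exfalso
    have hinj : Function.Injective f := (MonoidHom.ker_eq_bot_iff f).1 h
    have hle : Nat.card Γ ≤ Nat.card (Equiv.Perm (Γ ⧸ K)) := Nat.card_le_card_of_injective f hinj
    rw [Nat.card_perm, h60] at hle
    have h1 : Nat.card (Γ ⧸ K) = K.index := rfl
    rw [h1] at hle
    have h2 : (K.index).factorial ≤ (4 : ℕ).factorial := Nat.factorial_le hk
    have h3 : (4 : ℕ).factorial = 24 := rfl
    omega
  · rw [eq_top_iff]
    intro g _
    have h1 : g ∈ f.ker := by rw [h]; trivial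
    have h2 : f g ((1 : Γ) : Γ ⧸ K) = ((1 : Γ) : Γ ⧸ K) := by
      rw [MonoidHom.mem_ker.1 h1]
      rfl
    have h3 : ((g * 1 : Γ) : Γ ⧸ K) = ((1 : Γ) : Γ ⧸ K) := h2
    have h4 := QuotientGroup.eq.1 h3
    simpa using h4

theorem conj_of_card_four (H : Subgroup G) (h60 : Nat.card H = 60) (A B : Subgroup G)
    (hA : A ≤ H) (hB : B ≤ H) (cA : Nat.card A = 4) (cB : Nat.card B = 4) :
    ∃ h ∈ H, ∀ n ∈ A, h * n * h⁻¹ ∈ B := by
  haveI : Fact (Nat.Prime 2) := ⟨Nat.prime_two⟩
  have key : ∀ C : Subgroup G, C ≤ H → Nat.card C = 4 →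
      ∃ S : Sylow 2 H, (S : Subgroup H) = C.subgroupOf H := by
    intro C hC cC
    have hcard : Nat.card (C.subgroupOf H) = 4 := by
      rw [Nat.card_congr (Subgroup.subgroupOfEquivOfLe hC).toEquiv, cC]
    have hp : IsPGroup 2 (C.subgroupOf H) := IsPGroup.of_card (n := 2) (by rw [hcard]; norm_num)
    have hidx : ¬ 2 ∣ (C.subgroupOf H).index := by
      have h1 := Subgroup.card_mul_index (C.subgroupOf H)
      rw [hcard, h60] at h1
      have h2 : (C.subgroupOf H).index = 15 := by omega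
      rw [h2]
      norm_num
    exact ⟨hp.toSylow hidx, IsPGroup.toSylow_coe hp hidx⟩
  obtain ⟨SA, hSA⟩ := key A hA cA
  obtain ⟨SB, hSB⟩ := key B hB cB
  obtain ⟨h, hh⟩ := MulAction.exists_smul_eq ↥H SA SB
  refine ⟨h, h.2, ?_⟩
  intro n hn
  have h1 : (⟨n, hA hn⟩ : H) ∈ (SA : Subgroup H) := by
    rw [hSA, Subgroup.mem_subgroupOf]
    exact hn
  have h2 : (MulAut.conj h) • (⟨n, hA hn⟩ : H) ∈ (MulAut.conj h) • (SA : Subgroup H) :=
    Subgroup.smul_mem_pointwise_smul _ _ _ h1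
  rw [← Sylow.coe_subgroup_smul, hh, hSB, Subgroup.mem_subgroupOf] at h2
  exact h2

theorem orbit_ge_six (H : Subgroup G) (h60 : Nat.card H = 60) [IsSimpleGroup H] (P₁ : Subgroup G)
    (hP₁ : P₁ ≤ H) (c₁ : Nat.card P₁ = 4) (hN : ∀ y : G, (∀ n ∈ P₁, y * n * y⁻¹ ∈ P₁) → y ∈ H)
    (x : G) (hx : x ∉ H) : 6 ≤ Nat.card (MulAction.orbit H ((x : G) : G ⧸ H)) := by
  classical
  by_contra hlt
  push Not at hlt
  set K := MulAction.stabilizer H ((x : G) : G ⧸ H) with hK
  have hidx : K.index = Nat.card (MulAction.orbit H ((x : G) : G ⧸ H)) := by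
    rw [hK, MulAction.index_stabilizer, Nat.card_coe_set_eq]
  have hcard := Subgroup.card_mul_index K
  rw [h60] at hcard
  have h4 : 4 ∣ Nat.card K := by
    by_cases hle : K.index ≤ 4
    · have hK' := no_small_index h60 K hle
      rw [hK', Subgroup.card_top, h60]
      norm_num
    · have h5 : K.index = 5 := by omega
      rw [h5] at hcard
      have : Nat.card K = 12 := by omega
      rw [this]
      norm_num
  haveI : Fact (Nat.Prime 2) := ⟨Nat.prime_two⟩
  obtain ⟨P₀, hP₀⟩ := Sylow.exists_subgroup_card_pow_prime (G := K) 2 (n := 2) (by simpa using h4)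
  set P : Subgroup G := (P₀.map K.subtype).map H.subtype with hP
  have hPH : P ≤ H := Subgroup.map_subtype_le _
  have cP : Nat.card P = 4 := by
    rw [hP, Subgroup.card_map_of_injective H.subtype_injective,
      Subgroup.card_map_of_injective K.subtype_injective, hP₀]
    norm_num
  have hfix : ∀ a ∈ P, x⁻¹ * a * x ∈ H := by
    rintro a ⟨b, ⟨c, hc, rfl⟩, rfl⟩
    have h1 : (c : K).val ∈ K := c.2
    have h2 : ((c : K) : H) • ((x : G) : G ⧸ H) = ((x : G) : G ⧸ H) := h1
    have h3 : ((((c : K) : H) : G) * x : G) = ((((c : K) : H) : G) * x) := rfl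
    have h4 : (((((c : K) : H) : G) * x : G) : G ⧸ H) = ((x : G) : G ⧸ H) := h2
    have h5 := QuotientGroup.eq.1 h4
    have h6 := H.inv_mem h5
    simpa [mul_assoc] using h6
  set P2 : Subgroup G := P.map (MulAut.conj x⁻¹).toMonoidHom with hP2
  have hP2H : P2 ≤ H := by
    rintro _ ⟨a, ha, rfl⟩
    have := hfix a ha
    simpa [MulAut.conj_apply] using this
  have c2 : Nat.card P2 = 4 := by
    rw [hP2, Subgroup.card_map_of_injective (MulAut.conj x⁻¹).injective, cP]
  obtain ⟨h₁, hh₁, e₁⟩ := conj_of_card_four H h60 P₁ P hP₁ hPH c₁ cP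
  obtain ⟨h₃, hh₃, e₃⟩ := conj_of_card_four H h60 P2 P₁ hP2H hP₁ c2 c₁
  have hy : h₃ * x⁻¹ * h₁ ∈ H := by
    apply hN
    intro n hn
    have h1 := e₁ n hn
    have h2 : x⁻¹ * (h₁ * n * h₁⁻¹) * x ∈ P2 := by
      refine ⟨_, h1, ?_⟩
      simp [MulAut.conj_apply]
    have h3 := e₃ _ h2
    have h4 : h₃ * x⁻¹ * h₁ * n * (h₃ * x⁻¹ * h₁)⁻¹ = h₃ * (x⁻¹ * (h₁ * n * h₁⁻¹) * x) * h₃⁻¹ := by
      group
    rw [h4]
    exact h3
  apply hx
  have h5 : x⁻¹ = h₃⁻¹ * (h₃ * x⁻¹ * h₁) * h₁⁻¹ := by group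
  have h6 : x⁻¹ ∈ H := by
    rw [h5]
    exact H.mul_mem (H.mul_mem (H.inv_mem hh₃) hy) (H.inv_mem hh₁)
  simpa using H.inv_mem h6

theorem two_pre (H : Subgroup G) (h60 : Nat.card H = 60) (hidx : H.index = 11) [IsSimpleGroup H]
    (P₁ : Subgroup G) (hP₁ : P₁ ≤ H) (c₁ : Nat.card P₁ = 4)
    (hN : ∀ y : G, (∀ n ∈ P₁, y * n * y⁻¹ ∈ P₁) → y ∈ H) :
    MulAction.IsMultiplyPretransitive G (G ⧸ H) 2 := by
  classical
  set o : G ⧸ H := ((1 : G) : G ⧸ H) with ho
  have hfixo : ∀ h : H, h • o = o := by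
    intro h
    show (((h : G) * 1 : G) : G ⧸ H) = ((1 : G) : G ⧸ H)
    rw [QuotientGroup.eq]
    simp
  have key : ∀ u v : G ⧸ H, u ≠ o → v ≠ o → ∃ h : H, h • u = v := by
    intro u v hu hv
    by_contra hne
    push Not at hne
    have hsix : ∀ w : G ⧸ H, w ≠ o → 6 ≤ (MulAction.orbit H w).ncard := by
      intro w hw
      obtain ⟨x, rfl⟩ := QuotientGroup.mk_surjective w
      have hx : x ∉ H := by
        intro hx
        apply hw
        rw [ho, QuotientGroup.eq]
        simpa using H.inv_mem hx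
      have := orbit_ge_six H h60 P₁ hP₁ c₁ hN x hx
      rwa [Nat.card_coe_set_eq] at this
    have hdisj1 : Disjoint (MulAction.orbit H u) (MulAction.orbit H v) := by
      rw [Set.disjoint_left]
      rintro w ⟨h₁, rfl⟩ ⟨h₂, h₂e⟩
      apply hne (h₂⁻¹ * h₁)
      have h₂e' : h₂ • v = h₁ • u := h₂e
      rw [mul_smul, ← h₂e', inv_smul_smul]
    have hdisj2 : ∀ w : G ⧸ H, w ≠ o → o ∉ MulAction.orbit H w := by
      rintro w hw ⟨h, he⟩
      apply hw
      have he' : h • w = o := he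
      rw [← inv_smul_smul h w, he', hfixo]
    have hcard : Nat.card (G ⧸ H) = 11 := hidx
    have hu6 := hsix u hu
    have hv6 := hsix v hv
    have htot : ((MulAction.orbit H u) ∪ (MulAction.orbit H v)).ncard +  ({o} : Set (G ⧸ H)).ncard ≤ 11 := by
      rw [← Set.ncard_union_eq (by
        rw [Set.disjoint_singleton_right]
        rintro (h | h)
        · exact hdisj2 u hu h
        · exact hdisj2 v hv h)]
      rw [← hcard, ← Set.ncard_univ]
      exact Set.ncard_le_ncard (Set.subset_univ _) Set.finite_univ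
    rw [Set.ncard_union_eq hdisj1, Set.ncard_singleton] at htot
    omega
  rw [MulAction.is_two_pretransitive_iff]
  intro a b c d hab hcd
  obtain ⟨a', rfl⟩ := QuotientGroup.mk_surjective a
  obtain ⟨c', rfl⟩ := QuotientGroup.mk_surjective c
  have ha1 : a'⁻¹ • ((a' : G) : G ⧸ H) = o := by
    show ((a'⁻¹ * a' : G) : G ⧸ H) = _
    rw [inv_mul_cancel]
  have hc1 : c'⁻¹ • ((c' : G) : G ⧸ H) = o := by
    show ((c'⁻¹ * c' : G) : G ⧸ H) = _
    rw [inv_mul_cancel]
  have hb1 : a'⁻¹ • b ≠ o := by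
    intro h
    apply hab
    rw [← ha1] at h
    exact (smul_left_cancel _ h).symm
  have hd1 : c'⁻¹ • d ≠ o := by
    intro h
    apply hcd
    rw [← hc1] at h
    exact (smul_left_cancel _ h).symm
  obtain ⟨h, hh⟩ := key _ _ hb1 hd1
  refine ⟨c' * (h : G) * a'⁻¹, ?_, ?_⟩
  · rw [mul_smul, mul_smul, ha1]
    have h1 : (h : G) • o = o := hfixo h
    rw [h1, ← hc1, smul_smul, mul_inv_cancel, one_smul]
  · rw [mul_smul, mul_smul]
    have h1 : (h : G) • (a'⁻¹ • b) = c'⁻¹ • d := hh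
    rw [h1, smul_smul, mul_inv_cancel, one_smul]

/-- A Klein four group from two commuting involutions. -/
theorem v4_exists (a b : G) (ha : a * a = 1) (hb : b * b = 1) (hab : b * a = a * b)
    (h1 : a ≠ 1) (h2 : b ≠ 1) (h3 : a ≠ b) :
    ∃ P : Subgroup G, (∀ g, g ∈ P ↔ g = 1 ∨ g = a ∨ g = b ∨ g = a * b) ∧ Nat.card P = 4 := by
  classical
  have e1 : a * (a * b) = b := by rw [← mul_assoc, ha, one_mul]
  have e2 : b * (a * b) = a := by rw [← mul_assoc, hab, mul_assoc, hb, mul_one]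
  have e3 : a * b * a = b := by rw [mul_assoc, hab, ← mul_assoc, ha, one_mul]
  have e4 : a * b * b = a := by rw [mul_assoc, hb, mul_one]
  have e5 : a * b * (a * b) = 1 := by rw [← mul_assoc, e3, hb]
  let P : Subgroup G :=
    { carrier := {g | g = 1 ∨ g = a ∨ g = b ∨ g = a * b}
      one_mem' := Or.inl rfl
      mul_mem' := by
        rintro x y (rfl | rfl | rfl | rfl) (rfl | rfl | rfl | rfl) <;>
          simp only [Set.mem_setOf_eq, one_mul, mul_one, ha, hb, hab, e1, e2, e3, e4, e5, true_or, or_true]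
      inv_mem' := by
        rintro x (rfl | rfl | rfl | rfl)
        · left; simp
        · right; left; exact inv_eq_of_mul_eq_one_left ha
        · right; right; left; exact inv_eq_of_mul_eq_one_left hb
        · right; right; right; exact inv_eq_of_mul_eq_one_left e5 }
  refine ⟨P, fun g => Iff.rfl, ?_⟩
  have hset : (P : Set G) = (({1, a, b, a * b} : Finset G) : Set G) := by
    ext g
    simp [P]
  have hc : Nat.card P = (({1, a, b, a * b} : Finset G) : Set G).ncard := by
    rw [← hset]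
    rfl
  rw [hc, Set.ncard_coe_finset]
  have n1 : a * b ≠ 1 := by
    intro h
    apply h3
    calc a = a * (b * b) := by rw [hb, mul_one]
      _ = (a * b) * b := by rw [mul_assoc]
      _ = b := by rw [h, one_mul]
  have n2 : a * b ≠ a := by
    intro h
    apply h2
    exact mul_left_cancel (h.trans (mul_one a).symm)
  have n3 : a * b ≠ b := by
    intro h
    apply h1
    exact mul_right_cancel (h.trans (one_mul b).symm)
  rw [Finset.card_insert_of_notMem, Finset.card_insert_of_notMem, Finset.card_insert_of_notMem,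
    Finset.card_singleton]
  · simp [n3.symm]
  · simp [h3, n2.symm]
  · simp [h1.symm, h2.symm, n1.symm]

end generic

/-! ### Explicit data -/

/-- Four entries. -/
abbrev T4 := ZMod 11 × ZMod 11 × ZMod 11 × ZMod 11

/-- Matrix multiplication on four entries. -/
def tmul (A B : T4) : T4 :=
  (A.1 * B.1 + A.2.1 * B.2.2.1, A.1 * B.2.1 + A.2.1 * B.2.2.2,
   A.2.2.1 * B.1 + A.2.2.2 * B.2.2.1, A.2.2.1 * B.2.1 + A.2.2.2 * B.2.2.2)

def tx : T4 := (0, 1, 10, 0)
def tj : T4 := (3, 10, 10, 8)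
def tw : T4 := (6, 3, 4, 4)
def tz : T4 := (10, 0, 0, 10)
def tone : T4 := (1, 0, 0, 1)

/-- The quaternion group. -/
def Ql : List T4 := [tone, tz, tx, tmul tz tx, tj, tmul tz tj, tmul tx tj, tmul tz (tmul tx tj)]

/-- Square of `tw`. -/
def w2 : T4 := tmul tw tw

/-- Its normalizer. -/
def Nl : List T4 := Ql.map (fun q => tmul q tone) ++ Ql.map (fun q => tmul q tw) ++ Ql.map (fun q => tmul q w2)

theorem D2 : ∀ a b c d : ZMod 11, a * d - b * c = 1 →
    (Ql.any fun q => decide (tmul (a, b, c, d) tx = tmul q (a, b, c, d))) = true →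
    (Ql.any fun q => decide (tmul (a, b, c, d) tj = tmul q (a, b, c, d))) = true →
    (Nl.any fun n => decide (n = (a, b, c, d))) = true := by
  decide +kernel

/-- The group `SL₂(11)`. -/
abbrev S11 := Matrix.SpecialLinearGroup (Fin 2) (ZMod 11)

/-- The entries. -/
def toT (g : S11) : T4 := (g.1 0 0, g.1 0 1, g.1 1 0, g.1 1 1)

theorem toT_mul (g h : S11) : toT (g * h) = tmul (toT g) (toT h) := by
  simp [toT, tmul, Matrix.mul_apply, Fin.sum_univ_two, Matrix.SpecialLinearGroup.coe_mul]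

theorem toT_inj : Function.Injective toT := by
  intro g h e
  have e0 : g.1 0 0 = h.1 0 0 := congrArg (fun t : T4 => t.1) e
  have e1 : g.1 0 1 = h.1 0 1 := congrArg (fun t : T4 => t.2.1) e
  have e2 : g.1 1 0 = h.1 1 0 := congrArg (fun t : T4 => t.2.2.1) e
  have e3 : g.1 1 1 = h.1 1 1 := congrArg (fun t : T4 => t.2.2.2) e
  apply Subtype.ext
  ext i j
  fin_cases i <;> fin_cases j
  · exact e0
  · exact e1
  · exact e2
  · exact e3

def xS : S11 := ⟨!![0, 1; 10, 0], by decide +kernel⟩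
def yS : S11 := ⟨!![0, 2; 5, 10], by decide +kernel⟩
def jS : S11 := ⟨!![3, 10; 10, 8], by decide +kernel⟩
def wS : S11 := ⟨!![6, 3; 4, 4], by decide +kernel⟩
def zS : S11 := ⟨!![10, 0; 0, 10], by decide +kernel⟩

theorem toT_x : toT xS = tx := by decide +kernel
theorem toT_j : toT jS = tj := by decide +kernel
theorem toT_w : toT wS = tw := by decide +kernel
theorem toT_z : toT zS = tz := by decide +kernel
theorem toT_one : toT 1 = tone := by decide +kernel

theorem rel_xx : xS * xS = zS := by decide +kernel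
theorem rel_y3 : yS * yS * yS = 1 := by decide +kernel
theorem rel_xy5 : (xS * yS) ^ 5 = 1 ∨ (xS * yS) ^ 5 = zS := by decide +kernel
theorem rel_jj : jS * jS = zS := by decide +kernel
theorem rel_jx : jS * xS = zS * (xS * jS) := by decide +kernel
theorem rel_j_word : jS = yS * yS * xS * yS * xS * yS * yS * xS * yS * xS * yS * yS := by decide +kernel
theorem rel_w_word : wS = xS * xS * yS * xS * yS * yS * xS * yS * yS := by decide +kernel
theorem ne_x : xS ≠ 1 ∧ xS ≠ zS := by decide +kernel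
theorem ne_j : jS ≠ 1 ∧ jS ≠ zS := by decide +kernel
theorem ne_xj : xS ≠ jS ∧ xS ≠ zS * jS := by decide +kernel

/-- Membership in the quaternion group. -/
def inQS (q : S11) : Prop :=
  q = 1 ∨ q = zS ∨ q = xS ∨ q = zS * xS ∨ q = jS ∨ q = zS * jS ∨ q = xS * jS ∨ q = zS * (xS * jS)

theorem mem_Ql (q : S11) (h : inQS q) : toT q ∈ Ql := by
  rcases h with rfl | rfl | rfl | rfl | rfl | rfl | rfl | rfl <;> decide +kernel

theorem Ql_cases : ∀ t ∈ Ql, ∃ q, inQS q ∧ t = toT q := by
  intro t ht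
  simp only [Ql, List.mem_cons, List.not_mem_nil, or_false] at ht
  rcases ht with rfl | rfl | rfl | rfl | rfl | rfl | rfl | rfl
  · exact ⟨1, Or.inl rfl, toT_one.symm⟩
  · exact ⟨zS, Or.inr (Or.inl rfl), toT_z.symm⟩
  · exact ⟨xS, Or.inr (Or.inr (Or.inl rfl)), toT_x.symm⟩
  · exact ⟨zS * xS, Or.inr (Or.inr (Or.inr (Or.inl rfl))), by rw [toT_mul, toT_z, toT_x]⟩
  · exact ⟨jS, Or.inr (Or.inr (Or.inr (Or.inr (Or.inl rfl)))), toT_j.symm⟩
  · exact ⟨zS * jS, Or.inr (Or.inr (Or.inr (Or.inr (Or.inr (Or.inl rfl))))), by rw [toT_mul, toT_z, toT_j]⟩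
  · exact ⟨xS * jS, Or.inr (Or.inr (Or.inr (Or.inr (Or.inr (Or.inr (Or.inl rfl)))))), by rw [toT_mul, toT_x, toT_j]⟩
  · exact ⟨zS * (xS * jS), Or.inr (Or.inr (Or.inr (Or.inr (Or.inr (Or.inr (Or.inr rfl)))))), by
      rw [toT_mul, toT_mul, toT_z, toT_x, toT_j]⟩

theorem N_cond (g : S11) (h1 : ∃ q, inQS q ∧ g * xS = q * g) (h2 : ∃ q, inQS q ∧ g * jS = q * g) :
    ∃ q, inQS q ∧ (g = q ∨ g = q * wS ∨ g = q * (wS * wS)) := by
  have hdet : g.1 0 0 * g.1 1 1 - g.1 0 1 * g.1 1 0 = 1 := by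
    have := g.2
    rwa [Matrix.det_fin_two] at this
  have hT : toT g = (g.1 0 0, g.1 0 1, g.1 1 0, g.1 1 1) := rfl
  have hc := D2 _ _ _ _ hdet
  rw [← hT] at hc
  have hA : (Ql.any fun q => decide (tmul (toT g) tx = tmul q (toT g))) = true := by
    obtain ⟨q, hq, e⟩ := h1
    rw [List.any_eq_true]
    refine ⟨toT q, mem_Ql q hq, ?_⟩
    rw [decide_eq_true_eq, ← toT_mul, ← toT_x, ← toT_mul, e]
  have hB : (Ql.any fun q => decide (tmul (toT g) tj = tmul q (toT g))) = true := by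
    obtain ⟨q, hq, e⟩ := h2
    rw [List.any_eq_true]
    refine ⟨toT q, mem_Ql q hq, ?_⟩
    rw [decide_eq_true_eq, ← toT_mul, ← toT_j, ← toT_mul, e]
  have hN := hc hA hB
  rw [List.any_eq_true] at hN
  obtain ⟨n, hn, e⟩ := hN
  rw [decide_eq_true_eq] at e
  simp only [Nl, List.mem_append, List.mem_map] at hn
  rcases hn with (⟨t, ht, rfl⟩ | ⟨t, ht, rfl⟩) | ⟨t, ht, rfl⟩
  · obtain ⟨q, hq, rfl⟩ := Ql_cases t ht
    refine ⟨q, hq, Or.inl (toT_inj ?_)⟩
    rw [← e, ← toT_one, ← toT_mul, mul_one]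
  · obtain ⟨q, hq, rfl⟩ := Ql_cases t ht
    refine ⟨q, hq, Or.inr (Or.inl (toT_inj ?_))⟩
    rw [← e, ← toT_w, ← toT_mul]
  · obtain ⟨q, hq, rfl⟩ := Ql_cases t ht
    refine ⟨q, hq, Or.inr (Or.inr (toT_inj ?_))⟩
    rw [← e, w2, ← toT_w, ← toT_mul, ← toT_mul]

section final

variable {F : Type*} [Field F] [Fintype F]

theorem main (hF : Fintype.card F = 11) :
    ∃ H : Subgroup (Matrix.ProjectiveSpecialLinearGroup (Fin 2) F), H.index = 11 ∧
      Nonempty (H ≃* alternatingGroup (Fin 5)) ∧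
      MulAction.IsMultiplyPretransitive (Matrix.ProjectiveSpecialLinearGroup (Fin 2) F)
        ((Matrix.ProjectiveSpecialLinearGroup (Fin 2) F) ⧸ H) 2 := by
  classical
  let e : ZMod 11 ≃+* F := ZMod.ringEquivOfPrime F (by norm_num) hF
  let π : Matrix.SpecialLinearGroup (Fin 2) F →* Matrix.ProjectiveSpecialLinearGroup (Fin 2) F :=
    QuotientGroup.mk' _
  let ψ : S11 →* Matrix.ProjectiveSpecialLinearGroup (Fin 2) F :=
    π.comp (Matrix.SpecialLinearGroup.map (e : ZMod 11 →+* F))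
  have hsurj : Function.Surjective ψ := by
    intro x
    obtain ⟨y, rfl⟩ := QuotientGroup.mk'_surjective _ x
    refine ⟨Matrix.SpecialLinearGroup.map (e.symm : F →+* ZMod 11) y, ?_⟩
    show π (Matrix.SpecialLinearGroup.map (e : ZMod 11 →+* F)
      (Matrix.SpecialLinearGroup.map (e.symm : F →+* ZMod 11) y)) = _
    congr 1
    apply Subtype.ext
    ext i j
    exact e.apply_symm_apply _
  have hz : ψ zS = 1 := by
    apply (QuotientGroup.eq_one_iff _).2
    rw [Matrix.SpecialLinearGroup.mem_center_iff]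
    refine ⟨e 10, ?_, ?_⟩
    · rw [Fintype.card_fin, ← map_pow]
      have h10 : (10 : ZMod 11) ^ 2 = 1 := by decide
      rw [h10, map_one]
    · ext i j
      fin_cases i <;> fin_cases j
      · show e 10 = e 10
        rfl
      · show (0 : F) = e 0
        rw [map_zero]
      · show (0 : F) = e 0
        rw [map_zero]
      · show e 10 = e 10
        rfl
  have hker : ∀ g : S11, ψ g = 1 → g = 1 ∨ g = zS := by
    intro g hg
    have h1 : Matrix.SpecialLinearGroup.map (e : ZMod 11 →+* F) g ∈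
        Subgroup.center (Matrix.SpecialLinearGroup (Fin 2) F) :=
      (QuotientGroup.eq_one_iff _).1 hg
    obtain ⟨r, hr, hr2⟩ := Matrix.SpecialLinearGroup.mem_center_iff.mp h1
    have hent : ∀ i j : Fin 2, e (g.1 i j) = (Matrix.scalar (Fin 2) r) i j := fun i j =>
      (congrFun (congrFun hr2 i) j).symm
    have e00 : g.1 0 0 = e.symm r := by
      apply e.injective
      rw [hent]
      simp
    have e11 : g.1 1 1 = e.symm r := by
      apply e.injective
      rw [hent]
      simp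
    have e01 : g.1 0 1 = 0 := by
      apply e.injective
      rw [hent]
      simp
    have e10 : g.1 1 0 = 0 := by
      apply e.injective
      rw [hent]
      simp
    have hr' : (e.symm r) ^ 2 = 1 := by
      rw [← map_pow]
      have : r ^ 2 = 1 := by simpa using hr
      rw [this, map_one]
    have hd : ∀ x : ZMod 11, x ^ 2 = 1 → x = 1 ∨ x = 10 := by decide
    rcases hd _ hr' with h | h
    · left
      apply toT_inj
      rw [toT_one]
      show (g.1 0 0, g.1 0 1, g.1 1 0, g.1 1 1) = _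
      rw [e00, e01, e10, e11, h]
      rfl
    · right
      apply toT_inj
      rw [toT_z]
      show (g.1 0 0, g.1 0 1, g.1 1 0, g.1 1 1) = _
      rw [e00, e01, e10, e11, h]
      rfl
  have hlift : ∀ g h : S11, ψ g = ψ h → g = h ∨ g = zS * h := by
    intro g h hgh
    have h1 : ψ (g * h⁻¹) = 1 := by rw [map_mul, map_inv, hgh, mul_inv_cancel]
    rcases hker _ h1 with h2 | h2
    · left
      exact mul_inv_eq_one.1 h2
    · right
      exact mul_inv_eq_iff_eq_mul.1 h2
  -- the images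
  set a := ψ xS with ha
  set y := ψ yS with hy
  set b := ψ jS with hb
  have haa : a * a = 1 := by rw [ha, ← map_mul, rel_xx, hz]
  have hbb : b * b = 1 := by rw [hb, ← map_mul, rel_jj, hz]
  have hba : b * a = a * b := by
    rw [ha, hb, ← map_mul, rel_jx, map_mul, hz, one_mul, map_mul]
  have hy3 : y ^ 3 = 1 := by
    rw [pow_succ, pow_two, hy, ← map_mul, ← map_mul, rel_y3, map_one]
  have hay5 : (a * y) ^ 5 = 1 := by
    rw [ha, hy, ← map_mul, ← map_pow]
    rcases rel_xy5 with h | h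
    · rw [h, map_one]
    · rw [h, hz]
  have ha1 : a ≠ 1 := by
    intro h
    rcases hker _ h with h2 | h2
    · exact ne_x.1 h2
    · exact ne_x.2 h2
  have hb1 : b ≠ 1 := by
    intro h
    rcases hker _ h with h2 | h2
    · exact ne_j.1 h2
    · exact ne_j.2 h2
  have hab : a ≠ b := by
    intro h
    rcases hlift _ _ h with h2 | h2
    · exact ne_xj.1 h2
    · exact ne_xj.2 h2
  obtain ⟨φ, hφx, hφy⟩ := CfsgLib.Present.hom_A5 a y (by rw [pow_two]; exact haa) hy3 hay5
  have hinj : Function.Injective φ := CfsgLib.Present.inj_A5 φ (by rw [hφx]; exact ha1)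
  let E : alternatingGroup (Fin 5) ≃* φ.range := MonoidHom.ofInjective hinj
  have hcardH : Nat.card φ.range = 60 := by
    rw [← Nat.card_congr E.toEquiv]
    exact CfsgLib.Dickson.card_A5'
  have hcardG : Nat.card (Matrix.ProjectiveSpecialLinearGroup (Fin 2) F) = 660 := by
    have h1 := CfsgLib.Dickson.card_PSL2_nat F
    have h2 : Nat.card F = 11 := by rw [Nat.card_eq_fintype_card, hF]
    rw [h2, show Nat.gcd 2 (11 - 1) = 2 by norm_num, show (11 + 1) * (11 * (11 - 1)) = 1320 by norm_num] at h1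
    have h3 : Nat.card (Matrix.ProjectiveSpecialLinearGroup (Fin 2) F) * 2 = 1320 := h1
    omega
  have hidx : φ.range.index = 11 := by
    have h1 := Subgroup.card_mul_index φ.range
    rw [hcardH, hcardG] at h1
    omega
  have haH : a ∈ φ.range := ⟨_, hφx⟩
  have hyH : y ∈ φ.range := ⟨_, hφy⟩
  have hbH : b ∈ φ.range := by
    rw [hb, rel_j_word]
    simp only [map_mul]
    repeat' apply Subgroup.mul_mem
    all_goals first | exact haH | exact hyH
  have hcH : ψ wS ∈ φ.range := by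
    rw [rel_w_word]
    simp only [map_mul]
    repeat' apply Subgroup.mul_mem
    all_goals first | exact haH | exact hyH
  have hqH : ∀ q, inQS q → ψ q ∈ φ.range := by
    rintro q (rfl | rfl | rfl | rfl | rfl | rfl | rfl | rfl)
    · rw [map_one]; exact Subgroup.one_mem _
    · rw [hz]; exact Subgroup.one_mem _
    · exact haH
    · rw [map_mul, hz, one_mul]; exact haH
    · exact hbH
    · rw [map_mul, hz, one_mul]; exact hbH
    · rw [map_mul]; exact Subgroup.mul_mem _ haH hbH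
    · rw [map_mul, hz, one_mul, map_mul]; exact Subgroup.mul_mem _ haH hbH
  refine ⟨φ.range, hidx, ⟨E.symm⟩, ?_⟩
  haveI : IsSimpleGroup φ.range := by
    haveI := alternatingGroup.isSimpleGroup_five
    exact E.symm.isSimpleGroup
  obtain ⟨P, hP, cP⟩ := v4_exists a b haa hbb hba ha1 hb1 hab
  have hPH : P ≤ φ.range := by
    intro g hg
    rcases (hP g).1 hg with rfl | rfl | rfl | rfl
    · exact Subgroup.one_mem _
    · exact haH
    · exact hbH
    · exact Subgroup.mul_mem _ haH hbH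
  have hconj : ∀ (g u : S11), ψ (g * u * g⁻¹) ∈ P → ∃ q, inQS q ∧ g * u = q * g := by
    intro g u hgu
    have key : ∃ q, inQS q ∧ g * u * g⁻¹ = q := by
      rcases (hP _).1 hgu with h | h | h | h
      · rw [← map_one ψ] at h
        rcases hlift _ _ h with h2 | h2
        · exact ⟨1, Or.inl rfl, h2⟩
        · exact ⟨zS, Or.inr (Or.inl rfl), by rw [h2, mul_one]⟩
      · rcases hlift _ _ h with h2 | h2
        · exact ⟨xS, Or.inr (Or.inr (Or.inl rfl)), h2⟩
        · exact ⟨zS * xS, Or.inr (Or.inr (Or.inr (Or.inl rfl))), h2⟩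
      · rcases hlift _ _ h with h2 | h2
        · exact ⟨jS, Or.inr (Or.inr (Or.inr (Or.inr (Or.inl rfl)))), h2⟩
        · exact ⟨zS * jS, Or.inr (Or.inr (Or.inr (Or.inr (Or.inr (Or.inl rfl))))), h2⟩
      · rw [ha, hb, ← map_mul] at h
        rcases hlift _ _ h with h2 | h2
        · exact ⟨xS * jS, Or.inr (Or.inr (Or.inr (Or.inr (Or.inr (Or.inr (Or.inl rfl)))))), h2⟩
        · exact ⟨zS * (xS * jS), Or.inr (Or.inr (Or.inr (Or.inr (Or.inr (Or.inr (Or.inr rfl)))))), h2⟩
    obtain ⟨q, hq, e1⟩ := key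
    exact ⟨q, hq, by rw [← e1]; group⟩
  refine two_pre φ.range hcardH hidx P hPH cP ?_
  intro y₀ hy₀
  obtain ⟨g, rfl⟩ := hsurj y₀
  have h1 : ∃ q, inQS q ∧ g * xS = q * g := by
    apply hconj
    rw [map_mul, map_mul, map_inv]
    exact hy₀ a ((hP a).2 (Or.inr (Or.inl rfl)))
  have h2 : ∃ q, inQS q ∧ g * jS = q * g := by
    apply hconj
    rw [map_mul, map_mul, map_inv]
    exact hy₀ b ((hP b).2 (Or.inr (Or.inr (Or.inl rfl))))
  obtain ⟨q, hq, h3⟩ := N_cond g h1 h2
  rcases h3 with h3 | h3 | h3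
  · rw [h3]
    exact hqH q hq
  · rw [h3, map_mul]
    exact Subgroup.mul_mem _ (hqH q hq) hcH
  · rw [h3, map_mul, map_mul]
    exact Subgroup.mul_mem _ (hqH q hq) (Subgroup.mul_mem _ hcH hcH)

end final

end CfsgLib.PSL11A5
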