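import Mathlib
import Cfsg.Prelude.Def_CaseTheorems

/-! A `p`-group transitive on the nonzero vectors of a finite space. -/

set_option autoImplicit false

namespace CfsgLib.PTransV

/-! ### Number theory -/

theorem odd_add (t c : ℕ) (ht : Even t) :
    ∃ S, Odd S ∧ (t + 1) ^ (2 * c + 1) + 1 = (t + 1 + 1) * S := by
  induction c with
  | zero => exact ⟨1, odd_one, by ring⟩
  | succ c ih =>
    obtain ⟨S, hS, h⟩ := ih
    have hle : t ≤ (t + 1) ^ 2 * S := by
      have hS1 : 1 ≤ S := hS.pos
      nlinarith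
    obtain ⟨S', hS'⟩ := Nat.exists_eq_add_of_le hle
    refine ⟨S', ?_, ?_⟩
    · have h1 : Odd ((t + 1) ^ 2 * S) := (ht.add_one.pow).mul hS
      rw [hS'] at h1
      exact (Nat.odd_add'.mp h1).mpr ht
    · zify at h hS' ⊢
      linear_combination (t + 1 : ℤ) ^ 2 * h + (t + 2 : ℤ) * hS'

theorem odd_sub (t k : ℕ) (ht : Even t) :
    ∃ S, Odd S ∧ (t + 1) ^ (2 * k + 1) = t * S + 1 := by
  induction k with
  | zero => exact ⟨1, odd_one, by ring⟩
  | succ k ih =>
    obtain ⟨S, hS, h⟩ := ih
    refine ⟨(t + 1) ^ 2 * S + (t + 1) + 1, ?_, ?_⟩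
    · have h1 : Odd ((t + 1) ^ 2 * S) := (ht.add_one.pow).mul hS
      have h2 : Even ((t + 1) + 1) := by
        simpa using (ht.add_one).add_one
      have : (t + 1) ^ 2 * S + (t + 1) + 1 = (t + 1) ^ 2 * S + ((t + 1) + 1) := by ring
      rw [this]
      exact h1.add_even h2
    · have : (t + 1) ^ (2 * (k + 1) + 1) = (t + 1) ^ 2 * (t + 1) ^ (2 * k + 1) := by ring
      rw [this, h]
      ring

theorem odd_dvd_two_pow {S n : ℕ} (hS : Odd S) (h : S ∣ 2 ^ n) : S = 1 := by
  have hc : Nat.Coprime S (2 ^ n) := by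
    apply Nat.Coprime.pow_right
    exact hS.coprime_two_right
  exact Nat.Coprime.eq_one_of_dvd hc h

theorem nt (q n p b : ℕ) (hq : q.Prime) (hp : p.Prime) (hn : 1 ≤ n) (hb : 1 ≤ b)
    (h : q ^ n = p ^ b + 1) :
    (q = 2 ∧ b = 1) ∨ (p = 2 ∧ n = 1) ∨ (p = 2 ∧ q = 3 ∧ n = 2) := by
  by_cases hq2 : q = 2
  · left
    subst hq2
    refine ⟨rfl, ?_⟩
    have hp2 : p ≠ 2 := by
      rintro rfl
      have h1 : Even (2 ^ n) := (Nat.even_pow.mpr ⟨even_two, by omega⟩)
      have h2 : Even (2 ^ b) := (Nat.even_pow.mpr ⟨even_two, by omega⟩)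
      rw [h] at h1
      exact (Nat.not_even_iff_odd.mpr h2.add_one) h1
    have hodd : Odd p := hp.odd_of_ne_two hp2
    have hp3 : 3 ≤ p := by
      have := hp.two_le
      omega
    have hn2 : 2 ≤ n := by
      by_contra hlt
      have : n = 1 := by omega
      subst this
      have : p ≤ p ^ b := Nat.le_self_pow (by omega) p
      omega
    rcases Nat.even_or_odd' b with ⟨c, rfl | rfl⟩
    · exfalso
      have h1 : (p ^ c) % 2 = 1 := Nat.odd_iff.mp hodd.pow
      have h2 : (p ^ (2 * c)) % 4 = 1 := by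
        rw [pow_mul', Nat.pow_mod]
        have : (p ^ c) % 4 = 1 ∨ (p ^ c) % 4 = 3 := by omega
        rcases this with h3 | h3 <;> rw [h3]
      have h3 : 2 ^ n % 4 = 0 := by
        obtain ⟨k, rfl⟩ : ∃ k, n = k + 2 := ⟨n - 2, by omega⟩
        rw [pow_add]
        omega
      omega
    · obtain ⟨t, rfl⟩ : ∃ t, p = t + 1 := ⟨p - 1, by omega⟩
      have ht : Even t := by
        rcases Nat.even_or_odd t with h1 | h1
        · exact h1
        · exact absurd hodd (Nat.not_odd_iff_even.mpr h1.add_one)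
      obtain ⟨S, hS, hSe⟩ := odd_add t c ht
      have hdvd : S ∣ 2 ^ n := by
        rw [h, hSe]
        exact dvd_mul_left _ _
      have hS1 := odd_dvd_two_pow hS hdvd
      rw [hS1, mul_one] at hSe
      have h5 : (t + 1) ^ (2 * c + 1) = t + 1 := by omega
      by_contra hc
      have hc1 : 1 ≤ c := by
        by_contra hc0
        apply hc
        have : c = 0 := by omega
        subst this
        rfl
      have h6 : (t + 1) ^ 2 ≤ (t + 1) ^ (2 * c + 1) :=
        Nat.pow_le_pow_right (by omega) (by omega)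
      rw [h5] at h6
      nlinarith
  · right
    have hqodd : Odd q := hq.odd_of_ne_two hq2
    have hq3 : 3 ≤ q := by
      have := hq.two_le
      omega
    have hevenb : Even (p ^ b) := by
      have h1 : Odd (q ^ n) := hqodd.pow
      rw [h] at h1
      rcases Nat.even_or_odd (p ^ b) with h2 | h2
      · exact h2
      · exact absurd h1 (Nat.not_odd_iff_even.mpr h2.add_one)
    have hp2 : p = 2 := by
      have : Even p := (Nat.even_pow.mp hevenb).1
      exact (Nat.Prime.even_iff hp).mp this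
    subst hp2
    obtain ⟨t, rfl⟩ : ∃ t, q = t + 1 := ⟨q - 1, by omega⟩
    have ht : Even t := by
      rcases Nat.even_or_odd t with h1 | h1
      · exact h1
      · exact absurd hqodd (Nat.not_odd_iff_even.mpr h1.add_one)
    rcases Nat.even_or_odd' n with ⟨c, rfl | rfl⟩
    · right
      -- n even
      refine ⟨rfl, ?_⟩
      have hc1 : 1 ≤ c := by omega
      have hx3 : 3 ≤ (t + 1) ^ c := by
        have : t + 1 ≤ (t + 1) ^ c := Nat.le_self_pow (by omega) _
        omega
      obtain ⟨y, hy⟩ : ∃ y, (t + 1) ^ c = y + 1 := ⟨(t + 1) ^ c - 1, by omega⟩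
      have hfac : y * (y + 2) = 2 ^ b := by
        have h1 : (t + 1) ^ (2 * c) = (y + 1) ^ 2 := by
          rw [pow_mul', hy]
        rw [h1] at h
        nlinarith
      have hd1 : y ∣ 2 ^ b := ⟨y + 2, hfac.symm⟩
      have hd2 : y + 2 ∣ 2 ^ b := ⟨y, by rw [← hfac]; ring⟩
      obtain ⟨i, -, hi⟩ := (Nat.dvd_prime_pow Nat.prime_two).mp hd1
      obtain ⟨j, -, hj⟩ := (Nat.dvd_prime_pow Nat.prime_two).mp hd2
      have hy2 : y = 2 := by
        have hi1 : i = 1 := by
          by_contra hne
          have hi0 : i ≠ 0 := by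
            rintro rfl
            simp at hi
            omega
          have hi2 : 2 ≤ i := by omega
          obtain ⟨k, rfl⟩ : ∃ k, i = k + 2 := ⟨i - 2, by omega⟩
          have h4 : y % 4 = 0 := by
            rw [hi, pow_add]
            omega
          have hj2 : (y + 2) % 4 = 2 := by omega
          have hj0 : j ≠ 0 := by
            rintro rfl
            simp at hj
          have hj1 : j ≠ 1 := by
            rintro rfl
            simp at hj
            omega
          obtain ⟨l, rfl⟩ : ∃ l, j = l + 2 := ⟨j - 2, by omega⟩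
          rw [hj, pow_add] at hj2
          omega
        subst hi1
        simpa using hi
      subst hy2
      have hq3' : (t + 1) ^ c = 3 := hy
      have hdv : t + 1 ∣ 3 := by
        rw [← hq3']
        exact dvd_pow_self _ (by omega)
      have ht3 : t + 1 = 3 := by
        rcases (Nat.dvd_prime Nat.prime_three).mp hdv with h1 | h1
        · omega
        · exact h1
      refine ⟨ht3, ?_⟩
      rw [ht3] at hq3'
      have hc : c = 1 := Nat.pow_right_injective (a := 3) (by norm_num) (show 3 ^ c = 3 ^ 1 by simpa using hq3')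
      omega
    · left
      refine ⟨rfl, ?_⟩
      obtain ⟨S, hS, hSe⟩ := odd_sub t c ht
      have hdvd : S ∣ 2 ^ b := by
        have : 2 ^ b = t * S := by omega
        rw [this]
        exact dvd_mul_left _ _
      have hS1 := odd_dvd_two_pow hS hdvd
      rw [hS1, mul_one] at hSe
      by_contra hc
      have hc1 : 1 ≤ c := by omega
      have h6 : (t + 1) ^ 2 ≤ (t + 1) ^ (2 * c + 1) :=
        Nat.pow_le_pow_right (by omega) (by omega)
      rw [hSe] at h6
      nlinarith


/-! ### The case of nine vectors: explicit matrices -/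

abbrev M3 := Matrix (Fin 2) (Fin 2) (ZMod 3)

def mS : M3 := !![1, 0; 0, 2]
def mR : M3 := !![1, 2; 1, 1]
def mI : M3 := !![0, 1; 2, 0]
def mJ : M3 := !![1, 1; 1, 2]
def mOne : M3 := !![1, 0; 0, 1]
def mNeg : M3 := !![2, 0; 0, 2]

/-- The quaternion group inside `GL₂(3)`. -/
def tau : QuaternionGroup 2 → M3
  | QuaternionGroup.a i => mI ^ (ZMod.val i)
  | QuaternionGroup.xa i => mJ * mI ^ (ZMod.val i)

theorem tau_mul : ∀ a b : QuaternionGroup 2, tau (a * b) = tau a * tau b := by decide +kernel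
theorem tau_inj : ∀ a b : QuaternionGroup 2, tau a = tau b → a = b := by decide +kernel

theorem tau_surj : ∀ A : M3, (A = 1 ∨ A = mNeg ∨ A * A = mNeg) → ∃ q, tau q = A := by decide +kernel

theorem k_det : ∀ A B : M3, A * B = 1 → A ^ 48 = 1 := by decide +kernel

theorem k_stab : ∀ A : M3, A 0 0 = 1 → A 1 0 = 0 → A ^ 16 = 1 → A = 1 ∨ A * A = 1 := by decide +kernel

theorem k_stab2 : ∀ A B : M3, A 0 0 = 1 → A 1 0 = 0 → B 0 0 = 1 → B 1 0 = 0 → A ^ 16 = 1 → B ^ 16 = 1 →
    (A * B) ^ 16 = 1 → A ≠ 1 → B ≠ 1 → A = B := by decide +kernel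

theorem k_R : ∀ A : M3, A 0 0 = 1 → A 1 0 = 1 → A ^ 16 = 1 → (mS * A) ^ 16 = 1 →
    A = mR ∨ A = mR * mS := by decide +kernel

theorem k_R4 : mR ^ 4 ≠ 1 := by decide +kernel
theorem k_R8 : mR ^ 8 = 1 := by decide +kernel
theorem k_S2 : mS * mS = 1 := by decide +kernel
theorem k_S1 : mS ≠ 1 := by decide +kernel
theorem k_SR : mS * mR * mS = mR ^ 3 := by decide +kernel

theorem k_Q : ∀ A : M3, A ^ 4 = 1 → (A ≠ 1 → ∀ u : Fin 2 → ZMod 3, u ≠ 0 → A.mulVec u ≠ u) →
    A = 1 ∨ A = mNeg ∨ A * A = mNeg := by decide +kernel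

theorem mv0 : ∀ A : M3, A.mulVec ![1, 0] = ![A 0 0, A 1 0] := by decide +kernel
theorem mv1 : ∀ A : M3, A.mulVec ![0, 1] = ![A 0 1, A 1 1] := by decide +kernel

theorem k_entries (A : M3) (h00 : A 0 0 = 1) (h10 : A 1 0 = 0) (h01 : A 0 1 = 0) (h11 : A 1 1 = 2) : A = mS := by
  ext i j
  fin_cases i <;> fin_cases j <;> simp [mS, h00, h10, h01, h11]

/-! ### The action -/

variable {q : ℕ} [Fact q.Prime] {V : Type*} [AddCommGroup V] [Module (ZMod q) V]
  {G : Type*} [Group G]

/-- The stabilizer of a vector. -/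
def stabv (ρ : G →* (V ≃ₗ[ZMod q] V)) (v : V) : Subgroup G where
  carrier := {g | ρ g v = v}
  mul_mem' := by
    intro a b ha hb
    simp only [Set.mem_setOf_eq] at ha hb ⊢
    rw [map_mul, LinearEquiv.mul_apply, hb, ha]
  one_mem' := by
    simp
  inv_mem' := by
    intro a ha
    simp only [Set.mem_setOf_eq] at ha ⊢
    have h1 : ρ a⁻¹ (ρ a v) = v := by
      rw [← LinearEquiv.mul_apply, ← map_mul]
      simp
    rwa [ha] at h1

theorem mem_stabv (ρ : G →* (V ≃ₗ[ZMod q] V)) (v : V) (g : G) : g ∈ stabv ρ v ↔ ρ g v = v := Iff.rfl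

variable [Finite V] [Finite G]

theorem orbit_facts (ρ : G →* (V ≃ₗ[ZMod q] V))
    (htrans : ∀ v w : V, v ≠ 0 → w ≠ 0 → ∃ g : G, ρ g v = w) (v : V) (hv : v ≠ 0) :
    Nat.card (stabv ρ v) * (Nat.card V - 1) = Nat.card G := by
  letI act : MulAction G V := MulAction.compHom V ρ
  have hact : ∀ (g : G) (u : V), g • u = ρ g u := fun _ _ => rfl
  have horb : MulAction.orbit G v = ({0} : Set V)ᶜ := by
    ext u
    constructor
    · rintro ⟨g, rfl⟩
      change g • v ≠ 0
      rw [hact]
      exact (LinearEquiv.map_ne_zero_iff _).mpr hv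
    · intro hu
      obtain ⟨g, hg⟩ := htrans v u hv hu
      exact ⟨g, hg⟩
  have hcompl := Set.ncard_add_ncard_compl ({0} : Set V)
  rw [Set.ncard_singleton] at hcompl
  have hidx := (MulAction.stabilizer G v).card_mul_index
  rw [MulAction.index_stabilizer, horb] at hidx
  have heq : MulAction.stabilizer G v = stabv ρ v := rfl
  rw [heq] at hidx
  rw [← hidx]
  congr 1
  omega

theorem card_sub_one (ρ : G →* (V ≃ₗ[ZMod q] V))
    (htrans : ∀ v w : V, v ≠ 0 → w ≠ 0 → ∃ g : G, ρ g v = w) (p : ℕ) [Fact p.Prime]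
    (hG : IsPGroup p G) (v : V) (hv : v ≠ 0) : ∃ b, Nat.card V = p ^ b + 1 := by
  letI act : MulAction G V := MulAction.compHom V ρ
  have hact : ∀ (g : G) (u : V), g • u = ρ g u := fun _ _ => rfl
  have horb : MulAction.orbit G v = ({0} : Set V)ᶜ := by
    ext u
    constructor
    · rintro ⟨g, rfl⟩
      change g • v ≠ 0
      rw [hact]
      exact (LinearEquiv.map_ne_zero_iff _).mpr hv
    · intro hu
      obtain ⟨g, hg⟩ := htrans v u hv hu
      exact ⟨g, hg⟩
  obtain ⟨b, hb⟩ := hG.card_orbit v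
  rw [Nat.card_coe_set_eq, horb] at hb
  have hcompl := Set.ncard_add_ncard_compl ({0} : Set V)
  rw [Set.ncard_singleton] at hcompl
  exact ⟨b, by omega⟩


section F3

variable {V : Type*} [AddCommGroup V] [Module (ZMod 3) V] {G : Type*} [Group G]

/-- Coordinates of the representation. -/
noncomputable def sig (ρ : G →* (V ≃ₗ[ZMod 3] V)) (e : V ≃ₗ[ZMod 3] (Fin 2 → ZMod 3)) : G →* M3 where
  toFun g := LinearMap.toMatrix' (e.symm.trans ((ρ g).trans e)).toLinearMap
  map_one' := by
    have : (e.symm.trans ((ρ 1).trans e)).toLinearMap = LinearMap.id := by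
      ext x
      simp
    rw [this, LinearMap.toMatrix'_id]
  map_mul' a b := by
    rw [← LinearMap.toMatrix'_comp]
    congr 1
    ext x
    simp

theorem sig_mulVec (ρ : G →* (V ≃ₗ[ZMod 3] V)) (e : V ≃ₗ[ZMod 3] (Fin 2 → ZMod 3)) (g : G) (v : V) :
    (sig ρ e g).mulVec (e v) = e (ρ g v) := by
  change (LinearMap.toMatrix' (e.symm.trans ((ρ g).trans e)).toLinearMap).mulVec (e v) = _
  rw [LinearMap.toMatrix'_mulVec]
  simp

theorem sig_inj (ρ : G →* (V ≃ₗ[ZMod 3] V)) (hρ : Function.Injective ρ)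
    (e : V ≃ₗ[ZMod 3] (Fin 2 → ZMod 3)) : Function.Injective (sig ρ e) := by
  intro g h hgh
  apply hρ
  apply LinearEquiv.ext
  intro v
  apply e.injective
  rw [← sig_mulVec, ← sig_mulVec, hgh]

theorem exists_coord (v w : V) (h : LinearIndependent (ZMod 3) ![v, w])
    (hfin : Module.finrank (ZMod 3) V = 2) :
    ∃ e : V ≃ₗ[ZMod 3] (Fin 2 → ZMod 3), e v = ![1, 0] ∧ e w = ![0, 1] := by
  have hcard : Fintype.card (Fin 2) = Module.finrank (ZMod 3) V := by simp [hfin]
  haveI : Module.Finite (ZMod 3) V := Module.finite_of_finrank_pos (by omega)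
  let b := basisOfLinearIndependentOfCardEqFinrank h hcard
  have hb0 : b 0 = v := by simp [b]
  have hb1 : b 1 = w := by simp [b]
  refine ⟨b.equivFun, ?_, ?_⟩
  · rw [← hb0]
    ext i
    fin_cases i <;> simp [Module.Basis.equivFun_self]
  · rw [← hb1]
    ext i
    fin_cases i <;> simp [Module.Basis.equivFun_self]

theorem two_add_self : ∀ a : ZMod 3, a + a = 0 → a = 0 := by decide

variable [Finite V] [Finite G]

theorem f3 (ρ : G →* (V ≃ₗ[ZMod 3] V)) (hρ : Function.Injective ρ)
    (htrans : ∀ v w : V, v ≠ 0 → w ≠ 0 → ∃ g : G, ρ g v = w) (hG : IsPGroup 2 G)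
    (hV : Nat.card V = 9) :
    (IsCyclic G ∧ Nat.card G = 8) ∨ Nonempty (G ≃* QuaternionGroup 2) ∨
      (Cfsg.IsQuasiDihedral G ∧ Nat.card G = 16) := by
  classical
  haveI : Nontrivial V := by
    rw [← Finite.one_lt_card_iff_nontrivial, hV]
    norm_num
  haveI hmf : Module.Finite (ZMod 3) V := Module.Finite.of_finite
  have hfin : Module.finrank (ZMod 3) V = 2 := by
    have h1 := Module.natCard_eq_pow_finrank (K := ZMod 3) (V := V)
    rw [hV, Nat.card_zmod] at h1
    have h2 : (3 : ℕ) ^ 2 = 3 ^ Module.finrank (ZMod 3) V := by omega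
    exact (Nat.pow_right_injective (a := 3) (by norm_num) h2).symm
  let e₀ : V ≃ₗ[ZMod 3] (Fin 2 → ZMod 3) := LinearEquiv.ofFinrankEq V (Fin 2 → ZMod 3) (by simp [hfin])
  have hσ₀ := sig_inj ρ hρ e₀
  have h16 : ∀ g : G, g ^ 16 = 1 := by
    intro g
    obtain ⟨j, hj⟩ := (IsPGroup.iff_orderOf.mp hG) g
    have h48 : (sig ρ e₀ g) ^ 48 = 1 := by
      apply k_det _ (sig ρ e₀ g⁻¹)
      rw [← map_mul]
      simp
    have h48' : g ^ 48 = 1 := by
      apply hσ₀
      rw [map_pow, h48, map_one]
    have hd : 2 ^ j ∣ 48 := by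
      rw [← hj]
      exact orderOf_dvd_of_pow_eq_one h48'
    have hj4 : j ≤ 4 := by
      by_contra hlt
      have h5 : 2 ^ 5 ∣ 2 ^ j := pow_dvd_pow 2 (by omega)
      have := h5.trans hd
      omega
    apply orderOf_dvd_iff_pow_eq_one.mp
    rw [hj]
    exact pow_dvd_pow 2 hj4
  by_cases hcase : ∃ v : V, v ≠ 0 ∧ ∃ s : G, s ≠ 1 ∧ ρ s v = v
  · obtain ⟨v, hv, s, hs1, hsv⟩ := hcase
    right; right
    obtain ⟨x, hx⟩ : ∃ x, ρ s x ≠ x := by
      by_contra hcon
      push Not at hcon
      apply hs1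
      apply hρ
      rw [map_one]
      apply LinearEquiv.ext
      intro y
      rw [hcon y]
      rfl
    -- independence of `v, x`
    have hind : LinearIndependent (ZMod 3) ![v, x] := by
      rw [LinearIndependent.pair_iff]
      intro a b hab
      have hb : b = 0 := by
        by_contra hb
        apply hx
        have hxe : x = (-(b⁻¹ * a)) • v := by
          have h1 : b • x = (-a) • v := by
            rw [neg_smul]
            exact eq_neg_of_add_eq_zero_right hab
          calc x = b⁻¹ • (b • x) := by rw [smul_smul, inv_mul_cancel₀ hb, one_smul]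
            _ = _ := by rw [h1, smul_smul]; congr 1; ring
        rw [hxe, map_smul, hsv]
      subst hb
      rw [zero_smul, add_zero] at hab
      exact ⟨(smul_eq_zero.mp hab).resolve_right hv, rfl⟩
    obtain ⟨e₁, he₁v, he₁x⟩ := exists_coord v x hind hfin
    have hσ₁ := sig_inj ρ hρ e₁
    -- `s` is an involution
    have hstab : ∀ g : G, ρ g v = v → (sig ρ e₁ g) 0 0 = 1 ∧ (sig ρ e₁ g) 1 0 = 0 := by
      intro g hg
      have h1 := sig_mulVec ρ e₁ g v
      rw [hg, he₁v, mv0] at h1
      constructor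
      · simpa using congrFun h1 0
      · simpa using congrFun h1 1
    have hpow : ∀ g : G, (sig ρ e₁ g) ^ 16 = 1 := by
      intro g
      rw [← map_pow, h16, map_one]
    have hss : s * s = 1 := by
      rcases k_stab _ (hstab s hsv).1 (hstab s hsv).2 (hpow s) with h1 | h1
      · exfalso
        apply hs1
        apply hσ₁
        rw [h1, map_one]
      · apply hσ₁
        rw [map_mul, h1, map_one]
    have hsi : s⁻¹ = s := inv_eq_of_mul_eq_one_left hss
    have hssv : ∀ y : V, ρ s (ρ s y) = y := by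
      intro y
      rw [← LinearEquiv.mul_apply, ← map_mul, hss, map_one]
      rfl
    -- the eigenvector
    set w : V := x - ρ s x with hw
    have hw0 : w ≠ 0 := by
      intro h0
      apply hx
      exact (sub_eq_zero.mp h0).symm
    have hsw : ρ s w = -w := by
      rw [hw, map_sub, hssv]
      abel
    have hind2 : LinearIndependent (ZMod 3) ![v, w] := by
      rw [LinearIndependent.pair_iff]
      intro a b hab
      have h2 : a • v - b • w = 0 := by
        have h3 := congrArg (ρ s) hab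
        rw [map_add, map_smul, map_smul, hsv, hsw, map_zero, smul_neg] at h3
        rw [sub_eq_add_neg]
        exact h3
      have h4 : (a + a) • v = 0 := by
        have h5 : a • v + b • w + (a • v - b • w) = (a + a) • v := by
          rw [add_smul]
          abel
        rw [← h5, hab, h2, add_zero]
      have ha : a = 0 := two_add_self a ((smul_eq_zero.mp h4).resolve_right hv)
      subst ha
      rw [zero_smul, zero_add] at hab
      exact ⟨rfl, (smul_eq_zero.mp hab).resolve_right hw0⟩
    obtain ⟨e, hev, hew⟩ := exists_coord v w hind2 hfin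
    have hσ := sig_inj ρ hρ e
    have hpow' : ∀ g : G, (sig ρ e g) ^ 16 = 1 := by
      intro g
      rw [← map_pow, h16, map_one]
    have hSs : sig ρ e s = mS := by
      have h1 := sig_mulVec ρ e s v
      rw [hsv, hev, mv0] at h1
      have h2 := sig_mulVec ρ e s w
      rw [hsw, map_neg, hew, mv1] at h2
      apply k_entries
      · simpa using congrFun h1 0
      · simpa using congrFun h1 1
      · simpa using congrFun h2 0
      · have h3 := congrFun h2 1
        simp only [Pi.neg_apply, Matrix.cons_val_one, Matrix.cons_val_fin_one] at h3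
        rw [h3]
        decide
    have hvw : v + w ≠ 0 := by
      intro h0
      have h1 := LinearIndependent.pair_iff.mp hind2 1 1 (by simpa using h0)
      exact one_ne_zero h1.1
    obtain ⟨g, hg⟩ := htrans v (v + w) hv hvw
    have hA := sig_mulVec ρ e g v
    rw [hg, hev, mv0, map_add, hev, hew] at hA
    have hA0 : (sig ρ e g) 0 0 = 1 := by simpa using congrFun hA 0
    have hA1 : (sig ρ e g) 1 0 = 1 := by simpa using congrFun hA 1
    have hkR := k_R _ hA0 hA1 (hpow' g) (by rw [← hSs, ← map_mul]; exact hpow' _)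
    obtain ⟨r, hr⟩ : ∃ r, sig ρ e r = mR := by
      rcases hkR with h1 | h1
      · exact ⟨g, h1⟩
      · refine ⟨g * s, ?_⟩
        rw [map_mul, h1, hSs, mul_assoc, k_S2, mul_one]
    have hord8 : orderOf r = 2 ^ 3 := by
      rw [← orderOf_injective (sig ρ e) hσ r, hr]
      exact orderOf_eq_prime_pow (p := 2) (n := 2) k_R4 k_R8
    have hord2 : orderOf s = 2 := by
      apply orderOf_eq_prime
      · rw [pow_two, hss]
      · exact hs1
    have hrel : s * r * s⁻¹ = r ^ (2 ^ (3 - 1) - 1) := by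
      apply hσ
      rw [hsi, map_mul, map_mul, hSs, hr, k_SR, map_pow, hr]
      norm_num
    have hcardS : Nat.card (stabv ρ v) = 2 := by
      rw [Nat.card_eq_two_iff' (1 : stabv ρ v)]
      refine ⟨⟨s, hsv⟩, ?_, ?_⟩
      · intro h0
        exact hs1 (congrArg Subtype.val h0)
      · intro y hy
        apply Subtype.ext
        have hy1 : (y : G) ≠ 1 := fun h0 => hy (Subtype.ext h0)
        have hA1 : sig ρ e₁ s ≠ 1 := by
          intro h0
          apply hs1
          apply hσ₁
          rw [h0, map_one]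
        have hB1 : sig ρ e₁ (y : G) ≠ 1 := by
          intro h0
          apply hy1
          apply hσ₁
          rw [h0, map_one]
        have := k_stab2 _ _ (hstab s hsv).1 (hstab s hsv).2 (hstab y y.2).1 (hstab y y.2).2
          (hpow s) (hpow y) (by rw [← map_mul]; exact hpow _) hA1 hB1
        exact (hσ₁ this).symm
    have hcardG : Nat.card G = 16 := by
      have := orbit_facts ρ htrans v hv
      rw [hcardS, hV] at this
      omega
    refine ⟨⟨3, le_rfl, by rw [hcardG]; norm_num, r, s, hord8, hord2, hrel⟩, hcardG⟩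
  · push Not at hcase
    obtain ⟨v₁, hv₁⟩ := exists_ne (0 : V)
    have hcardS : Nat.card (stabv ρ v₁) = 1 := by
      have : stabv ρ v₁ = ⊥ := by
        rw [Subgroup.eq_bot_iff_forall]
        intro s hs
        by_contra h1
        exact hcase v₁ hv₁ s h1 hs
      rw [this]
      simp
    have hcardG : Nat.card G = 8 := by
      have := orbit_facts ρ htrans v₁ hv₁
      rw [hcardS, hV] at this
      omega
    by_cases h4 : ∃ g : G, g ^ 4 ≠ 1
    · obtain ⟨g, hg⟩ := h4
      left
      have h8 : g ^ 8 = 1 := by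
        have := pow_card_eq_one' (x := g)
        rwa [hcardG] at this
      have hord : orderOf g = 2 ^ 3 := orderOf_eq_prime_pow (p := 2) (n := 2) hg h8
      exact ⟨isCyclic_of_orderOf_eq_card g (by rw [hord, hcardG]; norm_num), hcardG⟩
    · push Not at h4
      right; left
      have hex : ∀ g : G, ∃ q, tau q = sig ρ e₀ g := by
        intro g
        apply tau_surj
        apply k_Q
        · rw [← map_pow, h4, map_one]
        · intro hA u hu
          have hg1 : g ≠ 1 := by
            rintro rfl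
            exact hA (map_one _)
          have hv : e₀.symm u ≠ 0 := by
            simpa using hu
          have h1 := sig_mulVec ρ e₀ g (e₀.symm u)
          rw [LinearEquiv.apply_symm_apply] at h1
          rw [h1]
          intro h2
          apply hcase _ hv g hg1
          apply e₀.injective
          rw [h2, LinearEquiv.apply_symm_apply]
      choose θ hθ using hex
      have hθmul : ∀ a b, θ (a * b) = θ a * θ b := by
        intro a b
        apply tau_inj
        rw [tau_mul, hθ, hθ, hθ, map_mul]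
      have hθinj : Function.Injective θ := by
        intro a b hab
        apply hσ₀
        rw [← hθ, ← hθ, hab]
      have hbij : Function.Bijective θ := by
        rw [Nat.bijective_iff_injective_and_card]
        refine ⟨hθinj, ?_⟩
        rw [hcardG, Nat.card_eq_fintype_card, QuaternionGroup.card]
      exact ⟨MulEquiv.ofBijective (MonoidHom.mk' θ hθmul) hbij⟩

end F3


section Main

variable {q : ℕ} [Fact q.Prime] {V : Type*} [AddCommGroup V] [Module (ZMod q) V] [Finite V]
  {G : Type*} [Group G] [Finite G]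

theorem stab_small (ρ : G →* (V ≃ₗ[ZMod q] V)) (hρ : Function.Injective ρ)
    (p : ℕ) [Fact p.Prime] (hG : IsPGroup p G) (hN : Nat.card V = p + 1) (v₀ : V) (hv₀ : v₀ ≠ 0) :
    stabv ρ v₀ = ⊥ := by
  letI act : MulAction G V := MulAction.compHom V ρ
  have hact : ∀ (g : G) (u : V), g • u = ρ g u := fun _ _ => rfl
  rw [Subgroup.eq_bot_iff_forall]
  intro s hs
  apply hρ
  rw [map_one]
  apply LinearEquiv.ext
  intro w
  change ρ s w = w
  by_cases hw0 : w = 0
  · rw [hw0, map_zero]
  by_cases hwv : w = v₀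
  · rw [hwv]
    exact hs
  let H : Subgroup G := MulAction.stabilizer G v₀
  have hpH : IsPGroup p H := hG.to_subgroup H
  obtain ⟨k, hk⟩ := hpH.card_orbit w
  rw [Nat.card_coe_set_eq] at hk
  have hsub : MulAction.orbit H w ⊆ ({0, v₀} : Set V)ᶜ := by
    rintro _ ⟨h, rfl⟩
    simp only [Set.mem_compl_iff, Set.mem_insert_iff, Set.mem_singleton_iff, not_or]
    have hh : (h : G) • v₀ = v₀ := h.2
    constructor
    · intro h0
      apply hw0
      have h1 : (h : G) • w = 0 := h0
      rw [hact] at h1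
      exact (LinearEquiv.map_eq_zero_iff _).mp h1
    · intro h0
      apply hwv
      have h1 : (h : G) • w = v₀ := h0
      have h2 : (h : G) • w = (h : G) • v₀ := by rw [h1, hh]
      exact MulAction.injective (h : G) h2
  have hcompl := Set.ncard_add_ncard_compl ({0, v₀} : Set V)
  rw [Set.ncard_pair hv₀.symm, hN] at hcompl
  have hle := Set.ncard_le_ncard hsub
  have hp := (Fact.out : p.Prime).two_le
  have hk0 : k = 0 := by
    by_contra hk0
    have : p ≤ p ^ k := Nat.le_self_pow hk0 p
    omega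
  subst hk0
  have h1 : (MulAction.orbit H w).ncard = 1 := by simpa using hk
  rw [Set.ncard_eq_one] at h1
  obtain ⟨a, ha⟩ := h1
  have h2 : w ∈ MulAction.orbit H w := MulAction.mem_orbit_self w
  have h3 : (⟨s, hs⟩ : H) • w ∈ MulAction.orbit H w := MulAction.mem_orbit _ _
  rw [ha] at h2 h3
  have h4 : (⟨s, hs⟩ : H) • w = ρ s w := rfl
  rw [← h4, Set.mem_singleton_iff.mp h3, Set.mem_singleton_iff.mp h2]

theorem stab_dim1 (ρ : G →* (V ≃ₗ[ZMod q] V)) (hρ : Function.Injective ρ)
    (hn : Module.finrank (ZMod q) V = 1) (v₀ : V) (hv₀ : v₀ ≠ 0) : stabv ρ v₀ = ⊥ := by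
  rw [Subgroup.eq_bot_iff_forall]
  intro s hs
  apply hρ
  rw [map_one]
  apply LinearEquiv.ext
  intro w
  obtain ⟨c, hc⟩ := exists_smul_eq_of_finrank_eq_one hn hv₀ w
  rw [← hc, map_smul]
  have hs' : ρ s v₀ = v₀ := hs
  rw [hs']
  rfl

theorem cyclic_dim1 (ρ : G →* (V ≃ₗ[ZMod q] V)) (hρ : Function.Injective ρ)
    (hn : Module.finrank (ZMod q) V = 1) (v₀ : V) (hv₀ : v₀ ≠ 0) : IsCyclic G := by
  have hex : ∀ g : G, ∃ c : ZMod q, c • v₀ = ρ g v₀ := fun g =>
    exists_smul_eq_of_finrank_eq_one hn hv₀ _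
  choose c hc using hex
  have hinj : Function.Injective (fun a : ZMod q => a • v₀) := smul_left_injective (ZMod q) hv₀
  let f : G →* ZMod q :=
    { toFun := c
      map_one' := by
        apply hinj
        change c 1 • v₀ = (1 : ZMod q) • v₀
        rw [hc, map_one, one_smul]
        rfl
      map_mul' := by
        intro a b
        apply hinj
        change c (a * b) • v₀ = (c a * c b) • v₀
        rw [hc, map_mul, LinearEquiv.mul_apply, ← hc b, map_smul, ← hc a, smul_smul, mul_comm] }
  have hf : Function.Injective f := by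
    intro a b hab
    have hab' : c a = c b := hab
    have h1 : ρ a v₀ = ρ b v₀ := by rw [← hc, ← hc, hab']
    have h2 : a⁻¹ * b ∈ stabv ρ v₀ := by
      rw [mem_stabv, map_mul, LinearEquiv.mul_apply, ← h1, ← LinearEquiv.mul_apply, ← map_mul]
      simp
    rw [stab_dim1 ρ hρ hn v₀ hv₀, Subgroup.mem_bot, inv_mul_eq_one] at h2
    exact h2
  exact isCyclic_of_subgroup_isDomain f hf

variable [Nontrivial V] [Nontrivial G]

theorem main (p : ℕ) [Fact p.Prime] (hG : IsPGroup p G)
    (ρ : G →* (V ≃ₗ[ZMod q] V)) (hρ : Function.Injective ρ)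
    (htrans : ∀ v w : V, v ≠ 0 → w ≠ 0 → ∃ g : G, ρ g v = w) :
    (q = 2 ∧ p = Nat.card V - 1 ∧ Nat.card G = p) ∨
    (p = 2 ∧ Nat.card V = q ∧ (∃ m : ℕ, q = 2 ^ m + 1 ∧ Nat.card G = 2 ^ m) ∧ IsCyclic G) ∨
    (p = 2 ∧ q = 3 ∧ Nat.card V = 9 ∧
      ((IsCyclic G ∧ Nat.card G = 8) ∨ Nonempty (G ≃* QuaternionGroup 2) ∨
        (Cfsg.IsQuasiDihedral G ∧ Nat.card G = 16))) := by
  haveI hmf : Module.Finite (ZMod q) V := Module.Finite.of_finite
  obtain ⟨v₀, hv₀⟩ := exists_ne (0 : V)
  obtain ⟨b, hb⟩ := card_sub_one ρ htrans p hG v₀ hv₀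
  have hN : Nat.card V = q ^ Module.finrank (ZMod q) V := by
    have h1 := Module.natCard_eq_pow_finrank (K := ZMod q) (V := V)
    rwa [Nat.card_zmod] at h1
  have hn : 1 ≤ Module.finrank (ZMod q) V := Module.finrank_pos
  have hb1 : 1 ≤ b := by
    by_contra hb0
    have hb00 : b = 0 := by omega
    subst hb00
    have hN2 : Nat.card V = 2 := by simpa using hb
    rw [Nat.card_eq_two_iff' (0 : V)] at hN2
    obtain ⟨y, hy, huniq⟩ := hN2
    obtain ⟨g, hg⟩ := exists_ne (1 : G)
    apply hg
    apply hρ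
    rw [map_one]
    apply LinearEquiv.ext
    intro w
    by_cases hw : w = 0
    · rw [hw, map_zero, map_zero]
    · have h1 := huniq w hw
      have h2 := huniq (ρ g w) ((LinearEquiv.map_ne_zero_iff _).mpr hw)
      rw [h2, ← h1]
      rfl
  have hcard := orbit_facts ρ htrans v₀ hv₀
  rcases nt q _ p b (Fact.out) (Fact.out) hn hb1 (hN.symm.trans hb) with ⟨h1, h2⟩ | ⟨h1, h2⟩ | ⟨h1, h2, h3⟩
  · left
    subst h2
    have hN' : Nat.card V = p + 1 := by simpa using hb
    refine ⟨h1, by omega, ?_⟩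
    rw [stab_small ρ hρ p hG hN' v₀ hv₀] at hcard
    simp at hcard
    rw [← hcard, hN']
    simp
  · right; left
    have hVq : Nat.card V = q := by rw [hN, h2, pow_one]
    have hq : q = 2 ^ b + 1 := by rw [← hVq, hb, h1]
    refine ⟨h1, hVq, ⟨b, hq, ?_⟩, cyclic_dim1 ρ hρ h2 v₀ hv₀⟩
    rw [stab_dim1 ρ hρ h2 v₀ hv₀] at hcard
    simp at hcard
    rw [← hcard, hb, h1]
    simp
  · right; right
    subst h1
    subst h2
    have hV9 : Nat.card V = 9 := by rw [hN, h3]; norm_num
    exact ⟨rfl, rfl, hV9, f3 ρ hρ htrans hG hV9⟩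

end Main

end CfsgLib.PTransV
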