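import Mathlib
import Cfsg.Prelude.Def_PLocal

/-! Characteristic subgroups of a Sylow subgroup of `Qd(p)`. -/

set_option autoImplicit false

namespace CfsgLib.QdChar

variable {p : ℕ}

abbrev SL3 (p : ℕ) := Matrix.SpecialLinearGroup (Fin 3) (ZMod p)
abbrev Q (p : ℕ) := ↥(Cfsg.qd p)

/-- The matrix of an element. -/
def mat (x : Q p) : Matrix (Fin 3) (Fin 3) (ZMod p) := ((x : SL3 p) : Matrix (Fin 3) (Fin 3) (ZMod p))

theorem ent_mul (x y : Q p) (i j : Fin 3) :
    mat (x * y) i j = mat x i 0 * mat y 0 j + mat x i 1 * mat y 1 j + mat x i 2 * mat y 2 j := by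
  change (((x : SL3 p) : Matrix (Fin 3) (Fin 3) (ZMod p)) * ((y : SL3 p) : Matrix (Fin 3) (Fin 3) (ZMod p))) i j = _
  rw [Matrix.mul_apply, Fin.sum_univ_three]
  rfl

theorem mat_one : mat (1 : Q p) = 1 := rfl

theorem mat_inj {x y : Q p} (h : mat x = mat y) : x = y := Subtype.ext (Subtype.ext h)

theorem last_row (M : SL3 p) (hM : M ∈ Cfsg.qd p) :
    (M : Matrix (Fin 3) (Fin 3) (ZMod p)) 2 0 = 0 ∧ (M : Matrix (Fin 3) (Fin 3) (ZMod p)) 2 1 = 0 ∧
    (M : Matrix (Fin 3) (Fin 3) (ZMod p)) 2 2 = 1 := by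
  unfold Cfsg.qd at hM
  induction hM using Subgroup.closure_induction with
  | mem x hx => exact hx
  | one => simp
  | mul x y _ _ hx hy =>
    obtain ⟨h1, h2, h3⟩ := hx
    obtain ⟨h4, h5, h6⟩ := hy
    simp only [Matrix.SpecialLinearGroup.coe_mul, Matrix.mul_apply, Fin.sum_univ_three, h1, h2, h3, h4, h5, h6]
    simp
  | inv x _ hx =>
    obtain ⟨h1, h2, h3⟩ := hx
    have h := congrArg (fun M : SL3 p => (M : Matrix (Fin 3) (Fin 3) (ZMod p))) (mul_inv_cancel x)
    simp only [Matrix.SpecialLinearGroup.coe_mul, Matrix.SpecialLinearGroup.coe_one] at h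
    have e0 := congrFun (congrFun h 2) 0
    have e1 := congrFun (congrFun h 2) 1
    have e2 := congrFun (congrFun h 2) 2
    rw [Matrix.mul_apply, Fin.sum_univ_three, h1, h2, h3, zero_mul, zero_mul, one_mul, zero_add,
      zero_add] at e0 e1 e2
    exact ⟨e0.trans (Matrix.one_apply_ne (by decide)), e1.trans (Matrix.one_apply_ne (by decide)),
      e2.trans (Matrix.one_apply_eq 2)⟩

theorem last20 (x : Q p) : mat x 2 0 = 0 := (last_row x.1 x.2).1
theorem last21 (x : Q p) : mat x 2 1 = 0 := (last_row x.1 x.2).2.1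
theorem last22 (x : Q p) : mat x 2 2 = 1 := (last_row x.1 x.2).2.2

theorem det_eq (x : Q p) : mat x 0 0 * mat x 1 1 - mat x 0 1 * mat x 1 0 = 1 := by
  have h2 : (mat x).det = 1 := x.1.2
  rw [Matrix.det_fin_three, last20, last21, last22] at h2
  linear_combination h2

theorem one10 : mat (1 : Q p) 1 0 = 0 := Matrix.one_apply_ne (by decide)
theorem one00 : mat (1 : Q p) 0 0 = 1 := Matrix.one_apply_eq 0
theorem one11 : mat (1 : Q p) 1 1 = 1 := Matrix.one_apply_eq 1
theorem one01 : mat (1 : Q p) 0 1 = 0 := Matrix.one_apply_ne (by decide)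
theorem one12 : mat (1 : Q p) 1 2 = 0 := Matrix.one_apply_ne (by decide)
theorem one02 : mat (1 : Q p) 0 2 = 0 := Matrix.one_apply_ne (by decide)

/-- Elements with zero `(1,0)` entry. -/
def isB (x : Q p) : Prop := mat x 1 0 = 0

variable [Fact p.Prime]

theorem diag_ne (x : Q p) (hx : isB x) : mat x 0 0 ≠ 0 ∧ mat x 1 1 ≠ 0 := by
  have h := det_eq x
  rw [hx, mul_zero, sub_zero] at h
  constructor
  · intro h0
    rw [h0, zero_mul] at h
    exact zero_ne_one h
  · intro h0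
    rw [h0, mul_zero] at h
    exact zero_ne_one h

theorem isB_mul (x y : Q p) (hx : isB x) (hy : isB y) : isB (x * y) := by
  unfold isB at *
  rw [ent_mul, hx, hy, last20]
  ring

theorem isB_inv (x : Q p) (hx : isB x) : isB x⁻¹ := by
  unfold isB at *
  have h := ent_mul x⁻¹ x 1 0
  rw [inv_mul_cancel, one10, hx, last20, mul_zero, mul_zero, add_zero, add_zero] at h
  exact (mul_eq_zero.mp h.symm).resolve_right (diag_ne x hx).1

/-- The upper unitriangular subgroup. -/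
def S0 (p : ℕ) [Fact p.Prime] : Subgroup (Q p) where
  carrier := {x | mat x 1 0 = 0 ∧ mat x 0 0 = 1 ∧ mat x 1 1 = 1}
  mul_mem' := by
    rintro x y ⟨h1, h2, h3⟩ ⟨h4, h5, h6⟩
    refine ⟨?_, ?_, ?_⟩
    · rw [ent_mul, h1, h3, h4, last20]; ring
    · rw [ent_mul, h2, h5, h4, last20]; ring
    · rw [ent_mul, h1, h3, h6, last21]; ring
  one_mem' := ⟨one10, one00, one11⟩
  inv_mem' := by
    rintro x ⟨h1, h2, h3⟩
    have hb : isB x⁻¹ := isB_inv x h1
    refine ⟨hb, ?_, ?_⟩
    · have h := ent_mul x⁻¹ x 0 0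
      rw [inv_mul_cancel, one00, h1, h2, last20] at h
      linear_combination -h
    · have h := ent_mul x⁻¹ x 1 1
      rw [inv_mul_cancel, one11, h3, last21, hb] at h
      linear_combination -h

theorem mem_S0 (x : Q p) : x ∈ S0 p ↔ mat x 1 0 = 0 ∧ mat x 0 0 = 1 ∧ mat x 1 1 = 1 := Iff.rfl

/-- Upper unitriangular matrices. -/
def uni (a b c : ZMod p) : Q p :=
  ⟨⟨!![1, a, c; 0, 1, b; 0, 0, 1], by simp [Matrix.det_fin_three]⟩,
    Subgroup.subset_closure ⟨by simp, by simp, by simp⟩⟩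

theorem uni_mem (a b c : ZMod p) : uni a b c ∈ S0 p :=
  ⟨by simp [mat, uni], by simp [mat, uni], by simp [mat, uni]⟩

theorem uni01 (a b c : ZMod p) : mat (uni a b c) 0 1 = a := by simp [mat, uni]
theorem uni12 (a b c : ZMod p) : mat (uni a b c) 1 2 = b := by simp [mat, uni]
theorem uni02 (a b c : ZMod p) : mat (uni a b c) 0 2 = c := by simp [mat, uni]

theorem eq_uni (x : Q p) (hx : x ∈ S0 p) : x = uni (mat x 0 1) (mat x 1 2) (mat x 0 2) := by
  apply mat_inj
  ext i j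
  fin_cases i <;> fin_cases j <;> simp [mat, uni]
  · exact hx.2.1
  · exact hx.1
  · exact hx.2.2
  · exact last20 x
  · exact last21 x
  · exact last22 x

theorem S0_ext (x y : S0 p) (h01 : mat x.1 0 1 = mat y.1 0 1) (h12 : mat x.1 1 2 = mat y.1 1 2)
    (h02 : mat x.1 0 2 = mat y.1 0 2) : x = y := by
  apply Subtype.ext
  rw [eq_uni x.1 x.2, eq_uni y.1 y.2, h01, h12, h02]

theorem ent01 (x y : Q p) (hx : x ∈ S0 p) (hy : y ∈ S0 p) : mat (x * y) 0 1 = mat x 0 1 + mat y 0 1 := by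
  rw [ent_mul, hx.2.1, hy.2.2, last21]
  ring

theorem ent12 (x y : Q p) (hx : x ∈ S0 p) (hy : y ∈ S0 p) : mat (x * y) 1 2 = mat x 1 2 + mat y 1 2 := by
  rw [ent_mul, hx.1, hx.2.2, last22]
  ring

theorem ent02 (x y : Q p) (hx : x ∈ S0 p) (hy : y ∈ S0 p) :
    mat (x * y) 0 2 = mat x 0 2 + mat y 0 2 + mat x 0 1 * mat y 1 2 := by
  rw [ent_mul, hx.2.1, last22]
  ring

theorem S0_card : Nat.card (S0 p) = p ^ 3 := by
  let e : S0 p ≃ ZMod p × ZMod p × ZMod p :=
    { toFun := fun x => (mat x.1 0 1, mat x.1 1 2, mat x.1 0 2)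
      invFun := fun t => ⟨uni t.1 t.2.1 t.2.2, uni_mem _ _ _⟩
      left_inv := by
        intro x
        apply S0_ext <;> simp [uni01, uni12, uni02]
      right_inv := by
        rintro ⟨a, b, c⟩
        simp [uni01, uni12, uni02] }
  rw [Nat.card_congr e, Nat.card_prod, Nat.card_prod, Nat.card_zmod]
  ring

theorem S0_pgroup : IsPGroup p (S0 p) := IsPGroup.of_card S0_card

/-- The swap automorphism. -/
def tauf (x : S0 p) : S0 p :=
  ⟨uni (mat x.1 1 2) (mat x.1 0 1) (mat x.1 0 1 * mat x.1 1 2 - mat x.1 0 2), uni_mem _ _ _⟩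

def tau (p : ℕ) [Fact p.Prime] : S0 p ≃* S0 p :=
  { toFun := tauf
    invFun := tauf
    left_inv := by
      intro x
      apply S0_ext
      · simp [tauf, uni01, uni12, uni02]
      · simp [tauf, uni01, uni12, uni02]
      · simp only [tauf, uni01, uni12, uni02]
        ring
    right_inv := by
      intro x
      apply S0_ext
      · simp [tauf, uni01, uni12, uni02]
      · simp [tauf, uni01, uni12, uni02]
      · simp only [tauf, uni01, uni12, uni02]
        ring
    map_mul' := by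
      intro x y
      apply S0_ext
      · change mat (tauf (x * y)).1 0 1 = mat ((tauf x).1 * (tauf y).1) 0 1
        rw [ent01 _ _ (tauf x).2 (tauf y).2]
        simp only [tauf, uni01]
        exact ent12 _ _ x.2 y.2
      · change mat (tauf (x * y)).1 1 2 = mat ((tauf x).1 * (tauf y).1) 1 2
        rw [ent12 _ _ (tauf x).2 (tauf y).2]
        simp only [tauf, uni12]
        exact ent01 _ _ x.2 y.2
      · change mat (tauf (x * y)).1 0 2 = mat ((tauf x).1 * (tauf y).1) 0 2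
        rw [ent02 _ _ (tauf x).2 (tauf y).2]
        simp only [tauf, uni01, uni12, uni02]
        have h1 : mat (x * y : S0 p).1 0 1 = mat x.1 0 1 + mat y.1 0 1 := ent01 _ _ x.2 y.2
        have h2 : mat (x * y : S0 p).1 1 2 = mat x.1 1 2 + mat y.1 1 2 := ent12 _ _ x.2 y.2
        have h3 : mat (x * y : S0 p).1 0 2 = mat x.1 0 2 + mat y.1 0 2 + mat x.1 0 1 * mat y.1 1 2 :=
          ent02 _ _ x.2 y.2
        rw [h1, h2, h3]
        ring }

theorem tau_01 (x : S0 p) : mat (tau p x).1 0 1 = mat x.1 1 2 := uni01 _ _ _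

/-- From `g y = z g` with `y, z` unitriangular. -/
theorem eq11 (g y z : Q p) (hy : y ∈ S0 p) (hz : z ∈ S0 p) (h : g * y = z * g) :
    mat g 1 0 * mat y 0 1 = 0 := by
  have e : mat (g * y) 1 1 = mat (z * g) 1 1 := by rw [h]
  rw [ent_mul, ent_mul, hy.2.2, last21 y, hz.1, hz.2.2, last21 g] at e
  linear_combination e

theorem eq12 (g y z : Q p) (hy : y ∈ S0 p) (hz : z ∈ S0 p) (h : g * y = z * g) :
    mat g 1 0 * mat y 0 2 + mat g 1 1 * mat y 1 2 = mat z 1 2 := by
  have e : mat (g * y) 1 2 = mat (z * g) 1 2 := by rw [h]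
  rw [ent_mul, ent_mul, last22 y, hz.1, hz.2.2, last22 g] at e
  linear_combination e

/-- The key lemma. -/
theorem key (T₀ : Subgroup (S0 p)) (hne : T₀ ≠ ⊥) (hτ : ∀ y ∈ T₀, tau p y ∈ T₀) (g : Q p)
    (hg : ∀ y ∈ T₀, ∃ z ∈ T₀, g * (y : S0 p).1 = (z : S0 p).1 * g) : mat g 1 0 = 0 := by
  by_cases h : ∃ y ∈ T₀, mat (y : S0 p).1 0 1 ≠ 0
  · obtain ⟨y, hy, hy0⟩ := h
    obtain ⟨z, -, hz⟩ := hg y hy
    have := eq11 g y.1 z.1 y.2 z.2 hz
    exact (mul_eq_zero.mp this).resolve_right hy0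
  · push Not at h
    have hb : ∀ y ∈ T₀, mat (y : S0 p).1 1 2 = 0 := by
      intro y hy
      have := h _ (hτ y hy)
      rwa [tau_01] at this
    obtain ⟨y, hy, hy1⟩ : ∃ y ∈ T₀, y ≠ 1 := by
      rcases Subgroup.bot_or_exists_ne_one T₀ with h1 | h1
      · exact absurd h1 hne
      · exact h1
    have hc : mat (y : S0 p).1 0 2 ≠ 0 := by
      intro h0
      apply hy1
      apply S0_ext
      · rw [h y hy]
        exact one01.symm
      · rw [hb y hy]
        exact one12.symm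
      · rw [h0]
        exact one02.symm
    obtain ⟨z, hzm, hz⟩ := hg y hy
    have := eq12 g y.1 z.1 y.2 z.2 hz
    rw [hb y hy, hb z hzm, mul_zero, add_zero] at this
    exact (mul_eq_zero.mp this).resolve_right hc


theorem conj_ent (g : Q p) (h : g * uni 1 0 0 * g⁻¹ ∈ S0 p) : mat g 1 0 = 0 := by
  have h1 : g * uni 1 0 0 = (g * uni 1 0 0 * g⁻¹) * g := by group
  have := eq11 g (uni 1 0 0) _ (uni_mem _ _ _) h h1
  rwa [uni01, mul_one] at this

theorem conj_mem (g x : Q p) (hg : isB g) (hx : x ∈ S0 p) : g * x * g⁻¹ ∈ S0 p := by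
  obtain ⟨z, hz⟩ : ∃ z, z = g * x * g⁻¹ := ⟨_, rfl⟩
  rw [← hz]
  have hg' : mat g 1 0 = 0 := hg
  have hzB : mat z 1 0 = 0 := by
    rw [hz]
    exact isB_mul _ _ (isB_mul _ _ hg hx.1) (isB_inv g hg)
  have hzg : z * g = g * x := by rw [hz]; group
  refine ⟨hzB, ?_, ?_⟩
  · have e : mat (z * g) 0 0 = mat (g * x) 0 0 := by rw [hzg]
    rw [ent_mul, ent_mul, hg', last20 g, hx.2.1, hx.1, last20 x] at e
    have h2 : (mat z 0 0 - 1) * mat g 0 0 = 0 := by linear_combination e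
    have h3 := (mul_eq_zero.mp h2).resolve_right (diag_ne g hg).1
    linear_combination h3
  · have e : mat (z * g) 1 1 = mat (g * x) 1 1 := by rw [hzg]
    rw [ent_mul, ent_mul, hzB, last21 g, hg', hx.2.2, last21 x] at e
    have h2 : (mat z 1 1 - 1) * mat g 1 1 = 0 := by linear_combination e
    have h3 := (mul_eq_zero.mp h2).resolve_right (diag_ne g hg).2
    linear_combination h3

theorem mem_norm_S0 (g : Q p) (hg : isB g) :
    g ∈ Subgroup.normalizer ((S0 p : Subgroup (Q p)) : Set (Q p)) := by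
  rw [Subgroup.mem_normalizer_iff]
  intro x
  constructor
  · exact conj_mem g x hg
  · intro h
    have := conj_mem g⁻¹ _ (isB_inv g hg) h
    simpa [mul_assoc] using this

theorem norm_ent (g : Q p) (hg : g ∈ Subgroup.normalizer ((S0 p : Subgroup (Q p)) : Set (Q p))) :
    mat g 1 0 = 0 :=
  conj_ent g ((Subgroup.mem_normalizer_iff.mp hg _).mp (uni_mem 1 0 0))

theorem pow_ent (g : Q p) (hg : isB g) (n : ℕ) : mat (g ^ n) 0 0 = (mat g 0 0) ^ n := by
  have hg' : mat g 1 0 = 0 := hg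
  induction n with
  | zero => simp [one00]
  | succ n ih =>
    rw [pow_succ, ent_mul, ih, hg', last20, pow_succ]
    ring

theorem S0_max (Q' : Subgroup (Q p)) (hQ' : IsPGroup p Q') (hle : S0 p ≤ Q') : Q' = S0 p := by
  by_contra hne
  haveI := hQ'.isNilpotent
  let S' : Subgroup Q' := (S0 p).subgroupOf Q'
  have hlt : S' < ⊤ := by
    rw [lt_top_iff_ne_top]
    intro h
    apply hne
    apply le_antisymm _ hle
    intro x hx
    have h2 : (⟨x, hx⟩ : Q') ∈ S' := by
      rw [h]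
      trivial
    exact h2
  have hlt2 := normalizerCondition_of_isNilpotent S' hlt
  obtain ⟨g', hg'1, hg'2⟩ := SetLike.exists_of_lt hlt2
  have hgB : mat g'.1 1 0 = 0 := by
    apply conj_ent
    have h2 := (Subgroup.mem_normalizer_iff.mp hg'1 ⟨uni 1 0 0, hle (uni_mem _ _ _)⟩).mp
      (uni_mem 1 0 0)
    exact h2
  obtain ⟨k, hk⟩ := hQ' g'
  have h00 : mat g'.1 0 0 = 1 := by
    have e : mat ((g'.1) ^ (p ^ k)) 0 0 = (mat g'.1 0 0) ^ (p ^ k) := pow_ent _ hgB _
    have e2 : (g'.1) ^ (p ^ k) = 1 := congrArg Subtype.val hk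
    rw [e2, one00, ZMod.pow_card_pow] at e
    exact e.symm
  have h11 : mat g'.1 1 1 = 1 := by
    have h3 := det_eq g'.1
    rw [h00, hgB] at h3
    linear_combination h3
  exact hg'2 ⟨hgB, h00, h11⟩

/-- The explicit Sylow subgroup. -/
def syl0 (p : ℕ) [Fact p.Prime] : Sylow p (Q p) :=
  { toSubgroup := S0 p
    isPGroup' := S0_pgroup
    is_maximal' := fun hQ hle => S0_max _ hQ hle }

omit [Fact p.Prime] in
theorem norm_le_of_char {G : Type*} [Group G] (S : Subgroup G) (T : Subgroup S) (hT : T.Characteristic) :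
    Subgroup.normalizer (S : Set G) ≤ Subgroup.normalizer ((T.map S.subtype : Subgroup G) : Set G) := by
  intro g hg
  have hg' : ∀ x, x ∈ S ↔ g * x * g⁻¹ ∈ S := Subgroup.mem_normalizer_iff.mp hg
  have hg'' : ∀ x, x ∈ S → g⁻¹ * x * g ∈ S := by
    intro x hx
    rw [hg']
    simpa [mul_assoc] using hx
  let ϕ : S ≃* S :=
    { toFun := fun s => ⟨g * s * g⁻¹, (hg' s).mp s.2⟩
      invFun := fun s => ⟨g⁻¹ * s * g, hg'' s s.2⟩
      left_inv := fun s => Subtype.ext (by simp [mul_assoc])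
      right_inv := fun s => Subtype.ext (by simp [mul_assoc])
      map_mul' := fun a b => Subtype.ext (by simp [mul_assoc]) }
  have hfix := hT.fixed ϕ
  rw [Subgroup.mem_normalizer_iff]
  intro y
  constructor
  · rintro ⟨s, hs, rfl⟩
    refine ⟨ϕ s, ?_, rfl⟩
    have h2 : s ∈ T.comap ϕ.toMonoidHom := by
      rw [hfix]
      exact hs
    exact h2
  · rintro ⟨s, hs, hse⟩
    have hse' : (s : G) = g * y * g⁻¹ := hse
    have hy : y ∈ S := by
      rw [hg' y, ← hse']
      exact s.2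
    refine ⟨⟨y, hy⟩, ?_, rfl⟩
    have h3 : ϕ ⟨y, hy⟩ = s := Subtype.ext hse'.symm
    have h2 : (⟨y, hy⟩ : S) ∈ T.comap ϕ.toMonoidHom := by
      change ϕ ⟨y, hy⟩ ∈ T
      rw [h3]
      exact hs
    rwa [hfix] at h2

/-- The conjugate of the explicit subgroup. -/
abbrev Sc (h : Q p) : Subgroup (Q p) := (S0 p).map (MulAut.conj h).toMonoidHom

theorem mem_Sc (h x : Q p) : x ∈ Sc h ↔ h⁻¹ * x * h ∈ S0 p := by
  constructor
  · rintro ⟨s, hs, rfl⟩
    have e : h⁻¹ * ((MulAut.conj h).toMonoidHom s) * h = s := by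
      change h⁻¹ * (h * s * h⁻¹) * h = s
      group
    rwa [e]
  · intro hx
    exact ⟨_, hx, by change h * (h⁻¹ * x * h) * h⁻¹ = x; group⟩

theorem norm_conj_iff (h g : Q p) :
    g ∈ Subgroup.normalizer ((Sc h : Subgroup (Q p)) : Set (Q p)) ↔
      h⁻¹ * g * h ∈ Subgroup.normalizer ((S0 p : Subgroup (Q p)) : Set (Q p)) := by
  rw [Subgroup.mem_normalizer_iff, Subgroup.mem_normalizer_iff]
  constructor
  · intro hg x
    have e1 : x ∈ S0 p ↔ h * x * h⁻¹ ∈ Sc h := by
      rw [mem_Sc]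
      have e : h⁻¹ * (h * x * h⁻¹) * h = x := by group
      rw [e]
    have e2 : g * (h * x * h⁻¹) * g⁻¹ ∈ Sc h ↔ (h⁻¹ * g * h) * x * (h⁻¹ * g * h)⁻¹ ∈ S0 p := by
      rw [mem_Sc]
      have e : h⁻¹ * (g * (h * x * h⁻¹) * g⁻¹) * h = (h⁻¹ * g * h) * x * (h⁻¹ * g * h)⁻¹ := by group
      rw [e]
    rw [e1, hg, e2]
  · intro hg x
    have e2 : g * x * g⁻¹ ∈ Sc h ↔ (h⁻¹ * g * h) * (h⁻¹ * x * h) * (h⁻¹ * g * h)⁻¹ ∈ S0 p := by
      rw [mem_Sc]
      have e : h⁻¹ * (g * x * g⁻¹) * h = (h⁻¹ * g * h) * (h⁻¹ * x * h) * (h⁻¹ * g * h)⁻¹ := by group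
      rw [e]
    rw [mem_Sc, hg, e2]

theorem main_aux (S' : Subgroup (Q p)) (h : Q p) (hS' : S' = Sc h) (T : Subgroup S') (hT : T ≠ ⊥)
    (hTc : T.Characteristic) :
    Subgroup.normalizer ((T.map S'.subtype : Subgroup (Q p)) : Set (Q p)) =
      Subgroup.normalizer (S' : Set (Q p)) ∧ Subgroup.normalizer (S' : Set (Q p)) ≠ ⊤ := by
  subst hS'
  let f : S0 p ≃* Sc h := (MulAut.conj h).subgroupMap (S0 p)
  have hf : ∀ x : S0 p, ((f x : Sc h) : Q p) = h * x.1 * h⁻¹ := fun x => rfl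
  constructor
  · apply le_antisymm _ (norm_le_of_char (Sc h) T hTc)
    intro g hg
    rw [norm_conj_iff]
    apply mem_norm_S0
    let T₀ : Subgroup (S0 p) := T.comap f.toMonoidHom
    apply key T₀
    · intro h0
      apply hT
      rw [Subgroup.eq_bot_iff_forall]
      intro t ht
      have h1 : f.symm t ∈ T₀ := by
        change f (f.symm t) ∈ T
        rw [MulEquiv.apply_symm_apply]
        exact ht
      rw [h0, Subgroup.mem_bot] at h1
      have h2 := congrArg f h1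
      rw [MulEquiv.apply_symm_apply, map_one] at h2
      exact h2
    · intro y hy
      let ϕ : Sc h ≃* Sc h := f.symm.trans ((tau p).trans f)
      have hfix := hTc.fixed ϕ
      have h1 : f y ∈ T := hy
      have h2 : f y ∈ T.comap ϕ.toMonoidHom := by
        rw [hfix]
        exact h1
      have h3 : ϕ (f y) = f (tau p y) := by simp [ϕ]
      change f (tau p y) ∈ T
      rw [← h3]
      exact h2
    · intro y hy
      have h1 : ((f y : Sc h) : Q p) ∈ T.map (Sc h).subtype := ⟨f y, hy, rfl⟩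
      have h2 := (Subgroup.mem_normalizer_iff.mp hg _).mp h1
      obtain ⟨t, ht, hte⟩ := h2
      refine ⟨f.symm t, ?_, ?_⟩
      · change f (f.symm t) ∈ T
        rw [MulEquiv.apply_symm_apply]
        exact ht
      · have e := hf (f.symm t)
        rw [MulEquiv.apply_symm_apply] at e
        have hte' : (t : Q p) = g * (h * y.1 * h⁻¹) * g⁻¹ := hte
        calc h⁻¹ * g * h * y.1 = h⁻¹ * (g * (h * y.1 * h⁻¹) * g⁻¹) * (g * h) := by group
          _ = h⁻¹ * (t : Q p) * (g * h) := by rw [hte']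
          _ = h⁻¹ * (h * (f.symm t : S0 p).1 * h⁻¹) * (g * h) := by rw [e]
          _ = (f.symm t : S0 p).1 * (h⁻¹ * g * h) := by group
  · intro htop
    let l : Q p := ⟨⟨!![1, 0, 0; 1, 1, 0; 0, 0, 1], by simp [Matrix.det_fin_three]⟩,
      Subgroup.subset_closure ⟨by simp, by simp, by simp⟩⟩
    have h1 : h * l * h⁻¹ ∈ Subgroup.normalizer ((Sc h : Subgroup (Q p)) : Set (Q p)) := by
      rw [htop]
      trivial
    rw [norm_conj_iff] at h1
    have h2 : h⁻¹ * (h * l * h⁻¹) * h = l := by group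
    rw [h2] at h1
    have h3 := norm_ent l h1
    have h4 : mat l 1 0 = 1 := by simp [mat, l]
    rw [h4] at h3
    exact one_ne_zero h3

theorem main (S : Sylow p (Q p)) (T : Subgroup ↥(S : Subgroup (Q p))) (hT : T ≠ ⊥)
    (hTc : T.Characteristic) :
    Subgroup.normalizer ((T.map (S : Subgroup (Q p)).subtype : Subgroup (Q p)) : Set (Q p)) =
      Subgroup.normalizer ((S : Subgroup (Q p)) : Set (Q p)) ∧
    Subgroup.normalizer ((S : Subgroup (Q p)) : Set (Q p)) ≠ ⊤ := by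
  obtain ⟨h, hh⟩ := MulAction.exists_smul_eq (Q p) (syl0 p) S
  have hS' : (S : Subgroup (Q p)) = Sc h := by
    rw [← hh, Sylow.coe_subgroup_smul]
    ext x
    rw [Subgroup.mem_smul_pointwise_iff_exists]
    rfl
  exact main_aux _ h hS' T hT hTc

end CfsgLib.QdChar
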