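import Cfsg.Agent.Lib.H3.BaerSuzuki
import Cfsg.Prelude.Def_CaseTheorems

set_option autoImplicit false

namespace CfsgLib.RankEmb

open Subgroup

lemma prank_of_injective {A B : Type*} [Group A] [Group B] (f : A →* B)
    (hf : Function.Injective f) {p k : ℕ} (h : Cfsg.PRankLE p k B) : Cfsg.PRankLE p k A := by
  intro C hC hCe
  have hcard : Nat.card (C.map f) = Nat.card C := Subgroup.card_map_of_injective hf
  rw [← hcard]
  apply h
  · refine ⟨⟨?_⟩⟩
    rintro ⟨_, u, hu, rfl⟩ ⟨_, v, hv, rfl⟩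
    apply Subtype.ext
    haveI := hC
    have := congrArg (fun w : C => f (w : A)) (hC.is_comm.comm (⟨u, hu⟩ : C) ⟨v, hv⟩)
    simpa using this
  · rintro _ ⟨u, hu, rfl⟩
    rw [← map_pow, hCe u hu, map_one]

variable {G : Type*} [Group G]

lemma prank_of_le {X Y : Subgroup G} (hXY : X ≤ Y) {p k : ℕ} (h : Cfsg.PRankLE p k Y) :
    Cfsg.PRankLE p k X :=
  prank_of_injective (Subgroup.inclusion hXY) (Subgroup.inclusion_injective hXY) h

lemma prank_of_map_conj (h : G) (X : Subgroup G) {p k : ℕ}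
    (hr : Cfsg.PRankLE p k (X.map (MulAut.conj h).toMonoidHom)) : Cfsg.PRankLE p k X :=
  prank_of_injective (X.equivMapOfInjective (MulAut.conj h).toMonoidHom
    (MulAut.conj h).injective).toMonoidHom (MulEquiv.injective _) hr

variable [Finite G] {p : ℕ} [Fact p.Prime]

lemma conj_into (H : Subgroup G) (P : Sylow p H) (W : Subgroup G) (hWH : W ≤ H)
    (hW : IsPGroup p W) :
    ∃ h ∈ H, W.map (MulAut.conj h).toMonoidHom ≤ (P : Subgroup H).map H.subtype := by
  have hW' : IsPGroup p (W.subgroupOf H) := hW.comap_of_injective H.subtype (Subgroup.subtype_injective H)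
  obtain ⟨Q, hQ⟩ := hW'.exists_le_sylow
  obtain ⟨h, hh⟩ := MulAction.exists_smul_eq H Q P
  refine ⟨h, h.2, ?_⟩
  rintro _ ⟨w, hw, rfl⟩
  have h1 : (⟨w, hWH hw⟩ : H) ∈ (Q : Subgroup H) := hQ (Subgroup.mem_subgroupOf.2 hw)
  have h2 : h * (⟨w, hWH hw⟩ : H) * h⁻¹ ∈ (P : Subgroup H) := by
    rw [← hh, Sylow.coe_subgroup_smul]
    exact ⟨_, h1, rfl⟩
  exact ⟨_, h2, rfl⟩

section Main

variable (k : ℕ) (H : Subgroup G) (P : Sylow p H)

lemma step {W : Subgroup G} {g : G} (hWH : W ≤ H) (hWg : W ≤ H.map (MulAut.conj g).toMonoidHom)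
    (hWp : IsPGroup p W) (hWr : ¬ Cfsg.PRankLE p k W) (hg : g ∉ H) :
    ∃ h ∈ H, W.map (MulAut.conj h).toMonoidHom ≤ (P : Subgroup H).map H.subtype ∧
      W.map (MulAut.conj h).toMonoidHom ≤ H.map (MulAut.conj (h * g)).toMonoidHom ∧
      ¬ Cfsg.PRankLE p k (W.map (MulAut.conj h).toMonoidHom) ∧ h * g ∉ H := by
  obtain ⟨h, hh, hle⟩ := conj_into H P W hWH hWp
  refine ⟨h, hh, hle, ?_, fun hr => hWr (prank_of_map_conj h W hr), ?_⟩
  · rintro _ ⟨w, hw, rfl⟩
    obtain ⟨a, ha, hae⟩ := hWg hw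
    refine ⟨a, ha, ?_⟩
    have e1 : (MulAut.conj g) a = w := hae
    change (MulAut.conj (h * g)) a = (MulAut.conj h) w
    rw [map_mul, MulAut.mul_apply, e1]
  · intro hm
    exact hg ((Subgroup.mul_mem_cancel_left H hh).1 hm)

theorem key (hL : ∀ X : Subgroup G, X ≤ (P : Subgroup H).map H.subtype → ¬ Cfsg.PRankLE p k X →
      normalizer (X : Set G) ≤ H)
    (hP : ¬ Cfsg.PRankLE p k ↥((P : Subgroup H).map H.subtype)) :
    ∀ m : ℕ, ∀ (Y : Subgroup G) (g : G), g ∉ H → Y ≤ (P : Subgroup H).map H.subtype →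
      Y ≤ H.map (MulAut.conj g).toMonoidHom → ¬ Cfsg.PRankLE p k Y →
      Nat.card ((P : Subgroup H).map H.subtype) - Nat.card Y = m → False := by
  intro m
  induction m using Nat.strong_induction_on with
  | _ m ih =>
  intro Y g hg hYP hYg hYr hm
  set Ph := (P : Subgroup H).map H.subtype with hPh
  have hPhp : IsPGroup p Ph := P.2.map H.subtype
  have hPhH : Ph ≤ H := Subgroup.map_subtype_le _
  have hYp : IsPGroup p Y := hPhp.to_le hYP
  have hN := hL Y hYP hYr
  set H' := H.map (MulAut.conj g).toMonoidHom with hH'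
  have hcH' : Nat.card H' = Nat.card H :=
    Subgroup.card_map_of_injective (MulAut.conj g).injective
  have hY' : IsPGroup p (Y.subgroupOf H') :=
    hYp.comap_of_injective H'.subtype (Subgroup.subtype_injective H')
  obtain ⟨T, hT⟩ := hY'.exists_le_sylow
  set Th := (T : Subgroup H').map H'.subtype with hTh
  have hThp : IsPGroup p Th := T.2.map H'.subtype
  have hYT : Y ≤ Th := by
    intro y hy
    exact ⟨⟨y, hYg hy⟩, hT (Subgroup.mem_subgroupOf.2 hy), rfl⟩
  have hThH' : Th ≤ H' := Subgroup.map_subtype_le _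
  by_cases hYe : Y = Th
  · -- `Y` is Sylow in `H'`
    have hcT : Nat.card Th = Nat.card T :=
      Subgroup.card_map_of_injective (Subgroup.subtype_injective H')
    have hcP : Nat.card Ph = Nat.card P :=
      Subgroup.card_map_of_injective (Subgroup.subtype_injective H)
    have hcc : Nat.card T = Nat.card P := by
      rw [Sylow.card_eq_multiplicity, Sylow.card_eq_multiplicity, hcH']
    have hYPe : Y = Ph := Subgroup.eq_of_le_of_card_ge hYP (by
      rw [hYe, hcT, hcP, hcc])
    have hPH' : Ph ≤ H' := hYPe ▸ hYg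
    -- move back
    set W := Ph.map (MulAut.conj g⁻¹).toMonoidHom with hW
    have hWH : W ≤ H := by
      rintro _ ⟨w, hw, rfl⟩
      obtain ⟨a, ha, hae⟩ := hPH' hw
      have e1 : (MulAut.conj g) a = w := hae
      have : (MulAut.conj g⁻¹) w = a := by
        rw [← e1, map_inv, MulAut.inv_apply_self]
      change (MulAut.conj g⁻¹) w ∈ H
      rwa [this]
    have hWp : IsPGroup p W := hPhp.map _
    obtain ⟨h, hh, hle⟩ := conj_into H P W hWH hWp
    have hcW : Nat.card (W.map (MulAut.conj h).toMonoidHom) = Nat.card Ph := by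
      rw [Subgroup.card_map_of_injective (MulAut.conj h).injective,
        Subgroup.card_map_of_injective (MulAut.conj g⁻¹).injective]
    have heq : W.map (MulAut.conj h).toMonoidHom = Ph :=
      Subgroup.eq_of_le_of_card_ge hle (le_of_eq hcW.symm)
    have hmemN : h * g⁻¹ ∈ normalizer (Ph : Set G) := by
      rw [Subgroup.mem_normalizer_iff]
      intro x
      have hfin : ∀ y ∈ Ph, (h * g⁻¹) * y * (h * g⁻¹)⁻¹ ∈ Ph := by
        intro y hy
        rw [← heq]
        exact ⟨_, ⟨y, hy, rfl⟩, by simp [MulAut.conj_apply, mul_assoc]⟩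
      constructor
      · exact hfin x
      · intro hx
        -- injective self-map of a finite set
        have hinj : Function.Injective (fun y : Ph => (⟨(h * g⁻¹) * y * (h * g⁻¹)⁻¹, hfin y y.2⟩ : Ph)) := by
          intro a b hab
          have := congrArg Subtype.val hab
          apply Subtype.ext
          simpa using this
        have hsurj := Finite.surjective_of_injective hinj
        obtain ⟨y, hy⟩ := hsurj ⟨_, hx⟩
        have := congrArg Subtype.val hy
        have e : (y : G) = x := by simpa using this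
        rw [← e]; exact y.2
    have hmH := hL Ph le_rfl hP hmemN
    have hgi : g⁻¹ ∈ H := (Subgroup.mul_mem_cancel_left H hh).1 hmH
    exact hg (by simpa using inv_mem hgi)
  · -- enlarge
    obtain ⟨t, htT, htY, htN⟩ := CfsgLib.BS.exists_mem_normalizer_not_mem hThp hYT hYe
    set Y₁ := Th ⊓ normalizer (Y : Set G) with hY₁
    have hY₁H : Y₁ ≤ H := inf_le_right.trans hN
    have hY₁p : IsPGroup p Y₁ := hThp.to_le inf_le_left
    have hYY₁ : Y ≤ Y₁ := le_inf hYT Subgroup.le_normalizer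
    have hY₁g : Y₁ ≤ H.map (MulAut.conj g).toMonoidHom := inf_le_left.trans hThH'
    have hY₁r : ¬ Cfsg.PRankLE p k Y₁ := fun hr => hYr (prank_of_le hYY₁ hr)
    obtain ⟨h, hh, h1, h2, h3, h4⟩ := step k H P hY₁H hY₁g hY₁p hY₁r hg
    have hc1 : Nat.card (Y₁.map (MulAut.conj h).toMonoidHom) = Nat.card Y₁ :=
      Subgroup.card_map_of_injective (MulAut.conj h).injective
    have hc2 : Nat.card Y < Nat.card Y₁ := by
      apply lt_of_le_of_ne (Subgroup.card_le_of_le hYY₁)
      intro he
      have hle' : Y = Y₁ := Subgroup.eq_of_le_of_card_ge hYY₁ (le_of_eq he.symm)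
      exact htY (hle' ▸ (⟨htT, htN⟩ : t ∈ Y₁))
    have hc3 : Nat.card (Y₁.map (MulAut.conj h).toMonoidHom) ≤ Nat.card Ph := Subgroup.card_le_of_le h1
    refine ih _ ?_ _ _ h4 h1 h2 h3 rfl
    omega

end Main

/-- Rank-`k` embedding criterion. -/
theorem main (k : ℕ) (H : Subgroup G) (P : Sylow p H)
    (hP : ¬ Cfsg.PRankLE p k ↥(P : Subgroup H)) :
    (∀ X : Subgroup G, X ≤ (P : Subgroup H).map H.subtype → ¬ Cfsg.PRankLE p k ↥X →
      normalizer (X : Set G) ≤ H) ↔
    (∀ g : G, g ∉ H → Cfsg.PRankLE p k ↥(H ⊓ H.map (MulAut.conj g).toMonoidHom)) := by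
  constructor
  · intro hL g hg
    by_contra hnr
    have hP' : ¬ Cfsg.PRankLE p k ↥((P : Subgroup H).map H.subtype) := fun hr =>
      hP (prank_of_injective ((P : Subgroup H).equivMapOfInjective H.subtype
        (Subgroup.subtype_injective H)).toMonoidHom (MulEquiv.injective _) hr)
    unfold Cfsg.PRankLE at hnr
    push Not at hnr
    obtain ⟨A, hA, hAe, hAc⟩ := hnr
    set W := A.map (H ⊓ H.map (MulAut.conj g).toMonoidHom).subtype with hW
    have hcW : Nat.card W = Nat.card A :=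
      Subgroup.card_map_of_injective (Subgroup.subtype_injective _)
    have hWle : W ≤ H ⊓ H.map (MulAut.conj g).toMonoidHom := Subgroup.map_subtype_le _
    have hWp : IsPGroup p W := by
      rintro ⟨_, a, ha, rfl⟩
      refine ⟨1, ?_⟩
      apply Subtype.ext
      have h3 : ((a : ↥(H ⊓ H.map (MulAut.conj g).toMonoidHom)) : G) ^ p = 1 :=
        congrArg (fun w : ↥(H ⊓ H.map (MulAut.conj g).toMonoidHom) => (w : G)) (hAe a ha)
      rw [pow_one]
      exact h3
    have hWr : ¬ Cfsg.PRankLE p k W := by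
      intro hr
      have := hr ⊤ ⟨⟨?_⟩⟩ ?_
      · rw [Subgroup.card_top, hcW] at this
        omega
      · rintro ⟨⟨_, a, ha, rfl⟩, _⟩ ⟨⟨_, b, hb, rfl⟩, _⟩
        apply Subtype.ext
        apply Subtype.ext
        have h3 := congrArg (fun w : A => ((w : ↥(H ⊓ H.map (MulAut.conj g).toMonoidHom)) : G))
          (hA.is_comm.comm (⟨a, ha⟩ : A) ⟨b, hb⟩)
        exact h3
      · rintro ⟨_, a, ha, rfl⟩ _
        apply Subtype.ext
        have h3 : ((a : ↥(H ⊓ H.map (MulAut.conj g).toMonoidHom)) : G) ^ p = 1 :=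
          congrArg (fun w : ↥(H ⊓ H.map (MulAut.conj g).toMonoidHom) => (w : G)) (hAe a ha)
        exact h3
    obtain ⟨h, hh, h1, h2, h3, h4⟩ := step k H P (hWle.trans inf_le_left) (hWle.trans inf_le_right)
      hWp hWr hg
    exact key k H P hL hP' _ _ _ h4 h1 h2 h3 rfl
  · intro hR X hX hXr g hg
    by_contra hgH
    apply hXr
    refine prank_of_le (le_inf (hX.trans (Subgroup.map_subtype_le _)) ?_) (hR g hgH)
    intro x hx
    refine ⟨g⁻¹ * x * g, ?_, by simp [MulAut.conj_apply, mul_assoc]⟩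
    apply (hX.trans (Subgroup.map_subtype_le _))
    have := (Subgroup.mem_normalizer_iff.1 (inv_mem hg) x).1 hx
    simpa using this

end CfsgLib.RankEmb
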