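import Cfsg.Agent.Lib.H3.CycMax2
import Cfsg.Agent.Lib.H3.FourConn
import Cfsg.Agent.Lib.H3.AbComp
import Cfsg.Agent.Lib.Trans.Thompson
import Cfsg.Agent.Lib.H3.AbOmega

/-! `2`-rank at least three passes to centralizers of involutions. -/

set_option autoImplicit false
set_option linter.unusedSectionVars false

namespace CfsgLib.RankThree

open Subgroup

variable {G : Type*} [Group G] [Finite G]

lemma comm_of_sq {E : Subgroup G} (h : ∀ e ∈ E, e ^ 2 = 1) {a b : G} (ha : a ∈ E) (hb : b ∈ E) :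
    a * b = b * a := by
  have h1 := h _ (mul_mem ha hb)
  have h2 := h a ha
  have h3 := h b hb
  rw [pow_two] at h1 h2 h3
  have h4 : a * b = (a * b)⁻¹ := eq_inv_of_mul_eq_one_left h1
  rw [h4, mul_inv_rev, inv_eq_of_mul_eq_one_left h2, inv_eq_of_mul_eq_one_left h3]

theorem main (hno : ∀ H : Subgroup G, H.index ≠ 2)
    (hrank : ∃ E : Subgroup G, Nat.card E = 8 ∧ ∀ e ∈ E, e ^ 2 = 1) (x : G) (hx : orderOf x = 2) :
    ∃ E : Subgroup G, E ≤ centralizer ({x} : Set G) ∧ Nat.card E = 8 ∧ ∀ e ∈ E, e ^ 2 = 1 := by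
  classical
  haveI : Fact (Nat.Prime 2) := ⟨Nat.prime_two⟩
  obtain ⟨E, hEc, hEs⟩ := hrank
  have hEp : IsPGroup 2 E := IsPGroup.of_card (n := 3) (by rw [hEc]; norm_num)
  obtain ⟨S, hES⟩ := hEp.exists_le_sylow
  have hEcomm : ∀ a ∈ E, ∀ b ∈ E, a * b = b * a := fun a ha b hb => comm_of_sq hEs ha hb
  have hrk : ¬ Cfsg.PRankLE 2 2 (S : Subgroup G) := by
    intro h
    have := CfsgLib.AbOmega.card_le_of_prank h hES hEcomm hEs
    rw [hEc] at this
    norm_num at this
  obtain ⟨U, hUn, hUe, hUc⟩ := CfsgLib.CycMax.exists_normal_E S.2 hrk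
  set A : Subgroup G := U.map (S : Subgroup G).subtype with hA
  have hAS : A ≤ S := Subgroup.map_subtype_le _
  have hAc : Nat.card A = 4 := by
    rw [hA, Subgroup.card_map_of_injective (Subgroup.subtype_injective _), hUc]
    norm_num
  have hAe : Cfsg.IsElementaryAbelian 2 A := by
    refine ⟨?_, ?_⟩
    · have := hUe.1
      refine ⟨⟨?_⟩⟩
      rintro ⟨_, a, ha, rfl⟩ ⟨_, b, hb, rfl⟩
      apply Subtype.ext
      exact congrArg (fun w : U => ((w : (S : Subgroup G)) : G)) (this.is_comm.comm ⟨a, ha⟩ ⟨b, hb⟩)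
    · rintro _ ⟨a, ha, rfl⟩
      exact congrArg Subtype.val (hUe.2 a ha)
  have hAcomm : ∀ a ∈ A, ∀ b ∈ A, a * b = b * a := fun a ha b hb =>
    congrArg Subtype.val (hAe.1.is_comm.comm ⟨a, ha⟩ ⟨b, hb⟩)
  set C' := centralizer (U : Set (S : Subgroup G)) with hC'
  have hC'i : C'.index ≤ 2 := CfsgLib.CycMax.index_centralizer_le S.2 U (by rw [hUc])
  set M := C'.map (S : Subgroup G).subtype with hM
  have hMS : M ≤ S := Subgroup.map_subtype_le _
  have hMrel : M.relIndex (S : Subgroup G) = C'.index := by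
    rw [Subgroup.relIndex, hM, Subgroup.subgroupOf, Subgroup.comap_map_eq_self_of_injective
      (Subgroup.subtype_injective _)]
  have hmemM : ∀ y ∈ (S : Subgroup G), (∀ a ∈ A, a * y = y * a) → y ∈ M := by
    intro y hy h
    refine ⟨⟨y, hy⟩, ?_, rfl⟩
    rw [SetLike.mem_coe, hC', Subgroup.mem_centralizer_iff]
    intro a ha
    apply Subtype.ext
    exact h _ ⟨a, ha, rfl⟩
  have hMcomm : ∀ y ∈ M, ∀ a ∈ A, a * y = y * a := by
    rintro _ ⟨y, hy, rfl⟩ _ ⟨a, ha, rfl⟩
    have h1 := (Subgroup.mem_centralizer_iff.1 hy) a ha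
    exact congrArg Subtype.val h1
  have hx2 : x ^ 2 = 1 := by rw [← hx, pow_orderOf_eq_one]
  have hconj : ∃ g : G, g * x * g⁻¹ ∈ M := by
    obtain ⟨g, hg⟩ := CfsgLib.DihFus.exists_conj_sylow S hx2
    by_cases ht : g * x * g⁻¹ ∈ M
    · exact ⟨g, ht⟩
    · have hne1 : C'.index ≠ 1 := by
        intro h1
        have h3 : C' = ⊤ := Subgroup.index_eq_one.1 h1
        apply ht
        refine ⟨⟨_, hg⟩, ?_, rfl⟩
        rw [h3]
        trivial
      have hne0 : C'.index ≠ 0 := Subgroup.index_ne_zero_of_finite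
      have h2 : M.relIndex (S : Subgroup G) = 2 := by
        rw [hMrel]
        omega
      have hord : orderOf (g * x * g⁻¹) = 2 := by
        apply orderOf_eq_prime
        · rw [conj_pow, hx2]
          group
        · intro h1
          have h3 : x = g⁻¹ * (g * x * g⁻¹) * g := by group
          rw [h1] at h3
          have h4 : x = 1 := by rw [h3]; group
          rw [h4, orderOf_one] at hx
          omega
      rcases CfsgLib.Trans.thompson_transfer S M hMS h2 _ hord hg ht with ⟨M', -, hidx, -⟩ | ⟨g', hg'⟩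
      · exact absurd hidx (hno M')
      · refine ⟨g' * g, ?_⟩
        have e : g' * g * x * (g' * g)⁻¹ = g' * (g * x * g⁻¹) * g'⁻¹ := by group
        rw [e]
        exact hg'
  obtain ⟨g, hy⟩ := hconj
  set y := g * x * g⁻¹ with hyd
  have hy2 : y ^ 2 = 1 := by
    rw [hyd, conj_pow, hx2]
    group
  have hFin : ∀ e : G, e ^ 2 = 1 → e ∉ A → (∀ a ∈ A, a * e = e * a) →
      Nat.card (A ⊔ zpowers e : Subgroup G) = 8 ∧ ∀ f ∈ (A ⊔ zpowers e : Subgroup G), f ^ 2 = 1 := by
    intro e he heA hc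
    have h1 := CfsgLib.FourConn.card_sup_zpowers he heA hc
    have h2 := CfsgLib.FourConn.elem_sup_zpowers hAe he hc
    exact ⟨by rw [h1, hAc], h2.2⟩
  suffices hmain : ∃ F : Subgroup G, F ≤ centralizer ({y} : Set G) ∧ Nat.card F = 8 ∧ ∀ e ∈ F, e ^ 2 = 1 by
    obtain ⟨F, hF, hFc, hFs⟩ := hmain
    refine ⟨F.map (MulAut.conj g⁻¹).toMonoidHom, ?_, ?_, ?_⟩
    · rintro _ ⟨f, hf, rfl⟩
      have h1 := Subgroup.mem_centralizer_singleton_iff.1 (hF hf)
      rw [Subgroup.mem_centralizer_singleton_iff]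
      show g⁻¹ * f * g⁻¹⁻¹ * x = x * (g⁻¹ * f * g⁻¹⁻¹)
      have h2 : x = g⁻¹ * y * g := by rw [hyd]; group
      rw [h2]
      calc g⁻¹ * f * g⁻¹⁻¹ * (g⁻¹ * y * g) = g⁻¹ * (f * y) * g := by group
        _ = g⁻¹ * (y * f) * g := by rw [h1]
        _ = _ := by group
    · rw [Subgroup.card_map_of_injective (MulAut.conj g⁻¹).injective, hFc]
    · rintro _ ⟨f, hf, rfl⟩
      show (g⁻¹ * f * g⁻¹⁻¹) ^ 2 = 1
      rw [conj_pow, hFs f hf]
      group
  by_cases hyA : y ∈ A
  · -- `y ∈ A`: use `E ∩ M`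
    by_cases hsub : E ⊓ M ≤ A
    · exfalso
      -- `|E ∩ M| ≥ 4`
      have hcard : 4 ≤ Nat.card (E ⊓ M : Subgroup G) := by
        have h1 := CfsgLib.Trans.card_mul_relIndex (inf_le_left : E ⊓ M ≤ E)
        rw [Subgroup.inf_relIndex_left, hEc] at h1
        have h2 : M.relIndex E ≤ M.relIndex (S : Subgroup G) :=
          Subgroup.relIndex_le_of_le_right hES (by rw [hMrel]; exact Subgroup.index_ne_zero_of_finite)
        rw [hMrel] at h2
        have h3 : M.relIndex E ≤ 2 := h2.trans hC'i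
        by_contra hlt
        have h4 : Nat.card (E ⊓ M : Subgroup G) ≤ 3 := by omega
        have h5 := Nat.mul_le_mul h4 h3
        omega
      have hEMA : E ⊓ M = A := Subgroup.eq_of_le_of_card_ge hsub (by rw [hAc]; exact hcard)
      have hAE : A ≤ E := by
        rw [← hEMA]
        exact inf_le_left
      have hEM : E ≤ M := by
        intro e he
        apply hmemM e (hES he)
        intro a ha
        exact hEcomm a (hAE ha) e he
      have : E ⊓ M = E := inf_eq_left.2 hEM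
      rw [this] at hEMA
      rw [hEMA, hAc] at hEc
      norm_num at hEc
    · obtain ⟨e, he, heA⟩ := Set.not_subset.1 hsub
      obtain ⟨h1, h2⟩ := hFin e (hEs e he.1) heA (hMcomm e he.2)
      refine ⟨_, ?_, h1, h2⟩
      apply sup_le
      · intro a ha
        rw [Subgroup.mem_centralizer_singleton_iff]
        exact hAcomm a ha y hyA
      · rw [zpowers_le, Subgroup.mem_centralizer_singleton_iff]
        exact (hMcomm e he.2 y hyA).symm
  · obtain ⟨h1, h2⟩ := hFin y hy2 hyA (hMcomm y hy)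
    refine ⟨_, ?_, h1, h2⟩
    apply sup_le
    · intro a ha
      rw [Subgroup.mem_centralizer_singleton_iff]
      exact hMcomm y hy a ha
    · rw [zpowers_le, Subgroup.mem_centralizer_singleton_iff]

end CfsgLib.RankThree
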