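import Cfsg.Agent.Lib.H3.Signal3
import Cfsg.Agent.Lib.H3.PComp2
import Cfsg.Agent.Lib.H3.TransferTools

set_option autoImplicit false
set_option linter.unusedSectionVars false
set_option linter.style.haveILetI false

namespace CfsgLib.Signal

open Subgroup Cfsg

/-- S1288. -/
theorem le_core_of_comm {H : Type*} [Group H] [Finite H] {p : ℕ} [Fact p.Prime] (A K : Subgroup H)
    (hA : IsElementaryAbelian p A) (hA2 : p ^ 2 ≤ Nat.card A) (hK : ¬ p ∣ Nat.card K)
    (hKs : Group.IsSolvable K) (hAK : A ≤ normalizer (K : Set H)) (q : ℕ) [Fact q.Prime]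
    (hqK : q ∣ Nat.card K) (U : Subgroup H) (hU : U ≤ K) (hUq : ¬ q ∣ Nat.card U)
    (hcomm : ∀ B : Subgroup H, B ≤ A → B.relIndex A = p →
      ¬ q ∣ Nat.card (⁅U, K ⊓ centralizer (B : Set H)⁆ : Subgroup H)) :
    U ≤ (pPrimeCore q K).map K.subtype := by
  have hqp : q ≠ p := by
    rintro rfl
    exact hK hqK
  have hcommA := elem_comm hA
  have hexp := hA.2
  have hAne : A ≠ ⊥ := by
    intro h
    rw [h] at hA2
    simp at hA2
    have := (Fact.out : p.Prime).two_le
    have h3 : 2 ^ 2 ≤ p ^ 2 := Nat.pow_le_pow_left this 2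
    omega
  set O : Subgroup K := pPrimeCore q K with hO
  haveI : O.Normal := CfsgLib.Solv.pPrimeCore_normal' q
  set π : K →* K ⧸ O := QuotientGroup.mk' O with hπ
  have hπsurj : Function.Surjective π := QuotientGroup.mk'_surjective O
  haveI : Group.IsSolvable (K ⧸ O) := Group.isSolvable_of_surjective hπsurj
  set R : Subgroup (K ⧸ O) := pCore q (K ⧸ O) with hR
  haveI hRn : R.Normal := CfsgLib.Solv.pCore_normal' q
  have hRp : IsPGroup q R := CfsgLib.Solv.pCore_isPGroup q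
  set W : Subgroup K := pPrimePCore q K with hW
  haveI := pPrimePCore_char (X := K) q
  set W₁ : Subgroup H := W.map K.subtype with hW₁
  have hW₁K : W₁ ≤ K := Subgroup.map_subtype_le _
  have hAW₁ : A ≤ normalizer (W₁ : Set H) := fun a ha =>
    CfsgLib.CT.mem_normalizer_of_conj_le (fun y hy => CfsgLib.Comp.char_map_normalized W (hAK ha) hy)
  obtain ⟨Q₀, hQ₀, hQ₀A⟩ := CfsgLib.Solv.exists_invariant_sylow (p := q) A W₁ hAW₁
    (coprime_card_of_exp hexp le_rfl (fun h => hK (h.trans (Subgroup.card_dvd_of_le hW₁K))))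
    (Or.inl (solvable_of_exp hexp))
  set U' : Subgroup K := U.subgroupOf K with hU'
  set L : Subgroup K := (centralizer ((U'.map π : Subgroup (K ⧸ O)) : Set (K ⧸ O))).comap π with hL
  have hQ₀L : Q₀ ≤ L.map K.subtype := by
    refine (gen_pgroup hqp A Q₀ hcommA hexp hQ₀.2.1 hQ₀A).trans (iSup_le fun B => ?_)
    rintro x ⟨hx, hxB⟩
    obtain ⟨D, hDB, hDA, hDr⟩ := exists_hyper_le A hcommA hexp hAne B.2.1 B.2.2
    have hxW : x ∈ W₁ := hQ₀.1 hx
    obtain ⟨x', hx', rfl⟩ := hxW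
    refine ⟨x', (?_ : x' ∈ L), rfl⟩
    have hπx : π x' ∈ R := hx'
    rw [hL, Subgroup.mem_comap, Subgroup.mem_centralizer_iff]
    rintro _ ⟨u', hu', rfl⟩
    have hxD : (x' : H) ∈ centralizer (D : Set H) := by
      have h1 : centralizer (((B : Subgroup H) : Set H)) ≤ centralizer (D : Set H) :=
        Subgroup.centralizer_le hDB
      exact h1 hxB
    set w : K := u' * x' * u'⁻¹ * x'⁻¹ with hw
    have hwN : (w : H) ∈ ⁅U, K ⊓ centralizer (D : Set H)⁆ :=
      Subgroup.commutator_mem_commutator (g₁ := (u' : H)) (g₂ := (x' : H)) hu' (Subgroup.mem_inf.2 ⟨x'.2, hxD⟩)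
    have hπwR : π w ∈ R := by
      rw [hw, map_mul, map_mul, map_mul, map_inv, map_inv]
      exact R.mul_mem (hRn.conj_mem _ hπx _) (R.inv_mem hπx)
    obtain ⟨k, hk⟩ := CfsgLib.CT.pow_eq_one_of_mem_pgroup hRp hπwR
    have hN : (w : H) ^ Nat.card (⁅U, K ⊓ centralizer (D : Set H)⁆ : Subgroup H) = 1 := by
      have h1 := pow_card_eq_one' (x := (⟨w, hwN⟩ : (⁅U, K ⊓ centralizer (D : Set H)⁆ : Subgroup H)))
      exact congrArg Subtype.val h1
    have hN' : (π w) ^ Nat.card (⁅U, K ⊓ centralizer (D : Set H)⁆ : Subgroup H) = 1 := by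
      rw [← map_pow]
      have h2 : w ^ Nat.card (⁅U, K ⊓ centralizer (D : Set H)⁆ : Subgroup H) = 1 :=
        Subtype.ext (by simpa using hN)
      rw [h2, map_one]
    have hπw : π w = 1 := CfsgLib.Tr.eq_one_of_pow_eq_one_of_coprime hk hN'
      (Nat.Coprime.pow_left _ ((Nat.Prime.coprime_iff_not_dvd Fact.out).2 (hcomm D hDA hDr)))
    rw [hw, map_mul, map_mul, map_mul, map_inv, map_inv, mul_inv_eq_one, mul_inv_eq_iff_eq_mul] at hπw
    exact hπw
  -- the Sylow subgroup in K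
  set P' : Subgroup K := Q₀.subgroupOf K with hP'
  have hP'map : P'.map K.subtype = Q₀ := by
    rw [hP', Subgroup.subgroupOf_map_subtype, inf_eq_left.2 (hQ₀.1.trans hW₁K)]
  have hP'W : P' ≤ W := by
    intro x hx
    have h1 : (x : H) ∈ W₁ := hQ₀.1 hx
    obtain ⟨y, hy, hye⟩ := h1
    have : y = x := Subtype.ext hye
    rwa [← this]
  have hsyl : CfsgLib.Solv.IsSylowIn q P' W := by
    refine ⟨hP'W, ?_, ?_⟩
    · have h1 : IsPGroup q (P'.map K.subtype) := by
        rw [hP'map]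
        exact hQ₀.2.1
      exact h1.of_equiv (Subgroup.equivMapOfInjective P' K.subtype K.subtype_injective).symm
    · have h2 := Subgroup.relIndex_map_map_of_injective P' W K.subtype_injective
      rw [hP'map] at h2
      rw [← h2]
      exact hQ₀.2.2
  obtain ⟨S, hS⟩ := hsyl.exists_sylow
  have himg : P'.map π = R := by
    have h1 := CfsgLib.Comp.sylow_image_eq (X := K) (p := q) (U := W) rfl S
    rw [hS] at h1
    exact h1
  have hUR : U'.map π ≤ centralizer (R : Set (K ⧸ O)) := by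
    intro y hy
    rw [Subgroup.mem_centralizer_iff]
    intro r hr
    replace hr : r ∈ R := hr
    rw [← himg] at hr
    obtain ⟨x', hx', rfl⟩ := hr
    have h1 : (x' : H) ∈ Q₀ := hx'
    obtain ⟨x'', hx'', hxe⟩ := hQ₀L h1
    have h2 : x'' = x' := Subtype.ext hxe
    rw [← h2]
    have h3 : π x'' ∈ centralizer ((U'.map π : Subgroup (K ⧸ O)) : Set (K ⧸ O)) := hx''
    rw [Subgroup.mem_centralizer_iff] at h3
    exact (h3 y hy).symm
  have hO' : pPrimeCore q (K ⧸ O) = ⊥ := CfsgLib.Solv.pPrimeCore_quotient_eq_bot q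
  have hUR2 : U'.map π ≤ R := hUR.trans (CfsgLib.Solv.centralizer_pCore_le q hO')
  have hU'card : ¬ q ∣ Nat.card (U'.map π) := by
    intro h
    have h1 : Nat.card (U'.map π) ∣ Nat.card U' := Subgroup.card_map_dvd U' π
    have h2 : Nat.card U' ∣ Nat.card U := by
      rw [hU']
      exact Subgroup.card_comap_dvd_of_injective U K.subtype K.subtype_injective
    exact hUq (h.trans (h1.trans h2))
  have hbot : U'.map π ⊓ R = ⊥ := CfsgLib.Comp.inf_bot_of_coprime
    (Nat.coprime_comm.1 ((Nat.Prime.coprime_iff_not_dvd Fact.out).2 hU'card)) hRp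
  intro x hx
  have hxK := hU hx
  have h1 : π ⟨x, hxK⟩ ∈ U'.map π ⊓ R := by
    refine ⟨⟨⟨x, hxK⟩, hx, rfl⟩, hUR2 ⟨⟨x, hxK⟩, hx, rfl⟩⟩
  rw [hbot, Subgroup.mem_bot, hπ, QuotientGroup.mk'_apply] at h1
  exact ⟨⟨x, hxK⟩, (QuotientGroup.eq_one_iff _).1 h1, rfl⟩

end CfsgLib.Signal
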