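import Cfsg.Agent.Lib.H3.Signal2

set_option autoImplicit false
set_option linter.unusedSectionVars false
set_option linter.style.haveILetI false

namespace CfsgLib.Signal

open Subgroup Cfsg

variable {G : Type*} [Group G] [Finite G] {p : ℕ} [hpp : Fact p.Prime]

theorem card_core_not_dvd (a : G) : ¬ p ∣ Nat.card (centralizerPPrimeCore p a) := by
  intro h
  have h1 : Nat.card (centralizerPPrimeCore p a) = Nat.card (pPrimeCore p (centralizer ({a} : Set G))) :=
    Subgroup.card_map_of_injective (Subtype.val_injective)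
  rw [h1] at h
  have h2 := CfsgLib.Solv.pPrimeCore_coprime (G := centralizer ({a} : Set G)) p
  have h3 := Nat.eq_one_of_dvd_coprimes h2 h dvd_rfl
  exact hpp.out.one_lt.ne' h3

theorem core_le_cent (a : G) : centralizerPPrimeCore p a ≤ centralizer {a} :=
  Subgroup.map_subtype_le _

theorem core_conj (a : G) : ∀ n ∈ centralizer ({a} : Set G), ∀ x ∈ centralizerPPrimeCore p a,
    n * x * n⁻¹ ∈ centralizerPPrimeCore p a := by
  intro n hn x hx
  obtain ⟨w, hw, rfl⟩ := hx
  haveI := CfsgLib.Solv.pPrimeCore_normal' (G := centralizer ({a} : Set G)) p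
  exact ⟨_, (inferInstance : (pPrimeCore p (centralizer ({a} : Set G))).Normal).conj_mem w hw ⟨n, hn⟩, rfl⟩

/-- Balance for a solvable centralizer. -/
theorem core_balance {a b : G} (hab : a * b = b * a) (ha : a ^ p = 1)
    (hs : Group.IsSolvable (centralizer ({b} : Set G))) :
    centralizerPPrimeCore p a ⊓ centralizer {b} ≤ centralizerPPrimeCore p b := by
  rintro x ⟨hx, hxb⟩
  haveI := hs
  set Y := centralizer ({b} : Set G) with hY
  have haY : a ∈ Y := by
    rw [hY, Subgroup.mem_centralizer_iff]
    intro w hw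
    rw [Set.mem_singleton_iff] at hw
    subst hw
    exact hab.symm
  set a' : Y := ⟨a, haY⟩ with ha'
  set D : Subgroup Y := (centralizerPPrimeCore p a ⊓ Y).subgroupOf Y with hD
  have hcard : ¬ p ∣ Nat.card D := by
    intro h
    have h1 : Nat.card D ∣ Nat.card (centralizerPPrimeCore p a) := by
      rw [hD, Subgroup.subgroupOf]
      have h2 := Subgroup.card_comap_dvd_of_injective (centralizerPPrimeCore p a ⊓ Y) Y.subtype Subtype.val_injective
      exact h2.trans (Subgroup.card_dvd_of_le inf_le_left)
    exact card_core_not_dvd a (h.trans h1)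
  have hfin := balance_solvable (p := p) a' (Subtype.ext ha) D hcard (by
    intro d hd
    rw [Subgroup.mem_centralizer_iff]
    intro w hw
    rw [Set.mem_singleton_iff] at hw
    subst hw
    have hd1 : (d : G) ∈ centralizerPPrimeCore p a ⊓ Y := hd
    have h1 := (core_le_cent a hd1.1)
    rw [Subgroup.mem_centralizer_iff] at h1
    exact Subtype.ext (h1 a rfl)) (by
    intro n hn
    have hn' : (n : G) ∈ centralizer ({a} : Set G) := by
      rw [Subgroup.mem_centralizer_iff]
      intro w hw
      rw [Set.mem_singleton_iff] at hw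
      subst hw
      have := (Subgroup.mem_centralizer_iff.1 hn) a' rfl
      exact congrArg Subtype.val this
    apply CfsgLib.CT.mem_normalizer_of_conj_le
    intro d hd
    have hd1 : (d : G) ∈ centralizerPPrimeCore p a ⊓ Y := hd
    refine ⟨core_conj a n hn' d hd1.1, ?_⟩
    exact (n * d * n⁻¹ : Y).2)
  have h5 : (⟨x, hxb⟩ : Y) ∈ D := ⟨hx, hxb⟩
  exact ⟨_, hfin h5, rfl⟩

end CfsgLib.Signal
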