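import Cfsg.Prelude.Def_Balance
import Mathlib

set_option autoImplicit false

/-! A solvable signalizer functor on `S₅` for a four-group which is not complete. -/

namespace CfsgLib.SignalEx

open Subgroup Cfsg

abbrev G5 := Equiv.Perm (Fin 5)

def s5 : G5 := Equiv.swap 0 1
def t5 : G5 := Equiv.swap 2 3
def u5 : G5 := Equiv.swap 2 3 * Equiv.swap 3 4
def v5 : G5 := Equiv.swap 0 1 * Equiv.swap 1 4

def subOf (S : Finset G5) (h1 : 1 ∈ S) (h2 : ∀ a ∈ S, ∀ b ∈ S, a * b ∈ S) (h3 : ∀ a ∈ S, a⁻¹ ∈ S) :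
    Subgroup G5 where
  carrier := {x | x ∈ S}
  one_mem' := h1
  mul_mem' := fun {a b} ha hb => h2 a ha b hb
  inv_mem' := fun {a} ha => h3 a ha

def Afin : Finset G5 := {1, s5, t5, s5 * t5}

def thetaFin (a : G5) : Finset G5 :=
  if a = s5 then {1, u5, u5 * u5} else if a = t5 then {1, v5, v5 * v5} else {1}

theorem theta_one (a : G5) : 1 ∈ thetaFin a := by
  unfold thetaFin
  split_ifs <;> simp

theorem theta_mul (a : G5) : ∀ x ∈ thetaFin a, ∀ y ∈ thetaFin a, x * y ∈ thetaFin a := by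
  unfold thetaFin
  split_ifs <;> decide +kernel

theorem theta_inv (a : G5) : ∀ x ∈ thetaFin a, x⁻¹ ∈ thetaFin a := by
  unfold thetaFin
  split_ifs <;> decide +kernel

def thetaS (a : G5) : Subgroup G5 := subOf (thetaFin a) (theta_one a) (theta_mul a) (theta_inv a)

def A5 : Subgroup G5 := subOf Afin (by decide +kernel) (by decide +kernel) (by decide +kernel)

theorem mem_thetaS {a x : G5} : x ∈ thetaS a ↔ x ∈ thetaFin a := Iff.rfl

theorem mem_A5 {x : G5} : x ∈ A5 ↔ x ∈ Afin := Iff.rfl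

theorem D1 : ∀ a ∈ Afin, a ≠ 1 → ∀ x ∈ thetaFin a, x * a = a * x := by decide +kernel
theorem D2 : ∀ a ∈ Afin, a ≠ 1 → ∀ b ∈ Afin, ∀ x ∈ thetaFin a, b * x * b⁻¹ ∈ thetaFin a := by decide +kernel
theorem D3 : ∀ a ∈ Afin, a ≠ 1 → ∀ b ∈ Afin, b ≠ 1 → ∀ x ∈ thetaFin a, x * b = b * x → x ∈ thetaFin b := by
  decide +kernel
theorem D4 : ∀ a ∈ Afin, a ≠ 1 → ∀ x ∈ thetaFin a, ∀ y ∈ thetaFin a, x * y = y * x := by decide +kernel
theorem D5 : ∀ a ∈ Afin, a ≠ 1 → ¬ 2 ∣ (thetaFin a).card := by decide +kernel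
theorem D6 : ∀ a ∈ Afin, ∀ b ∈ Afin, a * b = b * a := by decide +kernel
theorem D7 : ∀ a ∈ Afin, a ^ 2 = 1 := by decide +kernel
theorem D8 : Afin.card = 4 := by decide +kernel

theorem card_theta (a : G5) : Nat.card (thetaS a) = (thetaFin a).card := by
  rw [Nat.card_congr (Equiv.subtypeEquivRight (fun x => (mem_thetaS : x ∈ thetaS a ↔ x ∈ thetaFin a))),
    Nat.card_eq_fintype_card, Fintype.card_coe]

theorem card_A5 : Nat.card A5 = 4 := by
  rw [Nat.card_congr (Equiv.subtypeEquivRight (fun x => (mem_A5 : x ∈ A5 ↔ x ∈ Afin))),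
    Nat.card_eq_fintype_card, Fintype.card_coe, D8]

theorem elem : IsElementaryAbelian 2 A5 :=
  ⟨⟨⟨fun a b => Subtype.ext (D6 a a.2 b b.2)⟩⟩, D7⟩

theorem mem_cent {a x : G5} : x ∈ centralizer ({a} : Set G5) ↔ x * a = a * x := by
  rw [Subgroup.mem_centralizer_iff]
  constructor
  · intro h
    exact (h a rfl).symm
  · intro h w hw
    rw [Set.mem_singleton_iff] at hw
    subst hw
    exact h.symm

theorem functor : IsSolvableSignalizerFunctor 2 A5 thetaS := by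
  refine ⟨⟨?_, ?_, ?_, ?_⟩, ?_⟩
  · intro a ha ha1 x hx
    exact mem_cent.2 (D1 a ha ha1 x hx)
  · intro a ha ha1
    rw [card_theta]
    exact D5 a ha ha1
  · intro a ha ha1 b hb x hx
    exact D2 a ha ha1 b hb x hx
  · rintro a ha ha1 b hb hb1 x ⟨hx, hxc⟩
    exact D3 a ha ha1 b hb hb1 x hx (mem_cent.1 hxc)
  · intro a ha ha1
    exact Group.isSolvable_of_comm (fun x y => Subtype.ext (D4 a ha ha1 x x.2 y y.2))

theorem not_complete : ¬ IsCompleteSignalizerFunctor 2 A5 thetaS := by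
  rintro ⟨_, X, _, hX2, hX⟩
  have hs : s5 ∈ A5 := by
    show s5 ∈ Afin
    decide +kernel
  have ht : t5 ∈ A5 := by
    show t5 ∈ Afin
    decide +kernel
  have hs1 : s5 ≠ 1 := by decide +kernel
  have ht1 : t5 ≠ 1 := by decide +kernel
  have hu : u5 ∈ X := by
    have h1 : u5 ∈ thetaS s5 := by
      show u5 ∈ thetaFin s5
      decide +kernel
    rw [← hX s5 hs hs1] at h1
    exact h1.1
  have hv : v5 ∈ X := by
    have h1 : v5 ∈ thetaS t5 := by
      show v5 ∈ thetaFin t5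
      decide +kernel
    rw [← hX t5 ht ht1] at h1
    exact h1.1
  have hw : u5 * v5 * u5 * v5⁻¹ ∈ X := X.mul_mem (X.mul_mem (X.mul_mem hu hv) hu) (X.inv_mem hv)
  have h2 : (u5 * v5 * u5 * v5⁻¹) ^ 2 = 1 := by decide +kernel
  have h3 : (u5 * v5 * u5 * v5⁻¹) ≠ 1 := by decide +kernel
  have h4 : orderOf (u5 * v5 * u5 * v5⁻¹) = 2 := orderOf_eq_prime h2 h3
  apply hX2
  rw [← h4]
  exact Subgroup.orderOf_dvd_natCard X hw

end CfsgLib.SignalEx
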