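import Mathlib

/-! Sylow subgroups of alternating groups: abelian exactly in small degree. -/

set_option autoImplicit false

namespace CfsgLib.SylowAlt

open scoped Pointwise

/-- `p`-subgroups of permutations of fewer than `p²` points are commutative. -/
theorem comm_of_small {α : Type*} [Fintype α] [DecidableEq α] {p : ℕ} [hp : Fact p.Prime]
    (hn : Fintype.card α < p ^ 2) (H : Subgroup (Equiv.Perm α)) (hH : IsPGroup p H) (x y : H) :
    (x : Equiv.Perm α) * y = y * x := by
  apply Equiv.ext
  intro a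
  obtain ⟨k, hk⟩ := hH.card_orbit a
  have hle : Nat.card (MulAction.orbit H a) ≤ Fintype.card α := by
    rw [← Nat.card_eq_fintype_card]
    exact Finite.card_subtype_le _
  have hk1 : k ≤ 1 := by
    by_contra hcon
    push Not at hcon
    have : p ^ 2 ≤ p ^ k := Nat.pow_le_pow_right hp.out.pos hcon
    omega
  let ρ := MulAction.toPermHom H (MulAction.orbit H a)
  have hrange : IsPGroup p ρ.range := hH.of_surjective ρ.rangeRestrict ρ.rangeRestrict_surjective
  obtain ⟨e, he⟩ := IsPGroup.iff_card.1 hrange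
  have hdvd : p ^ e ∣ (Nat.card (MulAction.orbit H a)).factorial := by
    rw [← he, ← Nat.card_perm]
    exact Subgroup.card_subgroup_dvd_card _
  have he1 : e ≤ 1 := by
    by_contra hcon
    push Not at hcon
    have h2 : p ^ 2 ∣ (Nat.card (MulAction.orbit H a)).factorial :=
      (pow_dvd_pow p hcon).trans hdvd
    rw [hk] at h2
    have hp2 := hp.out.two_le
    rcases Nat.le_one_iff_eq_zero_or_eq_one.1 hk1 with rfl | rfl
    · simp only [pow_zero, Nat.factorial_one, Nat.dvd_one] at h2
      have : 1 < p ^ 2 := Nat.one_lt_pow (by norm_num) (by omega)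
      omega
    · rw [pow_one, ← Nat.mul_factorial_pred hp.out.ne_zero, sq] at h2
      have h3 := Nat.dvd_of_mul_dvd_mul_left hp.out.pos h2
      rw [hp.out.dvd_factorial] at h3
      omega
  have hcyc : IsCyclic ρ.range := by
    rcases Nat.le_one_iff_eq_zero_or_eq_one.1 he1 with rfl | rfl
    · rw [pow_zero] at he
      have : Subsingleton ρ.range := (Nat.card_eq_one_iff_unique.1 he).1
      infer_instance
    · rw [pow_one] at he
      exact isCyclic_of_prime_card he
  have hc : ρ x * ρ y = ρ y * ρ x := by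
    have h3 := hcyc.commutative.is_comm.comm (⟨ρ x, x, rfl⟩ : ρ.range) ⟨ρ y, y, rfl⟩
    exact congrArg Subtype.val h3
  have h4 := congrArg (fun f : Equiv.Perm (MulAction.orbit H a) =>
    ((f ⟨a, MulAction.mem_orbit_self a⟩ : MulAction.orbit H a) : α)) hc
  exact h4

/-- An abstract source of non-abelian `p`-subgroups. -/
theorem isPGroup_of_gens {G : Type*} [Group G] {p : ℕ} [Fact p.Prime] (A : Set G) (b : G)
    (hA : ∀ a ∈ A, a ^ p = 1) (hcomm : ∀ a ∈ A, ∀ c ∈ A, a * c = c * a) (hb : b ^ p = 1)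
    (hbA : ∀ a ∈ A, b * a * b⁻¹ ∈ A) (hbA' : ∀ a ∈ A, b⁻¹ * a * b ∈ A) :
    IsPGroup p ↥(Subgroup.zpowers b ⊔ Subgroup.closure A) := by
  have hc : ∀ x ∈ Subgroup.closure A, ∀ y ∈ Subgroup.closure A, x * y = y * x := by
    letI := Subgroup.closureCommGroupOfComm hcomm
    intro x hx y hy
    have := mul_comm (⟨x, hx⟩ : Subgroup.closure A) ⟨y, hy⟩
    exact congrArg Subtype.val this
  have hE : IsPGroup p (Subgroup.closure A) := by
    have h1 : ∀ e ∈ Subgroup.closure A, e ^ p = 1 := by
      intro e he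
      induction he using Subgroup.closure_induction with
      | mem x hx => exact hA x hx
      | one => exact one_pow p
      | mul x y hx hy ihx ihy =>
        have hcm : Commute x y := hc x hx y hy
        rw [hcm.mul_pow, ihx, ihy, one_mul]
      | inv x _ ihx => rw [inv_pow, ihx, inv_one]
    intro e
    refine ⟨1, ?_⟩
    apply Subtype.ext
    rw [pow_one]
    exact h1 e e.2
  have hZ : IsPGroup p (Subgroup.zpowers b) := by
    intro g
    refine ⟨1, ?_⟩
    apply Subtype.ext
    obtain ⟨k, hk⟩ := g.2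
    rw [pow_one]
    show (g : G) ^ p = 1
    rw [← hk]
    show (b ^ k) ^ p = 1
    rw [← zpow_natCast, ← zpow_mul, mul_comm, zpow_mul, zpow_natCast, hb, one_zpow]
  refine hZ.to_sup_of_normal_right' hE ?_
  rw [Subgroup.zpowers_le, Subgroup.mem_normalizer_iff]
  intro h
  constructor
  · intro hh
    induction hh using Subgroup.closure_induction with
    | mem x hx => exact Subgroup.subset_closure (hbA x hx)
    | one => simp
    | mul x y _ _ ihx ihy =>
      have := Subgroup.mul_mem _ ihx ihy
      simpa [mul_assoc] using this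
    | inv x _ ihx =>
      have := Subgroup.inv_mem _ ihx
      simpa [mul_assoc] using this
  · intro hh
    have key : ∀ z ∈ Subgroup.closure A, b⁻¹ * z * b ∈ Subgroup.closure A := by
      intro z hz
      induction hz using Subgroup.closure_induction with
      | mem x hx => exact Subgroup.subset_closure (hbA' x hx)
      | one => simp
      | mul x y _ _ ihx ihy =>
        have := Subgroup.mul_mem _ ihx ihy
        simpa [mul_assoc] using this
      | inv x _ ihx =>
        have := Subgroup.inv_mem _ ihx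
        simpa [mul_assoc] using this
    have := key _ hh
    simpa [mul_assoc] using this

/-- A non-abelian `p`-subgroup of even permutations forbids abelian Sylow subgroups. -/
theorem not_comm_of_witness {n p : ℕ} [Fact p.Prime] (S : Sylow p (alternatingGroup (Fin n)))
    (P : Subgroup (Equiv.Perm (Fin n))) (hP : IsPGroup p P) (hle : P ≤ alternatingGroup (Fin n))
    (x y : Equiv.Perm (Fin n)) (hx : x ∈ P) (hy : y ∈ P) (hxy : x * y ≠ y * x) :
    ¬ IsMulCommutative S := by
  intro hc
  have hP' : IsPGroup p (P.subgroupOf (alternatingGroup (Fin n))) :=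
    hP.comap_of_injective _ (Subgroup.subtype_injective _)
  obtain ⟨Q, hQ⟩ := hP'.exists_le_sylow
  obtain ⟨g, hg⟩ := MulAction.exists_smul_eq (alternatingGroup (Fin n)) Q S
  let x' : alternatingGroup (Fin n) := ⟨x, hle hx⟩
  let y' : alternatingGroup (Fin n) := ⟨y, hle hy⟩
  have hx' : x' ∈ Q := hQ (by rwa [Subgroup.mem_subgroupOf])
  have hy' : y' ∈ Q := hQ (by rwa [Subgroup.mem_subgroupOf])
  have hS : ∀ z ∈ Q, g * z * g⁻¹ ∈ S := by
    intro z hz
    rw [← hg]
    change _ ∈ (↑(g • Q) : Subgroup (alternatingGroup (Fin n)))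
    rw [Sylow.coe_subgroup_smul]
    exact Subgroup.mem_pointwise_smul_iff_inv_smul_mem.2 (by
      simpa [MulAut.conj_inv_apply, mul_assoc] using (show z ∈ (Q : Subgroup _) from hz))
  have h1 := hc.is_comm.comm (⟨_, hS _ hx'⟩ : S) ⟨_, hS _ hy'⟩
  have h2 : g * x' * g⁻¹ * (g * y' * g⁻¹) = g * y' * g⁻¹ * (g * x' * g⁻¹) :=
    congrArg Subtype.val h1
  have h3 : x' * y' = y' * x' := by
    have h4 : g * (x' * y') * g⁻¹ = g * (y' * x') * g⁻¹ := by
      simpa [mul_assoc] using h2
    simpa using h4
  exact hxy (congrArg Subtype.val h3)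

/-- The base elements of the wreath product. -/
def aj (p : ℕ) (j : ZMod p) : Equiv.Perm (ZMod p × ZMod p) where
  toFun x := (if x.2 = j then x.1 + 1 else x.1, x.2)
  invFun x := (if x.2 = j then x.1 - 1 else x.1, x.2)
  left_inv x := by
    apply Prod.ext
    · by_cases h : x.2 = j <;> simp [h]
    · rfl
  right_inv x := by
    apply Prod.ext
    · by_cases h : x.2 = j <;> simp [h]
    · rfl

/-- The top element of the wreath product. -/
def bb (p : ℕ) : Equiv.Perm (ZMod p × ZMod p) where
  toFun x := (x.1, x.2 + 1)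
  invFun x := (x.1, x.2 - 1)
  left_inv x := by simp
  right_inv x := by simp

theorem aj_apply (p : ℕ) (j : ZMod p) (x : ZMod p × ZMod p) :
    aj p j x = (if x.2 = j then x.1 + 1 else x.1, x.2) := rfl

theorem bb_apply (p : ℕ) (x : ZMod p × ZMod p) : bb p x = (x.1, x.2 + 1) := rfl

theorem bb_inv_apply (p : ℕ) (x : ZMod p × ZMod p) : (bb p)⁻¹ x = (x.1, x.2 - 1) := rfl

theorem aj_pow (p : ℕ) (j : ZMod p) (m : ℕ) (x : ZMod p × ZMod p) :
    (aj p j ^ m) x = (x.1 + (if x.2 = j then (m : ZMod p) else 0), x.2) := by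
  induction m with
  | zero => simp
  | succ m ih =>
    rw [pow_succ', Equiv.Perm.mul_apply, ih, aj_apply]
    by_cases h : x.2 = j
    · simp only [h, if_true]
      push_cast
      ring_nf
    · simp [h]

theorem bb_pow (p : ℕ) (m : ℕ) (x : ZMod p × ZMod p) :
    (bb p ^ m) x = (x.1, x.2 + (m : ZMod p)) := by
  induction m with
  | zero => simp
  | succ m ih =>
    rw [pow_succ', Equiv.Perm.mul_apply, ih, bb_apply]
    simp only [Prod.mk.injEq, true_and]
    push_cast
    ring

theorem aj_pow_p (p : ℕ) (j : ZMod p) : aj p j ^ p = 1 := by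
  apply Equiv.ext
  intro x
  rw [aj_pow]
  simp

theorem bb_pow_p (p : ℕ) : bb p ^ p = 1 := by
  apply Equiv.ext
  intro x
  rw [bb_pow]
  simp

theorem aj_comm (p : ℕ) (j k : ZMod p) : aj p j * aj p k = aj p k * aj p j := by
  apply Equiv.ext
  intro x
  simp only [Equiv.Perm.mul_apply, aj_apply]
  apply Prod.ext
  · simp only
    split_ifs <;> ring
  · rfl

theorem bb_conj (p : ℕ) (j : ZMod p) : bb p * aj p j * (bb p)⁻¹ = aj p (j + 1) := by
  apply Equiv.ext
  intro x
  simp only [Equiv.Perm.mul_apply, aj_apply, bb_apply, bb_inv_apply]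
  have h : (x.2 - 1 = j) ↔ (x.2 = j + 1) := sub_eq_iff_eq_add
  by_cases h1 : x.2 = j + 1
  · simp [h, h1]
  · simp [h, h1]

theorem bb_conj' (p : ℕ) (j : ZMod p) : (bb p)⁻¹ * aj p j * bb p = aj p (j - 1) := by
  have h := bb_conj p (j - 1)
  rw [sub_add_cancel] at h
  rw [← h]
  group

theorem odd_case {n p : ℕ} [hp : Fact p.Prime] (hodd : Odd p) (hn : p ^ 2 ≤ n)
    (S : Sylow p (alternatingGroup (Fin n))) : ¬ IsMulCommutative S := by
  haveI : NeZero p := ⟨hp.out.ne_zero⟩
  have hcard : Fintype.card (ZMod p × ZMod p) ≤ Fintype.card (Fin n) := by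
    rw [Fintype.card_prod, ZMod.card, Fintype.card_fin, ← sq]
    exact hn
  obtain ⟨ι⟩ := Function.Embedding.nonempty_of_card_le hcard
  have hP0 := isPGroup_of_gens (p := p) (Set.range (aj p)) (bb p)
    (by rintro _ ⟨j, rfl⟩; exact aj_pow_p p j)
    (by rintro _ ⟨j, rfl⟩ _ ⟨k, rfl⟩; exact aj_comm p j k)
    (bb_pow_p p)
    (by rintro _ ⟨j, rfl⟩; exact ⟨j + 1, (bb_conj p j).symm⟩)
    (by rintro _ ⟨j, rfl⟩; exact ⟨j - 1, (bb_conj' p j).symm⟩)
  set H0 := Subgroup.zpowers (bb p) ⊔ Subgroup.closure (Set.range (aj p)) with hH0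
  let f := Equiv.Perm.viaEmbeddingHom ι
  have hP1 : IsPGroup p (H0.map f) := hP0.map f
  refine not_comm_of_witness S (H0.map f) hP1 ?_ (f (aj p 0)) (f (bb p))
    (Subgroup.mem_map_of_mem _ (Subgroup.mem_sup_right (Subgroup.subset_closure ⟨0, rfl⟩)))
    (Subgroup.mem_map_of_mem _ (Subgroup.mem_sup_left (Subgroup.mem_zpowers _))) ?_
  · intro σ hσ
    obtain ⟨m, hm⟩ := hP1 ⟨σ, hσ⟩
    have h1 : σ ^ p ^ m = 1 := congrArg Subtype.val hm
    have h2 : (Equiv.Perm.sign σ) ^ p ^ m = 1 := by rw [← map_pow, h1, map_one]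
    rw [Equiv.Perm.mem_alternatingGroup]
    rcases Int.units_eq_one_or (Equiv.Perm.sign σ) with h3 | h3
    · exact h3
    · rw [h3, (hodd.pow).neg_one_pow] at h2
      exact absurd h2 (by decide)
  · intro h
    rw [← map_mul, ← map_mul] at h
    have h5 := Equiv.Perm.viaEmbeddingHom_injective ι h
    have h6 := congrArg (fun e : Equiv.Perm (ZMod p × ZMod p) => (e (0, 0)).1) h5
    simp [aj_apply, bb_apply] at h6

theorem sign_via {α β : Type*} [Fintype α] [DecidableEq α] [Fintype β] [DecidableEq β] (ι : α ↪ β)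
    (e : Equiv.Perm α) : Equiv.Perm.sign (Equiv.Perm.viaEmbeddingHom ι e) = Equiv.Perm.sign e := by
  classical
  rw [Equiv.Perm.viaEmbeddingHom_apply]
  unfold Equiv.Perm.viaEmbedding
  convert Equiv.Perm.sign_extendDomain e (Equiv.ofInjective ι.1 ι.2)

/-- Witnesses for the prime two. -/
def a0 : Equiv.Perm (Fin 6) := Equiv.swap 0 1 * Equiv.swap 4 5
def a1 : Equiv.Perm (Fin 6) := Equiv.swap 2 3 * Equiv.swap 4 5
def b2 : Equiv.Perm (Fin 6) := Equiv.swap 0 2 * Equiv.swap 1 3

theorem even_case {n : ℕ} [Fact (Nat.Prime 2)] (hn : 6 ≤ n)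
    (S : Sylow 2 (alternatingGroup (Fin n))) : ¬ IsMulCommutative S := by
  have hP0 := isPGroup_of_gens (p := 2) ({a0, a1} : Set (Equiv.Perm (Fin 6))) b2
    (by
      simp only [Set.mem_insert_iff, Set.mem_singleton_iff]
      rintro a (rfl | rfl) <;> decide +kernel)
    (by
      simp only [Set.mem_insert_iff, Set.mem_singleton_iff]
      rintro a (rfl | rfl) c (rfl | rfl) <;> decide +kernel)
    (by decide +kernel)
    (by
      simp only [Set.mem_insert_iff, Set.mem_singleton_iff]
      rintro a (rfl | rfl)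
      · exact Or.inr (by decide +kernel)
      · exact Or.inl (by decide +kernel))
    (by
      simp only [Set.mem_insert_iff, Set.mem_singleton_iff]
      rintro a (rfl | rfl)
      · exact Or.inr (by decide +kernel)
      · exact Or.inl (by decide +kernel))
  set H0 := Subgroup.zpowers b2 ⊔ Subgroup.closure ({a0, a1} : Set (Equiv.Perm (Fin 6))) with hH0
  let ι : Fin 6 ↪ Fin n := Fin.castLEEmb hn
  let f := Equiv.Perm.viaEmbeddingHom ι
  have hP1 : IsPGroup 2 (H0.map f) := hP0.map f
  have hev : H0 ≤ alternatingGroup (Fin 6) := by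
    refine sup_le ?_ ?_
    · rw [Subgroup.zpowers_le, Equiv.Perm.mem_alternatingGroup]
      decide +kernel
    · rw [Subgroup.closure_le]
      intro a ha
      simp only [Set.mem_insert_iff, Set.mem_singleton_iff] at ha
      rcases ha with rfl | rfl
      · show Equiv.Perm.sign a0 = 1
        decide +kernel
      · show Equiv.Perm.sign a1 = 1
        decide +kernel
  refine not_comm_of_witness S (H0.map f) hP1 ?_ (f a0) (f b2)
    (Subgroup.mem_map_of_mem _ (Subgroup.mem_sup_right (Subgroup.subset_closure (by simp))))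
    (Subgroup.mem_map_of_mem _ (Subgroup.mem_sup_left (Subgroup.mem_zpowers _))) ?_
  · rintro _ ⟨τ, hτ, rfl⟩
    rw [Equiv.Perm.mem_alternatingGroup]
    show Equiv.Perm.sign (Equiv.Perm.viaEmbeddingHom ι τ) = 1
    rw [sign_via]
    exact hev hτ
  · intro h
    rw [← map_mul, ← map_mul] at h
    have h5 := Equiv.Perm.viaEmbeddingHom_injective ι h
    revert h5
    decide +kernel

/-- The main equivalence. -/
theorem main (n p : ℕ) (hn : 6 ≤ n) [hp : Fact p.Prime] (S : Sylow p (alternatingGroup (Fin n))) :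
    IsMulCommutative S ↔ n < p ^ 2 := by
  constructor
  · intro hc
    by_contra hcon
    push Not at hcon
    rcases hp.out.eq_two_or_odd' with rfl | hodd
    · exact even_case hn S hc
    · exact odd_case hodd hcon S hc
  · intro h
    have hP : IsPGroup p ((S : Subgroup (alternatingGroup (Fin n))).map
        (alternatingGroup (Fin n)).subtype) := S.2.map _
    refine ⟨⟨fun x y => ?_⟩⟩
    have h1 := comm_of_small (α := Fin n) (p := p) (by simpa using h) _ hP
      ⟨x.1.1, Subgroup.mem_map_of_mem _ x.2⟩ ⟨y.1.1, Subgroup.mem_map_of_mem _ y.2⟩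
    apply Subtype.ext
    apply Subtype.ext
    exact h1

end CfsgLib.SylowAlt
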