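import Mathlib

/-! Orders of Sylow subgroups from the factorisation of the order. -/

namespace CfsgLib.SC

open Subgroup

variable {G : Type*} [Group G] [Finite G]

/-- order of a Sylow subgroup -/
lemma card_sylow_eq {p k m : ℕ} [hp : Fact p.Prime] (hG : Nat.card G = p ^ k * m) (hm : ¬ p ∣ m)
    (P : Sylow p G) : Nat.card P = p ^ k := by
  obtain ⟨a, ha⟩ := IsPGroup.iff_card.1 P.isPGroup'
  have hcard : Nat.card P * (P : Subgroup G).index = p ^ k * m := by
    rw [← hG]; exact card_mul_index _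
  have hidx : ¬ p ∣ (P : Subgroup G).index := P.not_dvd_index
  rw [ha] at hcard ⊢
  have h1 : p ^ a ∣ p ^ k * m := ⟨_, hcard.symm⟩
  have hc1 : Nat.Coprime (p ^ a) m := Nat.Coprime.pow_left _ ((Nat.Prime.coprime_iff_not_dvd hp.out).2 hm)
  have h2 : p ^ a ∣ p ^ k := hc1.dvd_of_dvd_mul_right h1
  have h3 : p ^ k ∣ p ^ a * (P : Subgroup G).index := ⟨m, hcard⟩
  have hc2 : Nat.Coprime (p ^ k) (P : Subgroup G).index :=
    Nat.Coprime.pow_left _ ((Nat.Prime.coprime_iff_not_dvd hp.out).2 hidx)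
  have h4 : p ^ k ∣ p ^ a := hc2.dvd_of_dvd_mul_right h3
  exact Nat.dvd_antisymm h2 h4

lemma index_sylow_eq {p k m : ℕ} [hp : Fact p.Prime] (hG : Nat.card G = p ^ k * m) (hm : ¬ p ∣ m)
    (P : Sylow p G) : (P : Subgroup G).index = m := by
  have hcard : Nat.card P * (P : Subgroup G).index = p ^ k * m := by
    rw [← hG]; exact card_mul_index _
  rw [card_sylow_eq hG hm] at hcard
  exact Nat.eq_of_mul_eq_mul_left (pow_pos hp.out.pos k) hcard

end CfsgLib.SC
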