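import Cfsg.Agent.Lib.OOL.Sec23
import Cfsg.Agent.Lib.OOL.GT2
import Cfsg.Agent.Lib.Solv.Core

/-!
# A `p`-element of `SL₂(F)` (`p` odd) normalizing a `p'`-subgroup `R` without centralizing it:
`p = 3`, `R ≅ Q₈` and `R⟨a⟩ ≅ SL₂(3)`.
-/

set_option linter.unusedSectionVars false
set_option linter.style.haveILetI false
set_option linter.unusedSimpArgs false
set_option linter.unusedVariables false

namespace CfsgLib.TransvNorm

open Subgroup Cfsg Matrix

universe u

variable {F : Type u} [Field F]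

local notation "M2" => Matrix (Fin 2) (Fin 2) F
local notation "SL2" => Matrix.SpecialLinearGroup (Fin 2) F

/-- The centralizer of a non-scalar `2 × 2` matrix. -/
theorem exists_span_of_comm (X Y : M2) (hX : ¬ (X 0 1 = 0 ∧ X 1 0 = 0 ∧ X 0 0 = X 1 1)) (h : X * Y = Y * X) :
    ∃ α β : F, Y = α • (1 : M2) + β • X := by
  classical
  have e00 := congrFun (congrFun h 0) 0
  have e01 := congrFun (congrFun h 0) 1
  have e10 := congrFun (congrFun h 1) 0
  simp only [Matrix.mul_apply, Fin.sum_univ_two] at e00 e01 e10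
  have key : ∀ α β : F, Y 0 0 = α + β * X 0 0 → Y 0 1 = β * X 0 1 → Y 1 0 = β * X 1 0 →
      Y 1 1 = α + β * X 1 1 → Y = α • (1 : M2) + β • X := by
    intro α β h00 h01 h10 h11
    ext i j
    fin_cases i <;> fin_cases j <;> simp [h00, h01, h10, h11]
  by_cases h1 : X 0 1 = 0
  · by_cases h2 : X 1 0 = 0
    · have h3 : X 0 0 - X 1 1 ≠ 0 := by
        intro h3
        exact hX ⟨h1, h2, sub_eq_zero.mp h3⟩
      rw [h1] at e01 e00
      rw [h2] at e10 e00
      have y01 : Y 0 1 = 0 := by
        have : (X 0 0 - X 1 1) * Y 0 1 = 0 := by linear_combination e01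
        exact (mul_eq_zero.mp this).resolve_left h3
      have y10 : Y 1 0 = 0 := by
        have : (X 0 0 - X 1 1) * Y 1 0 = 0 := by linear_combination -e10
        exact (mul_eq_zero.mp this).resolve_left h3
      set β : F := (Y 0 0 - Y 1 1) / (X 0 0 - X 1 1) with hβdef
      have hβ : β * (X 0 0 - X 1 1) = Y 0 0 - Y 1 1 := by
        rw [hβdef]
        field_simp
      refine ⟨Y 0 0 - β * X 0 0, β, key _ _ (by ring) (by rw [y01, h1, mul_zero]) (by rw [y10, h2, mul_zero]) ?_⟩
      linear_combination hβ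
    · set β : F := Y 1 0 / X 1 0 with hβdef
      have hβ : β * X 1 0 = Y 1 0 := by
        rw [hβdef]
        field_simp
      have y01 : Y 0 1 = 0 := by
        rw [h1] at e00
        have : X 1 0 * Y 0 1 = 0 := by linear_combination -e00
        exact (mul_eq_zero.mp this).resolve_left h2
      refine ⟨Y 0 0 - β * X 0 0, β, key _ _ (by ring) (by rw [y01, h1, mul_zero]) hβ.symm ?_⟩
      apply mul_left_cancel₀ h2
      linear_combination -e10 + (X 0 0 - X 1 1) * hβ
  · set β : F := Y 0 1 / X 0 1 with hβdef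
    have hβ : β * X 0 1 = Y 0 1 := by
      rw [hβdef]
      field_simp
    refine ⟨Y 0 0 - β * X 0 0, β, key _ _ (by ring) hβ.symm ?_ ?_⟩
    · apply mul_left_cancel₀ h1
      linear_combination e00 - X 1 0 * hβ
    · apply mul_left_cancel₀ h1
      linear_combination e01 + (X 0 0 - X 1 1) * hβ

/-- Cayley–Hamilton for a matrix with determinant one. -/
theorem sq_eq (g : M2) (hd : g.det = 1) : g * g = (g 0 0 + g 1 1) • g - (1 : M2) := by
  rw [Matrix.det_fin_two] at hd
  ext i j
  fin_cases i <;> fin_cases j <;> simp [Matrix.mul_apply, Fin.sum_univ_two, Matrix.one_apply]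
  · linear_combination -hd
  · ring
  · ring
  · linear_combination -hd

theorem one_add_pow (N : M2) (hN : N * N = 0) (n : ℕ) : ((1 : M2) + N) ^ n = 1 + (n : F) • N := by
  induction n with
  | zero => simp
  | succ n ih =>
    rw [pow_succ, ih]
    push_cast
    rw [add_mul, mul_add, mul_add, one_mul, mul_one, one_mul, Matrix.smul_mul, hN, smul_zero, add_zero, add_smul,
      one_smul, add_assoc]
    abel

/-- A determinant one matrix with `tr² = 4` of order prime to the characteristic is scalar. -/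
theorem scalar_of_trace_sq (h2 : (2 : F) ≠ 0) (g : M2) (hd : g.det = 1) (ht : (g 0 0 + g 1 1) ^ 2 = 4) (m : ℕ)
    (hm : g ^ m = 1) (hmF : (m : F) ≠ 0) : g 0 1 = 0 ∧ g 1 0 = 0 ∧ g 0 0 = g 1 1 := by
  classical
  set t := g 0 0 + g 1 1 with htdef
  have hg2 := sq_eq g hd
  set ε : F := t / 2 with hε
  have hεsq : ε * ε = 1 := by
    rw [hε]
    field_simp
    linear_combination ht
  have hε0 : ε ≠ 0 := fun h => by
    rw [h, zero_mul] at hεsq
    exact zero_ne_one hεsq
  have ht2 : t = 2 * ε := by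
    rw [hε]
    field_simp
  set N : M2 := g - ε • (1 : M2) with hN
  have hgN : g = ε • (1 : M2) + N := by
    rw [hN]
    abel
  have hNN : N * N = 0 := by
    have h1 : N * N = g * g - (2 * ε) • g + (ε * ε) • (1 : M2) := by
      rw [hN]
      simp only [sub_mul, mul_sub, Matrix.smul_mul, Matrix.mul_smul, mul_one, one_mul, smul_sub, smul_smul, two_mul,
        add_smul]
      abel
    rw [h1, hg2, hεsq, ← htdef, ht2]
    simp
  -- `g² = 1 + 2εN`
  have hgg : g * g = 1 + (2 * ε) • N := by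
    rw [hg2, ← htdef, ht2]
    nth_rw 1 [hgN]
    rw [smul_add, smul_smul]
    have : 2 * ε * ε = 2 := by rw [mul_assoc, hεsq, mul_one]
    rw [this, two_smul]
    abel
  have hpow := one_add_pow ((2 * ε) • N) (by
    rw [Matrix.smul_mul, Matrix.mul_smul, hNN]; simp) m
  rw [← hgg] at hpow
  have h3 : (g * g) ^ m = 1 := by
    rw [← pow_two, ← pow_mul, mul_comm, pow_mul, hm, one_pow]
  rw [h3] at hpow
  have h4 : ((m : F) * (2 * ε)) • N = 0 := by
    rw [← smul_smul]
    have h5 : (1 : M2) = 1 + (m : F) • (2 * ε) • N := hpow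
    exact (add_eq_left.mp h5.symm)
  have h6 : (m : F) * (2 * ε) ≠ 0 := mul_ne_zero hmF (mul_ne_zero h2 hε0)
  have hN0 : N = 0 := (smul_eq_zero.mp h4).resolve_left h6
  rw [hN0, add_zero] at hgN
  rw [hgN]
  simp

theorem scalar_sq (g : M2) (hd : g.det = 1) (hs : g 0 1 = 0 ∧ g 1 0 = 0 ∧ g 0 0 = g 1 1) : g * g = 1 := by
  obtain ⟨h1, h2, h3⟩ := hs
  rw [Matrix.det_fin_two, h1, h2, h3] at hd
  ext i j
  fin_cases i <;> fin_cases j <;> simp [Matrix.mul_apply, Fin.sum_univ_two, h1, h2, h3]
  · linear_combination hd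
  · linear_combination hd

/-- Traces of unipotent elements: a `p`-element has trace two, and is unipotent. -/
theorem unipotent_of_pow [Fintype F] {p : ℕ} [hp : Fact p.Prime] [CharP F p] (a : M2) (hd : a.det = 1) (k : ℕ)
    (ha : a ^ p ^ k = 1) : a 0 0 + a 1 1 = 2 ∧ a ^ p = 1 := by
  classical
  set t := a 0 0 + a 1 1 with ht
  set N : M2 := a - 1 with hN
  have ha2 := sq_eq a hd
  have hNN : N * N = (t - 2) • a := by
    rw [hN]
    simp only [sub_mul, mul_sub, mul_one, one_mul, sub_smul]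
    rw [ha2, ← ht, two_smul]
    abel
  have hcomm : Commute a (1 : M2) := Commute.one_right a
  haveI : CharP M2 p := Matrix.charP p
  have h1 : N ^ p ^ k = 0 := by
    rw [hN, sub_pow_char_pow_of_commute (p := p) (n := k) hcomm, ha, one_pow, sub_self]
  have h2 : (N * N) ^ p ^ k = 0 := by
    rw [← pow_two, ← pow_mul, mul_comm, pow_mul, h1]
    simp
  rw [hNN, smul_pow, ha] at h2
  have h3 : (t - 2) ^ p ^ k = 0 := by
    have h4 := congrFun (congrFun h2 0) 0
    simpa using h4
  have h4 : t = 2 := by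
    have := pow_eq_zero_iff (M₀ := F) (a := t - 2) (pow_ne_zero k hp.out.ne_zero)
    exact sub_eq_zero.mp (this.mp h3)
  refine ⟨h4, ?_⟩
  have hNN0 : N * N = 0 := by
    rw [hNN, h4]
    simp
  have h5 : a = 1 + N := by
    rw [hN]
    abel
  rw [h5, one_add_pow N hNN0, CharP.cast_eq_zero F p]
  simp

/-- Conjugation by a unipotent element of odd order on a commuting element: the latter is scalar. -/
theorem scalar_of_comm_conj (h2 : (2 : F) ≠ 0) (a a' g : M2) (hda : a.det = 1) (haa' : a * a' = 1) (ha'a : a' * a = 1)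
    (hta : a 0 0 + a 1 1 = 2)
    (hans : ¬ (a 0 1 = 0 ∧ a 1 0 = 0 ∧ a 0 0 = a 1 1)) (p : ℕ) (hodd : Odd p) (hap : a ^ p = 1)
    (hdg : g.det = 1) (m : ℕ) (hm : g ^ m = 1) (hmF : (m : F) ≠ 0)
    (hcomm : g * (a * g * a') = (a * g * a') * g) : g 0 1 = 0 ∧ g 1 0 = 0 ∧ g 0 0 = g 1 1 := by
  classical
  by_contra hns
  set t := g 0 0 + g 1 1 with ht
  have ht4 : t ^ 2 ≠ 4 := fun h => hns (scalar_of_trace_sq h2 g hdg h m hm hmF)
  set h : M2 := a * g * a' with hh
  obtain ⟨α, β, hαβ⟩ := exists_span_of_comm g h hns hcomm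
  have hdet : h.det = 1 := by
    rw [hh, Matrix.det_mul, Matrix.det_mul, hdg, mul_one]
    have := congrArg Matrix.det haa'
    rwa [Matrix.det_mul, Matrix.det_one] at this
  have htr : h 0 0 + h 1 1 = t := by
    have h3 : Matrix.trace h = Matrix.trace g := by
      rw [hh, Matrix.trace_mul_comm, ← mul_assoc, ha'a, one_mul]
    rw [Matrix.trace_fin_two, Matrix.trace_fin_two] at h3
    exact h3
  have e00 : h 0 0 = α + β * g 0 0 := by rw [hαβ]; simp
  have e11 : h 1 1 = α + β * g 1 1 := by rw [hαβ]; simp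
  have e01 : h 0 1 = β * g 0 1 := by rw [hαβ]; simp
  have e10 : h 1 0 = β * g 1 0 := by rw [hαβ]; simp
  have h1 : 2 * α = t * (1 - β) := by
    rw [e00, e11] at htr
    rw [ht] at htr ⊢
    linear_combination htr
  have h3 : α ^ 2 + α * β * t + β ^ 2 = 1 := by
    rw [Matrix.det_fin_two, e00, e11, e01, e10] at hdet
    rw [Matrix.det_fin_two] at hdg
    rw [ht]
    linear_combination hdet + β ^ 2 * (- hdg)
  have h4 : (1 - β ^ 2) * (t ^ 2 - 4) = 0 := by
    have : 4 * (α ^ 2 + α * β * t + β ^ 2 - 1) = (1 - β ^ 2) * (t ^ 2 - 4) := by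
      have h5 : 4 * α ^ 2 = (t * (1 - β)) ^ 2 := by rw [← h1]; ring
      have h6 : 4 * (α * β * t) = 2 * (t * (1 - β)) * β * t := by rw [← h1]; ring
      linear_combination h5 + h6
    rw [← this, h3, sub_self, mul_zero]
  have h5 : β ^ 2 = 1 := by
    rcases mul_eq_zero.mp h4 with h6 | h6
    · exact (sub_eq_zero.mp h6).symm
    · exact absurd (sub_eq_zero.mp h6) ht4
  -- `a²` commutes with `g`
  have hsq : (a * a) * g = g * (a * a) := by
    have h6 : (β - 1) * (β + 1) = 0 := by linear_combination h5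
    rcases mul_eq_zero.mp h6 with h7 | h7
    · -- β = 1
      have hβ : β = 1 := sub_eq_zero.mp h7
      have hα : α = 0 := by
        rw [hβ, sub_self, mul_zero] at h1
        exact (mul_eq_zero.mp h1).resolve_left h2
      have hhg : h = g := by
        rw [hαβ, hα, hβ]
        simp
      have h8 : a * g = g * a := by
        calc a * g = a * g * (a' * a) := by rw [ha'a, mul_one]
          _ = (a * g * a') * a := by simp only [mul_assoc]
          _ = g * a := by rw [← hh, hhg]
      calc a * a * g = a * (a * g) := by rw [mul_assoc]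
        _ = a * (g * a) := by rw [h8]
        _ = (a * g) * a := by rw [mul_assoc]
        _ = (g * a) * a := by rw [h8]
        _ = g * (a * a) := by rw [mul_assoc]
    · -- β = -1
      have hβ : β = -1 := eq_neg_of_add_eq_zero_left h7
      have hα : α = t := by
        rw [hβ] at h1
        have : 2 * (α - t) = 0 := by linear_combination h1
        exact sub_eq_zero.mp ((mul_eq_zero.mp this).resolve_left h2)
      have hhg : h = t • (1 : M2) - g := by
        rw [hαβ, hα, hβ]
        simp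
        abel
      have h8 : a * h * a' = t • (1 : M2) - h := by
        calc a * h * a' = a * (t • (1 : M2) - g) * a' := by rw [hhg]
          _ = t • (a * a') - a * g * a' := by
            simp only [mul_sub, sub_mul, Matrix.mul_smul, Matrix.smul_mul, mul_one]
          _ = t • (1 : M2) - h := by rw [haa', ← hh]
      have h9 : a * h * a' = g := by
        rw [h8, hhg]
        abel
      calc a * a * g = a * a * g * (a' * (a' * a) * a) := by rw [ha'a, mul_one, ha'a, mul_one]
        _ = (a * (a * g * a') * a') * (a * a) := by simp only [mul_assoc]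
        _ = g * (a * a) := by rw [← hh, h9]
  have hpk : a * g = g * a := by
    obtain ⟨k, hk⟩ := hodd
    have h7 : a = (a * a) ^ (k + 1) := by
      rw [← pow_two, ← pow_mul]
      have h8 : 2 * (k + 1) = p + 1 := by omega
      rw [h8, pow_succ, hap, one_mul]
    have h9 : Commute (a * a) g := hsq
    have h10 := h9.pow_left (k + 1)
    rw [← h7] at h10
    exact h10
  obtain ⟨α', β', hαβ'⟩ := exists_span_of_comm a g hans hpk
  have e00' : g 0 0 = α' + β' * a 0 0 := by rw [hαβ']; simp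
  have e11' : g 1 1 = α' + β' * a 1 1 := by rw [hαβ']; simp
  have e01' : g 0 1 = β' * a 0 1 := by rw [hαβ']; simp
  have e10' : g 1 0 = β' * a 1 0 := by rw [hαβ']; simp
  have h6 : t = 2 * (α' + β') := by
    rw [ht, e00', e11']
    linear_combination β' * hta
  have h7 : (α' + β') ^ 2 = 1 := by
    have h8 := hdg
    rw [Matrix.det_fin_two, e00', e11', e01', e10'] at h8
    rw [Matrix.det_fin_two] at hda
    have h9 : a 1 1 = 2 - a 0 0 := by linear_combination hta
    rw [h9] at h8 hda
    linear_combination h8 - β' ^ 2 * hda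
  apply ht4
  rw [h6]
  linear_combination 4 * h7

/-- Involutions of `SL₂`. -/
theorem eq_one_or_neg_one (h2 : (2 : F) ≠ 0) (g : M2) (hd : g.det = 1) (hg : g * g = 1) : g = 1 ∨ g = -1 := by
  classical
  have h1 := sq_eq g hd
  rw [hg] at h1
  set t := g 0 0 + g 1 1 with ht
  have h3 : t • g = (2 : F) • (1 : M2) := by
    rw [two_smul]
    nth_rw 1 [h1]
    abel
  have ht0 : t ≠ 0 := by
    intro h0
    rw [h0, zero_smul] at h3
    have h4 := congrFun (congrFun h3 0) 0
    simp at h4
    exact h2 h4.symm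
  have e00 := congrFun (congrFun h3 0) 0
  have e01 := congrFun (congrFun h3 0) 1
  have e10 := congrFun (congrFun h3 1) 0
  have e11 := congrFun (congrFun h3 1) 1
  simp at e00 e01 e10 e11
  have g01 : g 0 1 = 0 := e01.resolve_left ht0
  have g10 : g 1 0 = 0 := e10.resolve_left ht0
  have g00 : g 0 0 = g 1 1 := by
    apply mul_left_cancel₀ ht0
    rw [e00, e11]
  rw [Matrix.det_fin_two, g01, g10, g00] at hd
  have h5 : (g 1 1 - 1) * (g 1 1 + 1) = 0 := by linear_combination hd
  rcases mul_eq_zero.mp h5 with h6 | h6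
  · left
    have h7 : g 1 1 = 1 := sub_eq_zero.mp h6
    ext i j
    fin_cases i <;> fin_cases j <;> simp [g01, g10, g00, h7]
  · right
    have h7 : g 1 1 = -1 := eq_neg_of_add_eq_zero_left h6
    ext i j
    fin_cases i <;> fin_cases j <;> simp [g01, g10, g00, h7]

variable [Fintype F] {p : ℕ} [hp : Fact p.Prime] [CharP F p]

theorem main (hp2 : p ≠ 2) (a : SL2) (ha : IsPGroup p (zpowers a)) (R : Subgroup SL2) (hR : (Nat.card R).Coprime p)
    (haR : a ∈ normalizer (R : Set SL2)) (hnt : ⁅R, zpowers a⁆ ≠ ⊥) :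
    p = 3 ∧ Nonempty (R ≃* QuaternionGroup 2) ∧
      Nonempty (↥(R ⊔ zpowers a) ≃* Matrix.SpecialLinearGroup (Fin 2) (ZMod 3)) := by
  classical
  have h2 : (2 : F) ≠ 0 := by
    intro h
    have h1 : ((2 : ℕ) : F) = 0 := by exact_mod_cast h
    rw [CharP.cast_eq_zero_iff F p 2] at h1
    exact hp2 ((Nat.prime_dvd_prime_iff_eq hp.out Nat.prime_two).mp h1)
  have hodd : Odd p := hp.out.odd_of_ne_two hp2
  obtain ⟨k, hk⟩ := ha ⟨a, mem_zpowers a⟩
  have hk' : a ^ p ^ k = 1 := congrArg Subtype.val hk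
  have hkM : (a : M2) ^ p ^ k = 1 := by
    rw [← Matrix.SpecialLinearGroup.coe_pow, hk', Matrix.SpecialLinearGroup.coe_one]
  obtain ⟨hta, hapM⟩ := unipotent_of_pow (a : M2) a.2 k hkM
  have hap : a ^ p = 1 := Subtype.ext (by
    rw [Matrix.SpecialLinearGroup.coe_pow, hapM, Matrix.SpecialLinearGroup.coe_one])
  obtain ⟨r₀, hr₀, hr₀a⟩ : ∃ r ∈ R, a * r ≠ r * a := by
    by_contra hall
    push Not at hall
    apply hnt
    rw [Subgroup.commutator_eq_bot_iff_le_centralizer]
    intro r hr
    rw [mem_centralizer_iff]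
    intro w hw
    obtain ⟨j, rfl⟩ := mem_zpowers_iff.mp hw
    have h1 : Commute a r := hall r hr
    exact (h1.zpow_left j).eq
  have ha1 : a ≠ 1 := by
    rintro rfl
    simp at hr₀a
  have hans : ¬ ((a : M2) 0 1 = 0 ∧ (a : M2) 1 0 = 0 ∧ (a : M2) 0 0 = (a : M2) 1 1) := by
    rintro ⟨h1, h3, h4⟩
    apply ha1
    apply Subtype.ext
    have h5 : (a : M2) 0 0 = 1 := by
      rw [← h4] at hta
      have : 2 * ((a : M2) 0 0 - 1) = 0 := by linear_combination hta
      exact sub_eq_zero.mp ((mul_eq_zero.mp this).resolve_left h2)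
    have h6 : (a : M2) 1 1 = 1 := by rw [← h4, h5]
    ext i j
    fin_cases i <;> fin_cases j <;> simp [h1, h3, h5, h6]
  have haa' : (a : M2) * ((a⁻¹ : SL2) : M2) = 1 := by
    rw [← Matrix.SpecialLinearGroup.coe_mul, mul_inv_cancel, Matrix.SpecialLinearGroup.coe_one]
  have ha'a : ((a⁻¹ : SL2) : M2) * (a : M2) = 1 := by
    rw [← Matrix.SpecialLinearGroup.coe_mul, inv_mul_cancel, Matrix.SpecialLinearGroup.coe_one]
  set m := Nat.card R with hm
  have hmF : (m : F) ≠ 0 := by
    rw [Ne, CharP.cast_eq_zero_iff F p m]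
    intro hd
    exact (Nat.Prime.coprime_iff_not_dvd hp.out).mp hR.symm hd
  have hmR : ∀ g ∈ R, (g : M2) ^ m = 1 := by
    intro g hg
    have h1 : (⟨g, hg⟩ : R) ^ m = 1 := pow_card_eq_one'
    have h3 : g ^ m = 1 := congrArg Subtype.val h1
    rw [← Matrix.SpecialLinearGroup.coe_pow, h3, Matrix.SpecialLinearGroup.coe_one]
  -- the key consequence
  have hkey : ∀ g ∈ R, g * (a * g * a⁻¹) = (a * g * a⁻¹) * g → g * g = 1 := by
    intro g hg hc
    have h1 := scalar_of_comm_conj h2 (a : M2) ((a⁻¹ : SL2) : M2) (g : M2) a.2 haa' ha'a hta hans p hodd hapM g.2 m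
      (hmR g hg) hmF (by
        have := congrArg (fun x : SL2 => (x : M2)) hc
        simpa [Matrix.SpecialLinearGroup.coe_mul] using this)
    have h3 := scalar_sq (g : M2) g.2 h1
    apply Subtype.ext
    rw [Matrix.SpecialLinearGroup.coe_mul, h3, Matrix.SpecialLinearGroup.coe_one]
  have hord : orderOf a = p := orderOf_eq_prime hap ha1
  -- R is a 2-group
  have hR2 : IsPGroup 2 R := by
    rw [IsPGroup.iff_card]
    refine ⟨_, Nat.eq_prime_pow_of_unique_prime_dvd Nat.card_pos.ne' ?_⟩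
    intro q hq hqd
    by_contra hq2
    haveI : Fact q.Prime := ⟨hq⟩
    let G₀ : Subgroup SL2 := normalizer (R : Set SL2)
    let R₀ : Subgroup G₀ := R.subgroupOf G₀
    haveI hR₀ : R₀.Normal := Subgroup.normal_in_normalizer
    let a₀ : G₀ := ⟨a, haR⟩
    have hA : IsPGroup p (zpowers a₀) := by
      apply IsPGroup.of_card (n := 1)
      rw [Nat.card_zpowers, pow_one]
      have : orderOf a₀ = orderOf a := Subgroup.orderOf_mk a haR
      rw [this, hord]
    have hcardR₀ : Nat.card R₀ = m :=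
      Nat.card_congr (Subgroup.subgroupOfEquivOfLe (Subgroup.le_normalizer (H := R))).toEquiv
    obtain ⟨T, hT⟩ := CfsgLib.OOL.exists_invariant_sylow R₀ (zpowers a₀) hA (by rw [hcardR₀]; exact hR) q
    have hqT : q ∣ Nat.card (T : Subgroup R₀) := by
      have h1 := T.pow_dvd_card_of_pow_dvd_card (n := 1) (by rw [pow_one, hcardR₀]; exact hqd)
      rwa [pow_one] at h1
    haveI : Nontrivial (T : Subgroup R₀) := by
      apply Finite.one_lt_card_iff_nontrivial.mp
      exact lt_of_lt_of_le hq.one_lt (Nat.le_of_dvd Nat.card_pos hqT)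
    have hcent : Nontrivial (center (T : Subgroup R₀)) := IsPGroup.center_nontrivial T.isPGroup'
    obtain ⟨z, hz1⟩ := exists_ne (1 : center (T : Subgroup R₀))
    set g : SL2 := ((((z : (T : Subgroup R₀)) : R₀) : G₀) : SL2) with hgdef
    have hgR : g ∈ R := ((z : (T : Subgroup R₀)) : R₀).2
    have hz2 : g ≠ 1 := by
      intro h
      apply hz1
      apply Subtype.ext
      apply Subtype.ext
      apply Subtype.ext
      apply Subtype.ext
      exact h
    -- `a⁻¹ g a` is in `T`
    have hinv : a₀⁻¹ ∈ zpowers a₀ := inv_mem (mem_zpowers a₀)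
    have ht₁ := hT a₀⁻¹ hinv ((z : (T : Subgroup R₀)) : R₀) (z : (T : Subgroup R₀)).2
    have hcomm := Subgroup.mem_center_iff.mp z.2 ⟨_, ht₁⟩
    have hcomm' : (a⁻¹ * g * a) * g = g * (a⁻¹ * g * a) := by
      have h1 := congrArg (fun w : (T : Subgroup R₀) => (((w : R₀) : G₀) : SL2)) hcomm
      simpa [a₀, g] using h1
    have hgsq : g * g = 1 := by
      apply hkey g hgR
      calc g * (a * g * a⁻¹) = a * (a⁻¹ * g * a * g) * a⁻¹ := by group
        _ = a * (g * (a⁻¹ * g * a)) * a⁻¹ := by rw [hcomm']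
        _ = a * g * a⁻¹ * g := by group
    -- `g` has `q`-power order
    obtain ⟨j, hj⟩ := T.isPGroup' (z : (T : Subgroup R₀))
    have hgj : g ^ q ^ j = 1 := by
      have h1 := congrArg (fun w : (T : Subgroup R₀) => (((w : R₀) : G₀) : SL2)) hj
      simpa [g] using h1
    have hcop : Nat.Coprime 2 (q ^ j) :=
      Nat.Coprime.pow_right j ((Nat.coprime_primes Nat.prime_two hq).mpr (Ne.symm hq2))
    have h3 : orderOf g ∣ 2 := orderOf_dvd_of_pow_eq_one (by rw [pow_two]; exact hgsq)
    have h4 : orderOf g ∣ q ^ j := orderOf_dvd_of_pow_eq_one hgj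
    exact hz2 (orderOf_eq_one_iff.mp (Nat.eq_one_of_dvd_coprimes hcop h3 h4))
  -- unique involution
  have huniq : ∀ x y : R, x ^ 2 = 1 → y ^ 2 = 1 → x ≠ 1 → y ≠ 1 → x = y := by
    have hinv : ∀ x : R, x ^ 2 = 1 → x ≠ 1 → ((x : SL2) : M2) = -1 := by
      intro x hx hx1
      have h1 : ((x : SL2) : M2) * ((x : SL2) : M2) = 1 := by
        rw [← Matrix.SpecialLinearGroup.coe_mul, ← pow_two]
        have h3 : ((x : SL2)) ^ 2 = 1 := congrArg Subtype.val hx
        rw [h3, Matrix.SpecialLinearGroup.coe_one]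
      rcases eq_one_or_neg_one h2 _ (x : SL2).2 h1 with h3 | h3
      · exfalso
        apply hx1
        apply Subtype.ext
        apply Subtype.ext
        rw [h3]
        rfl
      · exact h3
    intro x y hx hy hx1 hy1
    apply Subtype.ext
    apply Subtype.ext
    rw [hinv x hx hx1, hinv y hy hy1]
  -- the automorphism
  have hzN : zpowers a ≤ normalizer (R : Set SL2) := Subgroup.zpowers_le.mpr haR
  let α : MulAut R := CfsgLib.OOL.conjOnP R (zpowers a) hzN ⟨a, mem_zpowers a⟩
  have hαp : α ^ p = 1 := by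
    show (CfsgLib.OOL.conjOnP R (zpowers a) hzN ⟨a, mem_zpowers a⟩) ^ p = 1
    rw [← map_pow]
    have : (⟨a, mem_zpowers a⟩ : zpowers a) ^ p = 1 := Subtype.ext hap
    rw [this, map_one]
  have hα1 : α ≠ 1 := by
    intro h
    have h1 : α ⟨r₀, hr₀⟩ = ⟨r₀, hr₀⟩ := by rw [h]; rfl
    have h3 : a * r₀ * a⁻¹ = r₀ := congrArg Subtype.val h1
    apply hr₀a
    calc a * r₀ = a * r₀ * a⁻¹ * a := by group
      _ = r₀ * a := by rw [h3]
  obtain ⟨h3p, ⟨e⟩⟩ := CfsgLib.OOL.aut_odd_of_unique_invol hR2 huniq α p hodd hαp hα1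
  have hp3 : p = 3 := ((Nat.prime_dvd_prime_iff_eq Nat.prime_three hp.out).mp h3p).symm
  subst hp3
  refine ⟨rfl, ⟨e⟩, ?_⟩
  have hne' : ¬ ∀ q ∈ R, a * q = q * a := fun h => hr₀a (h r₀ hr₀)
  obtain ⟨K, hK, ⟨eK⟩⟩ := CfsgLib.OOL.sl23_exact R e a haR hap hne'
  have hKcard : Nat.card K = 24 := by
    rw [Nat.card_congr eK.toEquiv]
    exact CfsgLib.H9.SL23.card_G
  have hRcard : Nat.card R = 8 := by
    rw [Nat.card_congr e.toEquiv, Nat.card_eq_fintype_card, QuaternionGroup.card]
  -- the order of the join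
  have hsup : Nat.card (R ⊔ zpowers a : Subgroup SL2) ≤ 24 := by
    let G₀ : Subgroup SL2 := normalizer (R : Set SL2)
    let R₀ : Subgroup G₀ := R.subgroupOf G₀
    haveI hR₀ : R₀.Normal := Subgroup.normal_in_normalizer
    let a₀ : G₀ := ⟨a, haR⟩
    have hcardR₀ : Nat.card R₀ = 8 := by
      rw [← hRcard]
      exact Nat.card_congr (Subgroup.subgroupOfEquivOfLe (Subgroup.le_normalizer (H := R))).toEquiv
    have hmap : (R ⊔ zpowers a : Subgroup SL2) = (zpowers a₀ ⊔ R₀).map G₀.subtype := by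
      rw [Subgroup.map_sup, sup_comm, MonoidHom.map_zpowers,
        Subgroup.map_subgroupOf_eq_of_le (Subgroup.le_normalizer (H := R))]
      rfl
    rw [hmap, Subgroup.card_map_of_injective (Subgroup.subtype_injective _)]
    have h1 := CfsgLib.Solv.card_sup_dvd_mul (zpowers a₀) R₀
    rw [hcardR₀, Nat.card_zpowers] at h1
    have h3 : orderOf a₀ = 3 := by
      have : orderOf a₀ = orderOf a := Subgroup.orderOf_mk a haR
      rw [this, hord]
    rw [h3] at h1
    exact Nat.le_of_dvd (by norm_num) h1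
  have hKeq : K = R ⊔ zpowers a := Subgroup.eq_of_le_of_card_ge hK (by rw [hKcard]; exact hsup)
  subst hKeq
  exact ⟨eK⟩

end CfsgLib.TransvNorm
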