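import Cfsg.Agent.Lib.H3.PSolv
import Cfsg.Agent.Lib.Solv.Fit
import Cfsg.Agent.Lib.PLocal.Core
import Cfsg.Prelude.Def_Local

/-! The upper `p`-series of a `p`-soluble group. -/

set_option autoImplicit false

namespace CfsgLib.UpperP

open Subgroup Cfsg
open scoped commutatorElement

variable {G : Type*} [Group G] {p : ℕ}

lemma series_odd (k : ℕ) : (upperPSeries p G (2 * k + 1)).1 =
    (pPrimeCore p (G ⧸ (upperPSeries p G (2 * k)).1)).comap (QuotientGroup.mk' _) := by
  rw [upperPSeries, if_pos (even_two_mul k)]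

lemma series_even (k : ℕ) : (upperPSeries p G (2 * k + 2)).1 =
    (pCore p (G ⧸ (upperPSeries p G (2 * k + 1)).1)).comap (QuotientGroup.mk' _) := by
  have h : ¬ Even (2 * k + 1) := by
    rw [Nat.not_even_iff_odd]
    exact odd_two_mul_add_one k
  rw [show 2 * k + 2 = (2 * k + 1) + 1 from rfl, upperPSeries, if_neg h]

lemma le_comap_mk' (A : Subgroup G) [A.Normal] (X : Subgroup (G ⧸ A)) :
    A ≤ X.comap (QuotientGroup.mk' A) := by
  intro x hx
  rw [Subgroup.mem_comap]
  have : QuotientGroup.mk' A x = 1 := (QuotientGroup.eq_one_iff x).2 hx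
  rw [this]
  exact one_mem _

lemma map_comap_mk' (A : Subgroup G) [A.Normal] (X : Subgroup (G ⧸ A)) :
    (X.comap (QuotientGroup.mk' A)).map (QuotientGroup.mk' A) = X :=
  Subgroup.map_comap_eq_self_of_surjective (QuotientGroup.mk'_surjective A) X

variable [Finite G]

lemma pPrimeCore_quot_comap (A : Subgroup G) [A.Normal] :
    pPrimeCore p (G ⧸ (pPrimeCore p (G ⧸ A)).comap (QuotientGroup.mk' A)) = ⊥ := by
  set R := pPrimeCore p (G ⧸ A) with hR
  haveI hRn : R.Normal := inferInstance
  set φ : G →* (G ⧸ A) ⧸ R := (QuotientGroup.mk' R).comp (QuotientGroup.mk' A) with hφ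
  have hs : Function.Surjective φ :=
    (QuotientGroup.mk'_surjective R).comp (QuotientGroup.mk'_surjective A)
  have hk : R.comap (QuotientGroup.mk' A) = φ.ker := by
    ext x
    rw [Subgroup.mem_comap, MonoidHom.mem_ker, hφ, MonoidHom.comp_apply]
    exact (QuotientGroup.eq_one_iff _).symm
  let e : G ⧸ R.comap (QuotientGroup.mk' A) ≃* (G ⧸ A) ⧸ R :=
    (QuotientGroup.quotientMulEquivOfEq hk).trans (QuotientGroup.quotientKerEquivOfSurjective φ hs)
  have h := CfsgLib.PLocal.pPrimeCore_map_equiv (p := p) e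
  have h0 := CfsgLib.Solv.pPrimeCore_quotient_eq_bot (G := G ⧸ A) p
  rw [h0] at h
  exact (Subgroup.map_eq_bot_iff_of_injective _ e.injective).1 h

lemma pPrimeCore_series (k : ℕ) :
    pPrimeCore p (G ⧸ (upperPSeries p G (2 * k + 1)).1) = ⊥ := by
  have h := series_odd (p := p) (G := G) k
  haveI : (upperPSeries p G (2 * k)).1.Normal := (upperPSeries p G (2 * k)).2
  have h2 := pPrimeCore_quot_comap (p := p) (upperPSeries p G (2 * k)).1
  have key : ∀ (N M : Subgroup G) (hN : N.Normal) (hM : M.Normal), N = M →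
      pPrimeCore p (G ⧸ N) = ⊥ → pPrimeCore p (G ⧸ M) = ⊥ := by
    intro N M hN hM he h3
    subst he
    exact h3
  exact key _ _ inferInstance inferInstance h.symm h2

/-- S0634. -/
theorem factor_self_centralizing [Fact p.Prime] (hsol : IsPSolvable p G) (k : ℕ) :
    Subgroup.centralizer (((upperPSeries p G (2 * k + 2)).1.map
      (QuotientGroup.mk' (upperPSeries p G (2 * k + 1)).1) :
        Subgroup (G ⧸ (upperPSeries p G (2 * k + 1)).1)) : Set (G ⧸ (upperPSeries p G (2 * k + 1)).1)) ≤
    (upperPSeries p G (2 * k + 2)).1.map (QuotientGroup.mk' (upperPSeries p G (2 * k + 1)).1) := by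
  rw [series_even, map_comap_mk']
  exact CfsgLib.PSolv.centralizer_pCore_le
    (CfsgLib.PSolv.quotient (Fact.out) hsol _) (pPrimeCore_series k)

/-- The step of the `p`-length bound. -/
lemma length_step [Fact p.Prime] (hsol : IsPSolvable p G) (S : Sylow p G) (k j : ℕ)
    (h : ∀ x : (S : Subgroup G), x ∈ (⊤ : Subgroup ↥(S : Subgroup G)).lowerCentralSeries (j + 1) →
      (x : G) ∈ (upperPSeries p G (2 * k)).1) :
    ∀ x : (S : Subgroup G), x ∈ (⊤ : Subgroup ↥(S : Subgroup G)).lowerCentralSeries j →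
      (x : G) ∈ (upperPSeries p G (2 * (k + 1))).1 := by
  intro x hx
  set V := (upperPSeries p G (2 * k + 1)).1 with hV
  have hUV : (upperPSeries p G (2 * k)).1 ≤ V := by
    rw [hV, series_odd]
    haveI : (upperPSeries p G (2 * k)).1.Normal := (upperPSeries p G (2 * k)).2
    exact le_comap_mk' _ _
  rw [show 2 * (k + 1) = 2 * k + 2 by ring, series_even, Subgroup.mem_comap]
  apply CfsgLib.PSolv.centralizer_pCore_le
    (CfsgLib.PSolv.quotient (Fact.out) hsol _) (pPrimeCore_series k)
  rw [Subgroup.mem_centralizer_iff]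
  intro y hy
  -- `y` lies in the image of `S`
  let Sb := S.mapSurjective (QuotientGroup.mk'_surjective V)
  have hyS : y ∈ (Sb : Subgroup (G ⧸ V)) := CfsgLib.Solv.pCore_le_of_isPGroup_normal Sb hy
  obtain ⟨s, hs, rfl⟩ := hyS
  have hc : ⁅x, (⟨s, hs⟩ : (S : Subgroup G))⁆ ∈ (⊤ : Subgroup ↥(S : Subgroup G)).lowerCentralSeries (j + 1) :=
    Subgroup.commutator_mem_commutator hx (Subgroup.mem_top _)
  have h1 := hUV (h _ hc)
  have h2 : QuotientGroup.mk' V ((x : G) * s * (x : G)⁻¹ * s⁻¹) = 1 :=
    (QuotientGroup.eq_one_iff _).2 h1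
  simp only [map_mul, map_inv] at h2
  have h3 : QuotientGroup.mk' V (s : G) * QuotientGroup.mk' V (x : G) =
      QuotientGroup.mk' V (x : G) * QuotientGroup.mk' V s := by
    have e := mul_inv_eq_one.1 h2
    have e2 := mul_inv_eq_iff_eq_mul.1 e
    exact e2.symm
  exact h3

/-- S0635. -/
theorem length_le_class [Fact p.Prime] (hsol : IsPSolvable p G) (S : Sylow p G) :
    PLengthLE p (Group.nilpotencyClass ↥(S : Subgroup G)) G := by
  haveI : Group.IsNilpotent (S : Subgroup G) := S.2.isNilpotent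
  set c := Group.nilpotencyClass ↥(S : Subgroup G) with hc
  have hbot : (⊤ : Subgroup ↥(S : Subgroup G)).lowerCentralSeries c = ⊥ :=
    Subgroup.lowerCentralSeries_nilpotencyClass
  have key : ∀ k, k ≤ c → ∀ x : (S : Subgroup G), x ∈ (⊤ : Subgroup ↥(S : Subgroup G)).lowerCentralSeries (c - k) →
      (x : G) ∈ (upperPSeries p G (2 * k)).1 := by
    intro k
    induction k with
    | zero =>
      intro _ x hx
      rw [Nat.sub_zero, hbot, Subgroup.mem_bot] at hx
      rw [hx]
      exact one_mem _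
    | succ k ih =>
      intro hk x hx
      apply length_step hsol S k (c - (k + 1)) _ x hx
      intro y hy
      apply ih (by omega) y
      rwa [show c - k = c - (k + 1) + 1 by omega]
  have hS : (S : Subgroup G) ≤ (upperPSeries p G (2 * c)).1 := by
    intro x hx
    apply key c le_rfl ⟨x, hx⟩
    rw [Nat.sub_self, Subgroup.lowerCentralSeries_zero]
    exact Subgroup.mem_top _
  unfold PLengthLE
  rw [series_odd]
  haveI : (upperPSeries p G (2 * c)).1.Normal := (upperPSeries p G (2 * c)).2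
  rw [eq_top_iff]
  intro x _
  rw [Subgroup.mem_comap]
  have htop : pPrimeCore p (G ⧸ (upperPSeries p G (2 * c)).1) = ⊤ := by
    rw [eq_top_iff]
    apply CfsgLib.Solv.le_pPrimeCore' ⊤
    rw [Subgroup.card_top, ← Subgroup.index_eq_card, Nat.coprime_comm]
    apply (Nat.Prime.coprime_iff_not_dvd (Fact.out)).2
    intro hd
    exact S.not_dvd_index (hd.trans (Subgroup.index_dvd_of_le hS))
  rw [htop]
  trivial

end CfsgLib.UpperP
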