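import Cfsg.Agent.Lib.H3.StrongEmb2
import Cfsg.Agent.Lib.H3.ConjTools

/-! # Groups whose involution centralizers are elementary abelian 2-groups. -/

set_option autoImplicit false
set_option linter.unusedSectionVars false
set_option linter.style.haveILetI false

namespace CfsgLib.Zass

open Subgroup CfsgLib.StrongEmb2
open scoped Pointwise

variable {G : Type*} [Group G] [Finite G]

/-- The standing hypotheses. -/
structure Hyp (T : Sylow 2 G) : Prop where
  nc : ¬ IsCyclic (T : Subgroup G)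
  nn : ¬ (T : Subgroup G).Normal
  cent : ∀ t : G, orderOf t = 2 → IsMulCommutative (centralizer ({t} : Set G)) ∧
    ∀ c ∈ centralizer ({t} : Set G), c ^ 2 = 1

variable {T : Sylow 2 G}

lemma Hyp.ne_bot (h : Hyp T) : (T : Subgroup G) ≠ ⊥ := by
  intro hb
  apply h.nc
  rw [hb]
  exact isCyclic_of_subsingleton

lemma Hyp.nontrivial (h : Hyp T) : Nontrivial (T : Subgroup G) :=
  (Subgroup.nontrivial_iff_ne_bot _).2 h.ne_bot

lemma Hyp.exists_central (h : Hyp T) : ∃ z ∈ (T : Subgroup G), orderOf z = 2 ∧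
    ∀ x ∈ (T : Subgroup G), x * z = z * x := by
  classical
  haveI : Fact (Nat.Prime 2) := ⟨Nat.prime_two⟩
  haveI := h.nontrivial
  have hnt := T.2.center_nontrivial
  have hZp : IsPGroup 2 (center (T : Subgroup G)) := T.2.to_subgroup _
  obtain ⟨j, hj⟩ := IsPGroup.iff_card.1 hZp
  have h7 : 2 ∣ Nat.card (center (T : Subgroup G)) := by
    have h8 : Nat.card (center (T : Subgroup G)) ≠ 1 := (Finite.one_lt_card).ne'
    rw [hj] at h8 ⊢
    have hj0 : j ≠ 0 := by
      rintro rfl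
      exact h8 (pow_zero 2)
    exact dvd_pow_self 2 hj0
  obtain ⟨z, hz⟩ := exists_prime_orderOf_dvd_card' 2 h7
  refine ⟨((z : (T : Subgroup G)) : G), (z : (T : Subgroup G)).2, ?_, ?_⟩
  · rw [Subgroup.orderOf_coe, Subgroup.orderOf_coe, hz]
  · intro x hx
    have := (Subgroup.mem_center_iff.1 z.2) ⟨x, hx⟩
    exact congrArg Subtype.val this

lemma Hyp.le_cent (h : Hyp T) : ∃ z, orderOf z = 2 ∧ (T : Subgroup G) ≤ centralizer ({z} : Set G) := by
  obtain ⟨z, -, hz, hc⟩ := h.exists_central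
  refine ⟨z, hz, fun x hx => ?_⟩
  rw [Subgroup.mem_centralizer_singleton_iff]
  exact hc x hx

lemma Hyp.sq (h : Hyp T) {x : G} (hx : x ∈ (T : Subgroup G)) : x ^ 2 = 1 := by
  obtain ⟨z, hz, hle⟩ := h.le_cent
  exact (h.cent z hz).2 x (hle hx)

lemma Hyp.comm (h : Hyp T) {x y : G} (hx : x ∈ (T : Subgroup G)) (hy : y ∈ (T : Subgroup G)) :
    x * y = y * x := by
  obtain ⟨z, hz, hle⟩ := h.le_cent
  have := (h.cent z hz).1.is_comm.comm ⟨x, hle hx⟩ ⟨y, hle hy⟩
  exact congrArg Subtype.val this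

lemma Hyp.orderOf (h : Hyp T) {x : G} (hx : x ∈ (T : Subgroup G)) (h1 : x ≠ 1) : orderOf x = 2 :=
  orderOf_eq_prime (h.sq hx) h1

/-- The centralizer of a nonidentity element of `T` is `T`. -/
lemma Hyp.cent_le (h : Hyp T) {t : G} (ht : t ∈ (T : Subgroup G)) (h1 : t ≠ 1) {c : G}
    (hc : c * t = t * c) : c ∈ (T : Subgroup G) := by
  haveI : Fact (Nat.Prime 2) := ⟨Nat.prime_two⟩
  have hto := h.orderOf ht h1
  obtain ⟨-, hexp⟩ := h.cent t hto
  have hp : IsPGroup 2 (centralizer ({t} : Set G)) := by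
    intro g
    refine ⟨1, Subtype.ext ?_⟩
    have := hexp g g.2
    simpa using this
  have hle : (T : Subgroup G) ≤ centralizer ({t} : Set G) := by
    intro x hx
    rw [Subgroup.mem_centralizer_singleton_iff]
    exact h.comm hx ht
  have heq := T.is_maximal' hp hle
  have hcm : c ∈ centralizer ({t} : Set G) := by
    rw [Subgroup.mem_centralizer_singleton_iff]
    exact hc
  rw [heq] at hcm
  exact hcm

/-- Involutions in the normalizer lie in `T`. -/
lemma inv_mem_of_normalizer (R : Sylow 2 G) {x : G} (hx : x ∈ normalizer ((R : Subgroup G) : Set G))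
    (hxo : orderOf x = 2) : x ∈ (R : Subgroup G) := by
  haveI : Fact (Nat.Prime 2) := ⟨Nat.prime_two⟩
  have hzp : IsPGroup 2 (zpowers x) := by
    apply IsPGroup.of_card (n := 1)
    rw [Nat.card_zpowers, hxo, pow_one]
  have h3 := CfsgLib.Solv.isPGroup_sup_of_le_normalizer hzp R.2 (by rw [zpowers_le]; exact hx)
  have h4 := R.is_maximal' h3 le_sup_right
  have h5 : x ∈ zpowers x ⊔ (R : Subgroup G) := mem_sup_left (mem_zpowers x)
  rw [h4] at h5
  exact h5

lemma Hyp.se (h : Hyp T) : Cfsg.IsStronglyEmbedded (normalizer ((T : Subgroup G) : Set G)) :=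
  normalizer_stronglyEmbedded T h.nn h.cent

/-- The group `D`. -/
abbrev Dd (T : Sylow 2 G) (u : G) : Subgroup G :=
  normalizer ((T : Subgroup G) : Set G) ⊓ (normalizer ((T : Subgroup G) : Set G)).map (MulAut.conj u).toMonoidHom

lemma mem_Dd {u d : G} : d ∈ Dd T u ↔ d ∈ normalizer ((T : Subgroup G) : Set G) ∧
    u⁻¹ * d * u ∈ normalizer ((T : Subgroup G) : Set G) := by
  rw [mem_inf, CfsgLib.SE.mem_map_conj]

section Fix

variable (h : Hyp T) {u : G} (hu : orderOf u = 2) (huN : u ∉ normalizer ((T : Subgroup G) : Set G))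

include h huN

lemma odd_Dd : Odd (Nat.card (Dd T u)) := h.se.2.2 u huN

lemma eq_one_of_mem_inf {d : G} (hd : d ∈ Dd T u) (hdT : d ∈ (T : Subgroup G)) : d = 1 := by
  have h1 : orderOf d ∣ Nat.card (Dd T u) := by
    have := orderOf_dvd_natCard (⟨d, hd⟩ : Dd T u)
    rwa [Subgroup.orderOf_mk] at this
  have h2 : orderOf d ∣ 2 := orderOf_dvd_of_pow_eq_one (h.sq hdT)
  have h3 : Nat.Coprime (Nat.card (Dd T u)) 2 := Nat.coprime_two_right.2 (odd_Dd h huN)
  have h4 := Nat.eq_one_of_dvd_coprimes h3 h1 h2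
  exact orderOf_eq_one_iff.1 h4

include hu

/-- `D` is transitive on the nonidentity elements of `T`. -/
lemma transitive {s t : G} (hs : s ∈ (T : Subgroup G)) (hs1 : s ≠ 1) (ht : t ∈ (T : Subgroup G))
    (ht1 : t ≠ 1) : ∃ d ∈ Dd T u, d * s * d⁻¹ = t :=
  exists_conj_in_inter h.se hu huN (h.orderOf hs hs1)
    (Subgroup.le_normalizer hs) (h.orderOf ht ht1) (Subgroup.le_normalizer ht)

omit hu in
/-- `D` acts semiregularly. -/
lemma semiregular {d d' t : G} (hd : d ∈ Dd T u) (hd' : d' ∈ Dd T u) (ht : t ∈ (T : Subgroup G))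
    (ht1 : t ≠ 1) (he : d * t * d⁻¹ = d' * t * d'⁻¹) : d = d' := by
  have h1 : (d'⁻¹ * d) * t = t * (d'⁻¹ * d) := by
    have : d * t * d⁻¹ * d = d' * t * d'⁻¹ * d := by rw [he]
    have h2 : d * t = d' * t * d'⁻¹ * d := by simpa using this
    calc (d'⁻¹ * d) * t = d'⁻¹ * (d * t) := by group
      _ = d'⁻¹ * (d' * t * d'⁻¹ * d) := by rw [h2]
      _ = t * (d'⁻¹ * d) := by group
  have h3 := h.cent_le ht ht1 h1
  have h4 := eq_one_of_mem_inf h huN (mul_mem (inv_mem hd') hd) h3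
  have h5 : d = d' * (d'⁻¹ * d) := by group
  rw [h5, h4, mul_one]

end Fix

section Cards

variable (h : Hyp T) {u : G} (hu : orderOf u = 2) (huN : u ∉ normalizer ((T : Subgroup G) : Set G))

include h

lemma exists_ne_one : ∃ t₀ ∈ (T : Subgroup G), t₀ ≠ 1 := by
  haveI := h.nontrivial
  obtain ⟨t, ht⟩ := exists_ne (1 : (T : Subgroup G))
  exact ⟨t, t.2, fun h1 => ht (Subtype.ext h1)⟩

lemma conj_mem_T {g t : G} (hg : g ∈ normalizer ((T : Subgroup G) : Set G)) (ht : t ∈ (T : Subgroup G)) :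
    g * t * g⁻¹ ∈ (T : Subgroup G) := (Subgroup.mem_normalizer_iff.1 hg t).1 ht

include hu huN

lemma card_Dd : Nat.card (Dd T u) =
    Nat.card {t : G // orderOf t = 2 ∧ t ∈ normalizer ((T : Subgroup G) : Set G)} := by
  obtain ⟨t₀, ht₀, ht₀1⟩ := exists_ne_one h
  have hcT : ∀ d : Dd T u, (d : G) * t₀ * (d : G)⁻¹ ∈ (T : Subgroup G) :=
    fun d => conj_mem_T h d.2.1 ht₀
  have hc1 : ∀ d : Dd T u, (d : G) * t₀ * (d : G)⁻¹ ≠ 1 := by
    intro d he
    apply ht₀1
    have : t₀ = (d : G)⁻¹ * ((d : G) * t₀ * (d : G)⁻¹) * d := by group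
    rw [this, he]
    group
  let f : Dd T u → {t : G // orderOf t = 2 ∧ t ∈ normalizer ((T : Subgroup G) : Set G)} :=
    fun d => ⟨(d : G) * t₀ * (d : G)⁻¹, h.orderOf (hcT d) (hc1 d), Subgroup.le_normalizer (hcT d)⟩
  apply Nat.card_congr (Equiv.ofBijective f ⟨?_, ?_⟩)
  · intro d d' he
    apply Subtype.ext
    have he' : (d : G) * t₀ * (d : G)⁻¹ = (d' : G) * t₀ * (d' : G)⁻¹ := congrArg Subtype.val he
    exact semiregular h huN d.2 d'.2 ht₀ ht₀1 he'
  · rintro ⟨t, hto, htN⟩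
    have htT := inv_mem_of_normalizer T htN hto
    have ht1 : t ≠ 1 := by
      rintro rfl
      simp at hto
    obtain ⟨d, hd, hde⟩ := transitive h hu huN ht₀ ht₀1 htT ht1
    exact ⟨⟨d, hd⟩, Subtype.ext hde⟩

/-- `u` inverts `D`. -/
lemma inverted {d : G} (hd : d ∈ Dd T u) : u * d * u⁻¹ = d⁻¹ := by
  classical
  have hu2 : u * u = 1 := by rw [← pow_two, ← hu, pow_orderOf_eq_one]
  have huinv : u⁻¹ = u := inv_eq_of_mul_eq_one_left hu2
  set N := normalizer ((T : Subgroup G) : Set G) with hN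
  have hne : (QuotientGroup.mk 1 : G ⧸ N) ≠ QuotientGroup.mk u := by
    intro he
    apply huN
    have := QuotientGroup.eq.1 he
    simpa using this
  have hcard := card_swap h.se (QuotientGroup.mk 1 : G ⧸ N) (QuotientGroup.mk u) hne
  have hg : ∀ i : {i : G // orderOf i = 2 ∧ i • (QuotientGroup.mk 1 : G ⧸ N) = QuotientGroup.mk u},
      u * i.1 ∈ Dd T u := by
    rintro ⟨i, hio, his⟩
    have hi2 : i * i = 1 := by rw [← pow_two, ← hio, pow_orderOf_eq_one]
    have h1 : u⁻¹ * i * 1 ∈ N := (smul_mk_eq_iff i 1 u).1 his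
    have h2 : i • (QuotientGroup.mk u : G ⧸ N) = QuotientGroup.mk 1 := by
      rw [← his, ← mul_smul, hi2, one_smul]
    have h3 : (1 : G)⁻¹ * i * u ∈ N := (smul_mk_eq_iff i u 1).1 h2
    rw [mem_Dd]
    constructor
    · rw [huinv, mul_one] at h1
      exact h1
    · have e : u⁻¹ * (u * i) * u = (1 : G)⁻¹ * i * u := by group
      rw [e]
      exact h3
  let g : {i : G // orderOf i = 2 ∧ i • (QuotientGroup.mk 1 : G ⧸ N) = QuotientGroup.mk u} → Dd T u :=
    fun i => ⟨u * i.1, hg i⟩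
  have hginj : Function.Injective g := by
    intro i j he
    apply Subtype.ext
    have : u * i.1 = u * j.1 := congrArg Subtype.val he
    exact mul_left_cancel this
  have hgbij := (Nat.bijective_iff_injective_and_card g).2 ⟨hginj, by
    rw [card_Dd h hu huN]
    exact hcard⟩
  obtain ⟨⟨i, hio, his⟩, hi⟩ := hgbij.2 ⟨d, hd⟩
  have hd' : u * i = d := congrArg Subtype.val hi
  have hi2 : i * i = 1 := by rw [← pow_two, ← hio, pow_orderOf_eq_one]
  have hiinv : i⁻¹ = i := inv_eq_of_mul_eq_one_left hi2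
  rw [← hd', mul_inv_rev, hiinv, huinv]
  calc u * (u * i) * u = (u * u) * i * u := by group
    _ = i * u := by rw [hu2, one_mul]

/-- `D` and `T` are complements in the normalizer. -/
lemma complement : Subgroup.IsComplement'
    ((Dd T u).subgroupOf (normalizer ((T : Subgroup G) : Set G)))
    ((T : Subgroup G).subgroupOf (normalizer ((T : Subgroup G) : Set G))) := by
  set N := normalizer ((T : Subgroup G) : Set G) with hN
  obtain ⟨t₀, ht₀, ht₀1⟩ := exists_ne_one h
  apply Subgroup.isComplement'_of_disjoint_and_mul_eq_univ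
  · rw [Subgroup.disjoint_def]
    intro x hx hy
    apply Subtype.ext
    exact eq_one_of_mem_inf h huN hx hy
  · rw [Set.eq_univ_iff_forall]
    intro n
    have h1 : (n : G) * t₀ * (n : G)⁻¹ ∈ (T : Subgroup G) := conj_mem_T h n.2 ht₀
    have h2 : (n : G) * t₀ * (n : G)⁻¹ ≠ 1 := by
      intro he
      apply ht₀1
      have : t₀ = (n : G)⁻¹ * ((n : G) * t₀ * (n : G)⁻¹) * n := by group
      rw [this, he]
      group
    obtain ⟨d, hd, hde⟩ := transitive h hu huN ht₀ ht₀1 h1 h2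
    have h3 : (d⁻¹ * n) * t₀ = t₀ * (d⁻¹ * n) := by
      have h4 : (n : G) * t₀ = d * t₀ * d⁻¹ * n := by
        rw [hde]; group
      calc (d⁻¹ * n) * t₀ = d⁻¹ * ((n : G) * t₀) := by group
        _ = d⁻¹ * (d * t₀ * d⁻¹ * n) := by rw [h4]
        _ = t₀ * (d⁻¹ * n) := by group
    have h5 := h.cent_le ht₀ ht₀1 h3
    have hdN : d ∈ N := hd.1
    refine Set.mem_mul.2 ⟨⟨d, hdN⟩, ?_, ⟨d⁻¹ * n, mul_mem (inv_mem hdN) n.2⟩, ?_, ?_⟩
    · exact hd
    · exact h5
    · apply Subtype.ext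
      show d * (d⁻¹ * n) = n
      group

lemma card_invs : Nat.card {t : G // orderOf t = 2 ∧ t ∈ normalizer ((T : Subgroup G) : Set G)}
    = Nat.card T - 1 := by
  classical
  have hN1 : Nat.card {t : (T : Subgroup G) // t ≠ 1} = Nat.card T - 1 := by
    haveI := Fintype.ofFinite (T : Subgroup G)
    rw [Nat.card_eq_fintype_card, Fintype.card_subtype_compl, Fintype.card_subtype_eq,
      Nat.card_eq_fintype_card]
  rw [← hN1]
  refine Nat.card_congr ⟨fun t => ⟨⟨t.1, inv_mem_of_normalizer T t.2.2 t.2.1⟩, fun he => ?_⟩,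
    fun t => ⟨t.1.1, h.orderOf t.1.2 (fun he => t.2 (Subtype.ext he)), Subgroup.le_normalizer t.1.2⟩,
    ?_, ?_⟩
  · have h1 : t.1 = 1 := congrArg Subtype.val he
    have h2 := t.2.1
    rw [h1] at h2
    simp at h2
  · intro t; rfl
  · intro t; rfl

lemma card_Dd' : Nat.card (Dd T u) = Nat.card T - 1 := by
  rw [card_Dd h hu huN, card_invs h hu huN]

lemma card_normalizer :
    Nat.card (normalizer ((T : Subgroup G) : Set G)) = Nat.card T * (Nat.card T - 1) := by
  have h1 := (complement h hu huN).card_mul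
  rw [CfsgLib.Solv.card_subgroupOf_of_le inf_le_left,
    CfsgLib.Solv.card_subgroupOf_of_le Subgroup.le_normalizer, card_Dd' h hu huN] at h1
  rw [← h1, mul_comm]

end Cards

section Points

variable (h : Hyp T)

/-- The base point. -/
abbrev base (T : Sylow 2 G) : G ⧸ normalizer ((T : Subgroup G) : Set G) := QuotientGroup.mk 1

include h

lemma three_lt : 3 ≤ Nat.card (T : Subgroup G) := by
  haveI : Fact (Nat.Prime 2) := ⟨Nat.prime_two⟩
  by_contra hlt
  have h1 : Nat.card (T : Subgroup G) ≠ 1 := by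
    intro h2
    exact h.ne_bot (Subgroup.eq_bot_of_card_eq _ h2)
  have h0 : Nat.card (T : Subgroup G) ≠ 0 := Nat.card_pos.ne'
  have h2 : Nat.card (T : Subgroup G) = 2 := by omega
  exact h.nc (isCyclic_of_prime_card h2)

/-- Every other point is moved to the base point by an involution. -/
lemma exists_swap {z : G ⧸ normalizer ((T : Subgroup G) : Set G)} (hz : z ≠ base T) :
    ∃ i : G, orderOf i = 2 ∧ i ∉ normalizer ((T : Subgroup G) : Set G) ∧ z = QuotientGroup.mk i := by
  have hcard := card_swap h.se (base T) z hz.symm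
  obtain ⟨t₀, ht₀, ht₀1⟩ := exists_ne_one h
  haveI hne : Nonempty {t : G // orderOf t = 2 ∧ t ∈ normalizer ((T : Subgroup G) : Set G)} :=
    ⟨⟨t₀, h.orderOf ht₀ ht₀1, Subgroup.le_normalizer ht₀⟩⟩
  have hpos : 0 < Nat.card {t : G // orderOf t = 2 ∧ t ∈ normalizer ((T : Subgroup G) : Set G)} :=
    Nat.card_pos
  rw [← hcard] at hpos
  obtain ⟨⟨i, hio, his⟩⟩ := (Nat.card_pos_iff.1 hpos).1
  have hiz : z = QuotientGroup.mk i := by
    rw [← his, MulAction.Quotient.smul_mk, smul_eq_mul, mul_one]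
  refine ⟨i, hio, ?_, hiz⟩
  intro hi
  apply hz
  rw [hiz]
  show (QuotientGroup.mk i : G ⧸ normalizer ((T : Subgroup G) : Set G)) = QuotientGroup.mk 1
  apply QuotientGroup.eq.2
  simpa using hi

variable {u : G} (hu : orderOf u = 2) (huN : u ∉ normalizer ((T : Subgroup G) : Set G))

include hu huN

lemma exists_ne_one_D : ∃ e ∈ Dd T u, e ≠ 1 := by
  have h1 := card_Dd' h hu huN
  have h2 := three_lt h
  have h3 : 1 < Nat.card (Dd T u) := by omega
  obtain ⟨e, he⟩ := (Subgroup.ne_bot_iff_exists_ne_one).1 ((Subgroup.one_lt_card_iff_ne_bot _).1 h3)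
  exact ⟨e, e.2, fun h4 => he (Subtype.ext h4)⟩

/-- `N_N(D) = D`. -/
lemma mem_of_normalizes {n : G} (hn : n ∈ normalizer ((T : Subgroup G) : Set G))
    (hnD : ∀ d ∈ Dd T u, n * d * n⁻¹ ∈ Dd T u) : n ∈ Dd T u := by
  obtain ⟨x, hx, y, hy, hxy⟩ : ∃ x ∈ Dd T u, ∃ y ∈ (T : Subgroup G), x * y = n := by
    have hc := complement h hu huN
    obtain ⟨⟨⟨a, ha⟩, ⟨b, hb⟩⟩, hab⟩ := hc.2 ⟨n, hn⟩
    have hab' : (a : normalizer ((T : Subgroup G) : Set G)) * b = ⟨n, hn⟩ := hab
    exact ⟨a, ha, b, hb, congrArg Subtype.val hab'⟩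
  obtain ⟨e, he, he1⟩ := exists_ne_one_D h hu huN
  have hxN : x ∈ normalizer ((T : Subgroup G) : Set G) := hx.1
  have hyD : ∀ d ∈ Dd T u, y * d * y⁻¹ ∈ Dd T u := by
    intro d hd
    have h1 := hnD d hd
    have h2 : y * d * y⁻¹ = x⁻¹ * (n * d * n⁻¹) * x := by
      rw [← hxy]; group
    rw [h2]
    exact mul_mem (mul_mem (inv_mem hx) h1) hx
  have he2 := hyD e he
  have hw : y * e * y⁻¹ * e⁻¹ ∈ (T : Subgroup G) := by
    have : y * e * y⁻¹ * e⁻¹ = y * (e * y⁻¹ * e⁻¹) := by group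
    rw [this]
    exact mul_mem hy (conj_mem_T h he.1 (inv_mem hy))
  have hw1 := eq_one_of_mem_inf h huN (mul_mem he2 (inv_mem he)) hw
  have hc : e * y = y * e := by
    have h3 : y * e * y⁻¹ = e := by
      rw [mul_inv_eq_one] at hw1
      exact hw1
    rw [mul_inv_eq_iff_eq_mul] at h3
    exact h3.symm
  have hy1 : y = 1 := by
    by_contra hne
    have h3 := h.cent_le hy hne hc
    exact he1 (eq_one_of_mem_inf h huN he h3)
  rw [← hxy, hy1, mul_one]
  exact hx

/-- Elements of odd order in the centralizer of a nontrivial odd element. -/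
lemma odd_of_comm {e c : G} (he : e ∈ Dd T u) (he1 : e ≠ 1) (hc : c * e = e * c) :
    Odd (orderOf c) := by
  by_contra hne
  rw [Nat.not_odd_iff_even] at hne
  obtain ⟨m, hm⟩ := hne
  have hpos : 0 < orderOf c := orderOf_pos c
  have hm0 : m ≠ 0 := by
    rintro rfl
    omega
  set w := c ^ m with hw
  have hwo : orderOf w = 2 := by
    have h2 : orderOf w = orderOf c / (orderOf c).gcd m := by rw [hw, orderOf_pow]
    rw [h2]
    have : (orderOf c).gcd m = m := Nat.gcd_eq_right ⟨2, by omega⟩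
    rw [this, hm]
    have : m + m = 2 * m := by ring
    rw [this]
    exact Nat.mul_div_cancel _ (Nat.pos_of_ne_zero hm0)
  have hcomm : Commute w e := (show Commute c e from hc).pow_left m
  have hmem : e ∈ centralizer ({w} : Set G) := by
    rw [Subgroup.mem_centralizer_singleton_iff]
    exact hcomm.eq.symm
  have he2 := (h.cent w hwo).2 e hmem
  have h1 : orderOf e ∣ Nat.card (Dd T u) := by
    have := orderOf_dvd_natCard (⟨e, he⟩ : Dd T u)
    rwa [Subgroup.orderOf_mk] at this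
  have h2 : orderOf e ∣ 2 := orderOf_dvd_of_pow_eq_one he2
  have h3 : Nat.Coprime (Nat.card (Dd T u)) 2 := Nat.coprime_two_right.2 (odd_Dd h huN)
  have h4 := Nat.eq_one_of_dvd_coprimes h3 h1 h2
  exact he1 (orderOf_eq_one_iff.1 h4)

/-- The coset of an involution whose `D` contains that of `u` is that of `u`. -/
lemma coset_eq {v : G} (hv : orderOf v = 2) (hvN : v ∉ normalizer ((T : Subgroup G) : Set G))
    (hle : Dd T u ≤ Dd T v) :
    (QuotientGroup.mk v : G ⧸ normalizer ((T : Subgroup G) : Set G)) = QuotientGroup.mk u := by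
  have hu2 : u * u = 1 := by rw [← pow_two, ← hu, pow_orderOf_eq_one]
  have huinv : u⁻¹ = u := inv_eq_of_mul_eq_one_left hu2
  have hv2 : v * v = 1 := by rw [← pow_two, ← hv, pow_orderOf_eq_one]
  have hvinv : v⁻¹ = v := inv_eq_of_mul_eq_one_left hv2
  set N := normalizer ((T : Subgroup G) : Set G) with hN
  have hDeq : Dd T u = Dd T v := Subgroup.eq_of_le_of_card_ge hle (by
    rw [card_Dd' h hu huN, card_Dd' h hv hvN])
  set c := u * v with hc
  have hcD : ∀ d ∈ Dd T u, c * d = d * c := by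
    intro d hd
    have h1 := inverted h hv hvN (hDeq ▸ hd)
    have h2 := inverted h hu huN (inv_mem hd)
    have h3 : c * d * c⁻¹ = d := by
      calc c * d * c⁻¹ = u * (v * d * v⁻¹) * u⁻¹ := by rw [hc]; group
        _ = u * d⁻¹ * u⁻¹ := by rw [h1]
        _ = d := by rw [h2, inv_inv]
    rw [mul_inv_eq_iff_eq_mul] at h3
    exact h3
  obtain ⟨e, he, he1⟩ := exists_ne_one_D h hu huN
  have hodd := odd_of_comm h hu huN he he1 (hcD e he)
  have hgoal : c ∈ N ∨ c = 1 := by
    by_cases hcN : c ∈ N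
    · exact Or.inl hcN
    right
    have hz : (QuotientGroup.mk c : G ⧸ N) ≠ base T := by
      intro he'
      apply hcN
      have := QuotientGroup.eq.1 he'
      simpa using this
    obtain ⟨i, hio, hiN, hiz⟩ := exists_swap h hz
    have hi2 : i * i = 1 := by rw [← pow_two, ← hio, pow_orderOf_eq_one]
    have hiinv : i⁻¹ = i := inv_eq_of_mul_eq_one_left hi2
    have hcfix : ∀ d ∈ Dd T u, i⁻¹ * d * i ∈ N := by
      intro d hd
      have h1 : d • (QuotientGroup.mk c : G ⧸ N) = QuotientGroup.mk c := by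
        rw [smul_mk_eq_iff]
        have h2 : c⁻¹ * d * c = d := by
          calc c⁻¹ * d * c = c⁻¹ * (d * c) := by group
            _ = c⁻¹ * (c * d) := by rw [hcD d hd]
            _ = d := by group
        rw [h2]
        exact hd.1
      rw [hiz, smul_mk_eq_iff] at h1
      exact h1
    have hle2 : Dd T u ≤ Dd T i := fun d hd => mem_Dd.2 ⟨hd.1, hcfix d hd⟩
    have hDeq2 : Dd T u = Dd T i := Subgroup.eq_of_le_of_card_ge hle2 (by
      rw [card_Dd' h hu huN, card_Dd' h hio hiN])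
    have hinvi : ∀ d ∈ Dd T u, i * d * i⁻¹ = d⁻¹ := fun d hd =>
      inverted h hio hiN (hDeq2 ▸ hd)
    set n := i⁻¹ * c with hn
    have hnN : n ∈ N := QuotientGroup.eq.1 hiz.symm
    have hnD : ∀ d ∈ Dd T u, n * d * n⁻¹ ∈ Dd T u := by
      intro d hd
      have h1 : n * d * n⁻¹ = d⁻¹ := by
        have h3 : c * d * c⁻¹ = d := by
          rw [hcD d hd]; group
        calc n * d * n⁻¹ = i⁻¹ * (c * d * c⁻¹) * i := by rw [hn]; group
          _ = i⁻¹ * d * i := by rw [h3]
          _ = i * d * i⁻¹ := by rw [hiinv]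
          _ = d⁻¹ := hinvi d hd
      rw [h1]
      exact inv_mem hd
    have hnmem := mem_of_normalizes h hu huN hnN hnD
    have hcc : c = i * n := by rw [hn]; group
    have hc2 : c ^ 2 = 1 := by
      have h1 := hinvi n hnmem
      rw [pow_two, hcc]
      calc i * n * (i * n) = (i * n * i⁻¹) * (i * i) * n := by group
        _ = n⁻¹ * 1 * n := by rw [h1, hi2]
        _ = 1 := by group
    have h4 : orderOf c ∣ 2 := orderOf_dvd_of_pow_eq_one hc2
    have h5 := Nat.eq_one_of_dvd_coprimes (Nat.coprime_two_right.2 hodd) dvd_rfl h4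
    exact orderOf_eq_one_iff.1 h5
  apply QuotientGroup.eq.2
  rcases hgoal with h1 | h1
  · have : v⁻¹ * u = c⁻¹ := by
      rw [hc, mul_inv_rev, hvinv, huinv]
    rw [this]
    exact inv_mem h1
  · have : v⁻¹ * u = c⁻¹ := by
      rw [hc, mul_inv_rev, hvinv, huinv]
    rw [this, h1, inv_one]
    exact one_mem _

/-- The fixed points of `D`. -/
lemma fixed_points (w : G ⧸ normalizer ((T : Subgroup G) : Set G))
    (hw : ∀ d ∈ Dd T u, d • w = w) : w = base T ∨ w = QuotientGroup.mk u := by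
  by_cases hb : w = base T
  · exact Or.inl hb
  right
  obtain ⟨v, hvo, hvN, hvw⟩ := exists_swap h hb
  rw [hvw]
  apply coset_eq h hu huN hvo hvN
  intro d hd
  refine mem_Dd.2 ⟨hd.1, ?_⟩
  have := hw d hd
  rw [hvw, smul_mk_eq_iff] at this
  exact this

lemma inv_mem_Dd_fix {d : G} (hd : d ∈ Dd T u) : d • base T = base T ∧
    d • (QuotientGroup.mk u : G ⧸ normalizer ((T : Subgroup G) : Set G)) = QuotientGroup.mk u := by
  constructor
  · rw [smul_mk_eq_iff]
    simpa using hd.1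
  · rw [smul_mk_eq_iff]
    exact (mem_Dd.1 hd).2

/-- S1228, first part. -/
lemma normalizer_Dd : normalizer ((Dd T u : Subgroup G) : Set G) = Dd T u ⊔ zpowers u := by
  have hu2 : u * u = 1 := by rw [← pow_two, ← hu, pow_orderOf_eq_one]
  have huinv : u⁻¹ = u := inv_eq_of_mul_eq_one_left hu2
  apply le_antisymm
  · intro g hg
    have hfix : ∀ d ∈ Dd T u, d • (QuotientGroup.mk g : G ⧸ normalizer ((T : Subgroup G) : Set G)) =
        QuotientGroup.mk g := by
      intro d hd
      rw [smul_mk_eq_iff]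
      have h1 : g⁻¹ * d * (g⁻¹)⁻¹ ∈ Dd T u := (Subgroup.mem_normalizer_iff.1 (inv_mem hg) d).1 hd
      rw [inv_inv] at h1
      exact h1.1
    have hgn : ∀ d ∈ Dd T u, g * d * g⁻¹ ∈ Dd T u := fun d hd =>
      (Subgroup.mem_normalizer_iff.1 hg d).1 hd
    rcases fixed_points h hu huN _ hfix with h1 | h1
    · have h2 : g ∈ normalizer ((T : Subgroup G) : Set G) := by
        have := QuotientGroup.eq.1 h1.symm
        simpa using this
      exact mem_sup_left (mem_of_normalizes h hu huN h2 hgn)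
    · have h2 : u⁻¹ * g ∈ normalizer ((T : Subgroup G) : Set G) := QuotientGroup.eq.1 h1.symm
      have h3 : ∀ d ∈ Dd T u, (u⁻¹ * g) * d * (u⁻¹ * g)⁻¹ ∈ Dd T u := by
        intro d hd
        have h4 : (u⁻¹ * g) * d * (u⁻¹ * g)⁻¹ = u * (g * d * g⁻¹) * u⁻¹ := by
          calc (u⁻¹ * g) * d * (u⁻¹ * g)⁻¹ = u⁻¹ * (g * d * g⁻¹) * u := by group
            _ = u * (g * d * g⁻¹) * u⁻¹ := by rw [huinv]
        rw [h4, inverted h hu huN (hgn d hd)]
        exact inv_mem (hgn d hd)
      have h5 := mem_of_normalizes h hu huN h2 h3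
      have h6 : g = u * (u⁻¹ * g) := by group
      rw [h6]
      exact mul_mem (mem_sup_right (mem_zpowers u)) (mem_sup_left h5)
  · apply sup_le Subgroup.le_normalizer
    rw [zpowers_le]
    apply CfsgLib.CT.mem_normalizer_of_conj_le
    intro d hd
    rw [inverted h hu huN hd]
    exact inv_mem hd

/-- `T` moves points. -/
lemma exists_conj_T {v : G} (hv : orderOf v = 2) (hvN : v ∉ normalizer ((T : Subgroup G) : Set G)) :
    ∃ t ∈ (T : Subgroup G), MulAut.conj t • Dd T u = Dd T v ∧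
      t • (QuotientGroup.mk u : G ⧸ normalizer ((T : Subgroup G) : Set G)) = QuotientGroup.mk v := by
  haveI : Fact (Nat.Prime 2) := ⟨Nat.prime_two⟩
  set N := normalizer ((T : Subgroup G) : Set G) with hN
  have hrel : (T : Subgroup G).relIndex N = Nat.card T - 1 := by
    have h1 := Subgroup.card_mul_index ((T : Subgroup G).subgroupOf N)
    rw [CfsgLib.Solv.card_subgroupOf_of_le Subgroup.le_normalizer, card_normalizer h hu huN] at h1
    exact Nat.eq_of_mul_eq_mul_left Nat.card_pos h1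
  have hcop : (Nat.card T).Coprime ((T : Subgroup G).relIndex N) := by
    rw [hrel]
    obtain ⟨k, hk⟩ := IsPGroup.iff_card.1 T.2
    have hk0 : k ≠ 0 := by
      rintro rfl
      have := three_lt h
      rw [hk] at this
      norm_num at this
    have h2 : Nat.card T = Nat.card (T : Subgroup G) := rfl
    rw [h2, hk]
    apply Nat.Coprime.pow_left
    rw [Nat.coprime_two_left]
    have : Even (2 ^ k) := (Nat.even_pow' hk0).2 even_two
    exact Nat.Even.sub_odd (Nat.one_le_two_pow) this odd_one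
  haveI hnil := T.2.isNilpotent
  obtain ⟨t, ht, hte⟩ := CfsgLib.Solv.sz_conj_in (T : Subgroup G) N (Dd T u) (Dd T v)
    Subgroup.le_normalizer le_rfl hcop inf_le_left inf_le_left
    (by rw [hrel, card_Dd' h hu huN]) (by rw [hrel, card_Dd' h hv hvN]) (Or.inl inferInstance)
  refine ⟨t, ht, hte, ?_⟩
  have hfix : ∀ d ∈ Dd T v, d • (t • (QuotientGroup.mk u : G ⧸ N)) = t • (QuotientGroup.mk u : G ⧸ N) := by
    intro d hd
    rw [← hte] at hd
    obtain ⟨e, he, rfl⟩ := hd
    have h1 := (inv_mem_Dd_fix h hu huN he).2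
    have h2 : (MulAut.conj t e) = t * e * t⁻¹ := rfl
    show (MulAut.conj t e) • (t • (QuotientGroup.mk u : G ⧸ N)) = _
    rw [h2, mul_smul, mul_smul, inv_smul_smul, h1]
  rcases fixed_points h hv hvN _ hfix with h1 | h1
  · exfalso
    apply huN
    have h2 : t ∈ N := Subgroup.le_normalizer ht
    have h3 : (QuotientGroup.mk u : G ⧸ N) = t⁻¹ • base T := by
      rw [← h1, inv_smul_smul]
    have h4 : t⁻¹ • base T = base T := by
      rw [smul_mk_eq_iff]
      have e : (1 : G)⁻¹ * t⁻¹ * 1 = t⁻¹ := by group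
      rw [e]
      exact inv_mem h2
    rw [h4] at h3
    have h5 : (1 : G)⁻¹ * u ∈ N := QuotientGroup.eq.1 h3.symm
    have e : (1 : G)⁻¹ * u = u := by group
    rwa [e] at h5
  · exact h1

/-- An element fixing three normalized points is trivial. -/
lemma eq_one_of_fix {d : G} (hd : d ∈ Dd T u) {w : G ⧸ normalizer ((T : Subgroup G) : Set G)}
    (hw : d • w = w) (hw0 : w ≠ base T) (hwu : w ≠ QuotientGroup.mk u) : d = 1 := by
  obtain ⟨v, hvo, hvN, hvw⟩ := exists_swap h hw0
  obtain ⟨t, ht, hte, htm⟩ := exists_conj_T h hu huN hvo hvN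
  have hdv : d ∈ Dd T v := by
    refine mem_Dd.2 ⟨hd.1, ?_⟩
    rw [hvw, smul_mk_eq_iff] at hw
    exact hw
  rw [← hte] at hdv
  obtain ⟨e, he, hed⟩ := hdv
  have hed' : t * e * t⁻¹ = d := hed
  have ht1 : t ≠ 1 := by
    rintro rfl
    rw [one_smul] at htm
    exact hwu (by rw [hvw, htm])
  -- `e = d`
  have hmem : t⁻¹ * d * t * d⁻¹ ∈ (T : Subgroup G) := by
    have : t⁻¹ * d * t * d⁻¹ = t⁻¹ * (d * t * d⁻¹) := by group
    rw [this]
    exact mul_mem (inv_mem ht) (conj_mem_T h hd.1 ht)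
  have hmem2 : t⁻¹ * d * t * d⁻¹ ∈ Dd T u := by
    have : t⁻¹ * d * t = e := by rw [← hed']; group
    rw [this]
    exact mul_mem he (inv_mem hd)
  have h1 := eq_one_of_mem_inf h huN hmem2 hmem
  have hc : d * t = t * d := by
    rw [mul_inv_eq_one] at h1
    have h5 : t⁻¹ * (d * t) = d := by rw [← mul_assoc]; exact h1
    exact inv_mul_eq_iff_eq_mul.1 h5
  have h2 := h.cent_le ht ht1 hc
  exact eq_one_of_mem_inf h huN hd h2

omit hu huN in
/-- Semiregularity of `T` away from the base point. -/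
lemma T_free {t t' : G} (ht : t ∈ (T : Subgroup G)) (ht' : t' ∈ (T : Subgroup G))
    {x : G ⧸ normalizer ((T : Subgroup G) : Set G)} (hx : x ≠ base T) (he : t • x = t' • x) : t = t' := by
  by_contra hne
  have h1 : t⁻¹ * t' ≠ 1 := by
    intro h2
    apply hne
    rw [inv_mul_eq_one] at h2
    exact h2
  have hm : t⁻¹ * t' ∈ (T : Subgroup G) := mul_mem (inv_mem ht) ht'
  have ho := h.orderOf hm h1
  have h3 : (t⁻¹ * t') • x = x := by
    rw [mul_smul, ← he, inv_smul_smul]
  have h4 : (t⁻¹ * t') • base T = base T := by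
    rw [smul_mk_eq_iff]
    simpa using Subgroup.le_normalizer hm
  exact hx (fixed_unique h.se ho h3 h4)

end Points

section Main

variable (h : Hyp T)

include h

lemma card_ne_one : Nat.card {t : (T : Subgroup G) // t ≠ 1} = Nat.card T - 1 := by
  classical
  haveI := Fintype.ofFinite (T : Subgroup G)
  rw [Nat.card_eq_fintype_card, Fintype.card_subtype_compl, Fintype.card_subtype_eq,
    Nat.card_eq_fintype_card]

/-- `T` is transitive off the base point. -/
lemma trans_T {x y : G ⧸ normalizer ((T : Subgroup G) : Set G)} (hx : x ≠ base T) (hy : y ≠ base T) :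
    ∃ t ∈ (T : Subgroup G), t • x = y := by
  obtain ⟨a, hao, haN, hax⟩ := exists_swap h hx
  obtain ⟨b, hbo, hbN, hby⟩ := exists_swap h hy
  obtain ⟨t, ht, -, hte⟩ := exists_conj_T h hao haN hbo hbN
  exact ⟨t, ht, by rw [hax, hby, hte]⟩

lemma T_fix_base {t : G} (ht : t ∈ (T : Subgroup G)) : t • base T = base T := by
  rw [smul_mk_eq_iff]
  simpa using Subgroup.le_normalizer ht

theorem regular_T (x y : G ⧸ normalizer ((T : Subgroup G) : Set G)) (hx : x ≠ QuotientGroup.mk 1)
    (hy : y ≠ QuotientGroup.mk 1) : ∃! t : G, t ∈ (T : Subgroup G) ∧ t • x = y := by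
  obtain ⟨t, ht, hte⟩ := trans_T h hx hy
  refine ⟨t, ⟨ht, hte⟩, ?_⟩
  rintro t' ⟨ht', hte'⟩
  exact T_free h ht' ht hx (by rw [hte, hte'])

theorem exists_inv_not_mem : ∃ u : G, orderOf u = 2 ∧ u ∉ normalizer ((T : Subgroup G) : Set G) := by
  obtain ⟨g, hg⟩ : ∃ g, g ∉ normalizer ((T : Subgroup G) : Set G) := by
    by_contra hcon
    push Not at hcon
    apply h.nn
    apply Subgroup.normalizer_eq_top_iff.1
    exact eq_top_iff.2 (fun x _ => hcon x)
  have hz : (QuotientGroup.mk g : G ⧸ normalizer ((T : Subgroup G) : Set G)) ≠ base T := by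
    intro he
    apply hg
    have := QuotientGroup.eq.1 he.symm
    simpa using this
  obtain ⟨u, huo, huN, -⟩ := exists_swap h hz
  exact ⟨u, huo, huN⟩

/-- Two points can be normalized. -/
lemma normalize_two {u : G} (hu : orderOf u = 2) (huN : u ∉ normalizer ((T : Subgroup G) : Set G))
    {x₁ x₂ : G ⧸ normalizer ((T : Subgroup G) : Set G)} (h12 : x₁ ≠ x₂) :
    ∃ a : G, a • x₁ = base T ∧ a • x₂ = QuotientGroup.mk u := by
  have hub : (QuotientGroup.mk u : G ⧸ normalizer ((T : Subgroup G) : Set G)) ≠ base T := by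
    intro he
    apply huN
    have := QuotientGroup.eq.1 he.symm
    simpa using this
  obtain ⟨g, rfl⟩ := QuotientGroup.mk_surjective x₁
  have h1 : g⁻¹ • (QuotientGroup.mk g : G ⧸ normalizer ((T : Subgroup G) : Set G)) = base T := by
    rw [MulAction.Quotient.smul_mk, smul_eq_mul, inv_mul_cancel]
  have h2 : g⁻¹ • x₂ ≠ base T := by
    intro he
    apply h12
    have : g⁻¹ • x₂ = g⁻¹ • (QuotientGroup.mk g : G ⧸ normalizer ((T : Subgroup G) : Set G)) := by
      rw [he, h1]
    exact (smul_left_cancel (g⁻¹) this).symm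
  obtain ⟨t, ht, hte⟩ := trans_T h h2 hub
  refine ⟨t * g⁻¹, ?_, ?_⟩
  · rw [mul_smul, h1, T_fix_base h ht]
  · rw [mul_smul, hte]

theorem three_fix_trivial (g : G) (x₁ x₂ x₃ : G ⧸ normalizer ((T : Subgroup G) : Set G))
    (h12 : x₁ ≠ x₂) (h13 : x₁ ≠ x₃) (h23 : x₂ ≠ x₃) (h1 : g • x₁ = x₁) (h2 : g • x₂ = x₂)
    (h3 : g • x₃ = x₃) : g = 1 := by
  obtain ⟨u, hu, huN⟩ := exists_inv_not_mem h
  obtain ⟨a, ha1, ha2⟩ := normalize_two h hu huN h12
  set g' : G := a * g * a⁻¹ with hg'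
  have hfix : ∀ x : G ⧸ normalizer ((T : Subgroup G) : Set G), g • x = x → g' • (a • x) = a • x := by
    intro x hx
    rw [hg', mul_smul, mul_smul, inv_smul_smul, hx]
  have hb := hfix x₁ h1
  have hy := hfix x₂ h2
  have hw := hfix x₃ h3
  rw [ha1] at hb
  rw [ha2] at hy
  have hmem : g' ∈ Dd T u := by
    refine mem_Dd.2 ⟨?_, (smul_mk_eq_iff g' u u).1 hy⟩
    have := (smul_mk_eq_iff g' 1 1).1 hb
    simpa using this
  have hw0 : a • x₃ ≠ base T := by
    intro he
    apply h13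
    rw [← ha1] at he
    exact (smul_left_cancel _ he).symm
  have hwu : a • x₃ ≠ QuotientGroup.mk u := by
    intro he
    apply h23
    rw [← ha2] at he
    exact (smul_left_cancel _ he).symm
  have h4 := eq_one_of_fix h hu huN hmem hw hw0 hwu
  have h5 : g = a⁻¹ * g' * a := by rw [hg']; group
  rw [h5, h4]
  group

/-- `D` is transitive on the remaining points. -/
lemma trans_D {u : G} (hu : orderOf u = 2) (huN : u ∉ normalizer ((T : Subgroup G) : Set G))
    {p w : G ⧸ normalizer ((T : Subgroup G) : Set G)} (hp0 : p ≠ base T) (hpu : p ≠ QuotientGroup.mk u)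
    (hw0 : w ≠ base T) (hwu : w ≠ QuotientGroup.mk u) : ∃ d ∈ Dd T u, d • p = w := by
  classical
  set y₀ : G ⧸ normalizer ((T : Subgroup G) : Set G) := QuotientGroup.mk u with hy₀
  have hyb : y₀ ≠ base T := by
    intro he
    apply huN
    have := QuotientGroup.eq.1 he.symm
    simpa using this
  let Y := {z : G ⧸ normalizer ((T : Subgroup G) : Set G) // z ≠ base T ∧ z ≠ y₀}
  have hD1 : ∀ (d : Dd T u) (z : G ⧸ normalizer ((T : Subgroup G) : Set G)), z ≠ base T → z ≠ y₀ →
      (d : G) • z ≠ base T ∧ (d : G) • z ≠ y₀ := by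
    intro d z hz1 hz2
    obtain ⟨h1, h2⟩ := inv_mem_Dd_fix h hu huN d.2
    have h2' : (d : G) • y₀ = y₀ := h2
    constructor
    · intro he
      rw [← h1] at he
      exact hz1 (smul_left_cancel _ he)
    · intro he
      rw [← h2'] at he
      exact hz2 (smul_left_cancel _ he)
  let f : Dd T u → Y := fun d => ⟨(d : G) • p, hD1 d p hp0 hpu⟩
  have hfinj : Function.Injective f := by
    intro d d' he
    have he' : (d : G) • p = (d' : G) • p := congrArg Subtype.val he
    have h1 : ((d' : G)⁻¹ * d) • p = p := by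
      rw [mul_smul, he', inv_smul_smul]
    have h2 := eq_one_of_fix h hu huN (mul_mem (inv_mem d'.2) d.2) h1 hp0 hpu
    apply Subtype.ext
    rw [inv_mul_eq_one] at h2
    exact h2.symm
  have hcardY : Nat.card Y = Nat.card T - 1 := by
    rw [← card_ne_one h]
    refine (Nat.card_congr (Equiv.ofBijective
      (fun t : {t : (T : Subgroup G) // t ≠ 1} => (⟨((t.1 : (T : Subgroup G)) : G) • y₀, ?_, ?_⟩ : Y)) ⟨?_, ?_⟩)).symm
    · intro he
      apply hyb
      rw [← T_fix_base h t.1.2] at he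
      exact smul_left_cancel _ he
    · intro he
      apply t.2
      apply Subtype.ext
      exact T_free h t.1.2 (one_mem _) hyb (by rw [he]; exact (one_smul G y₀).symm)
    · intro t t' he
      apply Subtype.ext
      apply Subtype.ext
      have he' : ((t.1 : (T : Subgroup G)) : G) • y₀ = ((t'.1 : (T : Subgroup G)) : G) • y₀ :=
        congrArg Subtype.val he
      exact T_free h t.1.2 t'.1.2 hyb he'
    · rintro ⟨z, hz0, hz1⟩
      obtain ⟨t, ht, hte⟩ := trans_T h hyb hz0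
      refine ⟨⟨⟨t, ht⟩, ?_⟩, Subtype.ext hte⟩
      intro he
      have : t = 1 := congrArg Subtype.val he
      rw [this, one_smul] at hte
      exact hz1 hte.symm
  have hbij := (Nat.bijective_iff_injective_and_card f).2 ⟨hfinj, by
    rw [hcardY, card_Dd' h hu huN]⟩
  obtain ⟨d, hd⟩ := hbij.2 ⟨w, hw0, hwu⟩
  exact ⟨d, d.2, congrArg Subtype.val hd⟩

theorem triply_transitive (x₁ x₂ x₃ y₁ y₂ y₃ : G ⧸ normalizer ((T : Subgroup G) : Set G))
    (h12 : x₁ ≠ x₂) (h13 : x₁ ≠ x₃) (h23 : x₂ ≠ x₃) (k12 : y₁ ≠ y₂) (k13 : y₁ ≠ y₃) (k23 : y₂ ≠ y₃) :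
    ∃ g : G, g • x₁ = y₁ ∧ g • x₂ = y₂ ∧ g • x₃ = y₃ := by
  obtain ⟨u, hu, huN⟩ := exists_inv_not_mem h
  have hyb : (QuotientGroup.mk u : G ⧸ normalizer ((T : Subgroup G) : Set G)) ≠ base T := by
    intro he
    apply huN
    have := QuotientGroup.eq.1 he.symm
    simpa using this
  -- a normal form
  obtain ⟨t₁, ht₁, ht₁1⟩ := exists_ne_one h
  set p : G ⧸ normalizer ((T : Subgroup G) : Set G) := t₁ • QuotientGroup.mk u with hp
  have hp0 : p ≠ base T := by
    intro he
    apply hyb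
    rw [hp, ← T_fix_base h ht₁] at he
    exact smul_left_cancel _ he
  have hpu : p ≠ QuotientGroup.mk u := by
    intro he
    apply ht₁1
    exact T_free h ht₁ (one_mem _) hyb (by rw [one_smul]; exact he)
  have hnorm : ∀ a₁ a₂ a₃ : G ⧸ normalizer ((T : Subgroup G) : Set G), a₁ ≠ a₂ → a₁ ≠ a₃ → a₂ ≠ a₃ →
      ∃ g : G, g • a₁ = base T ∧ g • a₂ = QuotientGroup.mk u ∧ g • a₃ = p := by
    intro a₁ a₂ a₃ h12 h13 h23
    obtain ⟨a, ha1, ha2⟩ := normalize_two h hu huN h12
    have hw0 : a • a₃ ≠ base T := by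
      intro he
      apply h13
      rw [← ha1] at he
      exact (smul_left_cancel _ he).symm
    have hwu : a • a₃ ≠ QuotientGroup.mk u := by
      intro he
      apply h23
      rw [← ha2] at he
      exact (smul_left_cancel _ he).symm
    obtain ⟨d, hd, hde⟩ := trans_D h hu huN hw0 hwu hp0 hpu
    obtain ⟨f1, f2⟩ := inv_mem_Dd_fix h hu huN hd
    refine ⟨d * a, ?_, ?_, ?_⟩
    · rw [mul_smul, ha1, f1]
    · rw [mul_smul, ha2, f2]
    · rw [mul_smul, hde]
  obtain ⟨g, g1, g2, g3⟩ := hnorm x₁ x₂ x₃ h12 h13 h23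
  obtain ⟨k, k1, k2, k3⟩ := hnorm y₁ y₂ y₃ k12 k13 k23
  refine ⟨k⁻¹ * g, ?_, ?_, ?_⟩
  · rw [mul_smul, g1, ← k1, inv_smul_smul]
  · rw [mul_smul, g2, ← k2, inv_smul_smul]
  · rw [mul_smul, g3, ← k3, inv_smul_smul]

end Main

end CfsgLib.Zass
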